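import Cfsg.Agent.Lib.Uniq.Unique
import Cfsg.Agent.Lib.Components.MaxLocal
import Cfsg.Agent.Lib.GenStruct.Subnormalizer
set_option autoImplicit false

/-! The Fitting subgroup of a maximal subgroup and uniqueness (BG 8.1). -/

namespace Cfsg.Agent.Lib.Uniq

open Subgroup
open scoped Pointwise commutatorElement
open Cfsg.Agent.Lib.OddLocal
open Cfsg.Agent.Lib.Components.MaxLocal (locCore locCore_le le_normalizer_locCore locCore_isPGroup)

variable {G : Type*} [Group G] [Finite G] {p : ℕ} [hp : Fact p.Prime] {M : Subgroup G}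

omit [Finite G] hp in
lemma fittingOf_le (M : Subgroup G) : fittingOf M ≤ M := map_subtype_le _

omit hp in
lemma le_normalizer_fittingOf (M : Subgroup G) : M ≤ normalizer (fittingOf M : Set G) :=
  Components.MaxLocal.le_normalizer_map_subtype _

omit hp in
lemma fittingOf_nilpotent (M : Subgroup G) : Group.IsNilpotent (fittingOf M) := by
  haveI := Hall.fittingSubgroup_isNilpotent (G := M)
  exact Group.nilpotent_of_mulEquiv (equivMapOfInjective _ _ M.subtype_injective)

omit hp in
lemma locCore_le_fittingOf (t : ℕ) (ht : t.Prime) : locCore t M ≤ fittingOf M :=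
  haveI := Fact.mk ht
  map_mono (Hall.pCore_le_fittingSubgroup t)

omit hp in
lemma fittingOf_le_of_locCore {X : Subgroup G} (h : ∀ t : ℕ, t.Prime → locCore t M ≤ X) :
    fittingOf M ≤ X := by
  rw [fittingOf, Components.MaxLocal.fitting_map_eq]
  exact iSup_le fun t => h t t.2

lemma le_locCore {E : Subgroup G} (hE : IsPGroup p E) (h : E ≤ fittingOf M) : E ≤ locCore p M := by
  set F := fittingSubgroup M
  haveI hF := Hall.fittingSubgroup_isNilpotent (G := M)
  have hEM : E ≤ M := h.trans (fittingOf_le M)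
  have hEF : E.subgroupOf M ≤ F := by
    intro x hx
    obtain ⟨y, hy, he⟩ := h (mem_subgroupOf.mp hx)
    exact Subtype.ext he ▸ hy
  let E' := (E.subgroupOf M).subgroupOf F
  obtain ⟨T, hT⟩ := ((hE.of_equiv (subgroupOfEquivOfLe hEM).symm).of_equiv
    (subgroupOfEquivOfLe hEF).symm : IsPGroup p E').exists_le_sylow
  haveI : (T : Subgroup F).Characteristic := T.characteristic_of_normal inferInstance
  haveI : ((T : Subgroup F).map F.subtype).Normal := ConjAct.normal_of_characteristic_of_normal
  rw [← map_subgroupOf_eq_of_le hEM, ← map_subgroupOf_eq_of_le hEF, locCore]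
  exact map_mono ((map_mono hT).trans (Hall.le_pCore (T.2.map F.subtype)))

omit hp in
lemma commute_parts {t s : ℕ} (ht : t.Prime) (hs : s.Prime) (hts : t ≠ s) :
    locCore t M ≤ centralizer (locCore s M : Set G) := by
  haveI := Fact.mk ht
  haveI := Fact.mk hs
  rintro _ ⟨x, hx, rfl⟩
  rw [mem_centralizer_iff]
  rintro _ ⟨y, hy, rfl⟩
  exact congrArg M.subtype (Hall.commute_pCore hts.symm hy hx).eq

omit hp in
lemma centralizer_fittingOf_inf_le (hG : IsMinSimpleOddOrder G) (hM : M ≠ ⊤) :
    M ⊓ centralizer (fittingOf M : Set G) ≤ fittingOf M := by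
  haveI := solvable_of_ne_top hG hM
  rintro x ⟨hxM, hx⟩
  refine ⟨⟨x, hxM⟩, Hall.centralizer_fittingSubgroup_le (mem_centralizer_iff.mpr fun y hy => ?_), rfl⟩
  exact Subtype.ext (mem_centralizer_iff.mp hx y (mem_map_of_mem _ hy))

omit hp in
lemma locCore_ne_bot_of_dvd {t : ℕ} (ht : t.Prime) (h : t ∣ Nat.card (fittingOf M)) :
    locCore t M ≠ ⊥ := by
  haveI := Fact.mk ht
  obtain ⟨g, hg⟩ := exists_prime_orderOf_dvd_card' t h
  intro hb
  have hE : IsPGroup t ↥((zpowers g).map (fittingOf M).subtype) :=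
    (IsPGroup.of_card (n := 1) (by rw [Nat.card_zpowers, hg, pow_one])).map _
  have hle := le_locCore hE (map_subtype_le _)
  rw [hb, le_bot_iff, Subgroup.map_eq_bot_iff, ker_subtype, le_bot_iff, zpowers_eq_bot] at hle
  rw [hle, orderOf_one] at hg
  exact ht.one_lt.ne hg

omit hp in
lemma dvd_card_of_locCore {t : ℕ} (ht : t.Prime) (h : locCore t M ≠ ⊥) :
    t ∣ Nat.card (fittingOf M) := by
  haveI := Fact.mk ht
  obtain ⟨k, hk⟩ := IsPGroup.iff_card.mp (locCore_isPGroup t M)
  refine dvd_trans ?_ (card_dvd_of_le (locCore_le_fittingOf (M := M) t ht))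
  exact hk ▸ dvd_pow_self t fun h0 => h (card_eq_one.mp (by rw [hk, h0, pow_zero]))

omit hp in
/-- If `A` is subnormal in the normal subgroup `F` of the maximal subgroup `M`, with the same primes,
every `A`-invariant `q`-subgroup, `q` prime to `A`, is trivial. -/
theorem invariant_eq_bot (hG : IsMinSimpleOddOrder G) (hM : IsCoatom M) {A F : Subgroup G}
    (hA : TransitivityHypothesis A) (hr : ¬ RankLE 2 ↥(A ⊓ centralizer (A : Set G)))
    (hAF : A ≤ F) (hFM : F ≤ M) (hFn : M ≤ normalizer (F : Set G))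
    (hsn : (A.subgroupOf F).IsSubnormal)
    (hπ : ∀ r : ℕ, r.Prime → r ∣ Nat.card F → r ∣ Nat.card A)
    (hC : M ⊓ centralizer (F : Set G) ≤ F)
    {q : ℕ} [hq : Fact q.Prime] (hqA : ¬ q ∣ Nat.card A) {Q : Subgroup G} (hQ : IsPGroup q Q)
    (hAQ : A ≤ normalizer (Q : Set G)) : Q = ⊥ := by
  have hF1 : F ≠ ⊥ := fun h => hA.1 (le_bot_iff.mp (h ▸ hAF))
  have hNF := normalizer_max hG hM hF1 hFM hFn
  have hCF : centralizer (F : Set G) ≤ M := hNF ▸ centralizer_le_normalizer _
  set π := primesNotDvd (Nat.card A)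
  have hdisj : ∀ Y : Subgroup G, (∀ r : ℕ, r.Prime → r ∣ Nat.card Y → r ∈ π) → Y ≤ M →
      Y ≤ centralizer (F : Set G) → Y = ⊥ := fun Y hY hYM hYF => by
    refine card_eq_one.mp (Nat.eq_one_iff_not_exists_prime_dvd.mpr fun r hr hd => ?_)
    exact (hY r hr hd).2 (hπ r hr (hd.trans (card_dvd_of_le ((le_inf hYM hYF).trans hC))))
  have hO : piCoreOf π (centralizer (F : Set G)) = ⊥ :=
    hdisj _ (piCoreOf_isPi π _) ((piCoreOf_le π _).trans hCF) (piCoreOf_le π _)
  have htr : ∀ Q₁ ∈ maxInvSubgroups ⊤ A {q}, ∀ Q₂ ∈ maxInvSubgroups ⊤ A {q},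
      ∃ k ∈ piCoreOf π (centralizer (A : Set G)), MulAut.conj k • Q₁ = Q₂ :=
    fun Q₁ h₁ Q₂ h₂ => transitivity_rank_three hG hA hqA hr h₁ h₂
  have hgood := transGood_of_subnormal hG hA hqA hπ hAF hsn htr
  obtain ⟨Q₀, hQ₀, hFQ₀⟩ := hgood.1
  have hQ₀F : Q₀ ∈ maxInvSubgroups ⊤ F {q} :=
    ⟨⟨le_top, hQ₀.1.2.1, hFQ₀⟩, fun R hR hle => hQ₀.2 R ⟨le_top, hR.2.1, hAF.trans hR.2.2⟩ hle⟩
  have hMQ : M ≤ normalizer (Q₀ : Set G) := by
    intro m hm
    have hm' := maxInvSubgroups_conj hQ₀F (hFn hm)
    obtain ⟨k, hk, hkQ⟩ := hgood.2 Q₀ hQ₀ _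
      (maxInvSubgroups_subset hG hA hqA hπ hAF hgood hm') hFQ₀ hm'.1.2.2
    rw [hO, mem_bot] at hk
    rw [hk, map_one, one_smul] at hkQ
    exact Coprime.mem_normalizer_of_conj_smul_eq hkQ.symm
  have hQ₀1 : Q₀ = ⊥ := by
    by_contra h
    have hp' : IsPGroup q Q₀ := isPGroup_of_invSubgroup hQ₀.1
    have heq := (hM.le_iff.mp hMQ).resolve_left
      (minSimple_normalizer_ne_top hG h (pgroup_ne_top hG hp'))
    have hQM : Q₀ ≤ M := le_normalizer.trans heq.le
    refine h (hdisj Q₀ (fun r hr hd => ?_) hQM ?_)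
    · obtain rfl : r = q := hQ₀.1.2.1 r hr hd
      exact ⟨hr, hqA⟩
    · rw [← commutator_eq_bot_iff_le_centralizer]
      refine le_bot_iff.mp ?_
      have hd : Q₀ ⊓ F = ⊥ := by
        refine card_eq_one.mp (Nat.eq_one_iff_not_exists_prime_dvd.mpr fun r hr hd => ?_)
        obtain rfl : r = q := hQ₀.1.2.1 r hr (hd.trans (card_dvd_of_le inf_le_left))
        exact hqA (hπ r hr (hd.trans (card_dvd_of_le inf_le_right)))
      rw [← hd]
      refine le_inf (Coprime.commutator_le_of_le_normalizer' hFQ₀) ?_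
      rw [commutator_comm]
      exact Coprime.commutator_le_of_le_normalizer' (hQM.trans hFn)
  subst hQ₀1
  exact hQ₀.2 Q ⟨le_top, fun r hr hd => by
    obtain ⟨k, hk⟩ := IsPGroup.iff_card.mp hQ
    exact (Nat.prime_dvd_prime_iff_eq hr hq.out).mp (hr.dvd_of_dvd_pow (hk ▸ hd)), hAQ⟩ bot_le

/-- BG 8.1 when the Fitting subgroup is not a `p`-group. -/
theorem unique_of_fitting (hG : IsMinSimpleOddOrder G) (hM : IsCoatom M) {A₀ : Subgroup G}
    (hA₀ : A₀ ≤ fittingOf M) (hA₀e : IsElementaryAbelian p A₀) (hA₀3 : p ^ 3 ≤ Nat.card A₀)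
    (hnp : ¬ IsPGroup p ↥(fittingOf M)) :
    InUniqueMaximal (fittingOf M ⊓ centralizer (A₀ : Set G)) := by
  set F := fittingOf M with hFdef
  set A := F ⊓ centralizer (A₀ : Set G) with hAdef
  haveI hMs := solvable_of_ne_top hG hM.1
  have hAF : A ≤ F := inf_le_left
  have hAM : A ≤ M := hAF.trans (fittingOf_le M)
  have hA₀A : A₀ ≤ A := le_inf hA₀ (comm_le_centralizer hA₀e.1)
  have hA₀p : A₀ ≤ locCore p M := le_locCore (elem_isPGroup hA₀e) hA₀
  have hpF : p ∣ Nat.card F := by
    obtain ⟨k, hk⟩ := IsPGroup.iff_card.mp (elem_isPGroup hA₀e)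
    refine dvd_trans ?_ (card_dvd_of_le hA₀)
    refine hk ▸ dvd_pow_self p fun h0 => ?_
    rw [hk, h0, pow_zero] at hA₀3
    exact absurd hA₀3 (not_le.mpr (Nat.one_lt_pow (by norm_num) hp.out.one_lt))
  have hother : ∀ t : ℕ, t.Prime → t ≠ p → locCore t M ≤ A := fun t ht htp =>
    le_inf (locCore_le_fittingOf t ht) ((commute_parts ht hp.out htp).trans (centralizer_le hA₀p))
  have hπ : ∀ r : ℕ, r.Prime → r ∣ Nat.card F → r ∣ Nat.card A := fun r hr hd => by
    haveI := Fact.mk hr
    by_cases hrp : r = p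
    · subst hrp
      exact (by
        obtain ⟨k, hk⟩ := IsPGroup.iff_card.mp (elem_isPGroup hA₀e)
        refine dvd_trans ?_ (card_dvd_of_le hA₀A)
        refine hk ▸ dvd_pow_self r fun h0 => ?_
        rw [hk, h0, pow_zero] at hA₀3
        exact absurd hA₀3 (not_le.mpr (Nat.one_lt_pow (by norm_num) hr.one_lt)))
    · obtain ⟨k, hk⟩ := IsPGroup.iff_card.mp (locCore_isPGroup r M)
      refine dvd_trans ?_ (card_dvd_of_le (hother r hr hrp))
      exact hk ▸ dvd_pow_self r fun h0 => locCore_ne_bot_of_dvd hr hd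
        (card_eq_one.mp (by rw [hk, h0, pow_zero]))
  set π := primesNotDvd (Nat.card A) with hπdef
  have hFπ : ∀ Y : Subgroup G, (∀ r : ℕ, r.Prime → r ∣ Nat.card Y → r ∈ π) → Y ⊓ F = ⊥ := fun Y hY =>
    card_eq_one.mp (Nat.eq_one_iff_not_exists_prime_dvd.mpr fun r hr hd =>
      (hY r hr (hd.trans (card_dvd_of_le inf_le_left))).2 (hπ r hr (hd.trans (card_dvd_of_le inf_le_right))))
  -- the parts of `A`
  let At : ℕ → Subgroup G := fun t => A ⊓ locCore t M
  have hCAt : ∀ t : ℕ, t.Prime → locCore t M ≠ ⊥ → centralizer (At t : Set G) ≤ M := by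
    intro t ht h1
    haveI := Fact.mk ht
    set Z := locCore t M ⊓ centralizer (locCore t M : Set G) with hZ
    have hZA : Z ≤ At t := by
      refine le_inf ?_ inf_le_left
      by_cases htp : t = p
      · subst htp
        exact le_inf (inf_le_left.trans (locCore_le_fittingOf t ht)) (inf_le_right.trans (centralizer_le hA₀p))
      · exact inf_le_left.trans (hother t ht htp)
    have hZ1 : Z ≠ ⊥ := by
      haveI : Nontrivial (locCore t M) := (nontrivial_iff_ne_bot _).mpr h1
      obtain ⟨z, -, hz1, hzc⟩ := exists_central_mem (locCore_isPGroup t M)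
        (⊤ : Subgroup (locCore t M)) top_ne_bot
      intro hb
      have hmem : (z : G) ∈ Z := ⟨z.2, mem_centralizer_iff.mpr fun y hy =>
        congrArg Subtype.val (mem_center_iff.mp hzc ⟨y, hy⟩)⟩
      rw [hb, mem_bot] at hmem
      exact hz1 (Subtype.ext hmem)
    have hMZ : M ≤ normalizer (Z : Set G) :=
      (le_inf (le_normalizer_locCore t M) ((le_normalizer_locCore t M).trans
        (Coprime.normalizer_le_normalizer_centralizer _))).trans inf_normalizer_le_normalizer_inf
    calc centralizer (At t : Set G) ≤ centralizer (Z : Set G) := centralizer_le hZA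
      _ ≤ normalizer (Z : Set G) := centralizer_le_normalizer _
      _ = M := normalizer_max hG hM hZ1 (inf_le_left.trans (locCore_le t M)) hMZ
  have hAAt : ∀ t : ℕ, A ≤ normalizer (At t : Set G) := fun t =>
    (le_inf le_normalizer (hAM.trans (le_normalizer_locCore t M))).trans inf_normalizer_le_normalizer_inf
  -- an invariant `π'`-subgroup has no fixed points under a part of `A`
  have hfpf : ∀ (Y : Subgroup G), (∀ r : ℕ, r.Prime → r ∣ Nat.card Y → r ∈ π) →
      A ≤ normalizer (Y : Set G) → ∀ t : ℕ, t.Prime → locCore t M ≠ ⊥ →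
        Y ⊓ centralizer (At t : Set G) = ⊥ := by
    intro Y hY hAY t ht h1
    set Y₀ := Y ⊓ centralizer (At t : Set G)
    have hY₀M : Y₀ ≤ M := inf_le_right.trans (hCAt t ht h1)
    have hY₀π : ∀ r : ℕ, r.Prime → r ∣ Nat.card Y₀ → r ∈ π := fun r hr hd =>
      hY r hr (hd.trans (card_dvd_of_le inf_le_left))
    have hAY₀ : A ≤ normalizer (Y₀ : Set G) :=
      (le_inf hAY ((hAAt t).trans (Coprime.normalizer_le_normalizer_centralizer _))).trans
        inf_normalizer_le_normalizer_inf
    have hYA : Y₀ ≤ centralizer (A : Set G) := by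
      rw [← commutator_eq_bot_iff_le_centralizer, eq_bot_iff, ← hFπ Y₀ hY₀π]
      refine le_inf (Coprime.commutator_le_of_le_normalizer' hAY₀) ((commutator_mono le_rfl hAF).trans ?_)
      rw [commutator_comm]
      exact Coprime.commutator_le_of_le_normalizer' (hY₀M.trans (le_normalizer_fittingOf M))
    have hYF : Y₀ ≤ centralizer (F : Set G) := by
      rw [le_centralizer_iff]
      refine fittingOf_le_of_locCore fun s hs => ?_
      by_cases hsp : s = p
      · subst hsp
        intro y hy
        rw [mem_centralizer_iff]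
        intro x hx
        have hcop : (orderOf x).Coprime s := by
          refine Nat.Coprime.coprime_dvd_left (Y₀.orderOf_dvd_natCard hx)
            (Nat.coprime_comm.mp ((hs.coprime_iff_not_dvd).mpr fun h => (hY₀π s hs h).2 (hπ s hs hpF)))
        have h2 := Components.axb (locCore_isPGroup s M)
          ((locCore_isPGroup s M).to_le (inf_le_right : At s ≤ _))
          (inf_le_right.trans le_normalizer)
          (centralizer_le (inf_le_left : At s ≤ A) (hYA hx))
          (le_normalizer_locCore s M (hY₀M hx)) hcop (fun c hc => by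
            refine mem_centralizer_singleton_iff.mpr (mem_centralizer_iff.mp (hYA hx) c
              ⟨locCore_le_fittingOf s hs hc.1, centralizer_le (le_inf hA₀A hA₀p : A₀ ≤ At s) hc.2⟩))
        exact (mem_centralizer_singleton_iff.mp (h2 hy)).symm
      · exact (hother s hs hsp).trans (le_centralizer_iff.mp hYA)
    rw [← le_bot_iff, ← hFπ Y₀ hY₀π]
    exact le_inf le_rfl ((le_inf hY₀M hYF).trans (centralizer_fittingOf_inf_le hG hM.1))
  -- the parts of `A` centralise the corresponding cores
  have hcentral : ∀ (X : Subgroup G) (H : Type _) [Group H] [Finite H] (f : X →* H),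
      Function.Surjective f → A ≤ X → ∀ (r t : ℕ), r.Prime → t.Prime → r ≠ t → locCore r M ≠ ⊥ →
      centralizer (((At r).subgroupOf X).map f : Set H) ≤
        (centralizer ((At r).subgroupOf X : Set X)).map f →
      ((At t).subgroupOf X).map f ≤ centralizer (pCore r H : Set H) := by
    intro X H _ _ f hf hAX r t hr ht hrt hr1 hlift
    haveI := Fact.mk hr
    haveI := Fact.mk ht
    have hArX : ∀ s, At s ≤ X := fun s => inf_le_left.trans hAX
    have hArp : IsPGroup r ((At r).subgroupOf X) :=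
      ((locCore_isPGroup r M).to_le inf_le_right).of_equiv (subgroupOfEquivOfLe (hArX r)).symm
    rintro _ ⟨a, ha, rfl⟩
    have ha' : (a : G) ∈ At t := mem_subgroupOf.mp ha
    have hcop : (orderOf (f a)).Coprime r := by
      obtain ⟨k, hk⟩ := locCore_isPGroup t M ⟨_, ha'.2⟩
      have hk' : a ^ t ^ k = 1 := Subtype.ext (by simpa using congrArg Subtype.val hk)
      exact Nat.Coprime.coprime_dvd_left ((orderOf_map_dvd f a).trans (orderOf_dvd_of_pow_eq_one hk'))
        (((Nat.coprime_primes ht hr).mpr hrt.symm).pow_left k)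
    have hfc : f a ∈ centralizer ((((At r).subgroupOf X).map f : Subgroup H) : Set H) := by
      rw [mem_centralizer_iff]
      rintro _ ⟨b, hb, rfl⟩
      rw [← map_mul, ← map_mul]
      exact congrArg f (Subtype.ext
        (mem_centralizer_iff.mp (commute_parts ht hr hrt.symm ha'.2) _ (mem_subgroupOf.mp hb).2))
    have h := Components.axb (Hall.isPGroup_pCore r) (hArp.map f)
      (by rw [normalizer_eq_top]; exact le_top) hfc
      (by rw [normalizer_eq_top]; exact mem_top _) hcop (fun c hc => by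
        obtain ⟨x, hx, rfl⟩ := hlift hc.2
        have hxM : (x : G) ∈ M := hCAt r hr hr1 (mem_centralizer_iff.mpr fun y hy =>
          congrArg Subtype.val (mem_centralizer_iff.mp hx ⟨y, hArX r hy⟩ (mem_subgroupOf.mpr hy)))
        rw [mem_centralizer_singleton_iff]
        refine (show Commute (f x) (f a) from ?_).eq
        rw [← commutatorElement_eq_one_iff_commute, ← map_commutatorElement]
        have h1 : f ⁅x, a⁆ ∈ pCore r H := by
          rw [map_commutatorElement]
          exact commutator_le_left _ ⊤ (commutator_mem_commutator hc.1 (mem_top _))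
        have h2 : ((⁅x, a⁆ : X) : G) ∈ locCore t M := by
          rw [commutatorElement_def]
          exact mul_mem ((mem_normalizer_iff.mp (le_normalizer_locCore t M hxM) _).mp ha'.2)
            (inv_mem ha'.2)
        obtain ⟨i, hi⟩ := locCore_isPGroup t M ⟨_, h2⟩
        obtain ⟨j, hj⟩ := Hall.isPGroup_pCore r ⟨_, h1⟩
        have hi' : (f ⁅x, a⁆) ^ t ^ i = 1 := by
          rw [← map_pow, ← map_one f]
          exact congrArg f (Subtype.ext (by simpa using congrArg Subtype.val hi))
        refine orderOf_eq_one_iff.mp (Nat.eq_one_of_dvd_coprimes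
          ((Nat.coprime_primes ht hr).mpr hrt.symm |>.pow i j) (orderOf_dvd_of_pow_eq_one hi') ?_)
        exact orderOf_dvd_of_pow_eq_one (by simpa using congrArg Subtype.val hj))
    exact mem_centralizer_iff.mpr fun y hy => mem_centralizer_singleton_iff.mp (h hy)
  -- a second prime
  obtain ⟨q, hq, hqp, hqF⟩ : ∃ q : ℕ, q.Prime ∧ q ≠ p ∧ locCore q M ≠ ⊥ := by
    by_contra h
    push Not at h
    refine hnp ((locCore_isPGroup p M).to_le (fittingOf_le_of_locCore fun t ht => ?_))
    by_cases htp : t = p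
    · rw [htp]
    · rw [h t ht htp]; exact bot_le
  have hpne : locCore p M ≠ ⊥ := locCore_ne_bot_of_dvd hp.out hpF
  have hA1 : A ≠ ⊥ := fun h => hqF (le_bot_iff.mp (h ▸ hother q hq hqp))
  have hAtop : A ≠ ⊤ := ne_top_of_le hM hAM
  have hne_of_dvd : ∀ r : ℕ, r.Prime → r ∣ Nat.card A → locCore r M ≠ ⊥ := fun r hr hd =>
    locCore_ne_bot_of_dvd hr (hd.trans (card_dvd_of_le hAF))
  -- the transitivity hypothesis
  have hA : TransitivityHypothesis A := by
    refine ⟨hA1, hAtop, fun X hX hAX => le_antisymm (sSup_le ?_) ?_⟩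
    swap
    · exact le_sSup ⟨piCoreOf_le _ X, piCoreOf_isPi _ X, hAX.trans (le_normalizer_piCoreOf _ X)⟩
    rintro Y ⟨hYX, hY, hAY⟩
    haveI := solvable_of_ne_top hG hX
    set N := piCore π X
    let f := QuotientGroup.mk' N
    have hfs := QuotientGroup.mk'_surjective N
    haveI : Group.IsSolvable (X ⧸ N) := Group.isSolvable_of_surjective hfs
    rw [piCoreOf, ← map_subgroupOf_eq_of_le hYX]
    refine map_mono ?_
    show Y.subgroupOf X ≤ N
    suffices hgoal : (Y.subgroupOf X).map f = ⊥ by
      rw [Subgroup.map_eq_bot_iff, QuotientGroup.ker_mk'] at hgoal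
      exact hgoal
    set Yb := (Y.subgroupOf X).map f
    -- the Fitting subgroup of the quotient is a `π(A)`-group
    have hFq : ∀ r : ℕ, r.Prime → pCore r (X ⧸ N) ≠ ⊥ → r ∣ Nat.card A := by
      intro r hr hr1
      by_contra hrA
      haveI := Fact.mk hr
      apply hr1
      set W := (pCore r (X ⧸ N)).comap f
      haveI : W.Normal := inferInstance
      have hW : W ≤ N := by
        refine le_piCore fun s hs hd => ?_
        have h := Coprime.card_map_mk' N W
        rw [map_comap_eq_self_of_surjective hfs] at h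
        rw [← h] at hd
        rcases hs.dvd_mul.mp hd with h1 | h1
        · obtain ⟨k, hk⟩ := IsPGroup.iff_card.mp (Hall.isPGroup_pCore (G := X ⧸ N) r)
          obtain rfl := (Nat.prime_dvd_prime_iff_eq hs hr).mp (hs.dvd_of_dvd_pow (hk ▸ h1))
          exact ⟨hs, hrA⟩
        · exact piCore_isPi π s hs (h1.trans (card_dvd_of_le inf_le_right))
      rw [← map_comap_eq_self_of_surjective hfs (pCore r (X ⧸ N)), Subgroup.map_eq_bot_iff,
        QuotientGroup.ker_mk']
      exact hW
    have hYc : Yb ≤ centralizer (fittingSubgroup (X ⧸ N) : Set (X ⧸ N)) := by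
      rw [le_centralizer_iff, Components.fittingSubgroup_eq_iSup]
      refine iSup_le fun r => ?_
      by_cases hr1 : pCore (r : ℕ) (X ⧸ N) = ⊥
      · rw [hr1]; exact bot_le
      haveI := Fact.mk r.2
      have hrA := hFq r r.2 hr1
      obtain ⟨t, ht, htr, htF⟩ : ∃ t : ℕ, t.Prime ∧ (r : ℕ) ≠ t ∧ locCore t M ≠ ⊥ := by
        by_cases hrp : (r : ℕ) = p
        · exact ⟨q, hq, hrp ▸ hqp.symm, hqF⟩
        · exact ⟨p, hp.out, hrp, hpne⟩
      haveI := Fact.mk ht
      set Ab := ((At t).subgroupOf X).map f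
      have hAtX : At t ≤ X := inf_le_left.trans hAX
      have hAc : Ab ≤ centralizer (pCore r (X ⧸ N) : Set (X ⧸ N)) := by
        refine hcentral X (X ⧸ N) f hfs hAX r t r.2 ht htr (hne_of_dvd r r.2 hrA) (le_of_eq ?_)
        refine (Components.map_centralizer_pGroup (p := (r : ℕ))
          (((locCore_isPGroup (r : ℕ) M).to_le inf_le_right).of_equiv
            (subgroupOfEquivOfLe (inf_le_left.trans hAX)).symm) ?_).symm
        exact Nat.coprime_comm.mp ((r.2.coprime_iff_not_dvd).mpr fun h => (piCore_isPi π r r.2 h).2 hrA)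
      have hcop : (Nat.card (At t)).Coprime (Nat.card Y) := by
        refine Nat.coprime_of_dvd fun s hs h1 h2 => ?_
        exact (hY s hs h2).2 (h1.trans (card_dvd_of_le inf_le_left))
      have hYt : Y = ⁅Y, At t⁆ := by
        have h := Coprime.commutator_sup_centralizer (A := At t) (K := Y) (inf_le_left.trans hAY) hcop
          (Or.inl (haveI := ((locCore_isPGroup t M).to_le (inf_le_right : At t ≤ _)).isNilpotent
                   inferInstance))
        rw [hfpf Y hY hAY t ht htF, sup_bot_eq] at h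
        exact h.symm
      have hYb : Yb = ⁅Yb, Ab⁆ := by
        show (Y.subgroupOf X).map f = _
        rw [← map_commutator]
        congr 1
        apply map_injective X.subtype_injective
        rw [map_commutator, map_subgroupOf_eq_of_le hYX, map_subgroupOf_eq_of_le hAtX]
        exact hYt
      set R := pCore (r : ℕ) (X ⧸ N)
      rw [← commutator_eq_bot_iff_le_centralizer, commutator_comm, hYb]
      refine commutator_commutator_eq_bot_of_rotate ?_ ?_
      · rw [commutator_eq_bot_iff_le_centralizer.mpr hAc, commutator_bot_left]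
      · rw [eq_bot_iff]
        refine (commutator_mono (commutator_le_left R Yb) le_rfl).trans (le_of_eq ?_)
        rw [commutator_comm]
        exact commutator_eq_bot_iff_le_centralizer.mpr hAc
    have hYπ : ∀ s : ℕ, s.Prime → s ∣ Nat.card Yb → ¬ s ∣ Nat.card A := fun s hs hd => by
      have h1 := hd.trans (card_map_dvd _ f)
      rw [Coprime.card_subgroupOf hYX] at h1
      exact (hY s hs h1).2
    refine card_eq_one.mp (Nat.eq_one_iff_not_exists_prime_dvd.mpr fun s hs hd => hYπ s hs hd ?_)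
    haveI := Fact.mk hs
    obtain ⟨y, hy⟩ := exists_prime_orderOf_dvd_card' s hd
    refine hFq s hs fun hb => ?_
    have hy' : (y : X ⧸ N) ∈ fittingSubgroup (X ⧸ N) :=
      Hall.centralizer_fittingSubgroup_le (hYc y.2)
    have hle : (zpowers (⟨y, hy'⟩ : fittingSubgroup (X ⧸ N))).map (fittingSubgroup (X ⧸ N)).subtype ≤
        pCore s (X ⧸ N) := by
      haveI hF := Hall.fittingSubgroup_isNilpotent (G := X ⧸ N)
      obtain ⟨T, hT⟩ := (IsPGroup.of_card (p := s) (n := 1) (by
        rw [Nat.card_zpowers, pow_one, ← hy, ← orderOf_injective (fittingSubgroup (X ⧸ N)).subtype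
          (subtype_injective _)]
        exact orderOf_injective Yb.subtype Yb.subtype_injective y) :
        IsPGroup s (zpowers (⟨y, hy'⟩ : fittingSubgroup (X ⧸ N)))).exists_le_sylow
      haveI : (T : Subgroup (fittingSubgroup (X ⧸ N))).Characteristic :=
        T.characteristic_of_normal inferInstance
      haveI : ((T : Subgroup (fittingSubgroup (X ⧸ N))).map (fittingSubgroup (X ⧸ N)).subtype).Normal :=
        ConjAct.normal_of_characteristic_of_normal
      exact (map_mono hT).trans (Hall.le_pCore (T.2.map _))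
    rw [hb, le_bot_iff, Subgroup.map_eq_bot_iff, ker_subtype, le_bot_iff, zpowers_eq_bot] at hle
    have hy1 : (y : X ⧸ N) = 1 := congrArg Subtype.val hle
    rw [show y = 1 from Subtype.ext hy1, orderOf_one] at hy
    exact hs.one_lt.ne hy
  have hrk : ¬ RankLE 2 ↥(A ⊓ centralizer (A : Set G)) := fun h => by
    refine absurd (h p hp.out) (not_pRankLE_of_elem (E := A₀) (le_inf hA₀A
      (le_centralizer_iff.mp inf_le_right)) hA₀e ?_)
    exact lt_of_lt_of_le (Nat.pow_lt_pow_right hp.out.one_lt (by norm_num)) hA₀3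
  have hFnil := fittingOf_nilpotent M
  have hzero : ∀ (Y : Subgroup G), (∀ r : ℕ, r.Prime → r ∣ Nat.card Y → r ∈ π) →
      A ≤ normalizer (Y : Set G) → Y = ⊥ := by
    intro Y hY hAY
    refine card_eq_one.mp (Nat.eq_one_iff_not_exists_prime_dvd.mpr fun s hs hd => ?_)
    haveI := Fact.mk hs
    obtain ⟨T, hT⟩ := Coprime.exists_invariant_sylow hAY (coprime_of_isPi_primesNotDvd hY)
      (Or.inl (Coprime.isSolvable_of_le hAM hMs)) s
    have h1 := invariant_eq_bot hG hM hA hrk hAF (fittingOf_le M) (le_normalizer_fittingOf M)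
      (GenStruct.Subnormalizer.isSubnormal_of_nilpotent _ _ hFnil _ (le_add_left le_rfl)) hπ
      (centralizer_fittingOf_inf_le hG hM.1) (hY s hs hd).2 (T.2.map _) hT
    refine T.not_dvd_index ?_
    rwa [(map_eq_bot_iff_of_injective _ Y.subtype_injective).mp h1, index_bot]
  -- uniqueness
  refine ⟨M, ⟨hM, hAM⟩, fun X hX => ?_⟩
  by_contra hne
  obtain ⟨hXc, hAX⟩ := hX
  haveI hXs := solvable_of_ne_top hG hXc.1
  have hcore : ∀ s : ℕ, s.Prime → ¬ s ∣ Nat.card A → locCore s X = ⊥ := fun s hs hsA =>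
    hzero _ (fun r hr hd => by
      haveI := Fact.mk hs
      obtain ⟨k, hk⟩ := IsPGroup.iff_card.mp (locCore_isPGroup s X)
      obtain rfl := (Nat.prime_dvd_prime_iff_eq hr hs).mp (hr.dvd_of_dvd_pow (hk ▸ hd))
      exact ⟨hr, hsA⟩) (hAX.trans (le_normalizer_locCore s X))
  have hcen : ∀ r t : ℕ, r.Prime → t.Prime → r ≠ t → r ∣ Nat.card A →
      locCore r X ≤ centralizer (At t : Set G) := by
    intro r t hr ht hrt hrA
    have h := hcentral X X (MonoidHom.id X) Function.surjective_id hAX r t hr ht hrt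
      (hne_of_dvd r hr hrA) (by simp only [Subgroup.map_id]; exact le_rfl)
    rw [Subgroup.map_id] at h
    rintro _ ⟨x, hx, rfl⟩
    rw [mem_centralizer_iff]
    intro a ha
    exact (congrArg Subtype.val (mem_centralizer_iff.mp
      (h (mem_subgroupOf.mpr (show ((⟨a, hAX ha.1⟩ : X) : G) ∈ At t from ha))) x hx)).symm
  have hXM : fittingOf X ≤ M := fittingOf_le_of_locCore fun r hr => by
    by_cases hrA : r ∣ Nat.card A
    · obtain ⟨t, ht, htr, htF⟩ : ∃ t : ℕ, t.Prime ∧ r ≠ t ∧ locCore t M ≠ ⊥ := by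
        by_cases hrp : r = p
        · exact ⟨q, hq, hrp ▸ hqp.symm, hqF⟩
        · exact ⟨p, hp.out, hrp, hpne⟩
      exact (hcen r t hr ht htr hrA).trans (hCAt t ht htF)
    · rw [hcore r hr hrA]; exact bot_le
  have hXq : locCore q X ≠ ⊥ := by
    intro hb
    have h1 : X ⊓ centralizer (fittingOf X : Set G) ≤ fittingOf X := centralizer_fittingOf_inf_le hG hXc.1
    have h2 : At q ≤ fittingOf X := by
      refine le_trans (le_inf (inf_le_left.trans hAX) ?_) h1
      rw [le_centralizer_iff]
      refine fittingOf_le_of_locCore fun r hr => ?_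
      by_cases hrq : r = q
      · rw [hrq, hb]; exact bot_le
      by_cases hrA : r ∣ Nat.card A
      · exact hcen r q hr hq hrq hrA
      · rw [hcore r hr hrA]; exact bot_le
    haveI := Fact.mk hq
    have h3 := le_locCore ((locCore_isPGroup q M).to_le (inf_le_right : At q ≤ _)) h2
    rw [hb, le_bot_iff] at h3
    exact hqF (le_bot_iff.mp (h3 ▸ le_inf (hother q hq hqp) le_rfl))
  have hMX : fittingOf M ≤ X := fittingOf_le_of_locCore fun t ht => by
    by_cases htp : t = p
    · subst htp
      have hqA : q ∣ Nat.card A := by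
        by_contra h
        exact hXq (hcore q hq h)
      haveI := Fact.mk hq
      have hOM : locCore q X ≤ M := (locCore_le_fittingOf q hq).trans hXM
      have hC := hcen q t hq ht hqp hqA
      have hcent : locCore t M ≤ centralizer (locCore q X : Set G) := by
        intro y hy
        rw [mem_centralizer_iff]
        intro x hx
        obtain ⟨k, hk⟩ := locCore_isPGroup q X ⟨x, hx⟩
        have hcop : (orderOf x).Coprime t := by
          have hk' : x ^ q ^ k = 1 := by simpa using congrArg Subtype.val hk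
          exact Nat.Coprime.coprime_dvd_left (orderOf_dvd_of_pow_eq_one hk')
            (((Nat.coprime_primes hq ht).mpr hqp).pow_left k)
        have h2 := Components.axb (locCore_isPGroup t M)
          ((locCore_isPGroup t M).to_le (inf_le_right : At t ≤ _))
          (inf_le_right.trans le_normalizer) (hC hx) (le_normalizer_locCore t M (hOM hx)) hcop
          (fun c hc => mem_centralizer_singleton_iff.mpr (mem_centralizer_iff.mp (hC hx) c
            ⟨⟨locCore_le_fittingOf t ht hc.1, centralizer_le (le_inf hA₀A hA₀p : A₀ ≤ At t) hc.2⟩, hc.1⟩))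
        exact (mem_centralizer_singleton_iff.mp (h2 hy)).symm
      refine hcent.trans ((centralizer_le_normalizer _).trans ?_)
      exact (normalizer_max hG hXc hXq (locCore_le q X) (le_normalizer_locCore q X)).le
    · exact (hother t ht htp).trans hAX
  have hgfs : ∀ {H : Subgroup G}, Group.IsSolvable H →
      generalizedFittingSubgroup ↥H = fittingSubgroup ↥H := fun {H} hH => by
    haveI := hH
    rw [generalizedFittingSubgroup, Components.layer_eq_bot_iff.mpr
      (fun L hL => Components.qs_not_isSolvable hL.2 inferInstance), bot_sup_eq]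
  haveI := hG.2.1
  obtain ⟨r, hr, hrM, -⟩ := Components.MaxLocal.exists_prime hG.2.2.1 hM hXc (Ne.symm hne)
    (by rw [hgfs hMs]; exact hMX) (by rw [hgfs hXs]; exact hXM)
  rw [hgfs hMs] at hrM
  haveI := Fact.mk hr
  have hrF : IsPGroup r F := hrM.map M.subtype
  obtain ⟨k, hk⟩ := IsPGroup.iff_card.mp hrF
  exact hnp (by rwa [(Nat.prime_dvd_prime_iff_eq hp.out hr).mp (hp.out.dvd_of_dvd_pow (hk ▸ hpF))])

omit [Finite G] in
lemma scn_conj {P A : Subgroup G} (h : IsSCN P A) (g : G) :
    IsSCN (P.map (MulAut.conj g).toMonoidHom) (A.map (MulAut.conj g).toMonoidHom) := by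
  obtain ⟨h1, h2, h3⟩ := h
  refine ⟨map_mono h1, (map_mono h2).trans (le_normalizer_map _), ?_⟩
  refine le_antisymm ?_ ?_
  · rintro _ ⟨⟨x, hx, rfl⟩, hc⟩
    refine mem_map_of_mem _ (h3.le ⟨hx, mem_centralizer_iff.mpr fun a ha => ?_⟩)
    apply (MulAut.conj g).injective
    rw [map_mul, map_mul]
    exact mem_centralizer_iff.mp hc _ (mem_map_of_mem _ ha)
  · refine le_inf (map_mono h1) ((map_mono (h3.ge.trans inf_le_right)).trans ?_)
    rw [coe_map]
    exact map_centralizer_le_centralizer_image _ _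

lemma goodSylow_of_scn {P₀ : Sylow p G} {A : Subgroup G} (hA : IsSCN (P₀ : Subgroup G) A)
    (hr : ¬ PRankLE p 2 A) (P : Sylow p G) : GoodSylow P := by
  obtain ⟨g, hg⟩ := MulAction.exists_smul_eq G P₀ P
  refine Or.inl ⟨A.map (MulAut.conj g).toMonoidHom, ?_, ?_⟩
  · have : (P : Subgroup G) = (P₀ : Subgroup G).map (MulAut.conj g).toMonoidHom := by rw [← hg]; rfl
    rw [this]
    exact scn_conj hA g
  · obtain ⟨E, hEA, hE, hEc⟩ := elem_of_not_pRankLE hr
    refine not_pRankLE_of_elem (map_mono hEA) (elem_map (MulAut.conj g).toMonoidHom hE) ?_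
    rw [card_map_of_injective (f := (MulAut.conj g).toMonoidHom) (MulAut.conj g).injective, hEc]
    exact Nat.pow_lt_pow_right hp.out.one_lt (by norm_num)

/-- BG 8.1 when the Fitting subgroup is a `p`-group. -/
theorem fitting_pGroup (hG : IsMinSimpleOddOrder G) (hM : IsCoatom M) (hFp : IsPGroup p ↥(fittingOf M))
    (hF1 : fittingOf M ≠ ⊥) (T : Sylow p M) :
    ¬ p ∣ ((T : Subgroup M).map M.subtype).index ∧
      ∀ A : Subgroup G, IsSCN ((T : Subgroup M).map M.subtype) A → ¬ PRankLE p 2 A →
        A ≤ fittingOf M ∧ InUniqueMaximal A := by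
  set S := (T : Subgroup M).map M.subtype with hS
  haveI hMs := solvable_of_ne_top hG hM.1
  have hp2 := ne_two_of_pgroup hG hFp hF1
  have hSyl : SylIn p S M := sylIn_map T
  have hCF := centralizer_fittingOf_inf_le hG hM.1 (M := M)
  have hopc : opc p M = ⊥ := by
    have hd := Components.inf_eq_bot_of_pGroup_coprime hFp (coprime_opc p M)
    have hc : opc p M ≤ centralizer (fittingOf M : Set G) := by
      rw [← commutator_eq_bot_iff_le_centralizer, eq_bot_iff, ← hd]
      refine le_inf ?_ (Coprime.commutator_le_of_le_normalizer'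
        ((fittingOf_le M).trans (le_normalizer_piCoreOf _ M)))
      rw [commutator_comm]
      exact Coprime.commutator_le_of_le_normalizer' ((opc_le p M).trans (le_normalizer_fittingOf M))
    rw [← le_bot_iff, ← hd]
    exact le_inf ((le_inf (opc_le p M) hc).trans hCF) le_rfl
  have hFS : fittingOf M ≤ S := by
    refine le_trans (le_of_eq ?_) (map_mono (Hall.pCore_le_sylow T) : locCore p M ≤ S)
    exact le_antisymm (le_locCore hFp le_rfl) (locCore_le_fittingOf p hp.out)
  have hS1 : S ≠ ⊥ := fun h => hF1 (le_bot_iff.mp (h ▸ hFS))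
  have hZ1 := puigZ_ne_bot hSyl.1 hS1
  have hMZ : M ≤ normalizer (puigZ S : Set G) := by
    have := le_opc_sup_puigZ hG hp2 hM.1 hSyl
    rw [hopc, bot_sup_eq] at this
    exact this.trans inf_le_right
  have hNS : normalizer (S : Set G) ≤ M := (normalizer_le_normalizer_puigZ S).trans
    (normalizer_max hG hM hZ1 ((puigZ_le S).trans hSyl.2.1) hMZ).le
  obtain ⟨P, hP⟩ := hSyl.1.exists_le_sylow
  have hPS : (P : Subgroup G) = S := by
    by_contra hne
    have hlt := exists_normalizer_gt P.2 (lt_of_le_of_ne hP (Ne.symm hne))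
    exact hlt.ne (hSyl.2.2 _ (P.2.to_le inf_le_left) hlt.le (inf_le_right.trans hNS)).symm
  refine ⟨hPS ▸ P.not_dvd_index, fun A hA hr => ?_⟩
  obtain ⟨hAS, hAn, hAC⟩ := id hA
  have hAc : IsMulCommutative A :=
    le_centralizer_iff_isMulCommutative.mp (hAC.ge.trans inf_le_right)
  have hAM : A ≤ M := hAS.trans hSyl.2.1
  have hAF : A ≤ fittingOf M := by
    have hO : pPrimeCore p M = ⊥ := by
      rw [← map_eq_bot_iff_of_injective _ M.subtype_injective, ← opc_eq hp.out, hopc]
    have h1 : A.subgroupOf M ≤ pCore p M := by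
      refine le_pCore_of_abelian_normalized p hp2 (odd_card hG M) (Hall.isPGroup_pCore p) hO inf_le_left
        ⟨⟨fun a b => Subtype.ext (Subtype.ext (by
          simpa using congrArg Subtype.val
            (hAc.is_comm.comm (⟨((a : M) : G), mem_subgroupOf.mp a.2⟩ : A)
              ⟨((b : M) : G), mem_subgroupOf.mp b.2⟩)))⟩⟩ ?_
      refine (Hall.pCore_le_sylow T).trans (le_trans ?_ (le_normalizer_comap M.subtype))
      exact fun x hx => hAn (mem_map_of_mem _ hx)
    exact (map_subgroupOf_eq_of_le hAM).ge.trans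
      (map_mono (h1.trans (Hall.pCore_le_fittingSubgroup p)))
  refine ⟨hAF, ?_⟩
  have hA' : IsSCN (P : Subgroup G) A := hPS ▸ hA
  have htrans : TransitivityHypothesis A := transHyp_scn hG P hA' fun h1 => hr fun E hE hEp =>
    (h1 E hE hEp).trans (Nat.pow_le_pow_right hp.out.pos (by norm_num))
  have hAp : IsPGroup p A := hFp.to_le hAF
  have hrk : ¬ RankLE 2 ↥(A ⊓ centralizer (A : Set G)) := by
    rw [inf_eq_left.mpr (comm_le_centralizer hAc)]
    exact fun h => hr (h p hp.out)
  have hpA : p ∣ Nat.card A := by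
    obtain ⟨j, hj⟩ := IsPGroup.iff_card.mp hAp
    exact hj ▸ dvd_pow_self _ fun h0 => htrans.1 (card_eq_one.mp (by rw [hj, h0, pow_zero]))
  refine unique_of_invariant_le hG hM hAp htrans.1 hAM (fun Y hY hAY => ?_)
    (goodSylow_of_scn hA' hr)
  refine (le_of_invariant_sylows (K := (⊥ : Subgroup G)) hAp hY hAY fun q _ hqp Q hQ hAQ _ => ?_).trans bot_le
  refine (invariant_eq_bot hG hM htrans hrk hAF (fittingOf_le M) (le_normalizer_fittingOf M)
    (GenStruct.Subnormalizer.isSubnormal_of_nilpotent _ _ (fittingOf_nilpotent M) _ (le_add_left le_rfl))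
    (fun r hr' hd => ?_) hCF (fun h => hqp ?_) hQ hAQ).le
  · obtain ⟨k, hk⟩ := IsPGroup.iff_card.mp hFp
    obtain rfl := (Nat.prime_dvd_prime_iff_eq hr' hp.out).mp (hr'.dvd_of_dvd_pow (hk ▸ hd))
    exact hpA
  · obtain ⟨j, hj⟩ := IsPGroup.iff_card.mp hAp
    exact (Nat.prime_dvd_prime_iff_eq Fact.out hp.out).mp
      ((Fact.out : q.Prime).dvd_of_dvd_pow (hj ▸ h))

end Cfsg.Agent.Lib.Uniq
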