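import Cfsg.Agent.Lib.Uniq.NonabelianUnique
set_option autoImplicit false

/-! BG 12.14: centralizers of order `p` subgroups of `M_σ'`. -/

namespace Cfsg.Agent.Lib.Uniq

open Subgroup
open scoped Pointwise commutatorElement
open Cfsg.Agent.Lib.OddLocal

variable {G : Type*} [Group G] [Finite G] {M : Subgroup G} {p : ℕ} [hp : Fact p.Prime]

/-- A group of order `p³` has central derived subgroup. -/
theorem commutator_le_center_of_card_cube {R : Subgroup G} (hR : Nat.card R = p ^ 3) :
    commutator ↥R ≤ center ↥R := by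
  have hRp : IsPGroup p R := IsPGroup.of_card hR
  haveI : Nontrivial R := Finite.one_lt_card_iff_nontrivial.mp (hR ▸ Nat.one_lt_pow three_ne_zero hp.out.one_lt)
  haveI := hRp.center_nontrivial
  obtain ⟨n, hn⟩ := IsPGroup.iff_card.mp (hRp.to_quotient (center R))
  obtain ⟨i, hi⟩ := IsPGroup.iff_card.mp (hRp.to_subgroup (center R))
  have hi0 : i ≠ 0 := fun h0 => (Finite.one_lt_card (α := center R)).ne' (by rw [hi, h0, pow_zero])
  have hmul := (center R).card_mul_index
  rw [index_eq_card, hn, hR, hi, ← pow_add] at hmul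
  have hin := Nat.pow_right_injective hp.out.two_le hmul
  have hcomm : ∀ a b : R ⧸ center R, a * b = b * a := by
    rcases Nat.lt_or_ge n 2 with h | h
    · haveI : IsCyclic (R ⧸ center R) := by
        rcases Nat.eq_zero_or_pos n with h0 | h0
        · haveI : Subsingleton (R ⧸ center R) :=
            (Nat.card_eq_one_iff_unique.mp (by rw [hn, h0, pow_zero])).1
          exact isCyclic_of_subsingleton
        · exact isCyclic_of_prime_card (by rw [hn, show n = 1 by omega, pow_one])
      exact (IsCyclic.commGroup (α := R ⧸ center R)).mul_comm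
    · exact (IsPGroup.commGroupOfCardEqPrimeSq (p := p) (by rw [hn, show n = 2 by omega])).mul_comm
  rw [commutator_eq_closure, closure_le]
  rintro _ ⟨a, b, rfl⟩
  rw [SetLike.mem_coe, ← QuotientGroup.eq_one_iff, ← QuotientGroup.mk'_apply, map_commutatorElement,
    commutatorElement_eq_one_iff_mul_comm]
  exact hcomm _ _

theorem inUnique_of_rank_three (hG : IsMinSimpleOddOrder G) {R : Subgroup G} (hR : IsPGroup p R)
    (h3 : ¬ PRankLE p 2 R) : InUniqueMaximal R :=
  S1403.result hG R (pgroup_ne_top hG hR) (fun h => h3 (pRankLE_succ (h p hp.out))) (Or.inl fun h => h3 (h p hp.out))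

/-- In a rank three `p`-group, the centralizer of an element of the derived group has rank three. -/
theorem rank_three_centralizer_derived (hp2 : p ≠ 2) {P : Subgroup G} (hP : IsPGroup p P)
    (h3 : ¬ PRankLE p 2 P) {x : G} (hx : x ∈ ⁅P, P⁆) (hxp : x ^ p = 1) :
    ¬ PRankLE p 2 ↥(P ⊓ centralizer ({x} : Set G)) := by
  obtain ⟨E, hEP, hE, hEc⟩ := elem_of_not_pRankLE h3
  have hnc : ¬ IsCyclic P := fun h => h3 (by
    haveI := h
    intro A _ hA
    classical
    haveI : Fintype P := Fintype.ofFinite P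
    refine le_trans ?_ (Nat.le_self_pow two_ne_zero p)
    have hbd := IsCyclic.card_pow_eq_one_le (α := P) (n := p) hp.out.pos
    rw [Nat.card_eq_fintype_card, Fintype.card_subtype]
    exact le_trans (Finset.card_le_card fun a ha => Finset.mem_filter.mpr
      ⟨Finset.mem_univ a, hA a (Finset.mem_filter.mp ha).2⟩) hbd)
  obtain ⟨W, hWP, hPW, hW, hWc, -, hidx⟩ := exists_normal_pair hp2 hP hnc
  set T := P ⊓ centralizer (W : Set G) with hT
  have hTidx : T.relIndex P ≤ p := by rwa [hT, inf_relIndex_left]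
  have hWT : W ≤ T := le_inf hWP (comm_le_centralizer hW.1)
  have hPT : P ≤ normalizer (T : Set G) :=
    (le_inf le_normalizer (hPW.trans (Coprime.normalizer_le_normalizer_centralizer W))).trans
      inf_normalizer_le_normalizer_inf
  -- the derived group lies in `T`
  have hder : ⁅P, P⁆ ≤ T := by
    haveI : (T.subgroupOf P).Normal := (normal_subgroupOf_iff_le_normalizer inf_le_left).mpr hPT
    obtain ⟨n, hn⟩ := IsPGroup.iff_card.mp (hP.to_quotient (T.subgroupOf P))
    haveI : IsCyclic (P ⧸ T.subgroupOf P) := by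
      have hle : p ^ n ≤ p := by rw [← hn, ← index_eq_card]; exact hTidx
      rcases Nat.eq_zero_or_pos n with h | h
      · haveI : Subsingleton (P ⧸ T.subgroupOf P) :=
          (Nat.card_eq_one_iff_unique.mp (by rw [hn, h, pow_zero])).1
        exact isCyclic_of_subsingleton
      · have : n = 1 := le_antisymm ((Nat.pow_le_pow_iff_right hp.out.one_lt).mp (by rwa [pow_one])) h
        exact isCyclic_of_prime_card (by rw [hn, this, pow_one])
    rw [commutator_le]
    intro a ha b hb
    refine mem_subgroupOf.mp ((QuotientGroup.eq_one_iff (N := T.subgroupOf P)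
      ⁅(⟨a, ha⟩ : P), ⟨b, hb⟩⁆).mp ?_)
    rw [← QuotientGroup.mk'_apply, map_commutatorElement, commutatorElement_eq_one_iff_mul_comm]
    exact (IsCyclic.commGroup (α := P ⧸ T.subgroupOf P)).mul_comm _ _
  have hxT := hder hx
  have hWx : IsElementaryAbelian p (W ⊔ zpowers x) :=
    elem_sup_zpowers hW hxp fun a ha => mem_centralizer_iff.mp hxT.2 a ha
  have hWxC : W ⊔ zpowers x ≤ P ⊓ centralizer ({x} : Set G) := by
    refine sup_le (le_inf hWP fun a ha => mem_centralizer_singleton_iff.mpr ?_) (zpowers_le.2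
      ⟨hxT.1, mem_centralizer_singleton_iff.mpr rfl⟩)
    exact mem_centralizer_iff.mp hxT.2 a ha
  by_cases hxW : x ∈ W
  swap
  · refine not_pRankLE_of_elem hWxC hWx ?_
    rw [← hWc]
    exact Set.ncard_lt_ncard (SetLike.coe_ssubset_coe.mpr (lt_of_le_of_ne le_sup_left
      fun e => hxW (e.symm ▸ mem_sup_right (mem_zpowers x)))) (Set.toFinite _)
  have hTC : T ≤ P ⊓ centralizer ({x} : Set G) :=
    le_inf inf_le_left (inf_le_right.trans (centralizer_le (Set.singleton_subset_iff.mpr hxW)))
  have hET : p ^ 2 ≤ Nat.card ↥(E ⊓ T) := by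
    have h1 : T.relIndex E ≤ p := (relIndex_le_of_le hEP).trans hTidx
    exact sq_le_card_inf hEc.ge h1
  have hU : IsElementaryAbelian p (W ⊔ (E ⊓ T)) :=
    Thompson.isElementaryAbelian_sup hW (elem_mono hE inf_le_left) fun a ha b hb =>
      mem_centralizer_iff.mp hb.2.2 a ha
  by_cases hbig : p ^ 2 < Nat.card ↥(W ⊔ (E ⊓ T))
  · exact not_pRankLE_of_elem ((sup_le hWT inf_le_right).trans hTC) hU hbig
  have h1 : W = W ⊔ (E ⊓ T) := eq_of_le_of_card_ge le_sup_left (by rw [hWc]; exact not_lt.mp hbig)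
  have h2 : E ⊓ T = W := eq_of_le_of_card_ge (h1 ▸ le_sup_right) (by rw [hWc]; exact hET)
  have hWE : W ≤ E := h2 ▸ inf_le_left
  have hET' : E ≤ T := le_inf hEP ((comm_le_centralizer hE.1).trans (centralizer_le hWE))
  refine not_pRankLE_of_elem (hET'.trans hTC) hE ?_
  rw [hEc]
  exact Nat.pow_lt_pow_right hp.out.one_lt (by norm_num)

/-- The core of BG 12.14 for an element inside a Sylow subgroup. -/
theorem centralizer_unique_of_sylow (hG : IsMinSimpleOddOrder G) (hM : IsCoatom M) (hσ : p ∈ sigma M)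
    (P : Sylow p G) (hPM : (P : Subgroup G) ≤ M) {X : Subgroup G} (hXP : X ≤ P) (hX : Nat.card X = p)
    (h : p ∈ beta M ∨ X ≤ ⁅sigmaCore M, sigmaCore M⁆) :
    (centralizer (X : Set G) ≤ M ∧ ∀ L : Subgroup G, IsCoatom L → centralizer (X : Set G) ≤ L → L = M) ∧
      InUniqueMaximal (P : Subgroup G) := by
  have hp2 : p ≠ 2 := fun e => hG.1.not_two_dvd_nat (e ▸ hσ.2.1.trans M.card_subgroup_dvd_card)
  have hX1 : X ≠ ⊥ := fun e => by rw [e, card_bot] at hX; exact hp.out.ne_one hX.symm
  obtain ⟨x, hx, hx1⟩ := (bot_or_exists_ne_one X).resolve_left hX1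
  have hxp : x ^ p = 1 :=
    orderOf_dvd_iff_pow_eq_one.mp (by rw [← hX]; exact X.orderOf_dvd_natCard hx)
  have hXz : zpowers x = X := eq_of_le_of_card_ge (zpowers_le.2 hx) (by
    rw [hX, Nat.card_zpowers, orderOf_eq_prime hxp hx1])
  have hCX : centralizer (X : Set G) = centralizer ({x} : Set G) := by rw [← hXz, centralizer_zpowers]
  -- `X ≤ P'` in the second case
  have hPder : p ∉ beta M → x ∈ ⁅(P : Subgroup G), (P : Subgroup G)⁆ := fun hβ => by
    have hxD := (h.resolve_left hβ) hx
    have hPσ := pgroup_le_sigmaCore hG hM hσ P.2 hPM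
    set Mσ := sigmaCore M
    set K := (pPrimeCore p ↥Mσ).map Mσ.subtype
    have hnpc : HasNormalPComplement p ↥Mσ :=
      normalPComplement_derived hG hM hσ.2.1 hβ (sigmaCore_le_derived hG hM)
    have hsup := le_pPrimeCore_sup hnpc P hPσ
    have hKn : Mσ ≤ normalizer (K : Set G) := Components.MaxLocal.le_normalizer_map_subtype _
    have hKP : (K : Subgroup G) ⊓ P = ⊥ := Coprime.inf_eq_bot_of_coprime (by
      obtain ⟨k, hk⟩ := IsPGroup.iff_card.mp P.2
      rw [hk, card_map_of_injective Mσ.subtype_injective]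
      exact (Hall.coprime_card_pPrimeCore p).pow_right k)
    set π := QuotientGroup.mk' (pPrimeCore p ↥Mσ)
    have htop : ((P : Subgroup G).subgroupOf Mσ).map π = ⊤ := by
      have h1 : ((P : Subgroup G).subgroupOf Mσ) ⊔ pPrimeCore p ↥Mσ = ⊤ := by
        refine map_injective Mσ.subtype_injective (le_antisymm (map_mono le_top) ?_)
        rw [Subgroup.map_sup, map_subgroupOf_eq_of_le hPσ, ← MonoidHom.range_eq_map, range_subtype, sup_comm]
        exact hsup
      rw [← map_top_of_surjective π (QuotientGroup.mk'_surjective _), ← h1, Subgroup.map_sup,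
        (Subgroup.map_eq_bot_iff _).mpr (QuotientGroup.ker_mk' _).ge, sup_bot_eq]
    have hxσ : x ∈ Mσ := commutator_le_self Mσ hxD
    have hxc : (⟨x, hxσ⟩ : Mσ) ∈ commutator ↥Mσ := by
      rw [← map_subtype_commutator] at hxD
      obtain ⟨y, hy, he⟩ := hxD
      exact (show y = ⟨x, hxσ⟩ from Subtype.ext he) ▸ hy
    have hxπ : π ⟨x, hxσ⟩ ∈ (⁅(P : Subgroup G).subgroupOf Mσ, (P : Subgroup G).subgroupOf Mσ⁆).map π := by
      rw [map_commutator, htop, ← map_top_of_surjective π (QuotientGroup.mk'_surjective _), ← map_commutator]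
      exact mem_map_of_mem π hxc
    obtain ⟨c, hc, he⟩ := hxπ
    have hcP : (c : G) ∈ ⁅(P : Subgroup G), (P : Subgroup G)⁆ := by
      rw [← map_subgroupOf_eq_of_le hPσ, ← map_commutator]
      exact ⟨c, hc, rfl⟩
    have hk : (c : G)⁻¹ * x ∈ (K : Subgroup G) ⊓ P :=
      ⟨⟨c⁻¹ * ⟨x, hxσ⟩, (QuotientGroup.eq (s := pPrimeCore p ↥Mσ) (a := c) (b := ⟨x, hxσ⟩)).mp he, rfl⟩,
        P.1.mul_mem (P.1.inv_mem (commutator_le_self _ hcP)) (hXP hx)⟩
    rw [hKP, mem_bot, inv_mul_eq_one] at hk
    exact hk ▸ hcP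
  obtain ⟨R, hRP, hRC, hRU⟩ : ∃ R : Subgroup G, R ≤ P ∧ R ≤ centralizer ({x} : Set G) ∧ InUniqueMaximal R := by
    by_cases h3 : PRankLE p 2 (P : Subgroup G)
    · have hβ : p ∉ beta M := fun hβ => hβ.1.2 (fun A hA hA' => by
        obtain ⟨T, hT⟩ := IsPGroup.exists_le_sylow (p := p) (P := A)
          (fun a => ⟨1, Subtype.ext (by simpa using hA' a a.2)⟩)
        obtain ⟨m, -, hm⟩ := exists_conj_le_sylow P hPM (X := (T : Subgroup M).map M.subtype)
          (T.2.map _) (map_subtype_le _)
        have hle : (A.map M.subtype).map (MulAut.conj m⁻¹).toMonoidHom ≤ P := by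
          rintro _ ⟨a, ⟨a', ha', rfl⟩, rfl⟩
          simpa using hm a' ⟨a', hT ha', rfl⟩
        haveI := hA
        have h4 := h3 (((A.map M.subtype).map (MulAut.conj m⁻¹).toMonoidHom).subgroupOf P)
          ⟨⟨fun a b => by
            obtain ⟨-, ⟨a', ha', rfl⟩, hae⟩ := a.2
            obtain ⟨-, ⟨b', hb', rfl⟩, hbe⟩ := b.2
            apply Subtype.ext
            apply Subtype.ext
            show ((a : (P : Subgroup G)) : G) * b = b * a
            rw [← show (MulAut.conj m⁻¹).toMonoidHom (M.subtype a') = ((a : (P : Subgroup G)) : G) from hae,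
              ← show (MulAut.conj m⁻¹).toMonoidHom (M.subtype b') = ((b : (P : Subgroup G)) : G) from hbe,
              ← map_mul, ← map_mul, ← map_mul, ← map_mul,
              show a' * b' = b' * a' from congrArg Subtype.val (mul_comm' (⟨a', ha'⟩ : A) ⟨b', hb'⟩)]⟩⟩
          (by
            rintro a ⟨-, ⟨a', ha', rfl⟩, hae⟩
            apply Subtype.ext
            rw [SubgroupClass.coe_pow,
              ← show (MulAut.conj m⁻¹).toMonoidHom (M.subtype a') = ((a : (P : Subgroup G)) : G) from hae,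
              ← map_pow, ← map_pow, hA' a' ha', map_one, map_one]
            rfl)
        rwa [Coprime.card_subgroupOf hle, card_map_of_injective (MulAut.conj m⁻¹).injective,
          card_map_of_injective M.subtype_injective] at h4)
      have hna : ¬ IsMulCommutative (P : Subgroup G) := fun hc => by
        have hxd := hPder hβ
        have hb : ⁅(P : Subgroup G), (P : Subgroup G)⁆ = ⊥ := commutator_eq_bot_iff_le_centralizer.mpr (comm_le_centralizer hc)
        rw [hb, mem_bot] at hxd
        exact hx1 hxd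
      obtain ⟨P₁, P₂, hsup, hc12, -, hP₁c, -, hP₂cyc, -⟩ := (S1412.result hG p P h3).resolve_left hna
      refine ⟨P, le_rfl, fun y hy => mem_centralizer_singleton_iff.mpr ?_, nonabelian_unique hG P.2 hna⟩
      -- the derived group is central
      have hP₁P : P₁ ≤ P := hsup ▸ le_sup_left
      have hder : ⁅(P : Subgroup G), (P : Subgroup G)⁆ ≤ centralizer ((P : Subgroup G) : Set G) := by
        have hd1 : ⁅P₁, P₁⁆ ≤ centralizer (P₁ : Set G) := by
          haveI hnil : Group.IsNilpotent P₁ := (P.2.to_le hP₁P).isNilpotent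
          rw [← map_subtype_commutator]
          rintro _ ⟨d, hd, rfl⟩
          rw [mem_centralizer_iff]
          intro a ha
          exact congrArg Subtype.val (mem_center_iff.mp
            (commutator_le_center_of_card_cube (p := p) hP₁c hd) ⟨a, ha⟩)
        have hP₂C : P₂ ≤ centralizer (P₁ : Set G) := fun b hb => mem_centralizer_iff.mpr fun a ha => hc12 a ha b hb
        have hd : ⁅(P : Subgroup G), (P : Subgroup G)⁆ ≤ ⁅P₁, P₁⁆ := by
          rw [commutator_le]
          intro a ha b hb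
          have hn : P₂ ≤ normalizer (P₁ : Set G) := hP₂C.trans (centralizer_le_normalizer _)
          rw [← hsup, ← SetLike.mem_coe, coe_mul_of_right_le_normalizer_left _ _ hn] at ha hb
          obtain ⟨a₁, ha₁, a₂, ha₂, rfl⟩ := ha
          obtain ⟨b₁, hb₁, b₂, hb₂, rfl⟩ := hb
          haveI := hP₂cyc
          have hab : a₂ * b₂ = b₂ * a₂ := congrArg Subtype.val
            ((IsCyclic.commGroup (α := P₂)).mul_comm ⟨a₂, ha₂⟩ ⟨b₂, hb₂⟩)
          have e : ⁅a₁ * a₂, b₁ * b₂⁆ = ⁅a₁, b₁⁆ := by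
            have e1 : a₂ * b₁ = b₁ * a₂ := (hc12 b₁ hb₁ a₂ ha₂).symm
            have e2 : a₁ * b₂ = b₂ * a₁ := hc12 a₁ ha₁ b₂ hb₂
            have c1 : Commute a₂ (b₁ * b₂) := (show Commute a₂ b₁ from e1).mul_right hab
            have c2 : Commute b₂ a₁⁻¹ := (show Commute b₂ a₁ from e2.symm).inv_right
            calc ⁅a₁ * a₂, b₁ * b₂⁆ = a₁ * (a₂ * (b₁ * b₂)) * a₂⁻¹ * a₁⁻¹ * (b₁ * b₂)⁻¹ := by
                  rw [commutatorElement_def]; group
              _ = a₁ * b₁ * (b₂ * a₁⁻¹) * b₂⁻¹ * b₁⁻¹ := by rw [c1.eq]; group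
              _ = ⁅a₁, b₁⁆ := by rw [c2.eq, commutatorElement_def]; group
          rw [e]
          exact commutator_mem_commutator ha₁ hb₁
        refine hd.trans ?_
        rw [← hsup, le_centralizer_iff]
        exact sup_le (le_centralizer_iff.mp hd1) (hP₂C.trans (centralizer_le (commutator_le_self P₁)))
      exact (mem_centralizer_iff.mp (hder (hPder hβ)) y hy)
    · refine ⟨(P : Subgroup G) ⊓ centralizer ({x} : Set G), inf_le_left, inf_le_right, ?_⟩
      refine inUnique_of_rank_three hG (P.2.to_le inf_le_left) ?_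
      by_cases hβ : p ∈ beta M
      swap
      · exact rank_three_centralizer_derived hp2 P.2 h3 (hPder hβ) hxp
      -- for an ideal prime
      haveI : Nontrivial (P : Subgroup G) := ⟨⟨⟨x, hXP hx⟩, 1, fun e => hx1 (congrArg Subtype.val e)⟩⟩
      haveI := P.2.center_nontrivial
      obtain ⟨z, hz⟩ := exists_prime_orderOf_dvd_card' (G := center (P : Subgroup G)) p
        (((P.2.to_subgroup _).card_eq_or_dvd).resolve_left Finite.one_lt_card.ne')
      set z' : G := ((z : (P : Subgroup G)) : G)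
      have hzc : ∀ y ∈ (P : Subgroup G), y * z' = z' * y := fun y hy =>
        congrArg Subtype.val (mem_center_iff.mp z.2 ⟨y, hy⟩)
      have hzo : orderOf z' = p := by rw [Subgroup.orderOf_coe, Subgroup.orderOf_coe]; exact hz
      by_cases hzx : x ∈ zpowers z'
      · intro hle
        refine h3 (Hall.prankLE_of_injective (inclusion (le_inf le_rfl fun y hy => ?_)) (inclusion_injective _) hle)
        refine mem_centralizer_singleton_iff.mpr ?_
        obtain ⟨i, rfl⟩ := mem_zpowers_iff.mp hzx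
        exact ((show Commute y z' from hzc y hy).zpow_right i).eq
      have hA : IsElementaryAbelian p (zpowers z' ⊔ zpowers x) :=
        elem_sup_zpowers (Thompson.isElementaryAbelian_zpowers (hzo ▸ pow_orderOf_eq_one z')) hxp fun a ha => by
          obtain ⟨i, rfl⟩ := mem_zpowers_iff.mp ha
          exact ((show Commute x z' from hzc x (hXP hx)).zpow_right i).symm.eq
      have hAP : zpowers z' ⊔ zpowers x ≤ P := sup_le (zpowers_le.2 (z.1).2) (zpowers_le.2 (hXP hx))
      have hAc : Nat.card ↥(zpowers z' ⊔ zpowers x) = p ^ 2 := by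
        have hn : zpowers x ≤ normalizer (zpowers z' : Set G) := by
          refine (zpowers_le.2 ?_).trans (centralizer_le_normalizer _)
          rw [centralizer_zpowers]
          exact mem_centralizer_singleton_iff.mpr (hzc x (hXP hx))
        have hd : zpowers x ⊓ zpowers z' = ⊥ := by
          rcases (Nat.dvd_prime hp.out).mp ((card_dvd_of_le (inf_le_left : zpowers x ⊓ zpowers z' ≤ zpowers x)).trans
            (by rw [Nat.card_zpowers, orderOf_eq_prime hxp hx1])) with h | h
          · exact eq_bot_of_card_eq _ h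
          · have h' : zpowers x ⊓ zpowers z' = zpowers x :=
              eq_of_le_of_card_ge inf_le_left (by rw [h, Nat.card_zpowers, orderOf_eq_prime hxp hx1])
            exact absurd ((h'.ge.trans inf_le_right) (mem_zpowers x)) hzx
        have := Coprime.card_sup_mul_card_inf_of_le_normalizer hn
        rw [hd, card_bot, mul_one, Nat.card_zpowers, Nat.card_zpowers, hzo, orderOf_eq_prime hxp hx1] at this
        rw [sup_comm, this, sq]
      obtain ⟨B, hBP, hB, hAB⟩ := hβ.2.2.2 P _ hAP hA hAc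
      refine not_pRankLE_of_elem (le_inf hBP fun b hb => mem_centralizer_singleton_iff.mpr
        (elem_comm hB hb (hAB.le (mem_sup_right (mem_zpowers x))))) hB ?_
      rw [← hAc]
      exact Set.ncard_lt_ncard (SetLike.coe_ssubset_coe.mpr hAB) (Set.toFinite _)
  have hPU : InUniqueMaximal (P : Subgroup G) := unique_mono hRU hRP (pgroup_ne_top hG P.2)
  refine ⟨⟨?_, fun L hL hCL => max_eq hRU hL hM ((hCX ▸ hRC).trans hCL) (hRP.trans hPM)⟩, hPU⟩
  rw [hCX]
  refine le_max_of_le hRU hM (hRP.trans hPM) hRC ?_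
  exact minSimple_centralizer_ne_top hG hx1

end Cfsg.Agent.Lib.Uniq

namespace Cfsg.Agent.Lib.Uniq

open Subgroup
open scoped Pointwise

/-- BG 12.14. -/
theorem centralizer_sigma_unique {G : Type*} [Group G] [Finite G] (hG : IsMinSimpleOddOrder G) {M : Subgroup G}
    (hM : IsCoatom M) {p : ℕ} [Fact p.Prime] (hσ : p ∈ sigma M) {X : Subgroup G} (hXM : X ≤ M) (hX : Nat.card X = p)
    (P : Sylow p ↥(sigmaCore M)) (h : p ∈ beta M ∨ X ≤ ⁅sigmaCore M, sigmaCore M⁆) :
    (centralizer (X : Set G) ≤ M ∧ ∀ L : Subgroup G, IsCoatom L → centralizer (X : Set G) ≤ L → L = M) ∧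
      InUniqueMaximal ((P : Subgroup ↥(sigmaCore M)).map (sigmaCore M).subtype) ∧
      (P : Subgroup ↥(sigmaCore M)).map (sigmaCore M).subtype ≤ M := by
  have hσM : (sigmaCore M) ≤ M := map_subtype_le _
  obtain ⟨P₀, hP₀M, -⟩ := exists_sigma_sylow hσ
  have hP₀σ := pgroup_le_sigmaCore hG hM hσ P₀.2 hP₀M
  obtain ⟨k, hk⟩ := MulAction.exists_smul_eq ↥(sigmaCore M) (P₀.subtype hP₀σ) P
  have hQ : ((((k : G) • P₀ : Sylow p G)) : Subgroup G) = (P : Subgroup ↥(sigmaCore M)).map (sigmaCore M).subtype := by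
    rw [← hk, Sylow.smul_subtype, Sylow.coe_subtype, Sylow.coe_subgroup_smul, map_subgroupOf_eq_of_le]
    · rfl
    exact (pointwise_smul_le_pointwise_smul_iff.mpr hP₀σ).trans (Coprime.conj_smul_eq_self (le_normalizer k.2)).le
  have hQM : ((((k : G) • P₀ : Sylow p G)) : Subgroup G) ≤ M := hQ ▸ (map_subtype_le _).trans hσM
  obtain ⟨m, hm, hmX⟩ := exists_conj_le_sylow ((k : G) • P₀) hQM (IsPGroup.of_card (n := 1) (by rw [hX, pow_one])) hXM
  set X' := MulAut.conj m⁻¹ • X
  have hX'P : X' ≤ (((k : G) • P₀ : Sylow p G) : Subgroup G) := by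
    intro y hy
    rw [Coprime.mem_conj_smul, inv_inv] at hy
    simpa [mul_assoc] using hmX _ hy
  have hX'c : Nat.card X' = p := by rw [Coprime.card_conj_smul, hX]
  have hnorm : MulAut.conj m⁻¹ • ⁅(sigmaCore M), (sigmaCore M)⁆ = ⁅(sigmaCore M), (sigmaCore M)⁆ := by
    have he : MulAut.conj m⁻¹ • (sigmaCore M) = (sigmaCore M) :=
      Coprime.conj_smul_eq_self (OddLocal.le_normalizer_piCoreOf _ M (M.inv_mem hm))
    change (⁅(sigmaCore M), (sigmaCore M)⁆).map (MulAut.conj m⁻¹).toMonoidHom = _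
    rw [map_commutator]
    change ⁅MulAut.conj m⁻¹ • (sigmaCore M), MulAut.conj m⁻¹ • (sigmaCore M)⁆ = _
    rw [he]
  have h' : p ∈ beta M ∨ X' ≤ ⁅(sigmaCore M), (sigmaCore M)⁆ :=
    h.imp_right fun hX => hnorm ▸ pointwise_smul_le_pointwise_smul_iff.mpr hX
  obtain ⟨⟨hC, hu⟩, hU⟩ := centralizer_unique_of_sylow hG hM hσ _ hQM hX'P hX'c h'
  have hcent : centralizer (X' : Set G) = MulAut.conj m⁻¹ • centralizer (X : Set G) := by
    refine le_antisymm (fun y hy => ?_) fun y hy => ?_
    · rw [Coprime.mem_conj_smul, inv_inv, mem_centralizer_iff]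
      intro a ha
      have h1 := mem_centralizer_iff.mp hy (m⁻¹ * a * m) (by
        rw [SetLike.mem_coe, Coprime.mem_conj_smul, inv_inv]; simpa [mul_assoc] using ha)
      calc a * (m * y * m⁻¹) = m * ((m⁻¹ * a * m) * y) * m⁻¹ := by group
        _ = m * y * m⁻¹ * a := by rw [h1]; group
    · rw [Coprime.mem_conj_smul, inv_inv] at hy
      rw [mem_centralizer_iff]
      intro a ha
      rw [SetLike.mem_coe, Coprime.mem_conj_smul, inv_inv] at ha
      have h1 := mem_centralizer_iff.mp hy _ ha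
      calc a * y = m⁻¹ * ((m * a * m⁻¹) * (m * y * m⁻¹)) * m := by group
        _ = y * a := by rw [h1]; group
  have hmM : MulAut.conj m⁻¹ • M = M := Coprime.conj_smul_eq_self (le_normalizer (M.inv_mem hm))
  refine ⟨⟨?_, fun L hL hCL => ?_⟩, hQ ▸ hU, hQ ▸ hQM⟩
  · rw [hcent] at hC
    exact pointwise_smul_le_pointwise_smul_iff.mp (hC.trans hmM.ge)
  · have h1 := hu _ (coatom_smul m⁻¹ hL) (hcent ▸ pointwise_smul_le_pointwise_smul_iff.mpr hCL)
    exact MulAction.injective (MulAut.conj m⁻¹) (h1.trans hmM.symm)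

end Cfsg.Agent.Lib.Uniq
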