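import Cfsg.Agent.Lib.Uniq.SigmaConj
import Cfsg.Agent.Lib.Uniq.CentralizerSigma
set_option autoImplicit false

/-! BG 12.17. -/

namespace Cfsg.Agent.Lib.Uniq

open Subgroup
open scoped Pointwise commutatorElement

universe u

variable {G : Type u} [Group G] [Finite G] {M E : Subgroup G}

theorem coprime_sigmaCore_compl (hG : IsMinSimpleOddOrder G) (hM : IsCoatom M)
    (hE : IsComplIn E (sigmaCore M) M) : (Nat.card E).Coprime (Nat.card (sigmaCore M)) :=
  Nat.coprime_of_dvd fun r hr h1 h2 => by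
    haveI := Fact.mk hr
    exact compl_not_sigma hG hM hE h1 (OddLocal.piCoreOf_isPi (sigma M) M r hr h2)

/-- BG 12.17: `[M_σ, E] = M_σ`. -/
theorem commutator_sigmaCore_compl (hG : IsMinSimpleOddOrder G) (hM : IsCoatom M)
    (hE : IsComplIn E (sigmaCore M) M) : ⁅sigmaCore M, E⁆ = sigmaCore M := by
  classical
  set K := sigmaCore M with hK
  have hKM : K ≤ M := hE.2.1
  have hMK : M ≤ normalizer (K : Set G) := OddLocal.le_normalizer_piCoreOf (sigma M) M
  have hLK : ⁅K, E⁆ ≤ K := by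
    exact Coprime.commutator_le_of_le_normalizer' (hE.1.trans hMK)
  set L := ⁅K, E⁆ with hL
  have hML : M ≤ normalizer (L : Set G) := fun m hm => by
    obtain ⟨a, ha, b, hb, rfl⟩ := hE.2.2.2 m hm
    exact mul_mem (Coprime.right_le_normalizer_commutator K E ha) (Coprime.left_le_normalizer_commutator K E hb)
  set N := ⁅K, K⁆ ⊔ L with hN
  have hNK : N ≤ K := sup_le (commutator_le_self K) hLK
  have hMKK : M ≤ normalizer ((⁅K, K⁆ : Subgroup G) : Set G) := fun m hm => by
    refine Coprime.mem_normalizer_of_conj_smul_eq ?_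
    show (⁅K, K⁆).map (MulAut.conj m).toMonoidHom = _
    rw [map_commutator]
    show ⁅MulAut.conj m • K, MulAut.conj m • K⁆ = _
    rw [Coprime.conj_smul_eq_self (hMK hm)]
  have hMN : M ≤ normalizer (N : Set G) :=
    fun m hm => Coprime.mem_normalizer_of_conj_smul_eq (by
      rw [hN, show MulAut.conj m • (⁅K, K⁆ ⊔ L) = (⁅K, K⁆ ⊔ L).map (MulAut.conj m).toMonoidHom from rfl,
        Subgroup.map_sup]
      exact congrArg₂ (· ⊔ ·) (Coprime.conj_smul_eq_self (hMKK hm)) (Coprime.conj_smul_eq_self (hML hm)))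
  -- `K ≤ N`
  have hKN : K ≤ N := by
    haveI : (N.subgroupOf M).Normal := (normal_subgroupOf_iff_le_normalizer (hNK.trans hKM)).mpr hMN
    set π := QuotientGroup.mk' (N.subgroupOf M) with hπ
    have hkN : ∀ z : M, π z = 1 ↔ (z : G) ∈ N := fun z => QuotientGroup.eq_one_iff z
    have hcomm : ∀ a b : M, (a : G) ∈ K → π a * π b = π b * π a := by
      intro a b ha
      rw [← commutatorElement_eq_one_iff_mul_comm, ← map_commutatorElement, hkN]
      obtain ⟨e, he, k, hk, hbk⟩ := hE.2.2.2 b b.2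
      have heq : ((⁅a, b⁆ : M) : G) = ⁅(a : G), e⁆ * (e * ⁅(a : G), k⁆ * e⁻¹) := by
        show ⁅(a : G), (b : G)⁆ = _
        rw [hbk]
        simp only [commutatorElement_def]; group
      rw [heq]
      exact N.mul_mem (mem_sup_right (commutator_mem_commutator ha he))
        ((mem_normalizer_iff.mp (hMN (hE.1 he)) _).mp (mem_sup_left (commutator_mem_commutator ha hk)))
    have hsurj : ∀ z : M, ∃ a e : M, (a : G) ∈ K ∧ (e : G) ∈ E ∧ π z = π a * π e := by
      intro z
      obtain ⟨e, he, k, hk, hzk⟩ := hE.2.2.2 z z.2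
      refine ⟨⟨k, hKM hk⟩, ⟨e, hE.1 he⟩, hk, he, ?_⟩
      rw [hcomm ⟨k, hKM hk⟩ ⟨e, hE.1 he⟩ hk, ← map_mul]
      exact congrArg π (Subtype.ext hzk)
    -- commutators of `M` fall in the image of `E`
    set Ē := (E.subgroupOf M).map π
    have hD : (commutator ↥M).map π ≤ Ē := by
      rw [_root_.commutator_def, map_commutator, commutator_le]
      rintro _ ⟨x, -, rfl⟩ _ ⟨y, -, rfl⟩
      obtain ⟨a, e, ha, he, hx⟩ := hsurj x
      obtain ⟨b, f, hb, hf, hy⟩ := hsurj y
      have heq : ⁅π x, π y⁆ = ⁅π e, π f⁆ := by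
        have h1 : ∀ z, Commute (π a) z := fun z => by
          obtain ⟨z, rfl⟩ := QuotientGroup.mk'_surjective _ z
          exact hcomm a z ha
        have h2 : ∀ z, Commute (π b) z := fun z => by
          obtain ⟨z, rfl⟩ := QuotientGroup.mk'_surjective _ z
          exact hcomm b z hb
        rw [hx, hy, commutatorElement_def, commutatorElement_def, mul_inv_rev, mul_inv_rev]
        calc π a * π e * (π b * π f) * ((π e)⁻¹ * (π a)⁻¹) * ((π f)⁻¹ * (π b)⁻¹)
            = π a * (π b * (π e * π f * (π e)⁻¹)) * (π a)⁻¹ * (π f)⁻¹ * (π b)⁻¹ := by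
              rw [show π a * π e * (π b * π f) = π a * (π e * π b) * π f by group, (h2 (π e)).symm.eq]; group
          _ = π b * (π e * π f * (π e)⁻¹) * (π f)⁻¹ * (π b)⁻¹ := by rw [(h1 _).eq]; group
          _ = π e * π f * (π e)⁻¹ * (π f)⁻¹ := by
              rw [show π b * (π e * π f * (π e)⁻¹) * (π f)⁻¹ * (π b)⁻¹ =
                π b * (π e * π f * (π e)⁻¹ * (π f)⁻¹) * (π b)⁻¹ by group, (h2 _).eq, mul_inv_cancel_right]
      rw [heq]
      exact SetLike.le_def.mp (commutator_le_self Ē) (commutator_mem_commutator (mem_map_of_mem π he) (mem_map_of_mem π hf))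
    intro k hk
    have hk' : (⟨k, hKM hk⟩ : M) ∈ commutator ↥M := by
      have := sigmaCore_le_derived hG hM hk
      rw [← map_subtype_commutator] at this
      obtain ⟨w, hw, hwk⟩ := this
      rwa [show (⟨k, hKM hk⟩ : M) = w from Subtype.ext hwk.symm]
    obtain ⟨e, he, hek⟩ := hD (mem_map_of_mem π hk')
    have h1 : orderOf (π ⟨k, hKM hk⟩) ∣ Nat.card K :=
      (orderOf_map_dvd π _).trans (by rw [Subgroup.orderOf_mk]; exact Subgroup.orderOf_dvd_natCard K hk)
    have h2 : orderOf (π ⟨k, hKM hk⟩) ∣ Nat.card E := by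
      rw [← hek]
      exact (orderOf_map_dvd π e).trans (by
        rw [← orderOf_coe]; exact Subgroup.orderOf_dvd_natCard E he)
    exact (hkN _).mp (orderOf_eq_one_iff.mp
      (Nat.eq_one_of_dvd_coprimes (coprime_sigmaCore_compl hG hM hE) h2 h1))
  -- `K / L` is perfect and solvable
  haveI : (L.subgroupOf K).Normal := (normal_subgroupOf_iff_le_normalizer hLK).mpr (hKM.trans hML)
  haveI := solvable_of_ne_top hG (ne_top_of_le hM hKM)
  have hperf : commutator (↥K ⧸ L.subgroupOf K) = ⊤ := by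
    have h1 : commutator (↥K ⧸ L.subgroupOf K) = (commutator ↥K).map (QuotientGroup.mk' (L.subgroupOf K)) := by
      rw [_root_.commutator_def, _root_.commutator_def, map_commutator, ← MonoidHom.range_eq_map,
        QuotientGroup.range_mk']
    rw [h1, eq_top_iff]
    intro z _
    obtain ⟨z, rfl⟩ := QuotientGroup.mk'_surjective _ z
    have hz : (z : G) ∈ ((commutator ↥K) ⊔ L.subgroupOf K).map K.subtype := by
      rw [Subgroup.map_sup, map_subtype_commutator, map_subgroupOf_eq_of_le hLK]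
      exact hKN z.2
    obtain ⟨w, hw, hwz⟩ := hz
    rw [show z = w from Subtype.ext hwz.symm]
    have h2 := mem_map_of_mem (QuotientGroup.mk' (L.subgroupOf K)) hw
    rwa [Subgroup.map_sup, QuotientGroup.map_mk'_self, sup_bot_eq] at h2
  rcases subsingleton_or_nontrivial (↥K ⧸ L.subgroupOf K) with hs | hn
  · refine le_antisymm hLK fun k hk => ?_
    exact (QuotientGroup.eq_one_iff (N := L.subgroupOf K) (⟨k, hk⟩ : K)).mp (Subsingleton.elim _ _)
  · exact absurd hperf (Group.IsSolvable.commutator_lt_top_of_nontrivial _).ne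

/-- BG 12.17: `C_{M_σ}(E) ≤ M_σ'`. -/
theorem inf_centralizer_compl_le_derived (hG : IsMinSimpleOddOrder G) (hM : IsCoatom M)
    (hE : IsComplIn E (sigmaCore M) M) :
    sigmaCore M ⊓ centralizer (E : Set G) ≤ ⁅sigmaCore M, sigmaCore M⁆ := by
  classical
  set K := sigmaCore M with hK
  have hKM : K ≤ M := hE.2.1
  have hMK : M ≤ normalizer (K : Set G) := OddLocal.le_normalizer_piCoreOf (sigma M) M
  set N := ⁅K, K⁆ with hN
  have hNK : N ≤ K := commutator_le_self K
  have hMN : M ≤ normalizer (N : Set G) := fun m hm => by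
    refine Coprime.mem_normalizer_of_conj_smul_eq ?_
    show (⁅K, K⁆).map (MulAut.conj m).toMonoidHom = _
    rw [map_commutator]
    show ⁅MulAut.conj m • K, MulAut.conj m • K⁆ = _
    rw [Coprime.conj_smul_eq_self (hMK hm)]
  haveI : (N.subgroupOf M).Normal := (normal_subgroupOf_iff_le_normalizer (hNK.trans hKM)).mpr hMN
  set π := QuotientGroup.mk' (N.subgroupOf M)
  set V := (K.subgroupOf M).map π
  set A := (E.subgroupOf M).map π
  haveI : IsMulCommutative V := by
    refine ⟨⟨?_⟩⟩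
    rintro ⟨_, a, ha, rfl⟩ ⟨_, b, hb, rfl⟩
    refine Subtype.ext (show π a * π b = π b * π a from ?_)
    rw [← commutatorElement_eq_one_iff_mul_comm, ← map_commutatorElement]
    exact (QuotientGroup.eq_one_iff _).mpr (show ((⁅a, b⁆ : M) : G) ∈ N from commutator_mem_commutator ha hb)
  have hAV : A ≤ normalizer (V : Set (↥M ⧸ N.subgroupOf M)) := by
    haveI : (K.subgroupOf M).Normal := (normal_subgroupOf_iff_le_normalizer hKM).mpr hMK
    haveI : V.Normal := Subgroup.Normal.map inferInstance π (QuotientGroup.mk'_surjective _)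
    rw [normalizer_eq_top]; exact le_top
  have hcop : (Nat.card A).Coprime (Nat.card V) := by
    refine Nat.Coprime.coprime_dvd_left (card_map_dvd _ π) (Nat.Coprime.coprime_dvd_right (card_map_dvd _ π) ?_)
    rw [Coprime.card_subgroupOf hE.1, Coprime.card_subgroupOf hKM]
    exact coprime_sigmaCore_compl hG hM hE
  have hbot := Coprime.inf_centralizer_inf_commutator hAV hcop
  rintro k ⟨hk, hkE⟩
  have h1 : π ⟨k, hKM hk⟩ ∈ (V ⊓ centralizer (A : Set (↥M ⧸ N.subgroupOf M))) ⊓ ⁅V, A⁆ := by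
    refine ⟨⟨mem_map_of_mem π hk, mem_centralizer_iff.mpr ?_⟩, ?_⟩
    · rintro _ ⟨a, ha, rfl⟩
      rw [← map_mul, ← map_mul]
      exact congrArg π (Subtype.ext (mem_centralizer_iff.mp hkE a ha))
    · rw [← map_commutator]
      refine mem_map_of_mem π ?_
      have h := (commutator_sigmaCore_compl hG hM hE).ge hk
      have heq : (⁅K.subgroupOf M, E.subgroupOf M⁆).map M.subtype = ⁅K, E⁆ := by
        rw [map_commutator, map_subgroupOf_eq_of_le hKM, map_subgroupOf_eq_of_le hE.1]
      rw [← heq] at h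
      obtain ⟨w, hw, hwk⟩ := h
      rwa [show (⟨k, hKM hk⟩ : M) = w from Subtype.ext hwk.symm]
  rw [hbot, mem_bot] at h1
  exact (QuotientGroup.eq_one_iff (⟨k, hKM hk⟩ : M)).mp h1

/-- For `g ∉ M`, a `σ(M)`-subgroup of `M ∩ M^g` has no element whose centraliser lies in `M`. -/
theorem centralizer_not_le_of_inter (hG : IsMinSimpleOddOrder G) (hM : IsCoatom M) {g : G} (hg : g ∉ M) {p : ℕ}
    [Fact p.Prime] (hp : p ∈ sigma M) {X : Subgroup G} (hXp : IsPGroup p X) (hX1 : X ≠ ⊥) (hXM : X ≤ M)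
    (hXg : X ≤ MulAut.conj g • M) : ¬ centralizer (X : Set G) ≤ M := by
  intro hC
  obtain ⟨m, hm, c, hc, hmc⟩ := (S1404.result hG M hM p hp X hXp hX1 hXM).1 g⁻¹ (by
    rw [show X.map (MulAut.conj g⁻¹).toMonoidHom = MulAut.conj g⁻¹ • X from rfl, map_inv,
      pointwise_smul_subset_iff, inv_inv]
    exact hXg)
  refine hg ?_
  rw [← inv_inv g, hmc]
  exact M.inv_mem (M.mul_mem hm (hC hc))

/-- BG 12.17: the intersection of `M_σ` with a conjugate of `M`. -/
theorem sigmaCore_inter_conj (hG : IsMinSimpleOddOrder G) (hM : IsCoatom M) {g : G} (hg : g ∉ M) :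
    IsCyclic ↥(sigmaCore M ⊓ MulAut.conj g • M) ∧
      (∀ p : ℕ, p.Prime → p ∣ Nat.card ↥(sigmaCore M ⊓ MulAut.conj g • M) → p ∉ beta M) ∧
      sigmaCore M ⊓ (MulAut.conj g • M) ⊓ ⁅sigmaCore M, sigmaCore M⁆ = ⊥ := by
  classical
  set D := sigmaCore M ⊓ MulAut.conj g • M with hD
  have hKM : sigmaCore M ≤ M := map_subtype_le _
  have key : ∀ p : ℕ, p.Prime → ∀ x ∈ D, orderOf x = p →
      p ∉ beta M ∧ x ∉ ⁅sigmaCore M, sigmaCore M⁆ := by
    intro p hp x hx hxo
    haveI := Fact.mk hp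
    have hpσ : p ∈ sigma M := OddLocal.piCoreOf_isPi (sigma M) M p hp
      (hxo ▸ Subgroup.orderOf_dvd_natCard (sigmaCore M) hx.1)
    obtain ⟨P⟩ : Nonempty (Sylow p ↥(sigmaCore M)) := inferInstance
    have hXc : Nat.card (zpowers x) = p := by rw [Nat.card_zpowers, hxo]
    have hne := centralizer_not_le_of_inter hG hM hg hpσ (IsPGroup.of_card (n := 1) (by rw [hXc, pow_one]))
      (fun e => hp.ne_one (by rw [← hXc, e, card_bot])) (zpowers_le.mpr (hKM hx.1)) (zpowers_le.mpr hx.2)
    exact ⟨fun hb => hne (centralizer_sigma_unique hG hM hpσ (zpowers_le.mpr (hKM hx.1)) hXc P (Or.inl hb)).1.1,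
      fun hd => hne (centralizer_sigma_unique hG hM hpσ (zpowers_le.mpr (hKM hx.1)) hXc P
        (Or.inr (zpowers_le.mpr hd))).1.1⟩
  have hbot : D ⊓ ⁅sigmaCore M, sigmaCore M⁆ = ⊥ := by
    by_contra hne
    obtain ⟨p, hp, hd⟩ := Nat.exists_prime_and_dvd fun h => hne (card_eq_one.mp h)
    haveI := Fact.mk hp
    obtain ⟨x, hx⟩ := exists_prime_orderOf_dvd_card' p hd
    rw [← orderOf_coe] at hx
    exact (key p hp x x.2.1 hx).2 x.2.2
  refine ⟨?_, fun p hp hd => ?_, hbot⟩
  · have hcomm : IsMulCommutative ↥D := ⟨⟨fun a b => Subtype.ext (commutatorElement_eq_one_iff_mul_comm.mp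
      (mem_bot.mp (hbot ▸ (⟨commutator_le_self D (commutator_mem_commutator a.2 b.2),
        commutator_mem_commutator a.2.1 b.2.1⟩ :
        ⁅(a : G), (b : G)⁆ ∈ D ⊓ ⁅sigmaCore M, sigmaCore M⁆))))⟩⟩
    haveI := hcomm
    by_contra hnc
    obtain ⟨r, B, hr, hBD, hB, hBc⟩ := Coprime.exists_elementary_sq (A := D) hnc
    haveI := Fact.mk hr
    have hBp : IsPGroup r B := IsPGroup.of_card (n := 2) hBc
    have hrσ : r ∈ sigma M := OddLocal.piCoreOf_isPi (sigma M) M r hr
      ((dvd_pow_self r two_ne_zero).trans (hBc.symm.dvd.trans (card_dvd_of_le (hBD.trans inf_le_left))))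
    refine centralizer_not_le_of_inter hG hM hg hrσ hBp (fun e => by
      rw [e, card_bot] at hBc
      exact (Nat.one_lt_pow two_ne_zero hr.one_lt).ne hBc) ((hBD.trans inf_le_left).trans hKM)
      (hBD.trans inf_le_right)
      ((centralizer_le_normalizer _).trans (normalizer_noncyclic_le hG hM hrσ hBp ((hBD.trans inf_le_left).trans hKM)
        fun hc => ?_))
    haveI := hc
    have h2 : Monoid.exponent B ∣ r := Monoid.exponent_dvd.mpr fun a =>
      orderOf_dvd_of_pow_eq_one (Subtype.ext (hB a a.2))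
    rw [IsCyclic.exponent_eq_card, hBc] at h2
    exact (Nat.pow_lt_pow_right hr.one_lt (show 1 < 2 by omega)).not_ge
      (by rw [pow_one]; exact Nat.le_of_dvd hr.pos h2)
  · haveI := Fact.mk hp
    obtain ⟨x, hx⟩ := exists_prime_orderOf_dvd_card' p hd
    rw [← orderOf_coe] at hx
    exact (key p hp x x.2 hx).1

end Cfsg.Agent.Lib.Uniq
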