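import Cfsg.Agent.Lib.Uniq.SylowFusion
import Cfsg.Agent.Lib.Hall.PStructureNarrow
import Cfsg.Agent.Lib.Hall.Schmidt
set_option autoImplicit false

/-! `M_β` and the primes outside `β(M)`. -/

namespace Cfsg.Agent.Lib.Uniq

open Subgroup
open scoped Pointwise commutatorElement

universe u

variable {G : Type u} [Group G] [Finite G]

/-- An elementary abelian subgroup of order `p²` that is maximal gives an element with centraliser of rank two. -/
theorem exists_small_elem {R : Type u} [Group R] [Finite R] {p : ℕ} [hp : Fact p.Prime] (hR : IsPGroup p R)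
    {A : Subgroup R} (hA : IsElementaryAbelian p A) (hAc : Nat.card A = p ^ 2)
    (hmax : ∀ B : Subgroup R, IsElementaryAbelian p B → A ≤ B → B = A) :
    ∃ x : R, x ^ p = 1 ∧ PRankLE p 2 ↥(centralizer ({x} : Set R)) := by
  classical
  haveI : Nontrivial R := by
    by_contra h
    rw [not_nontrivial_iff_subsingleton] at h
    rw [Nat.card_unique] at hAc
    exact absurd hAc.symm (Nat.one_lt_pow two_ne_zero hp.out.one_lt).ne'
  obtain ⟨z, -, hzc, hzo⟩ := Thompson.exists_central_order_p hR (N := (⊤ : Subgroup R)) top_ne_bot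
  have hzp : z ^ p = 1 := hzo ▸ pow_orderOf_eq_one z
  haveI := hA.1
  have helem : ∀ (B : Subgroup R), IsElementaryAbelian p B → ∀ w : R, w ^ p = 1 → (∀ b ∈ B, b * w = w * b) →
      IsElementaryAbelian p (B ⊔ zpowers w) := by
    intro B hB w hw hc
    haveI := hB.1
    have hcl : B ⊔ zpowers w = closure ((B : Set R) ∪ {w}) := by
      rw [Subgroup.closure_union, closure_eq, zpowers_eq_closure]
    have hcomm : IsMulCommutative ↥(B ⊔ zpowers w) := by
      rw [hcl]
      refine isMulCommutative_closure ?_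
      rintro a (ha | rfl) b (hb | rfl)
      · exact setLike_mul_comm ha hb
      · exact hc a ha
      · exact (hc b hb).symm
      · rfl
    refine ⟨hcomm, fun a ha => ?_⟩
    haveI := hcomm
    rw [hcl] at ha
    induction ha using closure_induction with
    | mem u hu =>
      rcases hu with hu | rfl
      · exact hB.2 u hu
      · exact hw
    | one => exact one_pow p
    | mul u v hu hv iu iv =>
      rw [(show Commute u v from setLike_mul_comm (hcl ▸ hu : u ∈ B ⊔ zpowers w) (hcl ▸ hv : v ∈ B ⊔ zpowers w)).mul_pow, iu, iv, one_mul]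
    | inv u _ iu => rw [inv_pow, iu, inv_one]
  have hzA : z ∈ A := by
    have h := hmax _ (helem A hA z hzp fun b _ => mem_center_iff.mp hzc b) le_sup_left
    exact h ▸ mem_sup_right (mem_zpowers z)
  obtain ⟨a, haA, haz⟩ : ∃ a ∈ A, a ∉ zpowers z := by
    by_contra h
    push Not at h
    have hle : Nat.card A ≤ Nat.card (zpowers z) := card_le_of_le h
    rw [hAc, Nat.card_zpowers, hzo] at hle
    exact absurd hle (not_le.mpr (lt_self_pow₀ hp.out.one_lt one_lt_two))
  refine ⟨a, hA.2 a haA, fun B hBc hBp => ?_⟩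
  set B' := B.map (centralizer ({a} : Set R)).subtype
  have hB' : IsElementaryAbelian p B' := by
    refine ⟨?_, ?_⟩
    · refine ⟨⟨?_⟩⟩
      rintro ⟨_, x, hx, rfl⟩ ⟨_, y, hy, rfl⟩
      haveI := hBc
      have hxy : x * y = y * x := setLike_mul_comm (show x ∈ B from hx) (show y ∈ B from hy)
      exact Subtype.ext (congrArg (centralizer ({a} : Set R)).subtype hxy)
    · rintro _ ⟨x, hx, rfl⟩
      rw [← map_pow, hBp x hx, map_one]
  have h1 := helem B' hB' a (hA.2 a haA) (by
    rintro _ ⟨x, -, rfl⟩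
    exact mem_centralizer_singleton_iff.mp x.2)
  have h2 := helem _ h1 z hzp fun b _ => mem_center_iff.mp hzc b
  have hAeq : A ≤ B' ⊔ zpowers a ⊔ zpowers z := by
    haveI : (zpowers z).Normal := Thompson.normal_of_le_center (zpowers_le.mpr hzc)
    have hle : zpowers a ⊔ zpowers z ≤ A := sup_le (zpowers_le.mpr haA) (zpowers_le.mpr hzA)
    have heq : zpowers a ⊔ zpowers z = A := by
      refine eq_of_le_of_card_ge hle ?_
      have hlt : zpowers z < zpowers a ⊔ zpowers z :=
        lt_of_le_of_ne le_sup_right fun e => haz (e ▸ mem_sup_left (mem_zpowers a))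
      have := Thompson.card_mul_p_le hR hlt
      rwa [Nat.card_zpowers, hzo, ← pow_two, ← hAc] at this
    calc A = zpowers a ⊔ zpowers z := heq.symm
      _ ≤ _ := sup_le_sup_right le_sup_right _
  have h3 := hmax _ h2 hAeq
  calc Nat.card B = Nat.card B' := (card_map_of_injective (centralizer ({a} : Set R)).subtype_injective).symm
    _ ≤ Nat.card A := card_le_of_le (h3 ▸ le_sup_left.trans le_sup_left)
    _ = p ^ 2 := hAc

/-- The `p`-structure from narrow data on a Sylow subgroup. -/
theorem p_structure_small {H : Type u} [Group H] [Finite H] [Group.IsSolvable H] (hodd : Odd (Nat.card H))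
    (p : ℕ) [hp : Fact p.Prime] (hpH : p ∣ Nat.card H) (S : Sylow p H)
    (hx : ¬ PRankLE p 2 ↥(S : Subgroup H) → ∃ x : ↥(S : Subgroup H), x ^ p = 1 ∧
      PRankLE p 2 ↥(centralizer ({x} : Set ↥(S : Subgroup H))))
    (hpl : PLengthLE p 1 H) :
    (∀ q : ℕ, q.Prime → q ∣ (pPrimeCore p H).index → q ≤ p) ∧ HasNormalPComplement p ↥(commutator H) := by
  by_cases hr : PRankLE p 2 ↥(S : Subgroup H)
  · have h := Hall.p_structure_rank_two hodd p hpH S hr
    exact ⟨h.1, h.2.2.1⟩
  have hp2 : p ≠ 2 := fun h => hodd.not_two_dvd_nat (h ▸ hpH)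
  set K := pPrimeCore p H with hK
  haveI := Hall.pPrimeCore_normal (G := H) p
  set P := pCore p (H ⧸ K) with hP
  have hidx : ¬ p ∣ P.index := Hall.not_dvd_index_of_pLength_one p hpl
  obtain ⟨ι, hι⟩ := Hall.exists_pCore_embedding p S
  have hcard : Nat.card (S : Subgroup H) ≤ Nat.card P := by
    obtain ⟨j, hj⟩ := IsPGroup.iff_card.mp S.isPGroup'
    have h1 : Nat.card (S : Subgroup H) ∣ Nat.card P * (P.index * Nat.card K) := by
      rw [← mul_assoc, card_mul_index, ← index_eq_card, index_mul_card]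
      exact card_subgroup_dvd_card _
    have hcop : (p ^ j).Coprime (P.index * Nat.card K) :=
      Nat.Coprime.pow_left j (Nat.Coprime.mul_right (hp.out.coprime_iff_not_dvd.mpr hidx)
        (Hall.coprime_card_pPrimeCore p).symm)
    rw [hj] at h1
    exact Nat.le_of_dvd Nat.card_pos (hj ▸ hcop.dvd_of_dvd_mul_right h1)
  let e : P ≃* (S : Subgroup H) := MulEquiv.ofBijective ι ((Nat.bijective_iff_injective_and_card ι).mpr
    ⟨hι, le_antisymm (Nat.card_le_card_of_injective ι hι) hcard⟩)
  have hPr : ¬ PRankLE p 2 P := fun h => hr (Hall.prankLE_of_injective e.symm.toMonoidHom e.symm.injective h)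
  have hPp : IsPGroup p P := Hall.isPGroup_pCore p
  obtain ⟨x, hxp, hxC⟩ := hx hr
  obtain ⟨D⟩ := Hall.narrowData_of_small hPp hPr (e.symm x) (by rw [← map_pow, hxp, map_one])
    (Hall.prankLE_of_injective ((e.toMonoidHom.comp (centralizer ({e.symm x} : Set P)).subtype).codRestrict
      (centralizer ({x} : Set ↥(S : Subgroup H))) fun y => mem_centralizer_singleton_iff.mpr (by
        have := congrArg e (mem_centralizer_singleton_iff.mp y.2)
        rw [map_mul, map_mul, e.apply_symm_apply] at this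
        exact this))
      (fun a b h => Subtype.ext (e.injective (congrArg (fun z : ↥(centralizer ({x} : Set ↥(S : Subgroup H))) =>
        (z : ↥(S : Subgroup H))) h))) hxC)
  haveI : Group.IsSolvable (H ⧸ K) := Group.isSolvable_of_surjective (QuotientGroup.mk'_surjective K)
  have hcomm : commutator (H ⧸ K) ≤ P := by
    intro d hd
    obtain ⟨k, hk⟩ := Hall.narrowData_act_pPow hp2 hPp D (MulAut.conjNormal (H := P)) d (Or.inl hd)
    have hcen : centralizer (P : Set (H ⧸ K)) ≤ P := by
      rw [hP, ← Hall.fittingSubgroup_eq_pCore p (OddLocal.pPrimeCore_quotient_eq_bot p)]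
      exact Hall.centralizer_fittingSubgroup_le
    have hin : d ^ p ^ k ∈ P := hcen (mem_centralizer_iff.mpr fun y hy => by
      have h := congrArg Subtype.val (DFunLike.congr_fun ((map_pow _ _ _).trans hk : (MulAut.conjNormal (d ^ p ^ k) : MulAut P) = 1) (⟨y, hy⟩ : P))
      rw [MulAut.conjNormal_apply] at h
      exact (mul_inv_eq_iff_eq_mul.mp h).symm)
    rw [← QuotientGroup.eq_one_iff, ← orderOf_eq_one_iff]
    refine Nat.eq_one_of_dvd_coprimes ((hp.out.coprime_iff_not_dvd.mpr hidx).pow_left k) ?_ ?_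
    · refine orderOf_dvd_of_pow_eq_one ?_
      rw [← QuotientGroup.mk_pow, QuotientGroup.eq_one_iff]
      exact hin
    · rw [index_eq_card]; exact _root_.orderOf_dvd_natCard _
  have h := Hall.p_structure hodd p hpH hcomm fun q hq hlt b hb => by
    obtain ⟨k, hk⟩ := Hall.narrowData_act_pPow hp2 hPp D (MonoidHom.id (MulAut P)) (b ^ (p - 1)) (Or.inr ⟨b, rfl⟩)
    rw [MonoidHom.id_apply, ← pow_mul] at hk
    rw [← orderOf_eq_one_iff]
    refine Nat.eq_one_of_dvd_coprimes ?_ (orderOf_dvd_of_pow_eq_one hb) (orderOf_dvd_of_pow_eq_one hk)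
    have h3 := hp.out.two_le
    refine Nat.Coprime.mul_right ?_ (((Nat.coprime_primes hq hp.out).mpr hlt.ne').pow_right k)
    exact hq.coprime_iff_not_dvd.mpr fun h => absurd (Nat.le_of_dvd (by omega) h) (by omega)
  exact ⟨h.1, h.2.2.1⟩

lemma mem_alpha_iff {M : Subgroup G} {p : ℕ} (hp : p.Prime) : p ∈ alpha M ↔ ¬ PRankLE p 2 M :=
  ⟨fun h => h.2, fun h => ⟨hp, h⟩⟩

/-- BG 10.8 for a single prime outside `β(M)`. -/
theorem not_beta_structure (hG : IsMinSimpleOddOrder G) {M : Subgroup G} (hM : IsCoatom M) {p : ℕ}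
    [hp : Fact p.Prime] (hpM : p ∣ Nat.card M) (hβ : p ∉ beta M) :
    (∀ q : ℕ, q.Prime → q ∣ (pPrimeCore p ↥M).index → q ≤ p) ∧ HasNormalPComplement p ↥(commutator ↥M) := by
  haveI : Group.IsSolvable ↥M := solvable_of_ne_top hG hM.1
  obtain ⟨S⟩ : Nonempty (Sylow p ↥M) := inferInstance
  refine p_structure_small (odd_card hG M) p hpM S (fun hr => ?_) (pLengthLE_one_coatom hG hM p)
  have hα : p ∈ alpha M := ⟨hp.out, fun h => hr (Hall.prankLE_of_injective (S : Subgroup ↥M).subtype
    (S : Subgroup ↥M).subtype_injective h)⟩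
  obtain ⟨P₀, hP₀M, hNP₀⟩ := exists_sigma_sylow (alpha_subset_sigma hG hM hα)
  have hrG : ¬ PRankLE p 2 G := fun h => hr (Hall.prankLE_of_injective (M.subtype.comp (S : Subgroup ↥M).subtype)
    (M.subtype_injective.comp (S : Subgroup ↥M).subtype_injective) h)
  have hni : ¬ IsIdealPrime p G := fun h => hβ ⟨hα, h⟩
  simp only [IsIdealPrime, hp.out, hrG, not_false_eq_true, true_and, not_forall, not_exists, not_and] at hni
  obtain ⟨P, A, hAP, hA, hAc, hno⟩ := hni
  obtain ⟨T, hT⟩ : ∃ T : Sylow p G, (T : Subgroup G) = (S : Subgroup ↥M).map M.subtype := by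
    obtain ⟨m, hm⟩ := MulAction.exists_smul_eq ↥M (P₀.subtype hP₀M) S
    refine ⟨(m : G) • P₀, ?_⟩
    rw [← hm, Sylow.smul_subtype, Sylow.coe_subtype, Sylow.coe_subgroup_smul,
      map_subgroupOf_eq_of_le]
    · rfl
    exact (pointwise_smul_le_pointwise_smul_iff.mpr hP₀M).trans
      (Coprime.conj_smul_eq_self (le_normalizer m.2)).le
  have hA' : IsElementaryAbelian p (A.subgroupOf (P : Subgroup G)) :=
    ⟨⟨⟨fun a b => Subtype.ext (Subtype.ext (elem_comm hA a.2 b.2))⟩⟩,
      fun a ha => Subtype.ext (hA.2 _ ha)⟩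
  obtain ⟨x, hxp, hxC⟩ := exists_small_elem P.2 hA' (by rw [Coprime.card_subgroupOf hAP, hAc]) fun B hB hAB => by
    have hB' := elem_map (P : Subgroup G).subtype hB
    have hle : A ≤ B.map (P : Subgroup G).subtype := fun a ha => ⟨⟨a, hAP ha⟩, hAB ha, rfl⟩
    have heq : A = B.map (P : Subgroup G).subtype := by
      by_contra hne
      exact hno _ (map_subtype_le _) hB' (lt_of_le_of_ne hle hne)
    rw [heq, subgroupOf, comap_map_eq_self_of_injective (P : Subgroup G).subtype_injective]
  let e : ↥(P : Subgroup G) ≃* ↥(S : Subgroup ↥M) := ((P.equiv T).trans (MulEquiv.subgroupCongr hT)).trans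
    ((S : Subgroup ↥M).equivMapOfInjective M.subtype M.subtype_injective).symm
  refine ⟨e x, by rw [← map_pow, hxp, map_one], Hall.prankLE_of_injective
    ((e.symm.toMonoidHom.comp (centralizer ({e x} : Set ↥(S : Subgroup ↥M))).subtype).codRestrict
      (centralizer ({x} : Set ↥(P : Subgroup G))) fun y => mem_centralizer_singleton_iff.mpr (by
        have := congrArg e.symm (mem_centralizer_singleton_iff.mp y.2)
        rw [map_mul, map_mul, e.symm_apply_apply] at this
        exact this))
    (fun a b h => Subtype.ext (e.symm.injective (congrArg (fun z : ↥(centralizer ({x} : Set ↥(P : Subgroup G))) =>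
      (z : ↥(P : Subgroup G))) h))) hxC⟩

/-- The Sylow subgroups for `β(M)` lie in `M_β`. -/
theorem sylow_le_piCore_beta (hG : IsMinSimpleOddOrder G) {M : Subgroup G} (hM : IsCoatom M) {q : ℕ}
    [hq : Fact q.Prime] (hqβ : q ∈ beta M) (S : Sylow q ↥M) : (S : Subgroup ↥M) ≤ piCore (beta M) ↥M := by
  classical
  let I := {p : ℕ // p.Prime ∧ p ∣ Nat.card M ∧ p ∉ beta M}
  let D := commutator ↥M
  let F : I → Subgroup ↥M := fun i => (pPrimeCore i.1 ↥D).map D.subtype
  let K : Subgroup ↥M := D ⊓ ⨅ i, F i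
  haveI : ∀ i, (F i).Normal := fun i => inferInstance
  haveI : (⨅ i, F i).Normal := normal_iInf_normal inferInstance
  haveI : K.Normal := inferInstance
  refine le_trans ?_ (OddLocal.le_piCore (N := K) ?_)
  · have hSD : (S : Subgroup ↥M) ≤ D := sigma_sylow_le_commutator hG hM (alpha_subset_sigma hG hM hqβ.1) S
    refine le_inf hSD (le_iInf fun i x hx => ?_)
    obtain ⟨hip, hiM, hiβ⟩ := i.2
    haveI := Fact.mk hip
    haveI : (pResidual i.1 ↥D).Normal := inferInstance
    refine ⟨⟨x, hSD hx⟩, Hall.le_pPrimeCore (N := pResidual i.1 ↥D) ?_ (Transfer.mem_pResidual ?_), rfl⟩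
    · exact (hip.coprime_iff_not_dvd.mpr (Transfer.hasNormalPComplement_iff.mp
        (not_beta_structure hG hM hiM hiβ).2)).symm
    · obtain ⟨j, hj⟩ := IsPGroup.iff_orderOf.mp S.2 ⟨x, hx⟩
      rw [Subgroup.orderOf_mk] at hj ⊢
      rw [hj]
      refine ((Nat.coprime_primes hq.out hip).mpr fun e => hiβ (e ▸ hqβ)).pow_left j
  · intro r hr hd
    by_contra hrβ
    haveI := Fact.mk hr
    have hrM : r ∣ Nat.card M := hd.trans K.card_subgroup_dvd_card
    have hle : K ≤ F ⟨r, hr, hrM, hrβ⟩ := inf_le_right.trans (iInf_le _ _)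
    have h := hd.trans (card_dvd_of_le hle)
    rw [card_map_of_injective D.subtype_injective] at h
    exact Hall.not_dvd_card_pPrimeCore hr h

theorem beta_core_hall (hG : IsMinSimpleOddOrder G) {M : Subgroup G} (hM : IsCoatom M) :
    IsPiHallOf (beta M) (piCoreOf (beta M) M) M ∧ IsPiHall (beta M) (piCoreOf (beta M) M) := by
  have key : ∀ p : ℕ, p.Prime → p ∈ beta M → ¬ p ∣ (piCoreOf (beta M) M).relIndex M := by
    intro p hp hpβ
    haveI := Fact.mk hp
    rw [piCoreOf, relIndex, ← comap_subtype, comap_map_eq_self_of_injective M.subtype_injective]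
    obtain ⟨S⟩ : Nonempty (Sylow p ↥M) := inferInstance
    exact fun h => S.not_dvd_index (h.trans (index_dvd_of_le (sylow_le_piCore_beta hG hM hpβ S)))
  refine ⟨⟨OddLocal.piCoreOf_le _ _, OddLocal.piCoreOf_isPi _ _, key⟩, OddLocal.piCoreOf_isPi _ _, ?_⟩
  intro p hp hpβ h
  haveI := Fact.mk hp
  rw [← relIndex_mul_index (OddLocal.piCoreOf_le (beta M) M)] at h
  obtain ⟨P, hPM, -⟩ := exists_sigma_sylow (alpha_subset_sigma hG hM hpβ.1)
  exact (hp.dvd_mul.mp h).elim (key p hp hpβ) fun h' => P.not_dvd_index (h'.trans (index_dvd_of_le hPM))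

theorem sigmaCore_le_commutator (hG : IsMinSimpleOddOrder G) {M : Subgroup G} (hM : IsCoatom M) :
    piCore (sigma M) ↥M ≤ commutator ↥M := by
  set K := piCore (sigma M) ↥M
  have hcoc : (Nat.card K).Coprime (commutator ↥M).index := Nat.coprime_of_dvd fun r hr h1 h2 => by
    haveI := Fact.mk hr
    obtain ⟨T⟩ : Nonempty (Sylow r ↥M) := inferInstance
    refine T.not_dvd_index (h2.trans (index_dvd_of_le (sigma_sylow_le_commutator hG hM ?_ T)))
    exact OddLocal.piCoreOf_isPi (sigma M) M r hr (by rwa [piCoreOf, card_map_of_injective M.subtype_injective])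
  intro k hk
  refine (QuotientGroup.eq_one_iff k).mp (orderOf_eq_one_iff.mp (Nat.eq_one_of_dvd_coprimes hcoc
    ((orderOf_map_dvd (QuotientGroup.mk' (commutator ↥M)) k).trans (K.orderOf_dvd_natCard hk)) ?_))
  rw [index_eq_card]
  exact _root_.orderOf_dvd_natCard _

theorem sigmaCore_le_derived (hG : IsMinSimpleOddOrder G) {M : Subgroup G} (hM : IsCoatom M) :
    sigmaCore M ≤ ⁅M, M⁆ := by
  rw [← map_subtype_commutator]
  exact map_mono (sigmaCore_le_commutator hG hM)

theorem normalPComplement_derived (hG : IsMinSimpleOddOrder G) {M : Subgroup G} (hM : IsCoatom M) {p : ℕ}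
    [Fact p.Prime] (hpM : p ∣ Nat.card M) (hβ : p ∉ beta M) {X : Subgroup G} (hX : X ≤ ⁅M, M⁆) :
    HasNormalPComplement p ↥X := by
  rw [← map_subtype_commutator] at hX
  exact Transfer.HasNormalPComplement.of_injective
    (((commutator ↥M).equivMapOfInjective M.subtype M.subtype_injective).symm.toMonoidHom.comp (inclusion hX))
    (((commutator ↥M).equivMapOfInjective M.subtype M.subtype_injective).symm.injective.comp (inclusion_injective hX))
    (not_beta_structure hG hM hpM hβ).2

/-- Nilpotency of subgroups of `M'` of order prime to `β(M)`. -/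
theorem isNilpotent_derived (hG : IsMinSimpleOddOrder G) {M : Subgroup G} (hM : IsCoatom M) {X : Subgroup G}
    (hX : X ≤ ⁅M, M⁆) (hXβ : ∀ p : ℕ, p.Prime → p ∣ Nat.card X → p ∉ beta M) : Group.IsNilpotent X := by
  refine Hall.isNilpotent_of_forall_hasNormalPComplement fun p hp => ?_
  haveI := Fact.mk hp
  by_cases hd : p ∣ Nat.card X
  · exact normalPComplement_derived hG hM
      (hd.trans (card_dvd_of_le (hX.trans (commutator_le.mpr fun a ha b hb => by
        rw [commutatorElement_def]
        exact M.mul_mem (M.mul_mem (M.mul_mem ha hb) (M.inv_mem ha)) (M.inv_mem hb))))) (hXβ p hp hd) hX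
  · exact Transfer.hasNormalPComplement_iff.mpr fun h => hd (h.trans (card_subgroup_dvd_card _))

theorem exists_nilpotent_hall (hG : IsMinSimpleOddOrder G) {M : Subgroup G} (hM : IsCoatom M) {D : Subgroup G}
    (hD : D ≤ ⁅M, M⁆) (hDt : D ≠ ⊤) :
    ∃ H : Subgroup G, IsPiHallOf {q | q.Prime ∧ q ∉ beta M} H D ∧ Group.IsNilpotent H := by
  haveI := solvable_of_ne_top hG hDt
  obtain ⟨H, hH1, hH2⟩ := Hall.exists_piHall (G := ↥D) {q | q.Prime ∧ q ∉ beta M}
  refine ⟨H.map D.subtype, ⟨map_subtype_le _, fun p hp hd => hH1 p hp ?_, fun p hp hpπ => ?_⟩, ?_⟩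
  · rwa [card_map_of_injective D.subtype_injective] at hd
  · rw [relIndex, ← comap_subtype, comap_map_eq_self_of_injective D.subtype_injective]
    exact hH2 p hp hpπ
  · refine isNilpotent_derived hG hM ((map_subtype_le _).trans hD) fun p hp hd => (hH1 p hp ?_).2
    rwa [card_map_of_injective D.subtype_injective] at hd

end Cfsg.Agent.Lib.Uniq
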