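import Cfsg.Agent.Lib.Uniq.SupportConj
set_option autoImplicit false

/-! BG 14.5: `|M̃| = (|M_σ| - 1) [G : M]`. -/

namespace Cfsg.Agent.Lib.Uniq

open Subgroup
open scoped Pointwise commutatorElement

universe u

variable {G : Type u} [Group G] [Finite G] {M H : Subgroup G}

/-- `R(x)` does not depend on the conjugate of `M` containing `x`. -/
theorem supportR_indep (hG : IsMinSimpleOddOrder G) (hM : IsCoatom M) {g : G} (hH : H = MulAut.conj g • M)
    {x : G} (hx : x ∈ sigmaCore M) (hx' : x ∈ sigmaCore H) : supportR M x = supportR H x := by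
  classical
  by_cases hne : centralizer ({x} : Set G) ≤ M
  · have hg := conj_eq_of_mem hG hM hx hne (hH ▸ (map_subtype_le _ : sigmaCore H ≤ H) hx')
    rw [hH, Coprime.conj_smul_eq_self (le_normalizer hg)]
  · have hne' : ¬ centralizer ({x} : Set G) ≤ H := fun h => hne (by
      have hM' : M = MulAut.conj g⁻¹ • H := by rw [hH, map_inv, inv_smul_smul]
      have hg := conj_eq_of_mem hG (hH ▸ coatom_smul g hM : IsCoatom H) hx' h
        (hM' ▸ (map_subtype_le _ : sigmaCore M ≤ M) hx)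
      rwa [hM', Coprime.conj_smul_eq_self (le_normalizer hg)])
    by_cases hu : ∃! L : Subgroup G, IsCoatom L ∧ centralizer ({x} : Set G) ≤ L
    · rw [supportR, supportR, dif_pos ⟨hne, hu⟩, dif_pos ⟨hne', hu⟩]
    · rw [supportR, supportR, dif_neg fun h => hu h.2, dif_neg fun h => hu h.2]

/-- `C_G(x) = R(x) C_M(x)` with trivial intersection. -/
theorem supportR_compl (hG : IsMinSimpleOddOrder G) (hM : IsCoatom M) {x : G} (hx : x ∈ sigmaCore M) (hx1 : x ≠ 1) :
    (∀ c ∈ centralizer ({x} : Set G), ∃ r ∈ supportR M x, r⁻¹ * c ∈ M) ∧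
      ∀ r ∈ supportR M x, r ∈ M → r = 1 := by
  classical
  by_cases hne : centralizer ({x} : Set G) ≤ M
  · refine ⟨fun c hc => ⟨1, one_mem _, by simpa using hne hc⟩, fun r hr _ => (supportR_spec hG hM hx hr).2.2 hne⟩
  obtain ⟨N, ⟨hN, hCN⟩, huniq, -, hNF, -, ⟨-, -, hbot, hdec⟩, -, -⟩ :=
    OddLocal.Support.support_data hG (hdisj hG) (h30 hG) hM hx hx1 hne
  have hex : ¬ centralizer ({x} : Set G) ≤ M ∧ ∃! L : Subgroup G, IsCoatom L ∧ centralizer ({x} : Set G) ≤ L :=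
    ⟨hne, N, ⟨hN, hCN⟩, fun L hL => huniq L hL.1 hL.2⟩
  have hR : supportR M x = sigmaCore N ⊓ centralizer ({x} : Set G) := by
    rw [supportR, dif_pos hex]
    obtain ⟨h1, h2⟩ := Classical.choose_spec hex.2.exists
    rw [huniq _ h1 h2, hNF]
  rw [hR]
  refine ⟨fun c hc => ?_, fun r hr hrM => ?_⟩
  · obtain ⟨a, ha, b, hb, he⟩ := hdec c⁻¹ (inv_mem hc)
    refine ⟨b⁻¹, inv_mem hb, ?_⟩
    have hce : c = b⁻¹ * a⁻¹ := by rw [← mul_inv_rev, ← he, inv_inv]
    rw [hce, inv_inv, mul_inv_cancel_left]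
    exact M.inv_mem ha.1
  · exact mem_bot.mp (hbot ▸ (⟨⟨hrM, hr.2⟩, hr⟩ :
      r ∈ (M ⊓ centralizer ({x} : Set G)) ⊓ (sigmaCore N ⊓ centralizer ({x} : Set G))))

/-- BG 14.5 (count). -/
theorem tilde_card (hG : IsMinSimpleOddOrder G) (hM : IsCoatom M) :
    Set.ncard (tildeOf M ((sigmaCore M : Set G) \ {1})) = (Nat.card (sigmaCore M) - 1) * M.index := by
  classical
  set T := tildeOf M ((sigmaCore M : Set G) \ {1}) with hT
  -- a base conjugate for each element
  have hf : ∀ u : G, ∃ a : G, (∃ b : G, u ∈ sigmaCore (MulAut.conj b • M)) → u ∈ sigmaCore (MulAut.conj a • M) := by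
    intro u
    by_cases h : ∃ b : G, u ∈ sigmaCore (MulAut.conj b • M)
    · exact ⟨_, fun _ => h.choose_spec⟩
    · exact ⟨1, fun h' => absurd h' h⟩
  choose f hf using hf
  have hdec : ∀ (g x : G), x ∈ sigmaCore M → x ≠ 1 →
      ∃ r ∈ supportR (MulAut.conj (f (g * x * g⁻¹)) • M) (g * x * g⁻¹), g⁻¹ * r * f (g * x * g⁻¹) ∈ M := by
    intro g x hx hx1
    set u := g * x * g⁻¹ with hu
    set a := f u
    have huσ := hf u ⟨g, conj_mem_sigmaCore hG hM hx g⟩
    obtain ⟨h, hh, c, hc, he⟩ := OddLocal.SigmaPrimeElem.exists_mul_centralizer hG (coatom_smul a hM) huσ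
      (g := a * g⁻¹) (by
        rw [Coprime.mem_conj_smul, hu]
        have hxM := (map_subtype_le _ : sigmaCore M ≤ M) hx
        convert hxM using 1
        group)
    obtain ⟨r, hr, hrc⟩ := (supportR_compl hG (coatom_smul a hM) huσ (fun e => hx1 (conj_eq_one_iff.mp e))).1 c⁻¹
      (inv_mem hc)
    refine ⟨r, hr, ?_⟩
    rw [Coprime.mem_conj_smul] at hh hrc
    have h' : g⁻¹ = a⁻¹ * (h * c) := by rw [← he]; group
    rw [h']
    convert M.mul_mem hh (M.inv_mem hrc) using 1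
    group
  have hdec' : ∀ p : (G ⧸ M) × {x : sigmaCore M // x ≠ 1},
      ∃ r ∈ supportR (MulAut.conj (f (p.1.out * (p.2.1 : G) * p.1.out⁻¹)) • M) (p.1.out * (p.2.1 : G) * p.1.out⁻¹),
        p.1.out⁻¹ * r * f (p.1.out * (p.2.1 : G) * p.1.out⁻¹) ∈ M := fun p =>
    hdec p.1.out p.2.1 p.2.1.2 fun e => p.2.2 (Subtype.ext e)
  choose R hR hRM using hdec'
  have hinto : ∀ p, p.1.out * (p.2.1 : G) * p.1.out⁻¹ * R p ∈ T := by
    intro p
    set u := p.1.out * (p.2.1 : G) * p.1.out⁻¹ with hu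
    have hu1 : u ≠ 1 := fun e => p.2.2 (Subtype.ext (conj_eq_one_iff.mp e))
    have huσ := hf u ⟨_, conj_mem_sigmaCore hG hM p.2.1.2 _⟩
    set a := f u
    have hMa : MulAut.conj a⁻¹ • MulAut.conj a • M = M := by rw [map_inv, inv_smul_smul]
    have h1 := conj_mem_sigmaCore hG (coatom_smul a hM) huσ a⁻¹
    have h2 := conj_mem_supportR hG (coatom_smul a hM) huσ hu1 (hR p) a⁻¹
    rw [hMa] at h1 h2
    refine ⟨_, ⟨h1, fun e => hu1 (conj_eq_one_iff.mp e)⟩, _, h2, a, ?_⟩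
    group
  have e1 : Nat.card {x : sigmaCore M // x ≠ 1} = Nat.card (sigmaCore M) - 1 := by
    haveI := Fintype.ofFinite (sigmaCore M)
    simp [Nat.card_eq_fintype_card, Fintype.card_subtype_compl]
  rw [mul_comm, ← e1, index_eq_card, ← Nat.card_prod, ← Nat.card_coe_set_eq]
  refine (Nat.card_congr (Equiv.ofBijective (fun p => (⟨_, hinto p⟩ : T)) ⟨?_, ?_⟩)).symm
  · intro p p' h
    have h' : p.1.out * (p.2.1 : G) * p.1.out⁻¹ * R p = p'.1.out * (p'.2.1 : G) * p'.1.out⁻¹ * R p' :=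
      congrArg Subtype.val h
    have hu : p.1.out * (p.2.1 : G) * p.1.out⁻¹ = p'.1.out * (p'.2.1 : G) * p'.1.out⁻¹ := by
      by_contra hne
      exact OddLocal.Signalizer.coset_disjoint hG (hdisj hG) (h32 hG) (coatom_smul _ hM) (coatom_smul _ hM)
        (hf _ ⟨_, conj_mem_sigmaCore hG hM p.2.1.2 _⟩) (hf _ ⟨_, conj_mem_sigmaCore hG hM p'.2.1.2 _⟩)
        (fun e => p.2.2 (Subtype.ext (conj_eq_one_iff.mp e))) (fun e => p'.2.2 (Subtype.ext (conj_eq_one_iff.mp e)))
        hne _ (hR p) _ (hR p') h'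
    have hr : R p = R p' := mul_left_cancel (hu ▸ h')
    have hc : p.1 = p'.1 := by
      have h1 := hRM p
      have h2 := hRM p'
      rw [← hu, ← hr] at h2
      rw [← p.1.out_eq', ← p'.1.out_eq', QuotientGroup.eq]
      convert M.mul_mem h1 (M.inv_mem h2) using 1
      group
    refine Prod.ext hc (Subtype.ext (Subtype.ext ?_))
    rw [← hc] at hu
    exact mul_left_cancel (mul_right_cancel hu)
  · rintro ⟨z, x, ⟨hx, hx1⟩, r, hr, a, rfl⟩
    have hx1' : x ≠ 1 := hx1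
    set u := a * x * a⁻¹ with hu
    have hu1 : u ≠ 1 := fun e => hx1' (conj_eq_one_iff.mp e)
    set b := f u with hb
    have huσ : u ∈ sigmaCore (MulAut.conj b • M) := hf u ⟨a, conj_mem_sigmaCore hG hM hx a⟩
    have hr' : a * r * a⁻¹ ∈ supportR (MulAut.conj b • M) u := by
      rw [← supportR_indep hG (coatom_smul a hM) (g := b * a⁻¹)
        (by rw [← mul_smul, ← map_mul, inv_mul_cancel_right]) (conj_mem_sigmaCore hG hM hx a) huσ]
      exact conj_mem_supportR hG hM hx hx1' hr a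
    set c : G ⧸ M := ((a * r * a⁻¹ * b : G) : G ⧸ M) with hc
    obtain ⟨m, hm⟩ := QuotientGroup.mk_out_eq_mul M (a * r * a⁻¹ * b)
    rw [← hc] at hm
    obtain ⟨hcom, -, -⟩ := supportR_spec hG (coatom_smul b hM) huσ hr'
    have hx0 : c.out⁻¹ * u * c.out ∈ sigmaCore M := by
      have h1 : b⁻¹ * u * b ∈ sigmaCore M := by
        have := conj_mem_sigmaCore hG (coatom_smul b hM) huσ b⁻¹
        rwa [map_inv, inv_smul_smul, inv_inv] at this
      have h2 := (mem_normalizer_iff''.mp (OddLocal.le_normalizer_piCoreOf (sigma M) M m.2) _).mp h1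
      rw [hm]
      have h3 : (a * r * a⁻¹ * b * (m : G))⁻¹ * u * (a * r * a⁻¹ * b * (m : G)) = (m : G)⁻¹ * (b⁻¹ * u * b) * m := by
        calc _ = (m : G)⁻¹ * (b⁻¹ * ((a * r * a⁻¹)⁻¹ * (u * (a * r * a⁻¹))) * b) * m := by group
          _ = _ := by rw [hcom.eq, inv_mul_cancel_left]
      rw [h3]
      exact h2
    set p : (G ⧸ M) × {x : sigmaCore M // x ≠ 1} := (c, ⟨⟨_, hx0⟩, fun e => hu1 (by
      have e' : c.out⁻¹ * u * c.out⁻¹⁻¹ = 1 := by rw [inv_inv]; exact congrArg Subtype.val e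
      exact conj_eq_one_iff.mp e')⟩) with hp
    have hpu : p.1.out * (p.2.1 : G) * p.1.out⁻¹ = u := by rw [hp]; group
    refine ⟨p, Subtype.ext ?_⟩
    show p.1.out * (p.2.1 : G) * p.1.out⁻¹ * R p = a * (x * r) * a⁻¹
    have hRp := hR p
    have hRMp := hRM p
    rw [hpu, ← hb] at hRp hRMp
    have heq : R p = a * r * a⁻¹ := by
      have h1 : (a * r * a⁻¹)⁻¹ * R p ∈ MulAut.conj b • M := by
        rw [Coprime.mem_conj_smul]
        have h2 := M.mul_mem m.2 hRMp
        rw [show p.1 = c from rfl, hm] at h2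
        convert h2 using 1
        group
      exact (inv_mul_eq_one.mp ((supportR_compl hG (coatom_smul b hM) huσ hu1).2 _
        (mul_mem (inv_mem hr') hRp) h1)).symm
    rw [hpu, heq, hu]
    group

end Cfsg.Agent.Lib.Uniq
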