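import Cfsg.Agent.Lib.Uniq.KappaPairProps
import Cfsg.Agent.Lib.Uniq.TildeCard
set_option autoImplicit false

/-! BG 14.7, unconditional forms. -/

namespace Cfsg.Agent.Lib.Uniq

open Subgroup
open scoped Pointwise commutatorElement

universe u

variable {G : Type u} [Group G] [Finite G] {M N K U : Subgroup G}

theorem h77 (hG : IsMinSimpleOddOrder G) : ∀ L : Subgroup G, IsCoatom L →
    Set.ncard (tildeOf L ((sigmaCore L : Set G) \ {1})) = (Nat.card (sigmaCore L) - 1) * L.index :=
  fun _ hL => tilde_card hG hL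

/-- BG 14.7: the pair belonging to a Hall `κ(M)`-subgroup. -/
theorem exists_pair (hG : IsMinSimpleOddOrder G) (hM : IsCoatom M) (hK : IsPiHallOf (kappa M) K M) (hK1 : K ≠ ⊥) :
    ∃ N : Subgroup G, IsKappaPair M K N :=
  exists_kappa_pair hG (h77 hG) hM hK hK1

/-- S1351: Hall `κ(M)`-subgroups are cyclic. -/
theorem kappa_hall_cyclic (hG : IsMinSimpleOddOrder G) (hM : IsCoatom M) (hK : IsPiHallOf (kappa M) K M) :
    IsCyclic K := by
  rcases eq_or_ne K ⊥ with rfl | hK1
  · infer_instance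
  · obtain ⟨N, h⟩ := exists_pair hG hM hK hK1
    exact (h.cyclic_and_tau_one hG (h77 hG)).1

theorem isP1_iff (hG : IsMinSimpleOddOrder G) (hM : IsCoatom M) (hKU : IsSigmaDecomposition M K U) :
    IsP1 M ↔ U = ⊥ := by
  constructor
  · intro hP1
    by_contra hU1
    obtain ⟨r, hr, hrd⟩ := Nat.exists_prime_and_dvd (mt card_eq_one.mp hU1)
    obtain ⟨hσ, hκ⟩ := OddLocal.UPart.prime_U hG hM hKU hr hrd
    exact hκ (hP1 r hr (hrd.trans (card_dvd_of_le hKU.compl.1)) hσ)
  · rintro rfl q hq hd hσ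
    have hle : M ≤ K ⊔ sigmaCore M := fun m hm => by
      obtain ⟨a, ha, b, hb, rfl⟩ := hKU.compl.2.2.2 m hm
      rw [mem_bot] at ha
      rwa [ha, one_mul]
    rcases prime_dvd_sup (hKU.hall.1.trans (OddLocal.le_normalizer_piCoreOf (sigma M) M)) hq
      (hd.trans (card_dvd_of_le hle)) with h | h
    · exact hKU.hall.2.1 q hq h
    · exact absurd (OddLocal.piCoreOf_isPi (sigma M) M q hq h) hσ

/-- BG 14.7 (d): for type P₁ the fixed group has prime order, and for type P₂ the Hall subgroup. -/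
theorem IsKappaPair.prime_of_isP1 (hG : IsMinSimpleOddOrder G) (h : IsKappaPair M K N) (hP1 : IsP1 M) :
    (Nat.card ↥(sigmaCore M ⊓ centralizer (K : Set G))).Prime :=
  prime_of_not_isP1 hG h.coatomN h.hallN (star_ne_bot hG h.coatomM h.hallM h.K_ne)
    ((h.not_both_isP1 hG (h77 hG)).resolve_left fun h' => h' hP1)

/-- `Ẑ` is nonempty. -/
theorem IsKappaPair.zHat_nonempty (hG : IsMinSimpleOddOrder G) (h : IsKappaPair M K N) :
    ((↑(K ⊔ (sigmaCore M ⊓ centralizer (K : Set G))) : Set G) \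
      ((K : Set G) ∪ ↑(sigmaCore M ⊓ centralizer (K : Set G)))).Nonempty := by
  rw [Set.nonempty_iff_ne_empty]
  intro he
  have h1 := (h.count hG).2
  rw [he] at h1
  simp at h1

/-- The partner is unique. -/
theorem IsKappaPair.unique (hG : IsMinSimpleOddOrder G) (h : IsKappaPair M K N) {L : Subgroup G}
    (h' : IsKappaPair M K L) : L = N := by
  rcases h.member_cases hG (h'.memberN hG) with e | e
  · exact absurd (show L = MulAut.conj (1 : G) • M by rw [e, map_one, one_smul]) (h'.not_conj hG 1)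
  · exact e

end Cfsg.Agent.Lib.Uniq
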