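import Cfsg.Agent.Lib.Uniq.Theorem
import Cfsg.Agent.Lib.Hall.RankTwoNilpotent
set_option autoImplicit false

/-! Narrow Fitting subgroups in a minimal simple group of odd order. -/

namespace Cfsg.Agent.Lib.Uniq

open Subgroup
open scoped Pointwise commutatorElement

universe u

theorem narrowFitting {G : Type u} [Group G] [Finite G] (hG : IsMinSimpleOddOrder G) : NarrowFitting G := by
  intro Y hY hr
  haveI := solvable_of_ne_top hG hY
  have hr' : RankLE 2 ↥(fittingSubgroup ↥Y) := fun q hq =>
    Hall.prankLE_of_injective (equivMapOfInjective (fittingSubgroup ↥Y) Y.subtype Y.subtype_injective).toMonoidHom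
      (MulEquiv.injective _) (hr q hq)
  have h := map_mono (f := Y.subtype) (Hall.commutator_le_fitting (odd_card hG Y) hr')
  rwa [map_subtype_commutator] at h

end Cfsg.Agent.Lib.Uniq
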