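import Cfsg.Agent.Lib.Uniq.Sigma
import Cfsg.Agent.Lib.Uniq.Narrow
set_option autoImplicit false

/-! `M_α` and `M_σ` are Hall subgroups (BG 10.2). -/

namespace Cfsg.Agent.Lib.Uniq

open Subgroup
open scoped Pointwise commutatorElement
open Cfsg.Agent.Lib.OddLocal

universe u

variable {G : Type u} [Group G] [Finite G]

theorem alpha_subset_sigma (hG : IsMinSimpleOddOrder G) {M : Subgroup G} (hM : IsCoatom M) :
    alpha M ⊆ sigma M := by
  rintro p ⟨hp, hr⟩
  haveI := Fact.mk hp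
  obtain ⟨E, hEM, hE, hEc⟩ := elem_of_not_pRankLE hr
  refine ⟨hp, dvd_trans ?_ (card_dvd_of_le hEM), ?_⟩
  · rw [hEc]; exact dvd_pow_self p (by norm_num)
  obtain ⟨S, hS⟩ := ((elem_isPGroup hE).comap_subtype (K := M)).exists_le_sylow
  have hES : E ≤ (S : Subgroup M).map M.subtype := fun x hx => ⟨⟨x, hEM hx⟩, hS hx, rfl⟩
  exact ⟨S, normalizer_unique_le hG (unique_mono (unique_elem_three hG (narrowFitting hG) hE hEc.ge) hES
    (ne_top_of_le hM (map_subtype_le _))) hM (map_subtype_le _)⟩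

/-- A Sylow subgroup of `M` for a prime of `σ(M)` lies in the derived group of `M`. -/
theorem sigma_sylow_le_commutator (hG : IsMinSimpleOddOrder G) {M : Subgroup G} (hM : IsCoatom M)
    {p : ℕ} [hp : Fact p.Prime] (h : p ∈ sigma M) (S : Sylow p M) : (S : Subgroup M) ≤ commutator ↥M := by
  obtain ⟨P, hPM, hNP⟩ := exists_sigma_sylow h
  have hcf : Transfer.ControlsFusion M (P : Subgroup G) := by
    intro x hx g hg
    by_cases hx1 : x = 1
    · exact ⟨1, one_mem _, by simp [hx1]⟩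
    have hz : zpowers x ≤ (P : Subgroup G) := zpowers_le.mpr hx
    obtain ⟨c, hc, hm⟩ := conj_transitive hG (narrowFitting hG) hM P hPM hNP (P.2.to_le hz)
      (fun e => hx1 (mem_bot.mp (e ▸ mem_zpowers x))) (g := g⁻¹) (h := 1)
      (fun y hy => by
        obtain ⟨i, rfl⟩ := mem_zpowers_iff.mp hy
        rw [inv_inv, ← conj_zpow]
        exact zpow_mem (hPM hg) i)
      (fun y hy => by simpa using hPM (hz hy))
    rw [inv_one, one_mul] at hm
    refine ⟨(c * g⁻¹)⁻¹, inv_mem hm, ?_⟩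
    have hcx : c⁻¹ * x * c = x := by
      rw [mul_assoc, mem_centralizer_iff.mp hc x (mem_zpowers x), ← mul_assoc, inv_mul_cancel, one_mul]
    calc (c * g⁻¹)⁻¹ * x * ((c * g⁻¹)⁻¹)⁻¹ = g * (c⁻¹ * x * c) * g⁻¹ := by group
      _ = g * x * g⁻¹ := by rw [hcx]
  have htop : commutator G = ⊤ :=
    (hG.2.1.eq_bot_or_eq_top_of_normal (commutator G) (Subgroup.commutator_normal ⊤ ⊤)).resolve_left
      fun e => hG.2.2.1 ⟨⟨fun a b => commutatorElement_eq_one_iff_mul_comm.mp
        (mem_bot.mp (e ▸ commutator_mem_commutator (mem_top a) (mem_top b)))⟩⟩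
  have h1 := Transfer.commutator_inf_eq_of_controlsFusion P hPM hcf
  rw [htop, top_inf_eq] at h1
  have h2 : ((P.subtype hPM : Sylow p M) : Subgroup M) ≤ commutator ↥M := by
    intro x hx
    have h3 : (x : G) ∈ ⁅M, M⁆ := (h1.le hx).1
    rw [← map_subtype_commutator] at h3
    obtain ⟨y, hy, hyx⟩ := h3
    exact M.subtype_injective hyx ▸ hy
  obtain ⟨g, hg⟩ := MulAction.exists_smul_eq M (P.subtype hPM) S
  rw [← hg]
  rintro _ ⟨y, hy, rfl⟩
  exact (Subgroup.commutator_normal ⊤ ⊤ : (commutator ↥M).Normal).conj_mem y (h2 hy) g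

theorem pi_piCore_comap {H : Type*} [Group H] [Finite H] (π : Set ℕ) {q : ℕ} [hq : Fact q.Prime] (hqπ : q ∈ π)
    (K : Subgroup H) [K.Normal] (hK : ∀ r : ℕ, r.Prime → r ∣ Nat.card K → r ∈ π) :
    (pCore q (H ⧸ K)).comap (QuotientGroup.mk' K) ≤ piCore π H := by
  haveI := Hall.pCore_normal (G := H ⧸ K) q
  refine le_piCore fun r hr hd => ?_
  set T := (pCore q (H ⧸ K)).comap (QuotientGroup.mk' K)
  have h1 := Coprime.card_map_mk' K T
  rw [map_comap_eq_self_of_surjective (QuotientGroup.mk'_surjective _)] at h1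
  rw [← h1] at hd
  rcases hr.dvd_mul.mp hd with h | h
  · obtain ⟨k, hk⟩ := IsPGroup.iff_card.mp (Hall.isPGroup_pCore (G := H ⧸ K) q)
    exact (Nat.prime_dvd_prime_iff_eq hr hq.out).mp (hr.dvd_of_dvd_pow (hk ▸ h)) ▸ hqπ
  · exact hK r hr (h.trans (card_dvd_of_le inf_le_right))

theorem prankLE_of_not_dvd {H : Type*} [Group H] [Finite H] {q k : ℕ} [hq : Fact q.Prime]
    (h : ¬ q ∣ Nat.card H) : PRankLE q k H := by
  intro A _ hA
  obtain ⟨i, hi⟩ := IsPGroup.iff_card.mp (Hall.isPGroup_of_pow_eq_one hA)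
  rcases eq_or_ne i 0 with rfl | hi0
  · rw [hi, pow_zero]; exact Nat.one_le_pow _ _ hq.out.pos
  · exact absurd ((dvd_pow_self q hi0).trans (hi ▸ A.card_subgroup_dvd_card)) h

/-- The derived group of `M / O_α(M)` is nilpotent. -/
theorem commutator_quotient_alpha (hG : IsMinSimpleOddOrder G) {M : Subgroup G} (hM : IsCoatom M) :
    commutator (↥M ⧸ piCore (alpha M) ↥M) ≤ fittingSubgroup (↥M ⧸ piCore (alpha M) ↥M) := by
  haveI := solvable_of_ne_top hG hM.1
  set K := piCore (alpha M) ↥M with hKdef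
  have hodd : Odd (Nat.card (↥M ⧸ K)) :=
    (odd_card hG M).of_dvd_nat (K.index_eq_card ▸ K.index_dvd_card)
  refine Hall.commutator_le_fitting hodd fun q hq => ?_
  haveI := Fact.mk hq
  by_cases hqa : q ∈ alpha M
  · refine prankLE_of_not_dvd fun hd => ?_
    obtain ⟨x, hx⟩ := exists_prime_orderOf_dvd_card' q hd
    have h1 := Hall.mem_pCore_of_mem_fitting (p := q) x.2 ⟨1, by rw [orderOf_coe, hx, pow_one]⟩
    have h2 : pCore q (↥M ⧸ K) = ⊥ := by
      rw [← map_comap_eq_self_of_surjective (QuotientGroup.mk'_surjective K) (pCore q (↥M ⧸ K)),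
        Subgroup.map_eq_bot_iff, QuotientGroup.ker_mk']
      exact pi_piCore_comap (alpha M) hqa K (piCore_isPi _)
    rw [h2, mem_bot] at h1
    have : x = 1 := Subtype.ext h1
    rw [this, orderOf_one] at hx
    exact hq.ne_one hx.symm
  · refine Hall.prankLE_of_injective (fittingSubgroup (↥M ⧸ K)).subtype (Subgroup.subtype_injective _) ?_
    refine pRankLE_quotient K ?_ (by by_contra h; exact hqa ⟨hq, h⟩)
    exact (hq.coprime_iff_not_dvd.mpr fun h => hqa (piCore_isPi _ q hq h)).symm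

/-- For `α(M) ⊆ π ⊆ σ(M)`, `O_π(M)` is a Hall subgroup. -/
theorem sylow_le_piCore (hG : IsMinSimpleOddOrder G) {M : Subgroup G} (hM : IsCoatom M) {π : Set ℕ}
    (hαπ : alpha M ⊆ π) (hπσ : π ⊆ sigma M) {p : ℕ} [hp : Fact p.Prime] (hpπ : p ∈ π) (S : Sylow p M) :
    (S : Subgroup M) ≤ piCore π ↥M := by
  set K := piCore (alpha M) ↥M
  intro x hx
  refine pi_piCore_comap π hpπ K (fun r hr hd => hαπ (piCore_isPi _ r hr hd)) ?_
  have h1 : QuotientGroup.mk' K x ∈ commutator (↥M ⧸ K) := by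
    have := mem_map_of_mem (QuotientGroup.mk' K) (sigma_sylow_le_commutator hG hM (hπσ hpπ) S hx)
    rw [commutator_def, map_commutator] at this
    exact commutator_mono le_top le_top this
  obtain ⟨k, hk⟩ := S.2 ⟨x, hx⟩
  refine Hall.mem_pCore_of_mem_fitting (commutator_quotient_alpha hG hM h1) ?_
  obtain ⟨j, -, hj⟩ := (Nat.dvd_prime_pow hp.out).mp
    (orderOf_dvd_of_pow_eq_one (x := QuotientGroup.mk' K x) (n := p ^ k) (by
      rw [← map_pow, ← SubmonoidClass.coe_pow (⟨x, hx⟩ : (S : Subgroup M)) (p ^ k), hk]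
      exact map_one _))
  exact ⟨j, hj⟩

theorem not_dvd_index_piCore (hG : IsMinSimpleOddOrder G) {M : Subgroup G} (hM : IsCoatom M) {π : Set ℕ}
    (hαπ : alpha M ⊆ π) (hπσ : π ⊆ sigma M) {p : ℕ} [Fact p.Prime] (hpπ : p ∈ π) :
    ¬ p ∣ (piCore π ↥M).index := by
  obtain ⟨S⟩ : Nonempty (Sylow p M) := inferInstance
  exact fun h => S.not_dvd_index (h.trans (index_dvd_of_le (sylow_le_piCore hG hM hαπ hπσ hpπ S)))

theorem not_dvd_relIndex_core (hG : IsMinSimpleOddOrder G) {M : Subgroup G} (hM : IsCoatom M) {π : Set ℕ}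
    (hαπ : alpha M ⊆ π) (hπσ : π ⊆ sigma M) {p : ℕ} [Fact p.Prime] (hpπ : p ∈ π) :
    ¬ p ∣ ((piCore π ↥M).map M.subtype).relIndex M ∧ ¬ p ∣ ((piCore π ↥M).map M.subtype).index := by
  have h1 := not_dvd_index_piCore hG hM hαπ hπσ hpπ
  have hrel : ((piCore π ↥M).map M.subtype).relIndex M = (piCore π ↥M).index := by
    rw [relIndex, ← comap_subtype, comap_map_eq_self_of_injective M.subtype_injective]
  refine ⟨hrel ▸ h1, fun h => ?_⟩
  rw [← relIndex_mul_index (map_subtype_le (H := M) (piCore π ↥M)), hrel] at h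
  obtain ⟨P, hPM, -⟩ := exists_sigma_sylow (hπσ hpπ)
  exact ((Fact.out : p.Prime).dvd_mul.mp h).elim h1 fun h2 => P.not_dvd_index (h2.trans (index_dvd_of_le hPM))

/-- `M / M_α` has rank at most two. -/
theorem rankLE_quotient_alpha (hG : IsMinSimpleOddOrder G) {M : Subgroup G} (hM : IsCoatom M) : RankLE 2 (↥M ⧸ piCore (alpha M) ↥M) := by
  intro q hq
  haveI := Fact.mk hq
  by_cases hqa : q ∈ alpha M
  · exact prankLE_of_not_dvd fun h => not_dvd_index_piCore hG hM subset_rfl (alpha_subset_sigma hG hM) hqa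
      ((piCore (alpha M) ↥M).index_eq_card ▸ h)
  · exact pRankLE_quotient _ (hq.coprime_iff_not_dvd.mpr fun h => hqa (piCore_isPi _ q hq h)).symm
      (by by_contra h; exact hqa ⟨hq, h⟩)

end Cfsg.Agent.Lib.Uniq
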