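import Cfsg.Agent.Lib.Uniq.Alpha
import Cfsg.Agent.Lib.Thompson.Elementary
import Cfsg.Agent.Lib.Coprime.Action
import Cfsg.Agent.S1443
set_option autoImplicit false

/-! Centralisers in `M_α` of rank two (BG 10.4). -/

namespace Cfsg.Agent.Lib.Uniq

open Subgroup
open scoped Pointwise commutatorElement
open Cfsg.Agent.Lib.OddLocal

universe u

variable {G : Type u} [Group G] [Finite G]

lemma alphaCore_isPi (M : Subgroup G) : ∀ p : ℕ, p.Prime → p ∣ Nat.card (alphaCore M) → p ∈ alpha M :=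
  piCoreOf_isPi (alpha M) M

/-- Every Sylow subgroup of `M_α` has rank at least three. -/
theorem not_pRankLE_sylow_alphaCore (hG : IsMinSimpleOddOrder G) {M : Subgroup G} (hM : IsCoatom M)
    {p : ℕ} [hp : Fact p.Prime] (ha : p ∈ alpha M) (S : Sylow p ↥(alphaCore M)) :
    ¬ PRankLE p 2 ↥((S : Subgroup (alphaCore M)).map (alphaCore M).subtype) := by
  obtain ⟨E, hEM, hE, hEc⟩ := elem_of_not_pRankLE ha.2
  have hEK : E ≤ alphaCore M := by
    intro x hx
    refine ⟨⟨x, hEM hx⟩, ?_, rfl⟩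
    have h1 : ¬ p ∣ Nat.card (↥M ⧸ piCore (alpha M) ↥M) := by
      rw [← index_eq_card]
      exact not_dvd_index_piCore hG hM subset_rfl (alpha_subset_sigma hG hM) ha
    refine (QuotientGroup.eq_one_iff _).mp (orderOf_eq_one_iff.mp ?_)
    refine Nat.eq_one_of_dvd_coprimes (hp.out.coprime_iff_not_dvd.mpr h1)
      (orderOf_dvd_of_pow_eq_one ?_) (orderOf_dvd_natCard _)
    rw [← QuotientGroup.mk_pow, show (⟨x, hEM hx⟩ : M) ^ p = 1 from Subtype.ext (hE.2 x hx)]
    rfl
  obtain ⟨T, hT⟩ := ((elem_isPGroup hE).comap_subtype (K := alphaCore M)).exists_le_sylow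
  obtain ⟨g, hg⟩ := MulAction.exists_smul_eq ↥(alphaCore M) T S
  refine not_pRankLE_of_elem (E := E.map (MulAut.conj (g : G)).toMonoidHom) ?_ (elem_map _ hE) ?_
  · rintro _ ⟨x, hx, rfl⟩
    rw [← hg]
    exact ⟨_, ⟨⟨x, hEK hx⟩, hT hx, rfl⟩, rfl⟩
  · rw [card_map_of_injective (f := (MulAut.conj (g : G)).toMonoidHom) (MulAut.conj _).injective, hEc]
    exact Nat.pow_lt_pow_right hp.out.one_lt (Nat.lt_succ_self 2)

/-- BG 10.4. -/
theorem unique_centralizer_alpha (hG : IsMinSimpleOddOrder G) {M : Subgroup G} (hM : IsCoatom M)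
    {X : Subgroup G} (hXM : X ≤ M) (hXα : ∀ p : ℕ, p.Prime → p ∣ Nat.card X → p ∉ alpha M)
    (hr : ¬ RankLE 1 ↥(alphaCore M ⊓ centralizer (X : Set G))) :
    InUniqueMaximal (M ⊓ centralizer (X : Set G)) := by
  obtain ⟨p, hp, hrp⟩ : ∃ p : ℕ, p.Prime ∧ ¬ PRankLE p 1 ↥(alphaCore M ⊓ centralizer (X : Set G)) := by
    simpa only [RankLE, not_forall, exists_prop] using hr
  haveI := Fact.mk hp
  have hle : alphaCore M ≤ M := map_subtype_le _
  have htop : M ⊓ centralizer (X : Set G) ≠ ⊤ := ne_top_of_le hM inf_le_left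
  obtain ⟨A, hA, hAe, hAc⟩ := elem_of_not_pRankLE hrp
  obtain ⟨hAK, hAX⟩ := le_inf_iff.mp hA
  have ha : p ∈ alpha M := by
    refine alphaCore_isPi M p hp (dvd_trans ?_ (card_dvd_of_le hAK))
    rw [hAc]; exact dvd_pow_self p (by norm_num)
  haveI := solvable_of_ne_top hG (ne_top_of_le hM hle)
  obtain ⟨S, hAS, hXS⟩ := Coprime.exists_invariant_sylow_ge
    (hXM.trans (show M ≤ normalizer (alphaCore M : Set G) from le_normalizer_piCoreOf (alpha M) M))
    (Nat.coprime_of_dvd fun q hq h1 h2 => hXα q hq h1 (alphaCore_isPi M q hq h2))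
    (Or.inr inferInstance) hAK (elem_isPGroup hAe)
    ((le_centralizer_iff.mp hAX).trans (centralizer_le_normalizer _))
  set P := (S : Subgroup (alphaCore M)).map (alphaCore M).subtype
  have hP3 : ¬ PRankLE p 2 P := not_pRankLE_sylow_alphaCore hG hM ha S
  obtain ⟨E, hEP, hE, hEc⟩ := elem_of_not_pRankLE hP3
  have hEU := unique_elem_three hG (narrowFitting hG) hE hEc.ge
  have hP : P ≤ M := (map_subtype_le _).trans hle
  by_cases hfix : ∀ x ∈ P ⊓ centralizer (A : Set G), orderOf x = p → X ≤ centralizer ({x} : Set G)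
  · have hcop : (Nat.card X).Coprime p :=
      (hp.coprime_iff_not_dvd.mpr fun h => hXα p hp h ha).symm
    have hXP := Cfsg.Agent.S1443.result p (ne_two_of_rank hG hP3) P A X (S.2.map _) hAS hAe hXS hcop hfix
    exact unique_mono hEU (le_inf (hEP.trans hP) (hEP.trans (le_centralizer_iff.mp hXP))) htop
  · push Not at hfix
    obtain ⟨x, ⟨-, hxA⟩, hxo, hxX⟩ := hfix
    have hx1 : x ∉ A := fun h => hxX fun y hy =>
      mem_centralizer_singleton_iff.mpr (mem_centralizer_iff.mp (hAX h) y hy)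
    have hxp : x ^ p = 1 := hxo ▸ pow_orderOf_eq_one x
    have hE' := Thompson.isElementaryAbelian_sup hAe (Thompson.isElementaryAbelian_zpowers hxp) (by
      intro a haA b hb
      obtain ⟨i, rfl⟩ := mem_zpowers_iff.mp hb
      exact mem_centralizer_iff.mp ((centralizer (A : Set G)).zpow_mem hxA i) a haA)
    have hlt : Nat.card A < Nat.card (A ⊔ zpowers x : Subgroup G) :=
      (Set.toFinite _).card_lt_card (SetLike.coe_ssubset_coe.2 (lt_of_le_of_ne le_sup_left fun e =>
        hx1 (e ▸ mem_sup_right (mem_zpowers x))))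
    have hC3 : ¬ PRankLE p 2 ↥(centralizer (A : Set G)) :=
      not_pRankLE_of_elem (sup_le (comm_le_centralizer hAe.1) (zpowers_le.mpr hxA)) hE' (hAc ▸ hlt)
    refine unique_mono (unique_of_rank_three' hG (elem_isPGroup hE) hE.1
      (not_pRankLE_of_elem le_rfl hE (hEc ▸ Nat.pow_lt_pow_right hp.one_lt (Nat.lt_succ_self 2))) hEU
      (not_pRankLE_one le_rfl hAe hAc.ge) hC3) (le_inf (hAK.trans hle) hAX) htop

end Cfsg.Agent.Lib.Uniq
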