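import Cfsg.Agent.Lib.Uniq.AlphaCentral
set_option autoImplicit false

/-! BG 10.5: central elements for primes outside `σ(M)`. -/

namespace Cfsg.Agent.Lib.Uniq

open Subgroup
open scoped Pointwise commutatorElement
open Cfsg.Agent.Lib.OddLocal

universe u

variable {G : Type u} [Group G] [Finite G]

lemma centralizer_zpowers (x : G) : centralizer (zpowers x : Set G) = centralizer {x} := by
  refine le_antisymm (centralizer_le (Set.singleton_subset_iff.mpr (mem_zpowers x))) ?_
  exact le_centralizer_iff.mp (zpowers_le.mpr (mem_centralizer_iff.mpr fun y hy =>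
    mem_centralizer_singleton_iff.mp hy))

/-- An odd group of rank at most one has cyclic Sylow subgroups. -/
theorem isZGroup_of_rankLE_one {K : Subgroup G} (hodd : Odd (Nat.card K)) (hr : RankLE 1 K) : IsZGroup ↥K := by
  refine ⟨fun q hq S => ?_⟩
  haveI := Fact.mk hq
  rcases eq_or_ne q 2 with rfl | hq2
  · have h : (S : Subgroup K) = ⊥ := by
      obtain ⟨i, hi⟩ := IsPGroup.iff_card.mp S.2
      refine card_eq_one.mp ?_
      rcases eq_or_ne i 0 with rfl | hi0
      · exact hi
      · exact absurd ((dvd_pow_self 2 hi0).trans (hi ▸ (S : Subgroup K).card_subgroup_dvd_card))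
          hodd.not_two_dvd_nat
    haveI : Subsingleton ↥(S : Subgroup K) := by rw [h]; exact inferInstance
    infer_instance
  by_contra hnc
  have hnc' : ¬ IsCyclic ↥((S : Subgroup K).map K.subtype) := fun h => hnc
    (isCyclic_of_surjective _ ((S : Subgroup K).equivMapOfInjective K.subtype K.subtype_injective).symm.surjective)
  exact not_isCyclic_two hq2 (S.2.map _) hnc' fun E hE hEp => by
    refine Hall.prankLE_of_injective (inclusion (map_subtype_le (S : Subgroup K))) (inclusion_injective _)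
      (hr q hq) E hE hEp

/-- BG 10.5. -/
theorem exists_central_element (hG : IsMinSimpleOddOrder G) {M : Subgroup G} (hM : IsCoatom M)
    {p : ℕ} [hp : Fact p.Prime] (hpM : p ∣ Nat.card M) (hσ : p ∉ sigma M) (P : Sylow p M) :
    ∃ x : G, x ∈ ((center ↥(P : Subgroup M)).map (P : Subgroup M).subtype).map M.subtype ∧ orderOf x = p ∧
      RankLE 1 ↥(alphaCore M ⊓ centralizer ({x} : Set G)) ∧
      ¬ (centralizer ({x} : Set G) ≤ M ∧ ∀ L : Subgroup G, IsCoatom L → centralizer ({x} : Set G) ≤ L → L = M) := by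
  set P' := (P : Subgroup M).map M.subtype
  set Z := ((center ↥(P : Subgroup M)).map (P : Subgroup M).subtype).map M.subtype
  have hZP : Z ≤ P' := map_mono (map_subtype_le _)
  have hM1 : M ≠ ⊥ := fun e => by
    rw [e, card_bot] at hpM
    exact hp.out.ne_one (Nat.dvd_one.mp hpM)
  obtain ⟨g, hg, hgM⟩ : ∃ g ∈ normalizer (P' : Set G), g ∉ M :=
    SetLike.not_le_iff_exists.mp fun h => hσ ⟨hp.out, hpM, P, h⟩
  -- a central element of order `p`
  haveI : Nontrivial ↥(P : Subgroup M) := (P : Subgroup M).nontrivial_iff_ne_bot.mpr (P.ne_bot_of_dvd_card hpM)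
  haveI := P.2.center_nontrivial
  obtain ⟨z, hz⟩ := exists_prime_orderOf_dvd_card' (G := center ↥(P : Subgroup M)) p (by
    obtain ⟨i, hi⟩ := IsPGroup.iff_card.mp (P.2.to_subgroup (center ↥(P : Subgroup M)))
    have hi0 : i ≠ 0 := fun h => (Finite.one_lt_card (α := center ↥(P : Subgroup M))).ne' (by rw [hi, h, pow_zero])
    exact hi ▸ dvd_pow_self p hi0)
  let x₀ : G := ((z : ↥(P : Subgroup M)) : M)
  have hx₀ : x₀ ∈ Z := ⟨_, ⟨_, z.2, rfl⟩, rfl⟩
  have hx₀o : orderOf x₀ = p := by simp only [x₀, orderOf_coe, hz]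
  by_contra hno
  push Not at hno
  have key : ∀ x : G, x ∈ Z → orderOf x = p →
      centralizer ({x} : Set G) ≤ M ∧ ∀ L : Subgroup G, IsCoatom L → centralizer ({x} : Set G) ≤ L → L = M := by
    intro x hx hxo
    by_cases hr : RankLE 1 ↥(alphaCore M ⊓ centralizer ({x} : Set G))
    · exact hno x hx hxo hr
    have hxM : x ∈ M := map_subtype_le _ (hZP hx)
    have hx1 : x ≠ 1 := fun e => hp.out.ne_one (by rw [← hxo, e, orderOf_one])
    have hU := unique_centralizer_alpha hG hM (X := zpowers x) (zpowers_le.mpr hxM) (fun q hq hd ha => by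
      rw [Nat.card_zpowers, hxo] at hd
      exact hσ (alpha_subset_sigma hG hM ((Nat.prime_dvd_prime_iff_eq hq hp.out).mp hd ▸ ha)))
      (by rw [centralizer_zpowers]; exact hr)
    rw [centralizer_zpowers] at hU
    exact ⟨le_max_of_le hU hM inf_le_left inf_le_right (minSimple_centralizer_ne_top hG hx1),
      fun L hL hle => max_eq hU hL hM (inf_le_right.trans hle) inf_le_left⟩
  have hZg : g * x₀ * g⁻¹ ∈ Z := by
    obtain ⟨_, ⟨c, hc, rfl⟩, hcx⟩ := hx₀
    obtain ⟨b, hb, hbx⟩ := (mem_normalizer_iff.mp hg x₀).mp (hZP ⟨_, ⟨c, hc, rfl⟩, hcx⟩)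
    refine ⟨b, ⟨⟨b, hb⟩, mem_center_iff.mpr fun a => Subtype.ext (M.subtype_injective ?_), rfl⟩, hbx⟩
    obtain ⟨a', ha', haa⟩ := (mem_normalizer_iff''.mp hg ((a : M) : G)).mp ⟨a, a.2, rfl⟩
    have h1 := congrArg (fun t : ↥(P : Subgroup M) => ((t : M) : G)) (mem_center_iff.mp hc ⟨a', ha'⟩)
    simp only [coe_mul, MulMemClass.coe_mul, subtype_apply] at h1 haa hcx hbx ⊢
    rw [hbx, show ((a : M) : G) = g * (a' : G) * g⁻¹ by rw [haa]; group]
    rw [hcx] at h1
    calc g * (a' : G) * g⁻¹ * (g * x₀ * g⁻¹) = g * ((a' : G) * x₀) * g⁻¹ := by group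
      _ = g * x₀ * g⁻¹ * (g * (a' : G) * g⁻¹) := by rw [h1]; group
  have h1 := key x₀ hx₀ hx₀o
  have h2 := key _ hZg (by rw [← hx₀o]; exact (orderOf_injective (MulAut.conj g).toMonoidHom (MulAut.conj g).injective x₀))
  have hcoat : IsCoatom (MulAut.conj g • M) := coatom_smul g hM
  have heq : MulAut.conj g • M = M := h2.2 _ hcoat fun y hy => by
    refine ⟨g⁻¹ * y * g, h1.1 (mem_centralizer_singleton_iff.mpr ?_), by
      simp [MulDistribMulAction.toMonoidEnd_apply, mul_assoc]⟩
    have hyc := mem_centralizer_singleton_iff.mp hy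
    calc g⁻¹ * y * g * x₀ = g⁻¹ * (y * (g * x₀ * g⁻¹)) * g := by group
      _ = x₀ * (g⁻¹ * y * g) := by rw [hyc]; group
  apply hgM
  rw [← normalizer_coatom hG hM hM1]
  exact Coprime.mem_normalizer_of_conj_smul_eq heq

end Cfsg.Agent.Lib.Uniq
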