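import Cfsg.Agent.Lib.Uniq.RankThree
import Cfsg.Agent.Lib.Hall.OddRankTwo
import Cfsg.Agent.Lib.OddLocal.PLengthOne
import Cfsg.Agent.Lib.PLength.Basic
set_option autoImplicit false

/-! Every Sylow subgroup of a minimal simple group of odd order is good: BG 9.1 and 9.2 unconditionally. -/

namespace Cfsg.Agent.Lib.Uniq

open Subgroup
open scoped Pointwise commutatorElement
open Cfsg.Agent.Lib.OddLocal

/-- The rank of a quotient by a `p'`-subgroup. -/
theorem pRankLE_quotient {Y : Type*} [Group Y] [Finite Y] {p k : ℕ} [hp : Fact p.Prime]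
    (N : Subgroup Y) [N.Normal] (hN : (Nat.card N).Coprime p) (hr : PRankLE p k Y) :
    PRankLE p k (Y ⧸ N) := by
  intro E hEc hEp
  set π := QuotientGroup.mk' N
  obtain ⟨Q, hQ⟩ := (Hall.isPGroup_of_pow_eq_one hEp).exists_le_sylow
  obtain ⟨S⟩ : Nonempty (Sylow p Y) := inferInstance
  have hπ : Function.Surjective π := QuotientGroup.mk'_surjective N
  obtain ⟨g, hg⟩ := MulAction.exists_smul_eq (Y ⧸ N) (S.mapSurjective hπ) Q
  obtain ⟨y, rfl⟩ := hπ g
  have hQimg : (Q : Subgroup (Y ⧸ N)) = ((y • S : Sylow p Y) : Subgroup Y).map π := by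
    rw [← hg]
    ext x
    constructor
    · rintro ⟨z, ⟨s, hs, rfl⟩, rfl⟩
      exact ⟨MulAut.conj y s, ⟨s, hs, rfl⟩, by simp [π]⟩
    · rintro ⟨_, ⟨s, hs, rfl⟩, rfl⟩
      exact ⟨π s, ⟨s, hs, rfl⟩, by simp [π]⟩
  set T := ((y • S : Sylow p Y) : Subgroup Y)
  have hinj : ∀ a ∈ T, π a = 1 → a = 1 := by
    intro a ha h1
    have : a ∈ T ⊓ N := ⟨ha, (QuotientGroup.eq_one_iff a).mp h1⟩
    rw [inf_comm, Coprime.inf_eq_bot_of_coprime (by
      obtain ⟨i, hi⟩ := IsPGroup.iff_card.mp (y • S : Sylow p Y).2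
      rw [hi]; exact hN.pow_right i)] at this
    exact mem_bot.mp this
  set F := T ⊓ E.comap π
  have hFE : F.map π = E := by
    refine le_antisymm (map_le_iff_le_comap.mpr inf_le_right) fun e he => ?_
    obtain ⟨t, ht, rfl⟩ := (hQimg ▸ hQ he : e ∈ T.map π)
    exact mem_map_of_mem π ⟨ht, he⟩
  have hFc : IsMulCommutative F := ⟨⟨fun a b => Subtype.ext (inv_mul_eq_one.mp (hinj _
    (mul_mem (inv_mem (mul_mem a.2.1 b.2.1)) (mul_mem b.2.1 a.2.1)) ?_))⟩⟩
  · have hFp : ∀ a ∈ F, a ^ p = 1 := fun a ha =>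
      hinj _ (pow_mem ha.1 p) (by rw [map_pow]; exact hEp _ ha.2)
    calc Nat.card E = Nat.card (F.map π) := by rw [hFE]
      _ ≤ Nat.card F := Nat.le_of_dvd Nat.card_pos (card_map_dvd _ _)
      _ ≤ p ^ k := hr F hFc hFp
  · have := congrArg Subtype.val (hEc.is_comm.comm ⟨π a, a.2.2⟩ ⟨π b, b.2.2⟩)
    simp only [coe_mul] at this
    simp only [coe_mul, map_mul, map_inv]
    rw [this, inv_mul_cancel]

/-- With trivial `p'`-core, rank two and odd order, the `p`-core is a Sylow subgroup. -/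
theorem not_dvd_index_pCore {Z : Type*} [Group Z] [Finite Z] [Group.IsSolvable Z] {p : ℕ}
    [hp : Fact p.Prime] (hodd : Odd (Nat.card Z)) (hr : PRankLE p 2 Z) (hcore : pPrimeCore p Z = ⊥) :
    ¬ p ∣ (pCore p Z).index := by
  rcases eq_or_ne p 2 with rfl | hp2
  · intro h
    exact Nat.not_even_iff_odd.mpr hodd (even_iff_two_dvd.mpr (h.trans (pCore 2 Z).index_dvd_card))
  set T := pCore p Z
  haveI : T.Normal := Hall.pCore_normal p
  have hrT : PRankLE p 2 ↥T := by
    intro E hEc hEp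
    rw [← card_map_of_injective T.subtype_injective]
    haveI := hEc
    refine hr _ (map_isMulCommutative E T.subtype) ?_
    rintro _ ⟨b, hb, rfl⟩
    rw [← map_pow, hEp b hb, map_one]
  have key := Hall.commutator_act_pPow hp2 (Hall.isPGroup_pCore p) hrT hodd
    (MulAut.conjNormal : Z →* MulAut T)
  have hCT := Hall.centralizer_pCore_le p hcore
  have hcomm : IsPGroup p ↥(commutator Z) := fun d => by
    obtain ⟨k, hk⟩ := key d d.2
    have hdT : (d : Z) ^ p ^ k ∈ T := hCT (mem_centralizer_iff.mpr fun t ht => by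
      have h1 : MulAut.conjNormal ((d : Z) ^ p ^ k) = (1 : MulAut T) := by rw [map_pow]; exact hk
      have h := congrArg Subtype.val (DFunLike.congr_fun h1 ⟨t, ht⟩)
      rw [MulAut.conjNormal_apply, MulAut.one_apply] at h
      simp only at h
      exact (mul_inv_eq_iff_eq_mul.mp h).symm)
    obtain ⟨j, hj⟩ := Hall.isPGroup_pCore (G := Z) p ⟨_, hdT⟩
    refine ⟨k + j, Subtype.ext ?_⟩
    have hj' := congrArg Subtype.val hj
    simp only [SubmonoidClass.coe_pow, OneMemClass.coe_one] at hj' ⊢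
    rw [pow_add, pow_mul]
    exact hj'
  have hD : commutator Z ≤ T := Hall.le_pCore hcomm
  obtain ⟨S⟩ : Nonempty (Sylow p Z) := inferInstance
  haveI : (S : Subgroup Z).Normal := Subgroup.Normal.of_commutator_le _ (hD.trans (Hall.pCore_le_sylow S))
  have hST : (S : Subgroup Z) ≤ T := Hall.le_pCore S.2
  exact fun h => S.not_dvd_index (h.trans (index_dvd_of_le hST))

/-- An odd solvable group of `p`-rank at most two has `p`-length at most one. -/
theorem pLengthLE_one_of_rank {Y : Type*} [Group Y] [Finite Y] [Group.IsSolvable Y] {p : ℕ}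
    [hp : Fact p.Prime] (hodd : Odd (Nat.card Y)) (hr : PRankLE p 2 Y) : PLengthLE p 1 Y := by
  refine PLength.pLengthLE_one ?_
  have hodd' : Odd (Nat.card (Y ⧸ pPrimeCore p Y)) :=
    hodd.of_dvd_nat ((pPrimeCore p Y).index_eq_card ▸ (pPrimeCore p Y).index_dvd_card)
  have hr' := pRankLE_quotient _ (Hall.coprime_card_pPrimeCore p) hr
  have hcore := pPrimeCore_quotient_eq_bot (G := Y) p
  have hstep := not_dvd_index_pCore (p := p) hodd' hr' hcore
  exact hstep

variable {G : Type*} [Group G] [Finite G] {p : ℕ} [hp : Fact p.Prime]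

theorem goodSylow (hG : IsMinSimpleOddOrder G) (P : Sylow p G) : GoodSylow P := by
  by_cases hr : PRankLE p 2 ↥(P : Subgroup G)
  · refine Or.inr fun Y hY hPY => ?_
    haveI := solvable_of_ne_top hG hY
    refine pLengthLE_one_of_rank (hG.1.of_dvd_nat Y.card_subgroup_dvd_card) ?_
    by_contra hY2
    obtain ⟨E, -, hE, hEc⟩ := elem_of_not_pRankLE hY2
    obtain ⟨Q, hQ⟩ := (elem_isPGroup hE).exists_le_sylow
    obtain ⟨g, hg⟩ := MulAction.exists_smul_eq G Q P
    refine not_pRankLE_of_elem (Z := (P : Subgroup G)) (E := E.map (MulAut.conj g).toMonoidHom) ?_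
      (elem_map _ hE) ?_ hr
    · rw [← hg]; exact map_mono hQ
    · rw [card_map_of_injective (f := (MulAut.conj g).toMonoidHom) (MulAut.conj g).injective, hEc]
      exact Nat.pow_lt_pow_right hp.out.one_lt (Nat.lt_succ_self 2)
  · exact goodSylow_of_rank hG hr P

end Cfsg.Agent.Lib.Uniq
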