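import Cfsg.Agent.Lib.Uniq.PLengthOne
import Cfsg.Agent.Lib.Uniq.CentralElement
import Cfsg.Agent.Lib.Uniq.Good
import Cfsg.Agent.Lib.Uniq.Alpha
import Cfsg.Agent.Lib.Uniq.AlphaCentral
set_option autoImplicit false

/-! Every proper subgroup of a minimal simple group of odd order has `p`-length one. -/

namespace Cfsg.Agent.Lib.Uniq

open Subgroup
open scoped Pointwise commutatorElement

section
variable {X : Type*} [Group X] [Finite X] {p : ℕ} [hp : Fact p.Prime]

/-- `p`-length one from a normal series. -/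
theorem pl1_of_series {N T : Subgroup X} [N.Normal] [T.Normal] (hN : (Nat.card N).Coprime p)
    (hT : IsPGroup p (T.map (QuotientGroup.mk' N))) (hi : ¬ p ∣ T.index) : PLengthLE p 1 X := by
  haveI := Hall.pPrimeCore_normal (G := X) p
  refine PLength.pLengthLE_one fun h => hi (h.trans ?_)
  set π := QuotientGroup.mk' (pPrimeCore p X)
  have hπ : Function.Surjective π := QuotientGroup.mk'_surjective _
  haveI : (T.map π).Normal := Subgroup.Normal.map inferInstance π hπ
  have hle : T.map π ≤ pCore p (X ⧸ pPrimeCore p X) := by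
    refine Hall.le_pCore ?_
    rintro ⟨_, x, hx, rfl⟩
    obtain ⟨k, hk⟩ := hT ⟨_, mem_map_of_mem _ hx⟩
    refine ⟨k, Subtype.ext ?_⟩
    have h1 : x ^ p ^ k ∈ N := (QuotientGroup.eq_one_iff _).mp (congrArg Subtype.val hk)
    exact ((QuotientGroup.eq_one_iff _).mpr (Hall.le_pPrimeCore hN h1) :)
  exact (index_dvd_of_le hle).trans (index_map_dvd T hπ)

theorem pl1_series (hpl : PLengthLE p 1 X) :
    ∃ (T : Subgroup X), T.Normal ∧ IsPGroup p (T.map (QuotientGroup.mk' (pPrimeCore p X))) ∧ ¬ p ∣ T.index := by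
  haveI := Hall.pPrimeCore_normal (G := X) p
  haveI := Hall.pCore_normal (G := X ⧸ pPrimeCore p X) p
  refine ⟨(pCore p (X ⧸ pPrimeCore p X)).comap (QuotientGroup.mk' _), inferInstance, ?_, ?_⟩
  · rw [map_comap_eq_self_of_surjective (QuotientGroup.mk'_surjective _)]
    exact Hall.isPGroup_pCore p
  · rw [index_comap_of_surjective _ (QuotientGroup.mk'_surjective _)]
    exact Hall.not_dvd_index_of_pLength_one p hpl

/-- `p`-length one passes to subgroups. -/
theorem pl1_of_injective {Y : Type*} [Group Y] [Finite Y] (f : Y →* X) (hf : Function.Injective f)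
    (hpl : PLengthLE p 1 X) : PLengthLE p 1 Y := by
  haveI := Hall.pPrimeCore_normal (G := X) p
  obtain ⟨T, hTn, hT, hi⟩ := pl1_series hpl
  refine pl1_of_series (N := (pPrimeCore p X).comap f) (T := T.comap f) ?_ ?_ ?_
  · refine (Hall.coprime_card_pPrimeCore (G := X) p).coprime_dvd_left ?_
    rw [← card_map_of_injective hf]
    exact card_dvd_of_le (map_comap_le _ _)
  · rintro ⟨_, y, hy, rfl⟩
    obtain ⟨k, hk⟩ := hT ⟨_, mem_map_of_mem _ hy⟩
    refine ⟨k, Subtype.ext ?_⟩
    have h1 : f y ^ p ^ k ∈ pPrimeCore p X := (QuotientGroup.eq_one_iff _).mp (congrArg Subtype.val hk)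
    exact ((QuotientGroup.eq_one_iff (N := (pPrimeCore p X).comap f) (y ^ p ^ k)).mpr (show f (y ^ p ^ k) ∈ pPrimeCore p X from (map_pow f y (p ^ k)).symm ▸ h1) :)
  · rw [index_comap]
    exact fun h => hi (h.trans (relIndex_dvd_index_of_normal T f.range))

/-- `p`-length one lifts from a normal subgroup of index prime to `p`. -/
theorem pl1_of_index_coprime [Group.IsSolvable X] {K : Subgroup X} [K.Normal] (hi : ¬ p ∣ K.index)
    (hpl : PLengthLE p 1 ↥K) : PLengthLE p 1 X := by
  haveI := Hall.pPrimeCore_normal (G := X) p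
  set π := QuotientGroup.mk' (pPrimeCore p X)
  have hπ : Function.Surjective π := QuotientGroup.mk'_surjective _
  set Kb := K.map π
  haveI : Kb.Normal := Subgroup.Normal.map inferInstance π hπ
  have hcore : pPrimeCore p (X ⧸ pPrimeCore p X) = ⊥ := OddLocal.pPrimeCore_quotient_eq_bot p
  have hKcore : pPrimeCore p ↥Kb = ⊥ := by
    refine (Subgroup.map_eq_bot_iff_of_injective _ Kb.subtype_injective).mp (le_bot_iff.mp ?_)
    rw [← hcore]
    refine Hall.le_pPrimeCore ?_
    rw [card_map_of_injective Kb.subtype_injective]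
    exact Hall.coprime_card_pPrimeCore p
  have hplb : PLengthLE p 1 ↥Kb := PLength.pLengthLE_of_surjective (π.subgroupMap_surjective K) hpl
  obtain ⟨S⟩ : Nonempty (Sylow p ↥Kb) := inferInstance
  refine PLength.pLengthLE_one fun h => ?_
  have hle : (pCore p ↥Kb).map Kb.subtype ≤ pCore p (X ⧸ pPrimeCore p X) :=
    Hall.le_pCore ((Hall.isPGroup_pCore p).map _)
  have h1 := h.trans (index_dvd_of_le hle)
  rw [index_map_of_injective _ Kb.subtype_injective, range_subtype] at h1
  rcases hp.out.dvd_mul.mp h1 with h2 | h2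
  · exact S.not_dvd_index (h2.trans (index_dvd_of_le (PL.sylow_le_pCore_of_pl1 hplb hKcore S)))
  · exact hi (h2.trans (index_map_dvd K hπ))

/-- A normal coprime factor inside the derived group is its commutator with a complement. -/
theorem commutator_complement_eq {Y : Type*} [Group Y] [Finite Y] {K R : Subgroup Y} [K.Normal]
    [Group.IsSolvable K] (hR : IsComplement' K R) (hcopR : (Nat.card K).Coprime (Nat.card R))
    (hKc : K ≤ commutator Y) : ⁅K, R⁆ = K := by
  classical
  have hRK : R ≤ normalizer (K : Set Y) := by rw [normalizer_eq_top K]; exact le_top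
  set D := ⁅K, R⁆
  have hDle : D ≤ K := Coprime.commutator_le_of_le_normalizer' hRK
  haveI : D.Normal := by
    refine normalizer_eq_top_iff.mp (top_le_iff.mp (hR.sup_eq_top.ge.trans (sup_le ?_ ?_)))
    · exact Coprime.left_le_normalizer_commutator K R
    · exact Coprime.right_le_normalizer_commutator K R
  set π := QuotientGroup.mk' D
  have hπ : Function.Surjective π := QuotientGroup.mk'_surjective _
  have hπc : ⁅K.map π, R.map π⁆ = ⊥ := by
    rw [← map_commutator, Subgroup.map_eq_bot_iff, QuotientGroup.ker_mk']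
  set Kb := K.map π
  set Rb := R.map π
  have hKR : Kb ≤ centralizer (Rb : Set (Y ⧸ D)) := commutator_eq_bot_iff_le_centralizer.mp hπc
  have hRN : Rb ≤ normalizer (Kb : Set (Y ⧸ D)) :=
    (le_centralizer_iff.mp hKR).trans (centralizer_le_normalizer _)
  have hcop' : (Nat.card Rb).Coprime (Nat.card Kb) :=
    (hcopR.symm.coprime_dvd_left (card_map_dvd _ _)).coprime_dvd_right (card_map_dvd _ _)
  have htop : ∀ z : Y ⧸ D, ∃ r ∈ Rb, ∃ k ∈ Kb, r * k = z := by
    intro z
    refine (Coprime.mem_sup_of_le_normalizer hRN).mp ?_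
    rw [sup_comm, ← Subgroup.map_sup, hR.sup_eq_top, map_top_of_surjective π hπ]
    exact mem_top z
  have hcomm : ∀ {r k}, r ∈ Rb → k ∈ Kb → Commute r k := fun hr hk =>
    mem_centralizer_iff.mp (hKR hk) _ hr
  have hK' : Kb ≤ ⁅Kb, Kb⁆ := by
    have hK'K : ⁅Kb, Kb⁆ ≤ Kb := commutator_le.mpr fun a ha b hb =>
      Kb.mul_mem (Kb.mul_mem (Kb.mul_mem ha hb) (Kb.inv_mem ha)) (Kb.inv_mem hb)
    have h1 : commutator (Y ⧸ D) ≤ Rb ⊔ ⁅Kb, Kb⁆ := by
      rw [commutator_def, commutator_le]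
      intro a _ b _
      obtain ⟨r, hr, k, hk, rfl⟩ := htop a
      obtain ⟨r', hr', k', hk', rfl⟩ := htop b
      have e : ⁅r * k, r' * k'⁆ = ⁅r, r'⁆ * ⁅k, k'⁆ := by
        have c1 : k * r' = r' * k := (hcomm hr' hk).eq.symm
        have c2 : r⁻¹ * k' = k' * r⁻¹ := (hcomm (Rb.inv_mem hr) hk').eq
        have c3 : (r'⁻¹ * r⁻¹) * (k * k' * k⁻¹) = (k * k' * k⁻¹) * (r'⁻¹ * r⁻¹) :=
          (hcomm (Rb.mul_mem (Rb.inv_mem hr') (Rb.inv_mem hr))
            (Kb.mul_mem (Kb.mul_mem hk hk') (Kb.inv_mem hk))).eq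
        have c4 : k⁻¹ * r⁻¹ = r⁻¹ * k⁻¹ := (hcomm (Rb.inv_mem hr) (Kb.inv_mem hk)).eq.symm
        have c5 : k'⁻¹ * r'⁻¹ = r'⁻¹ * k'⁻¹ := (hcomm (Rb.inv_mem hr') (Kb.inv_mem hk')).eq.symm
        simp only [commutatorElement_def, mul_inv_rev]
        calc r * k * (r' * k') * (k⁻¹ * r⁻¹) * (k'⁻¹ * r'⁻¹)
            = r * (k * r') * k' * (k⁻¹ * r⁻¹) * (k'⁻¹ * r'⁻¹) := by group
          _ = r * (r' * k) * k' * (k⁻¹ * r⁻¹) * (k'⁻¹ * r'⁻¹) := by rw [c1]
          _ = r * r' * (k * k' * k⁻¹) * (r⁻¹ * (k'⁻¹ * r'⁻¹)) := by group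
          _ = r * r' * (k * k' * k⁻¹) * (r⁻¹ * r'⁻¹ * k'⁻¹) := by rw [c5]; group
          _ = r * r' * ((k * k' * k⁻¹) * (r⁻¹ * r'⁻¹)) * k'⁻¹ := by group
          _ = r * r' * ((r⁻¹ * r'⁻¹) * (k * k' * k⁻¹)) * k'⁻¹ := by
            rw [(hcomm (Rb.mul_mem (Rb.inv_mem hr) (Rb.inv_mem hr'))
              (Kb.mul_mem (Kb.mul_mem hk hk') (Kb.inv_mem hk))).eq]
          _ = r * r' * r⁻¹ * r'⁻¹ * (k * k' * k⁻¹ * k'⁻¹) := by group
      rw [e]
      exact mul_mem (mem_sup_left (Rb.mul_mem (Rb.mul_mem (Rb.mul_mem hr hr') (Rb.inv_mem hr)) (Rb.inv_mem hr')))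
        (mem_sup_right (commutator_mem_commutator hk hk'))
    intro z hz
    have h2 : z ∈ commutator (Y ⧸ D) := by
      obtain ⟨y, hy, rfl⟩ := hz
      have := mem_map_of_mem π (hKc hy)
      rw [commutator_def, map_commutator] at this
      exact commutator_mono le_top le_top this
    obtain ⟨r, hr, c, hc, rfl⟩ := (Coprime.mem_sup_of_le_normalizer
      ((le_centralizer_iff.mp (hK'K.trans hKR)).trans (centralizer_le_normalizer _))).mp (h1 h2)
    have hr1 : r ∈ Rb ⊓ Kb := ⟨hr, by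
      rw [show r = r * c * c⁻¹ by group]
      exact Kb.mul_mem hz (Kb.inv_mem (hK'K hc))⟩
    rw [Coprime.inf_eq_bot_of_coprime hcop', mem_bot] at hr1
    rw [hr1, one_mul]
    exact hc
  have hKb : Kb = ⊥ := by
    haveI : Group.IsSolvable ↥Kb := Coprime.isSolvable_map π K
    by_contra hne
    exact (not_le_of_gt (Hall.commutator_lt_of_solvable hne)) hK'
  refine le_antisymm hDle ?_
  rw [← QuotientGroup.ker_mk' D]
  exact (Subgroup.map_eq_bot_iff K).mp hKb


end

variable {G : Type*} [Group G] [Finite G]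

theorem pLengthLE_one_coatom (hG : IsMinSimpleOddOrder G) {M : Subgroup G} (hM : IsCoatom M) (p : ℕ)
    [hp : Fact p.Prime] : PLengthLE p 1 ↥M := by
  classical
  haveI : Group.IsSolvable ↥M := solvable_of_ne_top hG hM.1
  by_cases hr : PRankLE p 2 M
  · exact pLengthLE_one_of_rank (odd_card hG M) hr
  have hpα : p ∈ alpha M := ⟨hp.out, hr⟩
  have hασ := alpha_subset_sigma hG hM
  set K := piCore (alpha M) ↥M with hKdef
  have hKπ : ∀ q : ℕ, q.Prime → q ∣ Nat.card K → q ∈ alpha M := by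
    intro q hq hd
    refine alphaCore_isPi M q hq ?_
    rwa [show alphaCore M = K.map M.subtype from rfl, card_map_of_injective M.subtype_injective]
  have hKi : ∀ q : ℕ, q.Prime → q ∈ alpha M → ¬ q ∣ K.index := fun q hq h => by
    haveI := Fact.mk hq
    exact not_dvd_index_piCore hG hM le_rfl hασ h
  have hcop : (Nat.card K).Coprime K.index :=
    Nat.coprime_of_dvd fun q hq h1 h2 => hKi q hq (hKπ q hq h1) h2
  have hM1 : Nontrivial ↥M := by
    by_contra h
    rw [not_nontrivial_iff_subsingleton] at h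
    exact hr (prankLE_of_not_dvd (by rw [Nat.card_unique]; exact hp.out.not_dvd_one))
  have hcne : commutator ↥M ≠ ⊤ := (Group.IsSolvable.commutator_lt_top_of_nontrivial ↥M).ne
  -- a prime outside `σ(M)`
  obtain ⟨q, hq, hqM, hqσ⟩ : ∃ q : ℕ, q.Prime ∧ q ∣ Nat.card M ∧ q ∉ sigma M := by
    by_contra hno
    push Not at hno
    refine hcne (Hall.eq_top_of_sylows fun q hqq => ?_)
    haveI := Fact.mk hqq
    obtain ⟨S⟩ : Nonempty (Sylow q ↥M) := inferInstance
    refine ⟨S, ?_⟩
    by_cases hd : q ∣ Nat.card M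
    · exact sigma_sylow_le_commutator hG hM (hno q hqq hd) S
    · rw [show (S : Subgroup ↥M) = ⊥ from card_eq_one.mp (by
        rw [S.card_eq_multiplicity, Nat.factorization_eq_zero_of_not_dvd hd, pow_zero])]
      exact bot_le
  haveI := Fact.mk hq
  obtain ⟨S⟩ : Nonempty (Sylow q ↥M) := inferInstance
  obtain ⟨x, hxS, hxo, hrk, -⟩ := exists_central_element hG hM hqM hqσ S
  have hxM : x ∈ M := map_subtype_le _ hxS
  set x' : ↥M := ⟨x, hxM⟩
  have hx'o : orderOf x' = q := by
    rw [← hxo]; exact (orderOf_injective M.subtype M.subtype_injective x').symm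
  -- a complement containing `x`
  obtain ⟨E₀, hE₀⟩ := exists_right_complement'_of_coprime hcop
  have hE₀c : Nat.card E₀ = K.index := hE₀.symm.index_eq_card.symm
  have hE₀i : E₀.index = Nat.card K := hE₀.index_eq_card
  obtain ⟨g, hg⟩ := Hall.exists_le_conj (H := E₀) (K := zpowers x')
    (by rw [hE₀c, hE₀i]; exact hcop.symm)
    (by
      rw [Nat.card_zpowers, hx'o, hE₀i]
      exact hq.coprime_iff_not_dvd.mpr fun h => hqσ (hασ (hKπ q hq h)))
  set R := MulAut.conj g • E₀
  have hR : IsComplement' K R := by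
    refine isComplement'_of_coprime (by rw [Coprime.card_conj_smul]; exact hE₀.card_mul) ?_
    rw [Coprime.card_conj_smul, hE₀c]; exact hcop
  have hRK : R ≤ normalizer (K : Set ↥M) := by rw [normalizer_eq_top K]; exact le_top
  have hcopR : (Nat.card K).Coprime (Nat.card R) := by rw [Coprime.card_conj_smul, hE₀c]; exact hcop
  have hZ : IsZGroup ↥(K ⊓ centralizer (zpowers x' : Set ↥M)) := by
    haveI : IsZGroup ↥(alphaCore M ⊓ centralizer ({x} : Set G)) :=
      isZGroup_of_rankLE_one (odd_card hG _) hrk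
    refine IsZGroup.of_injective (f := (M.subtype.comp (K ⊓ centralizer (zpowers x' : Set ↥M)).subtype).codRestrict
      (alphaCore M ⊓ centralizer ({x} : Set G)) fun y => ⟨mem_map_of_mem M.subtype y.2.1,
        mem_centralizer_singleton_iff.mpr (congrArg Subtype.val (mem_centralizer_iff.mp y.2.2 x' (mem_zpowers x'))).symm⟩)
      fun a b h => ?_
    exact Subtype.ext (Subtype.ext (congrArg (fun z : ↥(alphaCore M ⊓ centralizer ({x} : Set G)) => (z : G)) h))
  have hplD : PLengthLE p 1 ↥⁅K, R⁆ :=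
    PL.holds_all (p := p) _ ↥M K R (zpowers x') ⟨inferInstance, odd_card hG M, hRK, hcopR, hg,
      by rw [Nat.card_zpowers, hx'o]; exact hq, hZ⟩ (Nat.lt_succ_self _)
  -- `[K, R] = K`
  have hKc : K ≤ commutator ↥M := by
    have hcoc : (Nat.card K).Coprime (commutator ↥M).index := Nat.coprime_of_dvd fun r hr h1 h2 => by
      haveI := Fact.mk hr
      obtain ⟨T⟩ : Nonempty (Sylow r ↥M) := inferInstance
      exact T.not_dvd_index (h2.trans (index_dvd_of_le
        (sigma_sylow_le_commutator hG hM (hασ (hKπ r hr h1)) T)))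
    intro k hk
    refine (QuotientGroup.eq_one_iff k).mp (orderOf_eq_one_iff.mp (Nat.eq_one_of_dvd_coprimes hcoc
      ((orderOf_map_dvd (QuotientGroup.mk' (commutator ↥M)) k).trans (K.orderOf_dvd_natCard hk)) ?_))
    rw [index_eq_card]
    exact _root_.orderOf_dvd_natCard _
  rw [commutator_complement_eq hR hcopR hKc] at hplD
  exact pl1_of_index_coprime (hKi p hp.out hpα) hplD

theorem pLengthLE_one_all (hG : IsMinSimpleOddOrder G) (p : ℕ) [Fact p.Prime] {H : Subgroup G} (hH : H ≠ ⊤) :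
    PLengthLE p 1 ↥H := by
  obtain ⟨M, hM, hHM⟩ := exists_coatom_ge hH
  exact pl1_of_injective (inclusion hHM) (inclusion_injective hHM) (pLengthLE_one_coatom hG hM p)

end Cfsg.Agent.Lib.Uniq
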