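import Cfsg.Agent.Lib.Uniq.PLengthAll
set_option autoImplicit false

/-! Fusion in the normalizer of a Sylow subgroup of a minimal simple group of odd order. -/

namespace Cfsg.Agent.Lib.Uniq

open Subgroup
open scoped Pointwise commutatorElement

variable {G : Type*} [Group G] [Finite G] {p : ℕ} [hp : Fact p.Prime]

/-- BG 10.? (c): fusion inside a Sylow subgroup happens in its normalizer. -/
theorem sylow_fusion (hG : IsMinSimpleOddOrder G) (P : Sylow p G) {Q : Subgroup G} {x : G}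
    (hQ : Q ≤ (P : Subgroup G)) (hx : ∀ q ∈ Q, x * q * x⁻¹ ∈ (P : Subgroup G)) :
    ∃ y ∈ normalizer ((P : Subgroup G) : Set G), ∀ q ∈ Q, x * q * x⁻¹ = y * q * y⁻¹ := by
  by_cases hQ1 : Q = ⊥
  · refine ⟨1, one_mem _, fun q hq => ?_⟩
    rw [hQ1, mem_bot] at hq
    simp [hq]
  have hP1 : (P : Subgroup G) ≠ ⊥ := fun e => hQ1 (le_bot_iff.mp (e ▸ hQ))
  have hN : normalizer ((P : Subgroup G) : Set G) ≠ ⊤ := fun e => pgroup_ne_top hG P.2
    ((hG.2.1.eq_bot_or_eq_top_of_normal _ (normalizer_eq_top_iff.mp e)).resolve_left hP1)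
  obtain ⟨M, hM, hNM⟩ := exists_coatom_ge hN
  have hPM : (P : Subgroup G) ≤ M := le_normalizer.trans hNM
  obtain ⟨c, hc, hm⟩ := conj_transitive hG (narrowFitting hG) hM P hPM hNM (P.2.to_le hQ) hQ1
    (g := x⁻¹) (h := 1) (fun q hq => by rw [inv_inv]; exact hPM (hx q hq))
    (fun q hq => by simpa using hPM (hQ hq))
  rw [inv_one, one_mul] at hm
  haveI : Group.IsSolvable ↥M := solvable_of_ne_top hG hM.1
  haveI := Hall.pPrimeCore_normal (G := ↥M) p
  have hsup := OddLocal.pPrimeCore_sup_normalizer_eq_top p (pLengthLE_one_coatom hG hM p) (P.subtype hPM)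
  obtain ⟨k, hk, n, hn, hkn⟩ := mem_sup_of_normal_left.mp (hsup.ge (mem_top (⟨(c * x⁻¹)⁻¹, inv_mem hm⟩ : ↥M)))
  have hnP : (n : G) ∈ normalizer ((P : Subgroup G) : Set G) := by
    have h := le_normalizer_map M.subtype (mem_map_of_mem M.subtype hn)
    rwa [Sylow.coe_subtype, map_subgroupOf_eq_of_le hPM] at h
  refine ⟨n, hnP, fun q hq => ?_⟩
  set q' := (n : G) * q * (n : G)⁻¹
  have hq' : q' ∈ (P : Subgroup G) := (mem_normalizer_iff.mp hnP q).mp (hQ hq)
  have hm' : (k : G) * (n : G) = x * c⁻¹ := by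
    have h := congrArg Subtype.val hkn
    simpa [mul_inv_rev] using h
  have hcq : c⁻¹ * q * c = q := by
    rw [mul_assoc, mem_centralizer_iff.mp hc q hq, ← mul_assoc, inv_mul_cancel, one_mul]
  have hkq : (k : G) * q' * (k : G)⁻¹ = x * q * x⁻¹ := by
    calc (k : G) * q' * (k : G)⁻¹ = ((k : G) * n) * q * ((k : G) * n)⁻¹ := by simp only [q']; group
      _ = x * (c⁻¹ * q * c) * x⁻¹ := by rw [hm']; group
      _ = _ := by rw [hcq]
  have hd : (k : ↥M) * ⟨q', hPM hq'⟩ * k⁻¹ * (⟨q', hPM hq'⟩ : ↥M)⁻¹ ∈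
      pPrimeCore p ↥M ⊓ ((P.subtype hPM : Sylow p ↥M) : Subgroup ↥M) := by
    refine ⟨?_, ?_⟩
    · rw [mul_assoc k, mul_assoc k]
      exact mul_mem hk (Subgroup.Normal.conj_mem inferInstance _ (inv_mem hk) _)
    · rw [Sylow.coe_subtype]
      show (k : G) * q' * (k : G)⁻¹ * q'⁻¹ ∈ (P : Subgroup G)
      rw [hkq]
      exact mul_mem (hx q hq) (inv_mem hq')
  have hbot : pPrimeCore p ↥M ⊓ ((P.subtype hPM : Sylow p ↥M) : Subgroup ↥M) = ⊥ := by
    refine Coprime.inf_eq_bot_of_coprime ?_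
    obtain ⟨j, hj⟩ := IsPGroup.iff_card.mp (P.subtype hPM).2
    rw [hj]
    exact (Hall.coprime_card_pPrimeCore p).pow_right j
  rw [hbot, mem_bot] at hd
  have h2 : (k : G) * q' * (k : G)⁻¹ * q'⁻¹ = 1 := congrArg Subtype.val hd
  rw [hkq] at h2
  exact mul_inv_eq_one.mp h2

theorem map_conj_eq {Q : Subgroup G} {x y : G} (h : ∀ q ∈ Q, x * q * x⁻¹ = y * q * y⁻¹) :
    Q.map (MulAut.conj x).toMonoidHom = Q.map (MulAut.conj y).toMonoidHom := by
  ext z
  simp only [mem_map, MulEquiv.coe_toMonoidHom, MulAut.conj_apply]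
  exact ⟨fun ⟨q, hq, e⟩ => ⟨q, hq, (h q hq).symm.trans e⟩, fun ⟨q, hq, e⟩ => ⟨q, hq, (h q hq).trans e⟩⟩

theorem not_dvd_relIndex_normalizer (hG : IsMinSimpleOddOrder G) (P : Sylow p G) {Q : Subgroup G}
    (hQ : Q ≤ (P : Subgroup G)) :
    ¬ p ∣ ((P : Subgroup G) ⊓ normalizer (Q : Set G)).relIndex (normalizer (Q : Set G)) := by
  set N := normalizer (Q : Set G)
  set A := (P : Subgroup G) ⊓ N
  have hA : IsPGroup p (A.subgroupOf N) := (P.2.to_le inf_le_left).comap_subtype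
  obtain ⟨T, hT⟩ := hA.exists_le_sylow
  obtain ⟨P', hP'⟩ := (T.2.map N.subtype).exists_le_sylow
  obtain ⟨x, hx⟩ := MulAction.exists_smul_eq G P' P
  have hTx : ∀ t ∈ (T : Subgroup ↥N), x * (t : G) * x⁻¹ ∈ (P : Subgroup G) := fun t ht => by
    rw [← hx]
    exact Coprime.conj_mem_conj_smul (hP' (mem_map_of_mem N.subtype ht))
  have hQA : Q ≤ A := le_inf hQ le_normalizer
  obtain ⟨y, hy, hyq⟩ := sylow_fusion hG P hQ (x := x) fun q hq =>
    hTx ⟨q, le_normalizer hq⟩ (hT (mem_subgroupOf.mpr (hQA hq)))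
  have hz : y⁻¹ * x ∈ N := by
    refine centralizer_le_normalizer _ (mem_centralizer_iff.mpr fun q hq => ?_)
    calc q * (y⁻¹ * x) = y⁻¹ * (y * q * y⁻¹) * x := by group
      _ = y⁻¹ * (x * q * x⁻¹) * x := by rw [hyq q hq]
      _ = y⁻¹ * x * q := by group
  have hcard : Nat.card (T : Subgroup ↥N) ≤ Nat.card A := by
    refine Nat.card_le_card_of_injective (fun t => ⟨(y⁻¹ * x) * ((t : ↥N) : G) * (y⁻¹ * x)⁻¹, ?_, ?_⟩) ?_
    · rw [show (y⁻¹ * x) * ((t : ↥N) : G) * (y⁻¹ * x)⁻¹ = y⁻¹ * (x * ((t : ↥N) : G) * x⁻¹) * (y⁻¹)⁻¹ by group]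
      exact (mem_normalizer_iff.mp (inv_mem hy) _).mp (hTx _ t.2)
    · exact N.mul_mem (N.mul_mem hz (t : ↥N).2) (N.inv_mem hz)
    · intro a b h
      have h' := congrArg (fun z : ↥A => (z : G)) h
      exact Subtype.ext (Subtype.ext (mul_left_cancel (mul_right_cancel h')))
  intro hd
  have heq : A.subgroupOf N = (T : Subgroup ↥N) :=
    eq_of_le_of_card_ge hT (by rwa [Coprime.card_subgroupOf (inf_le_right : A ≤ N)])
  rw [relIndex, heq] at hd
  exact T.not_dvd_index hd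

theorem normalizer_le_of_normal (hG : IsMinSimpleOddOrder G) (P : Sylow p G) {R Q : Subgroup G}
    (hR : IsPGroup p R) (hQ : Q ≤ (P : Subgroup G) ⊓ R)
    (hNQ : normalizer ((P : Subgroup G) : Set G) ≤ normalizer (Q : Set G)) :
    normalizer (R : Set G) ≤ normalizer (Q : Set G) := by
  obtain ⟨P', hP'⟩ := hR.exists_le_sylow
  obtain ⟨z, hz⟩ := MulAction.exists_smul_eq G P' P
  have hzR : ∀ r ∈ R, z * r * z⁻¹ ∈ (P : Subgroup G) := fun r hr => by
    rw [← hz]; exact Coprime.conj_mem_conj_smul (hP' hr)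
  have key : ∀ w : G, (∀ q ∈ Q, w * q * w⁻¹ ∈ (P : Subgroup G)) → w ∈ normalizer (Q : Set G) := by
    intro w hw
    obtain ⟨y, hy, hyq⟩ := sylow_fusion hG P (hQ.trans inf_le_left) hw
    refine Coprime.mem_normalizer_of_conj_smul_eq ?_
    rw [show MulAut.conj w • Q = Q.map (MulAut.conj w).toMonoidHom from rfl, map_conj_eq hyq]
    exact Coprime.conj_smul_eq_self (hNQ hy)
  have hz' := key z fun q hq => hzR q (hQ hq).2
  intro g hg
  have hzg := key (z * g) fun q hq => by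
    rw [show z * g * q * (z * g)⁻¹ = z * (g * q * g⁻¹) * z⁻¹ by group]
    exact hzR _ ((mem_normalizer_iff.mp hg q).mp (hQ hq).2)
  simpa using mul_mem (inv_mem hz') hzg

/-- BG 10.? (a),(b): `P = [P, V]` and `P ≤ N(P)'`. -/
theorem sylow_le_commutator_normalizer (hG : IsMinSimpleOddOrder G) (P : Sylow p G) :
    (P : Subgroup G) ≤ ⁅normalizer ((P : Subgroup G) : Set G), normalizer ((P : Subgroup G) : Set G)⁆ := by
  have hcf : Transfer.ControlsFusion (normalizer ((P : Subgroup G) : Set G)) (P : Subgroup G) := by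
    intro x hx g hg
    obtain ⟨y, hy, hyq⟩ := sylow_fusion hG P (zpowers_le.mpr hx) (x := g) fun q hq => by
      obtain ⟨i, rfl⟩ := mem_zpowers_iff.mp hq
      rw [← conj_zpow]
      exact zpow_mem hg i
    exact ⟨y, hy, (hyq x (mem_zpowers x)).symm⟩
  have htop : commutator G = ⊤ :=
    (hG.2.1.eq_bot_or_eq_top_of_normal (commutator G) (Subgroup.commutator_normal ⊤ ⊤)).resolve_left
      fun e => hG.2.2.1 ⟨⟨fun a b => commutatorElement_eq_one_iff_mul_comm.mp
        (mem_bot.mp (e ▸ commutator_mem_commutator (mem_top a) (mem_top b)))⟩⟩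
  have h := Transfer.commutator_inf_eq_of_controlsFusion P le_normalizer hcf
  rw [htop, top_inf_eq] at h
  exact h.le.trans inf_le_left

theorem sylow_eq_commutator_compl (hG : IsMinSimpleOddOrder G) (P : Sylow p G) {V : Subgroup G}
    (hV : IsComplIn (P : Subgroup G) V (normalizer ((P : Subgroup G) : Set G))) :
    (P : Subgroup G) = ⁅(P : Subgroup G), V⁆ := by
  obtain ⟨hPN, hVN, hPV, hdec⟩ := hV
  set N := normalizer ((P : Subgroup G) : Set G)
  haveI : ((P : Subgroup G).subgroupOf N).Normal :=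
    (normal_subgroupOf_iff_le_normalizer hPN).mpr le_rfl
  haveI : Group.IsSolvable ↥((P : Subgroup G).subgroupOf N) := by
    haveI : Group.IsNilpotent ↥((P : Subgroup G).subgroupOf N) := (P.2.comap_subtype).isNilpotent
    infer_instance
  have hc : IsComplement' ((P : Subgroup G).subgroupOf N) (V.subgroupOf N) := by
    refine isComplement'_of_disjoint_and_mul_eq_univ ?_ ?_
    · rw [disjoint_iff, eq_bot_iff]
      intro x hx
      exact Subtype.ext (mem_bot.mp (hPV ▸ (⟨hx.1, hx.2⟩ : (x : G) ∈ (P : Subgroup G) ⊓ V)))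
    · ext x
      simp only [Set.mem_univ, iff_true]
      obtain ⟨a, ha, b, hb, e⟩ := hdec x x.2
      exact ⟨⟨a, hPN ha⟩, ha, ⟨b, hVN hb⟩, hb, Subtype.ext e.symm⟩
  have hcop : (Nat.card ((P : Subgroup G).subgroupOf N)).Coprime (Nat.card (V.subgroupOf N)) := by
    rw [← hc.symm.index_eq_card]
    exact (P.subtype hPN).card_coprime_index
  have hcomm : (P : Subgroup G).subgroupOf N ≤ commutator ↥N := by
    intro x hx
    have h := sylow_le_commutator_normalizer hG P hx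
    rw [← map_subtype_commutator, mem_map] at h
    obtain ⟨y, hy, e⟩ := h
    rwa [← Subtype.ext e]
  have h := congrArg (Subgroup.map N.subtype) (commutator_complement_eq hc hcop hcomm)
  rw [map_commutator, map_subgroupOf_eq_of_le hPN, map_subgroupOf_eq_of_le hVN] at h
  exact h.symm

end Cfsg.Agent.Lib.Uniq
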