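import Cfsg.Agent.Lib.Uniq.TauTwo
import Cfsg.Agent.S1412
import Cfsg.Agent.S1453
set_option autoImplicit false

/-! BG 12.5(b): Sylow `p`-subgroups of `M` are abelian for `p ∈ τ₂(M)`. -/

namespace Cfsg.Agent.Lib.Uniq

open Subgroup
open scoped Pointwise commutatorElement

universe u

variable {G : Type u} [Group G] [Finite G] {M A : Subgroup G} {p : ℕ} [hp : Fact p.Prime]

/-- In a nonabelian Sylow subgroup the centraliser of a maximal `E²` is a cyclic group times it. -/
theorem centralizer_maximal_decomp (hG : IsMinSimpleOddOrder G) (hp2 : p ≠ 2) (T : Sylow p G)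
    (hA : IsElementaryAbelian p A) (hAc : Nat.card A = p ^ 2)
    (hmax : ∀ B : Subgroup G, IsElementaryAbelian p B → A ≤ B → B = A) (hAT : A ≤ (T : Subgroup G))
    (hna : ¬ IsMulCommutative (T : Subgroup G)) :
    ∃ C₀ : Subgroup G, IsCyclic C₀ ∧ C₀ ≤ (T : Subgroup G) ⊓ centralizer (A : Set G) ∧
      ∀ d ∈ (T : Subgroup G) ⊓ centralizer (A : Set G), ∃ c ∈ C₀, ∃ a ∈ A, d = c * a := by
  classical
  have hcA : ∀ d ∈ centralizer (A : Set G), ∀ a ∈ A, a * d = d * a :=
    fun d hd a ha => mem_centralizer_iff.mp hd a ha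
  by_cases hr : Cfsg.PRankLE p 2 (T : Subgroup G)
  · obtain ⟨P₁, P₂, hsup, hc, -, -, he, hcy, -⟩ := (S1412.result hG p T hr).resolve_left hna
    have hn : P₁ ≤ normalizer (P₂ : Set G) :=
      (le_centralizer_iff.mp fun b hb => mem_centralizer_iff.mpr fun a ha => hc a ha b hb).trans
        (centralizer_le_normalizer _)
    have hT2 : P₂ ≤ (T : Subgroup G) := hsup ▸ le_sup_right
    have hP2c : ∀ b ∈ P₂, ∀ t ∈ (T : Subgroup G), t * b = b * t := by
      intro b hb t ht
      obtain ⟨c, hc', d, hd, rfl⟩ := (Coprime.mem_sup_of_le_normalizer hn).mp (hsup.symm ▸ ht)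
      haveI := hcy
      have e : d * b = b * d :=
        congrArg Subtype.val ((IsCyclic.commGroup (α := P₂)).mul_comm (⟨d, hd⟩ : P₂) ⟨b, hb⟩)
      calc c * d * b = c * (d * b) := mul_assoc _ _ _
        _ = c * b * d := by rw [e, mul_assoc]
        _ = b * (c * d) := by rw [hc c hc' b hb, mul_assoc]
    refine ⟨P₂, hcy, le_inf hT2 fun b hb => mem_centralizer_iff.mpr fun a ha => hP2c b hb a (hAT ha),
      fun d hd => ?_⟩
    obtain ⟨a, ha, b, hb, rfl⟩ := (Coprime.mem_sup_of_le_normalizer hn).mp (hsup.symm ▸ hd.1)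
    refine ⟨b, hb, a, mem_of_commute_maximal hA hmax ?_ fun e he' => ?_, hc a ha b hb⟩
    · have := Monoid.pow_exponent_eq_one (⟨a, ha⟩ : P₁)
      rw [he] at this
      exact congrArg Subtype.val this
    · have h1 := hcA _ hd.2 e he'
      have h2 : e * b = b * e := hP2c b hb e (hAT he')
      calc e * a = e * (a * b) * b⁻¹ := by group
        _ = a * b * e * b⁻¹ := by rw [h1]
        _ = a * (b * e) * b⁻¹ := by group
        _ = a * e := by rw [← h2]; group
  · -- rank at least three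
    set E := A.subgroupOf (T : Subgroup G)
    have hE : IsElementaryAbelian p E :=
      ⟨⟨⟨fun a b => Subtype.ext (Subtype.ext (elem_comm hA a.2 b.2))⟩⟩, fun a ha => Subtype.ext (by simpa using hA.2 _ ha)⟩
    have hEc : Nat.card E = p ^ 2 := by rw [Coprime.card_subgroupOf hAT, hAc]
    have hEmax : ∀ B : Subgroup (T : Subgroup G), IsElementaryAbelian p B → E ≤ B → B = E := by
      intro B hB hEB
      have h := hmax (B.map (T : Subgroup G).subtype) (elem_map _ hB) (fun a ha => ⟨⟨a, hAT ha⟩, hEB ha, rfl⟩)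
      apply le_antisymm _ hEB
      intro b hb
      show (b : G) ∈ A
      exact h ▸ mem_map_of_mem _ hb
    obtain ⟨hnle, -, -, hchar, hidx⟩ := S1453.result p hp2 T.2 hr E hE hEc hEmax
    set T₁ := centralizer ((Subgroup.closure {x : (T : Subgroup G) | x ∈ Subgroup.upperCentralSeries (T : Subgroup G) 2 ∧ x ^ p = 1} :
      Subgroup (T : Subgroup G)) : Set (T : Subgroup G))
    haveI := hchar
    set D₁ := T₁ ⊓ centralizer (E : Set (T : Subgroup G))
    have hD₁ : IsCyclic D₁ := by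
      by_contra hnc
      obtain ⟨B, -, -, hBe, hBc⟩ := Thompson.exists_elemAbelian_normal hp2 (T.2.to_subgroup D₁) (⊤ : Subgroup D₁)
        fun h => hnc (by haveI := h; exact isCyclic_of_surjective _ Subgroup.topEquiv.surjective)
      have hle : B.map D₁.subtype ≤ E ⊓ T₁ := by
        rintro _ ⟨b, hb, rfl⟩
        refine ⟨?_, b.2.1⟩
        exact mem_of_commute_maximal hE hEmax (by
          have := congrArg Subtype.val (hBe.2 b hb)
          simpa using this) fun a ha => mem_centralizer_iff.mp b.2.2 a ha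
      have hlt : E ⊓ T₁ < E := lt_of_le_of_ne inf_le_left fun e => hnle (inf_eq_left.mp e)
      have h1 : Nat.card (E ⊓ T₁ : Subgroup (T : Subgroup G)) < p ^ 2 :=
        hEc ▸ (Set.toFinite _).card_lt_card (SetLike.coe_ssubset_coe.2 hlt)
      have h2 := card_le_of_le hle
      rw [card_map_of_injective D₁.subtype_injective, hBc] at h2
      omega
    obtain ⟨a₀, ha₀, ha₀T⟩ := SetLike.not_le_iff_exists.mp hnle
    have htop : T₁ ⊔ zpowers a₀ = ⊤ := by
      have hlt : T₁ < T₁ ⊔ zpowers a₀ :=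
        lt_of_le_of_ne le_sup_left fun e => ha₀T (e ▸ mem_sup_right (mem_zpowers a₀))
      refine eq_top_of_le_card _ ?_
      rw [← T₁.card_mul_index, hidx, mul_comm]
      exact Thompson.card_mul_p_le T.2 hlt
    refine ⟨D₁.map (T : Subgroup G).subtype, ?_, ?_, fun d hd => ?_⟩
    · haveI := hD₁
      exact isCyclic_of_surjective _ (D₁.equivMapOfInjective _ (T : Subgroup G).subtype_injective).surjective
    · rintro _ ⟨d, hd, rfl⟩
      exact ⟨d.2, mem_centralizer_iff.mpr fun a ha =>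
        congrArg Subtype.val (mem_centralizer_iff.mp hd.2 (⟨a, hAT ha⟩ : (T : Subgroup G)) ha)⟩
    · have hd' : (⟨d, hd.1⟩ : (T : Subgroup G)) ∈ centralizer (E : Set (T : Subgroup G)) :=
        mem_centralizer_iff.mpr fun e he => Subtype.ext (hcA d hd.2 (e : G) he)
      obtain ⟨t, ht, w, hw, e⟩ := mem_sup_of_normal_left.mp (htop.ge (mem_top (⟨d, hd.1⟩ : (T : Subgroup G))))
      have hwE : w ∈ E := zpowers_le.mpr ha₀ hw
      refine ⟨(t : G), ⟨t, ⟨ht, ?_⟩, rfl⟩, (w : G), hwE, (congrArg Subtype.val e).symm⟩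
      rw [show t = (⟨d, hd.1⟩ : (T : Subgroup G)) * w⁻¹ by rw [← e]; group]
      exact (centralizer (E : Set (T : Subgroup G))).mul_mem hd'
        ((centralizer (E : Set (T : Subgroup G))).inv_mem ((comm_le_centralizer hE.1) hwE))

/-- Centralisers of maximal `E²` subgroups in a Sylow subgroup are abelian. -/
theorem comm_centralizer_maximal (hG : IsMinSimpleOddOrder G) (hp2 : p ≠ 2) (T : Sylow p G)
    (hA : IsElementaryAbelian p A) (hAc : Nat.card A = p ^ 2)
    (hmax : ∀ B : Subgroup G, IsElementaryAbelian p B → A ≤ B → B = A) (hAT : A ≤ (T : Subgroup G)) :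
    ∀ x ∈ (T : Subgroup G) ⊓ centralizer (A : Set G), ∀ y ∈ (T : Subgroup G) ⊓ centralizer (A : Set G),
      x * y = y * x := by
  intro x hx y hy
  by_cases hna : IsMulCommutative (T : Subgroup G)
  · exact congrArg Subtype.val (hna.is_comm.comm (⟨x, hx.1⟩ : (T : Subgroup G)) ⟨y, hy.1⟩)
  obtain ⟨C₀, hC₀, hle, hdec⟩ := centralizer_maximal_decomp hG hp2 T hA hAc hmax hAT hna
  obtain ⟨c, hc, a, ha, rfl⟩ := hdec x hx
  obtain ⟨c', hc', a', ha', rfl⟩ := hdec y hy
  have e1 : Commute c c' := congrArg Subtype.val (hC₀.commGroup.mul_comm (⟨c, hc⟩ : C₀) ⟨c', hc'⟩)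
  have e2 : Commute c a' := (mem_centralizer_iff.mp (hle hc).2 a' ha').symm
  have e3 : Commute a c' := mem_centralizer_iff.mp (hle hc').2 a ha
  exact ((e1.mul_right e2).mul_left (e3.mul_right (elem_comm hA ha ha'))).eq

/-- `p`-th powers of order `p` in the centraliser generate a single line. -/
theorem pow_line_unique (hG : IsMinSimpleOddOrder G) (hp2 : p ≠ 2) (T : Sylow p G)
    (hA : IsElementaryAbelian p A) (hAc : Nat.card A = p ^ 2)
    (hmax : ∀ B : Subgroup G, IsElementaryAbelian p B → A ≤ B → B = A) (hAT : A ≤ (T : Subgroup G))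
    (hna : ¬ IsMulCommutative (T : Subgroup G)) {x y : G}
    (hx : x ∈ (T : Subgroup G) ⊓ centralizer (A : Set G)) (hy : y ∈ (T : Subgroup G) ⊓ centralizer (A : Set G))
    (hxp : (x ^ p) ^ p = 1) (hyp : (y ^ p) ^ p = 1) (hx1 : x ^ p ≠ 1) : y ^ p ∈ zpowers (x ^ p) := by
  obtain ⟨C₀, hC₀, hle, hdec⟩ := centralizer_maximal_decomp hG hp2 T hA hAc hmax hAT hna
  have key : ∀ d ∈ (T : Subgroup G) ⊓ centralizer (A : Set G), d ^ p ∈ C₀ := fun d hd => by
    obtain ⟨c, hc, a, ha, rfl⟩ := hdec d hd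
    rw [(show Commute c a from (mem_centralizer_iff.mp (hle hc).2 a ha).symm).mul_pow, hA.2 a ha, mul_one]
    exact pow_mem hc p
  haveI := hC₀
  have hp' : IsPGroup p C₀ := T.2.to_le (hle.trans inf_le_left)
  haveI : IsZGroup C₀ := inferInstance
  have h := PL.zpowers_eq_of_cyclic (H := C₀) (p := p) (S := ⊤) (hp'.to_subgroup ⊤) (v := ⟨_, key x hx⟩)
    (w := ⟨_, key y hy⟩) (mem_top _) (mem_top _) (Subtype.ext hxp) (Subtype.ext hyp)
    fun e => hx1 (congrArg Subtype.val e)
  obtain ⟨i, hi⟩ := mem_zpowers_iff.mp h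
  exact mem_zpowers_iff.mpr ⟨i, congrArg Subtype.val hi⟩

/-- BG 12.5(b). -/
theorem sylow_abelian_of_exc (hG : IsMinSimpleOddOrder G) {X : Subgroup G} (E : Exc M A X p) (S : Sylow p M)
    (hAS : A ≤ (S : Subgroup M).map M.subtype) : IsMulCommutative (S : Subgroup M) := by
  have hp2 : p ≠ 2 := fun e => hG.1.not_two_dvd_nat
    (e ▸ (dvd_pow_self p two_ne_zero).trans (E.card.symm.dvd.trans A.card_subgroup_dvd_card))
  obtain ⟨T, hT⟩ := (S.2.map M.subtype).exists_le_sylow
  have key := comm_centralizer_maximal hG hp2 T E.elem E.card (E.hmax hG) (hAS.trans hT)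
  have hle : (S : Subgroup M).map M.subtype ≤ (T : Subgroup G) ⊓ centralizer (A : Set G) :=
    le_inf hT (le_centralizer_iff.mp (E.le_centralizer_sylow hG S hAS))
  exact ⟨⟨fun a b => Subtype.ext (Subtype.ext
    (key _ (hle (mem_map_of_mem _ a.2)) _ (hle (mem_map_of_mem _ b.2))))⟩⟩

/-- A `p`-element of a maximal subgroup normalising `A` centralises it, for `p ∉ σ`. -/
theorem mem_centralizer_of_pgroup (hG : IsMinSimpleOddOrder G) (hM : IsCoatom M) (hpσ : p ∉ sigma M)
    (hA : IsElementaryAbelian p A) (hAc : Nat.card A = p ^ 2) {U : Subgroup G} (hU : IsPGroup p U) (hUM : U ≤ M)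
    (hAU : A ≤ U) : U ≤ centralizer (A : Set G) := by
  obtain ⟨X, hX⟩ := exists_exc hG hM hpσ (hAU.trans hUM) hA hAc
  obtain ⟨S, hS⟩ := (hU.comap_subtype (K := M)).exists_le_sylow
  have hle : U ≤ (S : Subgroup M).map M.subtype := fun u hu => ⟨⟨u, hUM hu⟩, hS hu, rfl⟩
  exact le_centralizer_iff.mp ((hX.le_centralizer_sylow hG S (hAU.trans hle)).trans (Subgroup.centralizer_le hle))

end Cfsg.Agent.Lib.Uniq
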