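import Cfsg.Agent.Lib.Uniq.Theorem
import Cfsg.Agent.Lib.Transfer.Alperin
import Cfsg.Agent.Lib.Transfer.Basic
set_option autoImplicit false

/-! The primes `σ(M)`: control of fusion (BG 10.1). -/

namespace Cfsg.Agent.Lib.Uniq

open Subgroup
open scoped Pointwise commutatorElement
open Cfsg.Agent.Lib.OddLocal

variable {G : Type*} [Group G] [Finite G] {p : ℕ} [hp : Fact p.Prime]

/-- A Sylow subgroup of `M` with normaliser in `M` is one of `G`. -/
lemma sigma_sylow {M : Subgroup G} (S : Sylow p M)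
    (h : normalizer ((S : Subgroup M).map M.subtype : Set G) ≤ M) :
    ∃ P : Sylow p G, (P : Subgroup G) = (S : Subgroup M).map M.subtype := by
  obtain ⟨P, hP⟩ := (S.2.map M.subtype).exists_le_sylow
  rcases hP.eq_or_lt with e | hlt
  · exact ⟨P, e.symm⟩
  exfalso
  have h1 := Transfer.lt_inf_normalizer P.2 hlt
  set R := (P : Subgroup G) ⊓ normalizer ((S : Subgroup M).map M.subtype : Set G)
  have hRM : R ≤ M := inf_le_right.trans h
  have hRp : IsPGroup p (R.subgroupOf M) :=
    (P.2.to_le inf_le_left : IsPGroup p R).comap_subtype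
  have heq : R.subgroupOf M = S := S.3 hRp fun x hx => h1.le (mem_map_of_mem _ hx)
  refine h1.ne ?_
  rw [← heq, map_subgroupOf_eq_of_le hRM]

/-- A Sylow subgroup with the properties defining `σ(M)`. -/
theorem exists_sigma_sylow {M : Subgroup G} (h : p ∈ sigma M) :
    ∃ P : Sylow p G, (P : Subgroup G) ≤ M ∧ normalizer ((P : Subgroup G) : Set G) ≤ M := by
  obtain ⟨-, -, S, hS⟩ := h
  obtain ⟨P, hP⟩ := sigma_sylow S hS
  exact ⟨P, hP ▸ map_subtype_le _, hP ▸ hS⟩

/-- Every `p`-subgroup of `M` is conjugate in `M` into a given Sylow subgroup of `G` inside `M`. -/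
theorem exists_conj_le_sylow {M X : Subgroup G} (P : Sylow p G) (hPM : (P : Subgroup G) ≤ M)
    (hX : IsPGroup p X) (hXM : X ≤ M) : ∃ m ∈ M, ∀ x ∈ X, m⁻¹ * x * m ∈ (P : Subgroup G) := by
  obtain ⟨S, hS⟩ := (hX.comap_subtype (K := M)).exists_le_sylow
  obtain ⟨g, hg⟩ := MulAction.exists_smul_eq M (P.subtype hPM) S
  refine ⟨g, g.2, fun x hx => ?_⟩
  have h1 : (⟨x, hXM hx⟩ : M) ∈ (S : Subgroup M) := hS hx
  rw [← hg] at h1
  obtain ⟨y, hy, hyx⟩ := h1
  have e : (g : G) * (y : G) * (g : G)⁻¹ = x := congrArg Subtype.val hyx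
  have : (g : G)⁻¹ * x * g = y := by rw [← e]; group
  rw [this]
  exact hy

omit [Finite G] hp in
lemma coatom_smul {M : Subgroup G} (k : G) (hM : IsCoatom M) : IsCoatom (MulAut.conj k • M) :=
  ((MulAut.conj k).mapSubgroup.isCoatom_iff M).mpr hM

lemma normalizer_coatom (hG : IsMinSimpleOddOrder G) {M : Subgroup G} (hM : IsCoatom M) (hM1 : M ≠ ⊥) :
    normalizer (M : Set G) = M := normalizer_max hG hM hM1 le_rfl le_normalizer

omit [Finite G] hp in
lemma coatom_ne_bot_of_le {M X : Subgroup G} (hX : X ≠ ⊥) (h : X ≤ M) : M ≠ ⊥ := fun e =>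
  hX (le_bot_iff.mp (e ▸ h))

/-- Frattini factorisation in the normaliser of a `p`-subgroup of rank at most two. -/
theorem normalizer_factor (hG : IsMinSimpleOddOrder G) {X : Subgroup G} (hX : IsPGroup p X) (hX1 : X ≠ ⊥)
    (hr : PRankLE p 2 X) (Q : Sylow p ↥(normalizer (X : Set G))) (n : G) (hn : n ∈ normalizer (X : Set G)) :
    ∃ c ∈ centralizer (X : Set G), ∃ u ∈ normalizer (X : Set G),
      u ∈ normalizer (((Q : Subgroup _).map (normalizer (X : Set G)).subtype : Subgroup G) : Set G) ∧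
      n = c * u := by
  haveI := solvable_of_ne_top hG (minSimple_normalizer_ne_top hG hX1 (pgroup_ne_top hG hX))
  let f : ↥(normalizer (X : Set G)) →* MulAut X := X.normalizerMonoidHom
  have hker : f.ker = (centralizer (X : Set G)).subgroupOf (normalizer (X : Set G)) := X.normalizerMonoidHom_ker
  have key := Hall.commutator_act_pPow (ne_two_of_pgroup hG hX hX1) hX hr (odd_card hG (normalizer (X : Set G))) f
  set π := QuotientGroup.mk' f.ker
  have hπ : Function.Surjective π := QuotientGroup.mk'_surjective _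
  have hDp : IsPGroup p ↥((commutator ↥(normalizer (X : Set G))).map π) := by
    rintro ⟨_, d, hd, rfl⟩
    obtain ⟨k, hk⟩ := key d hd
    refine ⟨k, Subtype.ext ?_⟩
    simp only [SubmonoidClass.coe_pow, OneMemClass.coe_one]
    rw [← map_pow]
    exact (QuotientGroup.eq_one_iff _).mpr (MonoidHom.mem_ker.mpr (by rw [map_pow]; exact hk))
  haveI hDn : ((commutator ↥(normalizer (X : Set G))).map π).Normal :=
    (Subgroup.commutator_normal ⊤ ⊤ : (commutator ↥(normalizer (X : Set G))).Normal).map π hπ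
  have h1 : commutator ↥(normalizer (X : Set G)) ≤ f.ker ⊔ (Q : Subgroup ↥(normalizer (X : Set G))) := by
    have h2 : (commutator ↥(normalizer (X : Set G))).map π ≤ (Q : Subgroup ↥(normalizer (X : Set G))).map π :=
      (Hall.le_pCore hDp).trans (Hall.pCore_le_sylow (Q.mapSurjective hπ))
    have h3 := map_le_iff_le_comap.mp h2
    rwa [comap_map_eq, QuotientGroup.ker_mk', sup_comm] at h3
  haveI : (f.ker ⊔ (Q : Subgroup ↥(normalizer (X : Set G)))).Normal := Subgroup.Normal.of_commutator_le _ h1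
  have hF := Sylow.normalizer_sup_eq_top' Q (N := f.ker ⊔ (Q : Subgroup ↥(normalizer (X : Set G)))) le_sup_right
  have hmem : (⟨n, hn⟩ : ↥(normalizer (X : Set G))) ∈ f.ker ⊔ normalizer ((Q : Subgroup ↥(normalizer (X : Set G))) : Set ↥(normalizer (X : Set G))) := by
    have h4 : (⊤ : Subgroup ↥(normalizer (X : Set G))) ≤ f.ker ⊔ normalizer ((Q : Subgroup ↥(normalizer (X : Set G))) : Set ↥(normalizer (X : Set G))) := by
      rw [← hF]
      exact sup_le le_sup_right (sup_le le_sup_left (le_normalizer.trans le_sup_right))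
    exact h4 (mem_top _)
  obtain ⟨c, hc, u, hu, hcu⟩ := mem_sup_of_normal_left.mp hmem
  refine ⟨c, mem_subgroupOf.mp (hker ▸ hc), u, u.2, ?_, (congrArg Subtype.val hcu).symm⟩
  exact le_normalizer_map (normalizer (X : Set G)).subtype (mem_map_of_mem (normalizer (X : Set G)).subtype hu)

/-- BG 10.1: `C(X)` is transitive on the conjugates of `M` containing `X`. -/
theorem conj_transitive (hG : IsMinSimpleOddOrder G) (hnar : NarrowFitting G) {M : Subgroup G}
    (hM : IsCoatom M) (P : Sylow p G) (hPM : (P : Subgroup G) ≤ M)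
    (hNP : normalizer ((P : Subgroup G) : Set G) ≤ M) : ∀ {X : Subgroup G}, IsPGroup p X → X ≠ ⊥ →
    ∀ {g h : G}, (∀ x ∈ X, g⁻¹ * x * g ∈ M) → (∀ x ∈ X, h⁻¹ * x * h ∈ M) →
      ∃ c ∈ centralizer (X : Set G), h⁻¹ * c * g ∈ M := by
  intro X
  induction hd : Nat.card G - Nat.card X using Nat.strong_induction_on generalizing X with
  | _ d ih =>
  subst hd
  intro hX hX1 g h hg hh
  have hX1' : M ≠ ⊥ := by
    intro e
    obtain ⟨x, hx, hx1⟩ := X.bot_or_exists_ne_one.resolve_left hX1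
    have h2 := hg x hx
    rw [e, mem_bot] at h2
    exact hx1 (by
      calc x = g * (g⁻¹ * x * g) * g⁻¹ := by group
        _ = 1 := by rw [h2]; group)
  by_cases hr : PRankLE p 2 X
  swap
  · obtain ⟨E, hEX, hE, hEc⟩ := elem_of_not_pRankLE hr
    have hU := unique_mono (unique_elem_three hG hnar hE hEc.ge) hEX (pgroup_ne_top hG hX)
    have conjM : ∀ k : G, (∀ x ∈ X, k⁻¹ * x * k ∈ M) → IsCoatom (MulAut.conj k • M) ∧ X ≤ MulAut.conj k • M :=
      fun k hk => ⟨coatom_smul k hM, fun x hx => ⟨k⁻¹ * x * k, hk x hx, by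
        simp [MulDistribMulAction.toMonoidEnd_apply, mul_assoc]⟩⟩
    have heq := max_eq hU (conjM g hg).1 (conjM h hh).1 (conjM g hg).2 (conjM h hh).2
    refine ⟨1, one_mem _, ?_⟩
    rw [mul_one, ← normalizer_coatom hG hM hX1']
    refine Coprime.mem_normalizer_of_conj_smul_eq ?_
    rw [map_mul, mul_smul, heq, ← mul_smul, ← map_mul, inv_mul_cancel, map_one, one_smul]
  -- Sylow subgroups above `X` in the two conjugates
  have hsyl : ∀ k : G, (∀ x ∈ X, k⁻¹ * x * k ∈ M) →
      ∃ m ∈ M, ∀ x ∈ X, (k * m)⁻¹ * x * (k * m) ∈ (P : Subgroup G) := by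
    intro k hk
    obtain ⟨m, hm, hm'⟩ := exists_conj_le_sylow P hPM
      (X := X.map (MulAut.conj k⁻¹).toMonoidHom) (hX.map _) (by
        rintro _ ⟨x, hx, rfl⟩
        simpa using hk x hx)
    refine ⟨m, hm, fun x hx => ?_⟩
    have := hm' _ (mem_map_of_mem _ hx)
    simpa [mul_assoc] using this
  by_cases hcard : Nat.card X = Nat.card (P : Subgroup G)
  · have heqP : ∀ k : G, (∀ x ∈ X, k⁻¹ * x * k ∈ M) → ∃ m ∈ M, X.map (MulAut.conj (k * m)⁻¹).toMonoidHom = P := by
      intro k hk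
      obtain ⟨m, hm, hm'⟩ := hsyl k hk
      refine ⟨m, hm, eq_of_le_of_card_ge ?_ ?_⟩
      · rintro _ ⟨x, hx, rfl⟩
        simpa [mul_assoc] using hm' x hx
      · rw [card_map_of_injective (f := (MulAut.conj (k * m)⁻¹).toMonoidHom) (MulAut.conj _).injective, hcard]
    obtain ⟨a, ha, ha'⟩ := heqP g hg
    obtain ⟨b, hb, hb'⟩ := heqP h hh
    refine ⟨1, one_mem _, ?_⟩
    have hn : (h * b)⁻¹ * (g * a) ∈ normalizer ((P : Subgroup G) : Set G) := by
      refine Coprime.mem_normalizer_of_conj_smul_eq ?_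
      conv_lhs => rw [← ha']
      rw [← hb']
      show ((X.map (MulAut.conj (g * a)⁻¹).toMonoidHom).map (MulAut.conj ((h * b)⁻¹ * (g * a))).toMonoidHom) = _
      rw [map_map]
      congr 1
      ext x
      simp [mul_assoc]
    have := mul_mem (mul_mem hb (hNP hn)) (inv_mem ha)
    rw [mul_one]
    simpa [mul_assoc] using this
  have hlt : Nat.card X < Nat.card (P : Subgroup G) := by
    obtain ⟨m, -, hm'⟩ := hsyl g hg
    refine lt_of_le_of_ne ?_ hcard
    rw [← card_map_of_injective (f := (MulAut.conj (g * m)⁻¹).toMonoidHom) (MulAut.conj _).injective]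
    refine Nat.card_le_card_of_injective (inclusion ?_) (inclusion_injective _)
    rintro _ ⟨x, hx, rfl⟩
    simpa [mul_assoc] using hm' x hx
  set N := normalizer (X : Set G) with hN
  obtain ⟨Q⟩ : Nonempty (Sylow p N) := inferInstance
  set Q' := (Q : Subgroup N).map N.subtype with hQ'
  have hQp : IsPGroup p Q' := Q.2.map _
  obtain ⟨P₂, hP₂⟩ := hQp.exists_le_sylow
  obtain ⟨k, hk⟩ := MulAction.exists_smul_eq G P P₂
  have hkQ : ∀ x ∈ Q', k⁻¹ * x * k ∈ M := by
    intro x hx
    have h1 := hP₂ hx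
    rw [← hk] at h1
    obtain ⟨y, hy, rfl⟩ := h1
    simpa [MulDistribMulAction.toMonoidEnd_apply, mul_assoc] using hPM hy
  -- every conjugate is tied to the fixed one
  have main : ∀ g : G, (∀ x ∈ X, g⁻¹ * x * g ∈ M) → ∃ c ∈ centralizer (X : Set G), k⁻¹ * c * g ∈ M := by
    intro g hg
    obtain ⟨m, hm, hm'⟩ := hsyl g hg
    set P₁ := (P : Subgroup G).map (MulAut.conj (g * m)).toMonoidHom with hP₁
    have hXP₁ : X ≤ P₁ := fun x hx => ⟨_, hm' x hx, by simp [mul_assoc]⟩
    have hXlt : X < P₁ := lt_of_le_of_ne hXP₁ fun e => hcard (by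
      rw [e, hP₁, card_map_of_injective (f := (MulAut.conj (g * m)).toMonoidHom) (MulAut.conj _).injective])
    have hR := Transfer.lt_inf_normalizer (P.2.map _ : IsPGroup p P₁) hXlt
    set R := P₁ ⊓ N
    have hRp : IsPGroup p R := (P.2.map _ : IsPGroup p P₁).to_le inf_le_left
    obtain ⟨Q₁, hQ₁⟩ := (hRp.comap_subtype (K := N)).exists_le_sylow
    obtain ⟨n, hn⟩ := MulAction.exists_smul_eq N Q Q₁
    have hRQ : ∀ x ∈ R, (n : G)⁻¹ * x * n ∈ Q' := by
      intro x hx
      have h1 : (⟨x, hx.2⟩ : N) ∈ (Q₁ : Subgroup N) := hQ₁ hx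
      rw [← hn] at h1
      obtain ⟨y, hy, hyx⟩ := h1
      have e : (n : G) * (y : G) * (n : G)⁻¹ = x := congrArg Subtype.val hyx
      exact ⟨y, hy, by show (y : G) = _; rw [← e]; group⟩
    have hbig : ∀ {Y : Subgroup G}, Nat.card X < Nat.card Y → Nat.card G - Nat.card Y < Nat.card G - Nat.card X :=
      fun {Y} hY => by
        have := Nat.le_of_dvd Nat.card_pos Y.card_subgroup_dvd_card
        omega
    have hcR : Nat.card X < Nat.card R :=
      (Set.toFinite _).card_lt_card (SetLike.coe_ssubset_coe.2 hR)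
    have hR1 : R ≠ ⊥ := fun e => hX1 (le_bot_iff.mp (e ▸ hR.le))
    obtain ⟨c, hc, hcg⟩ := ih _ (hbig hcR) rfl hRp hR1 (g := g) (h := n * k)
      (fun x hx => by
        obtain ⟨y, hy, rfl⟩ := hx.1
        have := mul_mem (mul_mem hm (hPM hy)) (inv_mem hm)
        simpa [mul_assoc] using this)
      (fun x hx => by
        have := hkQ _ (hRQ x hx)
        simpa [mul_assoc] using this)
    obtain ⟨c₀, hc₀, u, -, hu, hnu⟩ := normalizer_factor hG hX hX1 hr Q n n.2
    have hcQ : Nat.card R ≤ Nat.card Q' := by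
      refine Nat.card_le_card_of_injective (fun x => ⟨_, hRQ x x.2⟩) fun a b hab => ?_
      have := congrArg Subtype.val hab
      simpa using this
    have hQ1 : Q' ≠ ⊥ := fun e => by
      rw [e, card_bot] at hcQ
      exact hR1 (card_eq_one.mp (le_antisymm hcQ Nat.card_pos))
    obtain ⟨c₁, hc₁, hc₁g⟩ := ih _ (hbig (lt_of_lt_of_le hcR hcQ)) rfl hQp hQ1 (g := u * k) (h := k)
      (fun x hx => by
        have := hkQ _ ((mem_normalizer_iff''.mp hu x).mp hx)
        simpa [mul_assoc] using this) hkQ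
    have hXR : X ≤ R := hR.le
    have hXQ : X ≤ Q' := by
      have hXp : IsPGroup p (X.subgroupOf N) := hX.comap_subtype
      haveI : (X.subgroupOf N).Normal := normal_in_normalizer
      intro x hx
      exact ⟨⟨x, le_normalizer hx⟩, (Hall.le_pCore hXp).trans (Hall.pCore_le_sylow Q) hx, rfl⟩
    refine ⟨c₁ * c₀⁻¹ * c, mul_mem (mul_mem (centralizer_le hXQ hc₁) (inv_mem hc₀))
      (centralizer_le hXR hc), ?_⟩
    have hfin := mul_mem hc₁g hcg
    rw [hnu] at hfin
    simpa [mul_assoc] using hfin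
  obtain ⟨a, ha, ha'⟩ := main g hg
  obtain ⟨b, hb, hb'⟩ := main h hh
  refine ⟨b⁻¹ * a, mul_mem (inv_mem hb) ha, ?_⟩
  have := mul_mem (inv_mem hb') ha'
  simpa [mul_assoc] using this

end Cfsg.Agent.Lib.Uniq
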