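import Cfsg.Agent.Lib.Uniq.Twist
import Cfsg.Agent.S1395
import Cfsg.Agent.S1394
import Cfsg.Agent.S1404
set_option autoImplicit false

/-! BG 12.3: when no line of `A ∈ E²_p(M)` has `M` as the unique maximal subgroup over its normaliser. -/

namespace Cfsg.Agent.Lib.Uniq

open Subgroup
open scoped Pointwise commutatorElement

universe u

variable {G : Type u} [Group G] [Finite G] {M H A X : Subgroup G} {p q : ℕ}

/-- No line of `A` has its normaliser only in `M`. -/
def NoLine (M A : Subgroup G) (p : ℕ) : Prop :=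
  ∀ X : Subgroup G, X ≤ A → Nat.card X = p →
    ∃ H : Subgroup G, IsCoatom H ∧ normalizer (X : Set G) ≤ H ∧ H ≠ M

theorem noLine_of_not_unique (hG : IsMinSimpleOddOrder G) [hp : Fact p.Prime]
    (h : ∀ X : Subgroup G, X ≤ A → Nat.card X = p →
      ¬ (normalizer (X : Set G) ≤ M ∧ ∀ L : Subgroup G, IsCoatom L → normalizer (X : Set G) ≤ L → L = M)) :
    NoLine M A p := by
  intro X hXA hX
  have h' := h X hXA hX
  by_cases hle : normalizer (X : Set G) ≤ M
  · rw [not_and] at h'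
    have h2 := h' hle
    push Not at h2
    exact h2
  · have hne : normalizer (X : Set G) ≠ ⊤ := fun e => by
      rcases hG.2.1.eq_bot_or_eq_top_of_normal X (normalizer_eq_top_iff.mp e) with h1 | h1
      · rw [h1, card_bot] at hX; exact hp.out.ne_one hX.symm
      · exact pgroup_ne_top hG (IsPGroup.of_card (n := 1) (by rw [hX, pow_one])) h1
    obtain ⟨H, hH, hNH⟩ := exists_coatom_ge hne
    exact ⟨H, hH, hNH, fun e => hle (e ▸ hNH)⟩

theorem exists_line_of_ne [hp : Fact p.Prime] (hA : IsElementaryAbelian p A) {a : G} (ha : a ∈ A) (ha1 : a ≠ 1) :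
    zpowers a ≤ A ∧ Nat.card (zpowers a) = p :=
  ⟨zpowers_le.mpr ha, by rw [Nat.card_zpowers, orderOf_eq_prime (hA.2 a ha) ha1]⟩

theorem le_of_line_norm (hA : IsElementaryAbelian p A) (hXA : X ≤ A) (hN : normalizer (X : Set G) ≤ H) : A ≤ H :=
  (((comm_le_centralizer hA.1).trans (Subgroup.centralizer_le hXA)).trans (centralizer_le_normalizer _)).trans hN

/-- A coprime `q`-group inside `H` is centralised by a `p`-subgroup of `H'` when `q ∉ β(H)`. -/
theorem centralizes_of_derived (hG : IsMinSimpleOddOrder G) (hH : IsCoatom H) [hp : Fact p.Prime] [hq : Fact q.Prime]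
    (hqp : q ≠ p) (hA : IsPGroup p A) (hAH : A ≤ ⁅H, H⁆) (hβ : q ∉ beta H) {Y : Subgroup G} (hY : IsPGroup q Y)
    (hYH : Y ≤ H) (hAY : A ≤ normalizer (Y : Set G)) : A ≤ centralizer (Y : Set G) := by
  by_cases hY1 : Y = ⊥
  · intro a _
    refine mem_centralizer_iff.mpr fun y hy => ?_
    rw [SetLike.mem_coe, hY1, mem_bot] at hy
    rw [hy, one_mul, mul_one]
  have hqH : q ∣ Nat.card H := by
    obtain ⟨j, hj⟩ := IsPGroup.iff_card.mp hY
    rcases Nat.eq_zero_or_pos j with h | h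
    · exact absurd (card_eq_one.mp (hj.trans (by rw [h, pow_zero]))) hY1
    · exact ((dvd_pow_self q h.ne').trans hj.symm.dvd).trans (card_dvd_of_le hYH)
  have hnpc := (not_beta_structure hG hH hqH hβ).2
  set D := commutator ↥H
  set K := (pResidual q ↥D).map D.subtype
  set K' := K.map H.subtype
  haveI := Transfer.pResidual_characteristic (G := ↥D) (p := q)
  have hKn : H ≤ normalizer (K' : Set G) := by
    haveI : K.Normal := inferInstance
    refine (normal_subgroupOf_iff_le_normalizer (map_subtype_le _)).mp ?_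
    rw [subgroupOf, comap_map_eq_self_of_injective H.subtype_injective]
    infer_instance
  have hAK : A ≤ K' := by
    intro a ha
    have h1 := hAH ha
    rw [← map_subtype_commutator] at h1
    obtain ⟨d, hd, rfl⟩ := h1
    refine ⟨d, ⟨⟨d, hd⟩, Transfer.mem_pResidual ?_, rfl⟩, rfl⟩
    obtain ⟨j, hj⟩ := IsPGroup.iff_orderOf.mp hA ⟨_, ha⟩
    rw [Subgroup.orderOf_mk, ← orderOf_injective H.subtype H.subtype_injective d] at *
    rw [hj]
    exact ((Nat.coprime_primes hp.out hq.out).mpr (Ne.symm hqp)).pow_left j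
  have hcop : (Nat.card Y).Coprime (Nat.card K') := by
    obtain ⟨j, hj⟩ := IsPGroup.iff_card.mp hY
    rw [hj, card_map_of_injective H.subtype_injective, card_map_of_injective D.subtype_injective]
    exact Nat.Coprime.pow_left j (hq.out.coprime_iff_not_dvd.mpr (Transfer.hasNormalPComplement_iff.mp hnpc))
  refine le_centralizer_iff.mp (commutator_eq_bot_iff_le_centralizer.mp (le_bot_iff.mp ?_))
  rw [← Coprime.inf_eq_bot_of_coprime hcop]
  refine le_inf (Coprime.commutator_le_of_le_normalizer' hAY) ((commutator_mono le_rfl hAK).trans ?_)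
  rw [commutator_comm]
  exact Coprime.commutator_le_of_le_normalizer' (hYH.trans hKn)

/-- `A ≤ M_σ ≤ M'` for `p ∈ σ(M)`. -/
theorem le_derived_of_sigma (hG : IsMinSimpleOddOrder G) (hM : IsCoatom M) [hp : Fact p.Prime] (hσ : p ∈ sigma M)
    (hA : IsPGroup p A) (hAM : A ≤ M) : A ≤ ⁅M, M⁆ :=
  (pgroup_le_sigmaCore hG hM hσ hA hAM).trans (sigmaCore_le_derived hG hM)

theorem sigma_conj {g : G} (hM : IsCoatom M) (hG : IsMinSimpleOddOrder G) (hMg : H = MulAut.conj g • M) {p : ℕ}
    (hp : p ∈ sigma H) : p ∈ sigma M := by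
  haveI := Fact.mk hp.1
  obtain ⟨P, hPH, hN⟩ := exists_sigma_sylow hp
  have hPM : ((g⁻¹ • P : Sylow p G) : Subgroup G) ≤ M := by
    rw [Sylow.coe_subgroup_smul, map_inv, pointwise_smul_subset_iff, inv_inv, ← hMg]
    exact hPH
  have hpM : p ∣ Nat.card M := by
    have h := hp.2.1
    rwa [hMg, Coprime.card_conj_smul] at h
  refine ⟨hp.1, hpM, (g⁻¹ • P).subtype hPM, ?_⟩
  rw [Sylow.coe_subtype, map_subgroupOf_eq_of_le hPM]
  intro y hy
  have h1 : g * y * g⁻¹ ∈ normalizer ((P : Subgroup G) : Set G) := by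
    refine Coprime.mem_normalizer_of_conj_smul_eq ?_
    have hy' := Coprime.conj_smul_eq_self hy
    rw [Sylow.coe_subgroup_smul, ← mul_smul, map_inv] at hy'
    calc MulAut.conj (g * y * g⁻¹) • (P : Subgroup G)
        = MulAut.conj g • ((MulAut.conj y * (MulAut.conj g)⁻¹) • (P : Subgroup G)) := by
          rw [← mul_smul, map_mul, map_mul, map_inv, mul_assoc]
      _ = (P : Subgroup G) := by rw [hy', smul_inv_smul]
  have h2 := hN h1
  rw [hMg, Coprime.mem_conj_smul] at h2
  simpa [mul_assoc] using h2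

omit [Finite G] in
theorem isSubnormal_of_nilpotent [Finite G] [Group.IsNilpotent G] (K : Subgroup G) : K.IsSubnormal := by
  induction K using WellFoundedGT.induction with
  | _ K ih =>
    by_cases hK : K = ⊤
    · rw [hK]; exact IsSubnormal.top
    · exact IsSubnormal.step K _ le_normalizer (ih _ (Group.normalizerCondition_of_isNilpotent K (lt_top_iff_ne_top.mpr hK)))
        normal_in_normalizer

variable [hp : Fact p.Prime]

/-- `p ∉ α(M)` when there is no line. -/
theorem NoLine.not_alpha (hN : NoLine M A p) (hG : IsMinSimpleOddOrder G) (hM : IsCoatom M) (hAM : A ≤ M)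
    (hA : IsElementaryAbelian p A) (hAc : Nat.card A = p ^ 2) : p ∉ alpha M := by
  intro hα
  obtain ⟨a, ha, ha1⟩ := A.bot_or_exists_ne_one.resolve_left fun e => by
    rw [e, card_bot] at hAc
    exact (Nat.one_lt_pow two_ne_zero hp.out.one_lt).ne hAc
  have hA2 : ¬ RankLE 1 A := fun h => not_pRankLE_one le_rfl hA hAc.ge (h p hp.out)
  have kill : ∀ X : Subgroup G, X ≤ A → Nat.card X = p → ∀ U : Subgroup G, InUniqueMaximal U → U ≤ M →
      U ≤ centralizer (X : Set G) → False := by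
    intro X hX hXc U hU hUM hUX
    obtain ⟨H, hH, hNH, hne⟩ := hN X hX hXc
    exact hne (max_eq hU hH hM ((hUX.trans (centralizer_le_normalizer _)).trans hNH) hUM)
  obtain ⟨hla, hlc⟩ := exists_line_of_ne hA ha ha1
  by_cases hmax : ∀ B : Subgroup G, IsElementaryAbelian p B → A ≤ B → B = A
  swap
  · push Not at hmax
    obtain ⟨B, hB, hAB, hne⟩ := hmax
    have hC : ¬ RankLE 2 ↥(centralizer (A : Set G)) := fun h =>
      not_pRankLE_of_elem ((comm_le_centralizer hB.1).trans (Subgroup.centralizer_le hAB)) hB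
        (hAc ▸ (Set.toFinite _).card_lt_card (SetLike.coe_ssubset_coe.2 (lt_of_le_of_ne hAB (Ne.symm hne))))
        (h p hp.out)
    exact kill _ hla hlc A (uniqueness_theorem hG (narrowFitting hG) (ne_top_of_le hM hAM) hA2 (Or.inr hC)) hAM
      ((comm_le_centralizer hA.1).trans (Subgroup.centralizer_le hla))
  obtain ⟨P₀, hP₀M, -⟩ := exists_sigma_sylow (alpha_subset_sigma hG hM hα)
  obtain ⟨m, hm, hmA⟩ := exists_conj_le_sylow P₀ hP₀M (elem_isPGroup hA) hAM
  set P := m • P₀
  have hPM : (P : Subgroup G) ≤ M :=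
    (pointwise_smul_le_pointwise_smul_iff.mpr hP₀M).trans (Coprime.conj_smul_eq_self (le_normalizer hm)).le
  have hAP : A ≤ (P : Subgroup G) := fun y hy => Coprime.mem_conj_smul.mpr (hmA y hy)
  obtain ⟨E, hEM, hE, hEc⟩ := elem_of_not_pRankLE hα.2
  obtain ⟨m', hm', hmE⟩ := exists_conj_le_sylow P hPM (elem_isPGroup hE) hEM
  have hE' : (E.map (MulAut.conj m'⁻¹).toMonoidHom) ≤ (P : Subgroup G) := by
    rintro _ ⟨y, hy, rfl⟩
    simpa using hmE y hy
  have hU : InUniqueMaximal (P : Subgroup G) :=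
    unique_mono (unique_elem_three hG (narrowFitting hG) (elem_map _ hE)
      (by rw [card_map_of_injective (MulAut.conj m'⁻¹).injective, hEc])) hE' (ne_top_of_le hM hPM)
  obtain ⟨z, -, hzc, hzo⟩ : ∃ z : ↥(P : Subgroup G), z ∈ (⊤ : Subgroup ↥(P : Subgroup G)) ∧
      z ∈ center ↥(P : Subgroup G) ∧ orderOf z = p := by
    haveI : Nontrivial ↥(P : Subgroup G) := ⟨⟨⟨a, hAP ha⟩, 1, fun e => ha1 (congrArg Subtype.val e)⟩⟩
    exact Thompson.exists_central_order_p P.2 top_ne_bot
  have hzA : (z : G) ∈ A := mem_of_commute_maximal hA hmax ((congrArg ((z : G) ^ ·) ((orderOf_coe z).trans hzo)).symm.trans (pow_orderOf_eq_one _))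
    fun b hb => congrArg Subtype.val (mem_center_iff.mp hzc ⟨b, hAP hb⟩)
  have hz1 : (z : G) ≠ 1 := fun e => hp.out.ne_one (by rw [← hzo, ← orderOf_coe, e, orderOf_one])
  obtain ⟨hlz, hlzc⟩ := exists_line_of_ne hA hzA hz1
  exact kill _ hlz hlzc _ hU hPM fun y hy => by
    rw [centralizer_zpowers]
    exact mem_centralizer_singleton_iff.mpr (congrArg Subtype.val (mem_center_iff.mp hzc ⟨y, hy⟩))

/-- A nilpotent `M_σ`: a Sylow subgroup of `G` inside it is normalised by `M`. -/
theorem le_normalizer_sylow_nilpotent (hG : IsMinSimpleOddOrder G) (hM : IsCoatom M) [hq : Fact q.Prime]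
    (hσ : q ∈ sigma M) (hnil : Group.IsNilpotent (sigmaCore M)) (Q : Sylow q G) (hQM : (Q : Subgroup G) ≤ M) :
    M ≤ normalizer ((Q : Subgroup G) : Set G) := by
  haveI := hnil
  have hQK := pgroup_le_sigmaCore hG hM hσ Q.2 hQM
  have hn : ((Q.subtype hQK : Sylow q ↥(sigmaCore M)) : Subgroup ↥(sigmaCore M)).Normal :=
    Sylow.normal_of_normalizerCondition Group.normalizerCondition_of_isNilpotent _
  haveI := hn
  haveI := Sylow.characteristic_of_normal (Q.subtype hQK) hn
  have h := (OddLocal.le_normalizer_piCoreOf (sigma M) M).trans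
    (PL.normalizer_le_normalizer_map_char (sigmaCore M) ((Q.subtype hQK : Sylow q ↥(sigmaCore M)) : Subgroup _))
  rwa [Sylow.coe_subtype, map_subgroupOf_eq_of_le hQK] at h

omit hp in
theorem inv_inf_centralizer {a : G} (hA : IsElementaryAbelian p A) (ha : a ∈ A) {Q : Subgroup G}
    (hAQ : A ≤ normalizer (Q : Set G)) :
    A ≤ normalizer ((Q ⊓ centralizer ({a} : Set G) : Subgroup G) : Set G) :=
  (le_inf hAQ (((comm_le_centralizer hA.1).trans (Subgroup.centralizer_le (Set.singleton_subset_iff.mpr ha))).trans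
    le_normalizer)).trans inf_normalizer_le_normalizer_inf

/-- In the no-line case, invariant `q`-subgroups centralised by a line are centralised, for `q ∈ α(M)`. -/
theorem NoLine.centralizes_alpha (hN : NoLine M A p) (hG : IsMinSimpleOddOrder G) (hM : IsCoatom M) (hAM : A ≤ M)
    (hA : IsElementaryAbelian p A) (hAc : Nat.card A = p ^ 2) (hder : A ≤ ⁅M, M⁆) [hq : Fact q.Prime]
    (hα : q ∈ alpha M) {a : G} (ha : a ∈ A) (ha1 : a ≠ 1) {Y : Subgroup G} (hY : IsPGroup q Y) (hYM : Y ≤ M)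
    (hAY : A ≤ normalizer (Y : Set G)) (hYa : Y ≤ centralizer ({a} : Set G)) : A ≤ centralizer (Y : Set G) := by
  have hqp : q ≠ p := fun e => hN.not_alpha hG hM hAM hA hAc (e ▸ hα)
  by_cases hβ : q ∈ beta M
  swap
  · exact centralizes_of_derived hG hM hqp (elem_isPGroup hA) hder hβ hY hYM hAY
  obtain ⟨hla, hlc⟩ := exists_line_of_ne hA ha ha1
  obtain ⟨H, hH, hNH, hne⟩ := hN _ hla hlc
  have hAH : A ≤ H := le_of_line_norm hA hla hNH
  have hYH : Y ≤ H :=
    ((centralizer_zpowers a ▸ hYa : Y ≤ centralizer (zpowers a : Set G)).trans (centralizer_le_normalizer _)).trans hNH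
  by_cases hpH : p ∈ sigma H
  · refine centralizes_of_derived hG hH hqp (elem_isPGroup hA) (le_derived_of_sigma hG hH hpH (elem_isPGroup hA) hAH)
      (fun hβH => ?_) hY hYH hAY
    obtain ⟨g, hg⟩ := conj_of_alpha_sigma hG hM hH hα (alpha_subset_sigma hG hH hβH.1)
    have hpM := sigma_conj hM hG hg hpH
    obtain ⟨m, hm, c, hc, hmc⟩ := (S1404.result hG M hM p hpM (zpowers a)
      ((elem_isPGroup hA).to_le hla) (fun e => ha1 (zpowers_eq_bot.mp e)) (hla.trans hAM)).1 g⁻¹ (by
        rw [show (zpowers a).map (MulAut.conj g⁻¹).toMonoidHom = MulAut.conj g⁻¹ • zpowers a from rfl,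
          map_inv, pointwise_smul_subset_iff, inv_inv, ← hg]
        exact hla.trans hAH)
    refine hne ?_
    have hcH : c ∈ H := hNH (centralizer_le_normalizer _ hc)
    rw [← Coprime.conj_smul_eq_self (le_normalizer hcH : c ∈ normalizer (H : Set G)), hg, ← mul_smul, ← map_mul,
      show g = c⁻¹ * m⁻¹ by rw [← mul_inv_rev, ← hmc, inv_inv], mul_inv_cancel_left,
      Coprime.conj_smul_eq_self (le_normalizer (M.inv_mem hm))]
  · by_contra hnc
    have hE : Exc H A (zpowers a) p := ⟨hH, hpH, hAH, hA, hAc, hla, hlc, hNH⟩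
    by_cases hqH : q ∈ sigma H
    · obtain ⟨g, hg⟩ := conj_of_alpha_sigma hG hM hH hα hqH
      by_cases hpM : p ∈ sigma M
      · -- conjugation preserves `σ`
        refine hpH ?_
        exact sigma_conj hH hG (show M = MulAut.conj g⁻¹ • H by rw [hg, map_inv, inv_smul_smul]) hpM
      obtain ⟨Q, hQM, hYQ, hAQ⟩ := exists_invariant_sylow_sigma hG hM (alpha_subset_sigma hG hM hα) hpM
        (elem_isPGroup hA) hAM hY hYM hAY
      have hY1 : Y ≠ ⊥ := fun e => hnc fun b _ => mem_centralizer_iff.mpr fun y hy => by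
        rw [SetLike.mem_coe, e, mem_bot] at hy
        rw [hy, one_mul, mul_one]
      have hQH := hE.invariant_sylow_le hG hqH Q hAQ (ne_bot_of_le_ne_bot hY1
        (le_inf (centralizer_zpowers a ▸ hYa : Y ≤ centralizer (zpowers a : Set G)) hYQ))
      exact hne ((normalizer_eq_of_normal hG hH (ne_bot_of_le_ne_bot hY1 hYQ) hQH
        (le_normalizer_sylow_nilpotent hG hH hqH (hE.sigmaCore_nilpotent hG) Q hQH)).symm.le.trans
          (sylow_normalizer_le hG hM (alpha_subset_sigma hG hM hα) Q hQM) |> fun h =>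
          ((hH.le_iff.mp h).resolve_left hM.1).symm)
    · have hr2 := rank_two_of_not_sigma hG hH hq.out hqH
      have hr1 : PRankLE q 1 H := by_contra fun h => not_idealPrime hG hH hr2 h hβ.2
      obtain ⟨-, t₁, t₂, -, -, -, -, hgen, h1, h2⟩ := hE.exists_fpf hG
      obtain ⟨-, -, L, hL, hLD, hNL, -⟩ := exists_twist hG hH hqp hpH hqH (hE.sigmaCore_nilpotent hG) hAH hA
        hgen h1 h2 (fun B hBH hBe hBc => absurd hr1 (not_pRankLE_one hBH hBe hBc.ge)) hY hYH hAY hnc
      exact rank_one_no_normal_line hG hH hqH hr1 hL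
        (hLD.trans ((Coprime.commutator_le_of_le_normalizer' hAY).trans hYH)) hNL

/-- In the no-line case with `A ≤ M'`, `α(M)` is empty. -/
theorem NoLine.alpha_empty (hN : NoLine M A p) (hG : IsMinSimpleOddOrder G) (hM : IsCoatom M) (hAM : A ≤ M)
    (hA : IsElementaryAbelian p A) (hAc : Nat.card A = p ^ 2) (hder : A ≤ ⁅M, M⁆) : ∀ q, q ∉ alpha M := by
  intro q hα
  haveI := Fact.mk hα.1
  have hnp := hN.not_alpha hG hM hAM hA hAc
  have hqp : q ≠ p := fun e => hnp (e ▸ hα)
  have hcop : (Nat.card A).Coprime (Nat.card (alphaCore M)) := Nat.coprime_of_dvd fun r hr h1 h2 =>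
    hnp (isPGroup_ne_dvd (elem_isPGroup hA) hr h1 ▸ alphaCore_isPi M r hr h2)
  haveI := solvable_of_ne_top hG (pgroup_ne_top hG (elem_isPGroup hA))
  obtain ⟨S, hAS⟩ := Coprime.exists_invariant_sylow (K := alphaCore M)
    (hAM.trans (OddLocal.le_normalizer_piCoreOf _ M)) hcop (Or.inl inferInstance) q
  set Q := (S : Subgroup (alphaCore M)).map (alphaCore M).subtype
  have hQM : Q ≤ M := (map_subtype_le _).trans (OddLocal.piCoreOf_le _ M)
  have hQp : IsPGroup q Q := S.2.map _
  have hQC : Q ≤ centralizer (A : Set G) := by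
    rw [← Coprime.fixGen_eq_of_elementary hp.out (fun a ha b hb => elem_comm hA ha hb) hA.2 hAc hAS
      (coprime_pgroups hqp (elem_isPGroup hA) hQp)]
    refine iSup₂_le fun a ha => le_centralizer_iff.mp ?_
    exact hN.centralizes_alpha hG hM hAM hA hAc hder hα ha.1 ha.2 (hQp.to_le inf_le_left)
      (inf_le_left.trans hQM) (inv_inf_centralizer hA ha.1 hAS) inf_le_right
  obtain ⟨a, ha, ha1⟩ := A.bot_or_exists_ne_one.resolve_left fun e => by
    rw [e, card_bot] at hAc
    exact (Nat.one_lt_pow two_ne_zero hp.out.one_lt).ne hAc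
  have hU : InUniqueMaximal A := uniqueness_theorem hG (narrowFitting hG) (ne_top_of_le hM hAM)
    (fun h => not_pRankLE_one le_rfl hA hAc.ge (h p hp.out))
    (Or.inr fun h => not_pRankLE_mono hQC (not_pRankLE_sylow_alphaCore hG hM hα S) (h q hα.1))
  obtain ⟨hla, hlc⟩ := exists_line_of_ne hA ha ha1
  obtain ⟨H, hH, hNH, hne⟩ := hN _ hla hlc
  exact hne (max_eq hU hH hM (le_of_line_norm hA hla hNH) hAM)

/-- In the no-line case with `p ∉ σ(M)`, `C_{M_σ}(A) = 1`. -/
theorem NoLine.inf_centralizer_eq_bot (hN : NoLine M A p) (hG : IsMinSimpleOddOrder G) (hM : IsCoatom M)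
    (hpσ : p ∉ sigma M) (hAM : A ≤ M) (hA : IsElementaryAbelian p A) (hAc : Nat.card A = p ^ 2) :
    sigmaCore M ⊓ centralizer (A : Set G) = ⊥ := by
  classical
  by_contra hne
  have hne1 : Nat.card ↥(sigmaCore M ⊓ centralizer (A : Set G)) ≠ 1 := fun e => hne (card_eq_one.mp e)
  obtain ⟨q, hq, hqd⟩ := Nat.exists_prime_and_dvd hne1
  haveI := Fact.mk hq
  have hσ : q ∈ sigma M := OddLocal.piCoreOf_isPi (sigma M) M q hq (hqd.trans (card_dvd_of_le inf_le_left))
  have hqp : q ≠ p := fun e => hpσ (e ▸ hσ)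
  have hqC : q ∣ Nat.card (centralizer (A : Set G)) := hqd.trans (card_dvd_of_le inf_le_right)
  have hmax : ∀ B : Subgroup G, IsElementaryAbelian p B → A ≤ B → B = A := fun _ hB hAB =>
    elem_two_maximal hG hM (rank_two_of_not_sigma hG hM hp.out hpσ) hAM hA hAc hB hAB
  have hT := transitivity_maximal hG hA hAc hmax
  have hqA := not_dvd_card_of_ne hqp (elem_isPGroup hA)
  have hAA : A ⊓ centralizer (A : Set G) = A := inf_eq_left.mpr (comm_le_centralizer hA.1)
  have htr := S1394.result hG A hT (by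
    rw [hAA]
    exact fun h => not_pRankLE_one le_rfl hA hAc.ge (h p hp.out)) q hq hqA hqC
  obtain ⟨S, hS⟩ := ((elem_isPGroup hA).comap_subtype (K := M)).exists_le_sylow
  set P := (S : Subgroup ↥M).map M.subtype
  have hAP : A ≤ P := fun a ha => ⟨⟨a, hAM ha⟩, hS ha, rfl⟩
  have hPp : IsPGroup p P := S.2.map _
  have hPM : P ≤ M := map_subtype_le _
  obtain ⟨Q, hQM, -, hPQ⟩ := exists_invariant_sylow_sigma hG hM hσ hpσ hPp hPM (IsPGroup.of_bot (p := q))
    bot_le (by rw [normalizer_eq_top (⊥ : Subgroup G)]; exact le_top)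
  haveI : Group.IsNilpotent ↥P := hPp.isNilpotent
  obtain ⟨-, -, -, hd⟩ := S1395.result hG A hT q hq hqA P (pgroup_ne_top hG hPp)
    (fun r hr h => by rw [isPGroup_ne_dvd hPp hr h, hAc]; exact dvd_pow_self p two_ne_zero) hAP
    (isSubnormal_of_nilpotent _) htr
  obtain ⟨h1, h2⟩ := hd _ (sylow_mem_maxInv Q hPQ)
  have hNQ := sylow_normalizer_le hG hM hσ Q hQM
  obtain ⟨T, hT'⟩ := hPp.exists_le_sylow
  have hPT : P = (T : Subgroup G) := by
    by_contra hneT
    have hlt := Transfer.lt_inf_normalizer T.2 (lt_of_le_of_ne hT' hneT)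
    set P₁ := (T : Subgroup G) ⊓ normalizer (P : Set G)
    set K := piCoreOf (primesNotDvd (Nat.card A)) (centralizer (P : Set G))
    set L := normalizer (P : Set G) ⊓ normalizer ((Q : Subgroup G) : Set G)
    have hLK : L ≤ normalizer (K : Set G) := inf_le_left.trans
      ((Coprime.normalizer_le_normalizer_centralizer P).trans (OddLocal.normalizer_le_normalizer_piCoreOf _ _))
    have hdvd : Nat.card P₁ ∣ Nat.card L * Nat.card K := by
      refine (card_dvd_of_le (inf_le_right.trans (h2.le.trans (le_of_eq (sup_comm K L))))).trans ?_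
      exact Dvd.intro _ (Coprime.card_sup_mul_card_inf_of_le_normalizer hLK)
    obtain ⟨j, hj⟩ := IsPGroup.iff_card.mp (T.2.to_le (inf_le_left : P₁ ≤ T))
    have hdvd' : Nat.card P₁ ∣ Nat.card M := by
      refine (Nat.Coprime.dvd_of_dvd_mul_right ?_ hdvd).trans (card_dvd_of_le (inf_le_right.trans hNQ))
      rw [hj]
      refine Nat.Coprime.pow_left j (hp.out.coprime_iff_not_dvd.mpr fun h => ?_)
      exact hp.out.coprime_iff_not_dvd.mp
        ((OddLocal.coprime_piCoreOf (Nat.card A) _).coprime_dvd_left (hAc ▸ dvd_pow_self p two_ne_zero)) h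
    rw [hj] at hdvd'
    have hle := (hp.out.pow_dvd_iff_le_factorization Nat.card_pos.ne').mp hdvd'
    have hlt' : Nat.card P < Nat.card P₁ := (Set.toFinite _).card_lt_card (SetLike.coe_ssubset_coe.2 hlt)
    rw [hj, card_map_of_injective M.subtype_injective, S.card_eq_multiplicity] at hlt'
    exact absurd (Nat.pow_le_pow_right hp.out.pos hle) (not_le.mpr hlt')
  have hPD : P ≤ ⁅M, M⁆ := by
    refine le_trans (le_trans (le_inf le_rfl ?_) h1) (commutator_mono hNQ hNQ)
    rw [hPT]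
    exact sylow_le_commutator_normalizer hG T
  have hα := hN.alpha_empty hG hM hAM hA hAc (hAP.trans hPD)
  have hDM : ⁅M, M⁆ ≤ M := by rw [← map_subtype_commutator]; exact map_subtype_le _
  haveI hnil : Group.IsNilpotent ↥⁅M, M⁆ := isNilpotent_derived hG hM le_rfl fun r _ _ h => hα r h.1
  have hn : ((T.subtype (hPT ▸ hPD) : Sylow p ↥⁅M, M⁆) : Subgroup ↥⁅M, M⁆).Normal :=
    Sylow.normal_of_normalizerCondition Group.normalizerCondition_of_isNilpotent _
  haveI := Sylow.characteristic_of_normal (T.subtype (hPT ▸ hPD)) hn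
  have hMn : M ≤ normalizer (P : Set G) := by
    have h := (Coprime.left_le_normalizer_commutator M M).trans
      (PL.normalizer_le_normalizer_map_char ⁅M, M⁆ ((T.subtype (hPT ▸ hPD) : Sylow p ↥⁅M, M⁆) : Subgroup _))
    rwa [Sylow.coe_subtype, map_subgroupOf_eq_of_le (hPT ▸ hPD), ← hPT] at h
  have hP1 : P ≠ ⊥ := fun e => by
    have h := card_dvd_of_le (hAP.trans e.le)
    rw [hAc, card_bot] at h
    exact (Nat.one_lt_pow two_ne_zero hp.out.one_lt).ne' (Nat.dvd_one.mp h)
  refine hpσ ⟨hp.out, ?_, S, (normalizer_eq_of_normal hG hM hP1 hPM hMn).le⟩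
  exact ((dvd_pow_self p two_ne_zero).trans hAc.symm.dvd).trans (card_dvd_of_le hAM)

/-- `C_{M_σ}(A) = 1` for `p ∉ σ(M)`, in general. -/
theorem sigmaCore_inf_centralizer_elem (hG : IsMinSimpleOddOrder G) (hM : IsCoatom M) (hpσ : p ∉ sigma M)
    (hAM : A ≤ M) (hA : IsElementaryAbelian p A) (hAc : Nat.card A = p ^ 2) :
    sigmaCore M ⊓ centralizer (A : Set G) = ⊥ := by
  by_cases h : ∃ X : Subgroup G, X ≤ A ∧ Nat.card X = p ∧ normalizer (X : Set G) ≤ M
  · obtain ⟨X, hX, hXc, hN⟩ := h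
    exact Exc.inf_centralizer_eq_bot ⟨hM, hpσ, hAM, hA, hAc, hX, hXc, hN⟩ hG
  · push Not at h
    exact NoLine.inf_centralizer_eq_bot
      (noLine_of_not_unique hG fun X hX hXc hc => h X hX hXc hc.1) hG hM hpσ hAM hA hAc

/-- BG 12.3: in the no-line case `p ∈ σ(M)`. -/
theorem NoLine.mem_sigma (hN : NoLine M A p) (hG : IsMinSimpleOddOrder G) (hM : IsCoatom M) (hAM : A ≤ M)
    (hA : IsElementaryAbelian p A) (hAc : Nat.card A = p ^ 2) : p ∈ sigma M := by
  classical
  by_contra hpσ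
  have hC := sigmaCore_inf_centralizer_elem hG hM hpσ hAM hA hAc
  have hA1 : A ≠ ⊥ := fun e => by
    rw [e, card_bot] at hAc
    exact (Nat.one_lt_pow two_ne_zero hp.out.one_lt).ne hAc
  obtain ⟨q, hq, hσ⟩ := sigma_nonempty hG hM (ne_bot_of_le_ne_bot hA1 hAM)
  haveI := Fact.mk hq
  have hqp : q ≠ p := fun e => hpσ (e ▸ hσ)
  obtain ⟨Q, hQM, -, hAQ⟩ := exists_invariant_sylow_sigma hG hM hσ hpσ (elem_isPGroup hA) hAM
    (IsPGroup.of_bot (p := q)) bot_le (by rw [normalizer_eq_top (⊥ : Subgroup G)]; exact le_top)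
  have hQ1 : (Q : Subgroup G) ≠ ⊥ := Q.ne_bot_of_dvd_card (hσ.2.1.trans M.card_subgroup_dvd_card)
  have hQC : ∀ Y : Subgroup G, Y ≤ (Q : Subgroup G) → Y ≠ ⊥ → ¬ A ≤ centralizer (Y : Set G) :=
    fun Y hY hY1 h => hY1 (le_bot_iff.mp (hC ▸ le_inf
      (hY.trans (pgroup_le_sigmaCore hG hM hσ Q.2 hQM)) (le_centralizer_iff.mp h)))
  obtain ⟨a, ha, ha1, hY1⟩ : ∃ a ∈ A, a ≠ 1 ∧ (Q : Subgroup G) ⊓ centralizer ({a} : Set G) ≠ ⊥ := by
    by_contra h
    push Not at h
    refine hQ1 (le_bot_iff.mp ?_)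
    rw [← Coprime.fixGen_eq_of_elementary hp.out (fun a ha b hb => elem_comm hA ha hb) hA.2 hAc hAQ
      (coprime_pgroups hqp (elem_isPGroup hA) Q.2)]
    exact iSup₂_le fun a ha => (h a ha.1 ha.2).le
  set Y := (Q : Subgroup G) ⊓ centralizer ({a} : Set G)
  have hY : IsPGroup q Y := Q.2.to_le inf_le_left
  have hAY := inv_inf_centralizer hA ha hAQ
  have hnc := hQC Y inf_le_left hY1
  obtain ⟨hla, hlc⟩ := exists_line_of_ne hA ha ha1
  obtain ⟨H, hH, hNH, hne⟩ := hN _ hla hlc
  have hAH := le_of_line_norm hA hla hNH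
  have hYa : Y ≤ centralizer (zpowers a : Set G) := by rw [centralizer_zpowers]; exact inf_le_right
  have hYH : Y ≤ H := (hYa.trans (centralizer_le_normalizer _)).trans hNH
  by_cases hpH : p ∈ sigma H
  · refine hnc (centralizes_of_derived hG hH hqp (elem_isPGroup hA)
      (le_derived_of_sigma hG hH hpH (elem_isPGroup hA) hAH) (fun hβ => ?_) hY hYH hAY)
    obtain ⟨g, hg⟩ := conj_of_alpha_sigma hG hH hM hβ.1 hσ
    exact hpσ (sigma_conj hM hG (g := g⁻¹) (by rw [hg, map_inv, inv_smul_smul]) hpH)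
  have hE : Exc H A (zpowers a) p := ⟨hH, hpH, hAH, hA, hAc, hla, hlc, hNH⟩
  have hnil := hE.sigmaCore_nilpotent hG
  by_cases hqH : q ∈ sigma H
  · have hQH := hE.invariant_sylow_le hG hqH Q hAQ (ne_bot_of_le_ne_bot hY1 (le_inf hYa inf_le_left))
    have h := (normalizer_eq_of_normal hG hH hQ1 hQH
      (le_normalizer_sylow_nilpotent hG hH hqH hnil Q hQH)).symm.le.trans (sylow_normalizer_le hG hM hσ Q hQM)
    exact hne ((hH.le_iff.mp h).resolve_left hM.1).symm
  obtain ⟨-, t₁, t₂, -, -, -, -, hgen, h1, h2⟩ := hE.exists_fpf hG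
  have hB : ∀ B : Subgroup G, B ≤ H → IsElementaryAbelian q B → Nat.card B = q ^ 2 →
      sigmaCore H ⊓ centralizer (B : Set G) = ⊥ := fun B hBH hBe hBc =>
    sigmaCore_inf_centralizer_elem hG hH hqH hBH hBe hBc
  obtain ⟨-, hcyc, L, hL, hLD, hNL, huniq⟩ :=
    exists_twist hG hH hqp hpH hqH hnil hAH hA hgen h1 h2 hB hY hYH hAY hnc
  have hLQ : L ≤ (Q : Subgroup G) := (hLD.trans (Coprime.commutator_le_of_le_normalizer' hAY)).trans inf_le_left
  have hL1 : L ≠ ⊥ := fun e => by rw [e, card_bot] at hL; exact hq.ne_one hL.symm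
  set Y' := (Q : Subgroup G) ⊓ centralizer (L : Set G)
  have hAY' : A ≤ normalizer (Y' : Set G) :=
    (le_inf hAQ ((hAH.trans hNL.ge).trans (Coprime.normalizer_le_normalizer_centralizer L))).trans
      inf_normalizer_le_normalizer_inf
  have hY'H : Y' ≤ H := (inf_le_right.trans (centralizer_le_normalizer _)).trans hNL.le
  have hLY' : L ≤ Y' := le_inf hLQ (comm_le_centralizer (by
    haveI := Fact.mk hq
    exact (isCyclic_of_prime_card hL).isMulCommutative))
  obtain ⟨hW', -, -⟩ := exists_twist hG hH hqp hpH hqH hnil hAH hA hgen h1 h2 hB (Q.2.to_le inf_le_left) hY'H hAY'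
    (hQC Y' inf_le_left (ne_bot_of_le_ne_bot hL1 hLY'))
  haveI := solvable_of_ne_top hG (pgroup_ne_top hG (elem_isPGroup hA))
  have hY'eq : Y' ≤ twistCore q H := by
    refine le_trans ?_ hW'
    have hd := Coprime.commutator_sup_centralizer hAY' (coprime_pgroups hqp (elem_isPGroup hA) (Q.2.to_le inf_le_left))
      (Or.inl inferInstance)
    have hb : Y' ⊓ centralizer (A : Set G) = ⊥ := le_bot_iff.mp (hC ▸ inf_le_inf_right _
      (inf_le_left.trans (pgroup_le_sigmaCore hG hM hσ Q.2 hQM)))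
    rw [hb, sup_bot_eq] at hd
    exact hd.ge
  obtain ⟨z, -, hzc, hzo⟩ : ∃ z : ↥(Q : Subgroup G), z ∈ (⊤ : Subgroup ↥(Q : Subgroup G)) ∧
      z ∈ center ↥(Q : Subgroup G) ∧ orderOf z = q := by
    haveI : Nontrivial ↥(Q : Subgroup G) := (nontrivial_iff_ne_bot _).mpr hQ1
    exact Thompson.exists_central_order_p Q.2 top_ne_bot
  have hzQ : ∀ y ∈ (Q : Subgroup G), y * (z : G) = z * y := fun y hy =>
    congrArg Subtype.val (mem_center_iff.mp hzc ⟨y, hy⟩)
  have hzq : (z : G) ^ q = 1 := (congrArg ((z : G) ^ ·) ((orderOf_coe z).trans hzo)).symm.trans (pow_orderOf_eq_one _)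
  have hzL : (z : G) ∈ L := huniq _ (hY'eq ⟨z.2, mem_centralizer_iff.mpr fun y hy => hzQ y (hLQ hy)⟩) hzq
  have hz1 : (z : G) ≠ 1 := fun e => hq.ne_one (by rw [← hzo, ← orderOf_coe, e, orderOf_one])
  have hLz : zpowers (z : G) = L := eq_of_le_of_card_ge (zpowers_le.mpr hzL) (by
    rw [hL, Nat.card_zpowers, orderOf_eq_prime hzq hz1])
  have hQY : (Q : Subgroup G) ≤ twistCore q H := le_trans (le_inf le_rfl fun y hy => by
    rw [← hLz, centralizer_zpowers]
    exact mem_centralizer_singleton_iff.mpr (hzQ y hy)) hY'eq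
  have hQeq : twistCore q H = (Q : Subgroup G) := Q.3 (twistCore_isPGroup q H) hQY
  have h := (normalizer_eq_of_normal hG hH hQ1 (hQeq ▸ twistCore_le q H) (hQeq ▸ twistCore_normal q H)).symm.le.trans
    (sylow_normalizer_le hG hM hσ Q hQM)
  exact hne ((hH.le_iff.mp h).resolve_left hM.1).symm

/-- The conclusions of BG 12.3 in the no-line case. -/
theorem NoLine.conclusions (hN : NoLine M A p) (hG : IsMinSimpleOddOrder G) (hM : IsCoatom M) (hAM : A ≤ M)
    (hA : IsElementaryAbelian p A) (hAc : Nat.card A = p ^ 2) :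
    p ∈ sigma M ∧ alphaCore M = ⊥ ∧ Group.IsNilpotent (sigmaCore M) := by
  have hσ := hN.mem_sigma hG hM hAM hA hAc
  have hα := hN.alpha_empty hG hM hAM hA hAc (le_derived_of_sigma hG hM hσ (elem_isPGroup hA) hAM)
  refine ⟨hσ, card_eq_one.mp (Nat.eq_one_iff_not_exists_prime_dvd.mpr fun r hr h => hα r (alphaCore_isPi M r hr h)),
    isNilpotent_derived hG hM (sigmaCore_le_derived hG hM) fun r _ _ h => hα r h.1⟩

/-- BG 12.3 (a). -/
theorem centralizer_elem_two_le (hG : IsMinSimpleOddOrder G) (hM : IsCoatom M) (hAM : A ≤ M)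
    (hA : IsElementaryAbelian p A) (hAc : Nat.card A = p ^ 2) : centralizer (A : Set G) ≤ M := by
  classical
  by_cases h : ∃ X : Subgroup G, X ≤ A ∧ Nat.card X = p ∧ normalizer (X : Set G) ≤ M
  · obtain ⟨X, hX, -, hN⟩ := h
    exact ((Subgroup.centralizer_le hX).trans (centralizer_le_normalizer _)).trans hN
  push Not at h
  have hN : NoLine M A p := noLine_of_not_unique hG fun X hX hXc hc => h X hX hXc hc.1
  obtain ⟨hσ, -, hnil⟩ := hN.conclusions hG hM hAM hA hAc
  have hmax : ∀ B : Subgroup G, IsElementaryAbelian p B → A ≤ B → B = A := fun _ hB hAB =>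
    elem_two_maximal hG hM (by_contra fun h => hN.not_alpha hG hM hAM hA hAc ⟨hp.out, h⟩) hAM hA hAc hB hAB
  obtain ⟨P₀, hP₀M, -⟩ := exists_sigma_sylow hσ
  obtain ⟨m, hm, hmA⟩ := exists_conj_le_sylow P₀ hP₀M (elem_isPGroup hA) hAM
  set P := m • P₀
  have hPM : (P : Subgroup G) ≤ M :=
    (pointwise_smul_le_pointwise_smul_iff.mpr hP₀M).trans (Coprime.conj_smul_eq_self (le_normalizer hm)).le
  have hAP : A ≤ (P : Subgroup G) := fun y hy => Coprime.mem_conj_smul.mpr (hmA y hy)
  set Z := A ⊓ centralizer ((P : Subgroup G) : Set G)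
  have hA1 : A ≠ ⊥ := fun e => by
    rw [e, card_bot] at hAc
    exact (Nat.one_lt_pow two_ne_zero hp.out.one_lt).ne hAc
  obtain ⟨z, -, hzc, hzo⟩ : ∃ z : ↥(P : Subgroup G), z ∈ (⊤ : Subgroup ↥(P : Subgroup G)) ∧
      z ∈ center ↥(P : Subgroup G) ∧ orderOf z = p := by
    haveI : Nontrivial ↥(P : Subgroup G) := (nontrivial_iff_ne_bot _).mpr (ne_bot_of_le_ne_bot hA1 hAP)
    exact Thompson.exists_central_order_p P.2 top_ne_bot
  have hzQ : ∀ y ∈ (P : Subgroup G), y * (z : G) = z * y := fun y hy =>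
    congrArg Subtype.val (mem_center_iff.mp hzc ⟨y, hy⟩)
  have hzZ : (z : G) ∈ Z := ⟨mem_of_commute_maximal hA hmax ((congrArg ((z : G) ^ ·) ((orderOf_coe z).trans hzo)).symm.trans (pow_orderOf_eq_one _))
    fun b hb => hzQ b (hAP hb), mem_centralizer_iff.mpr hzQ⟩
  have hZ1 : Z ≠ ⊥ := fun e => hp.out.ne_one (by
    rw [e, mem_bot] at hzZ
    rw [← hzo, ← orderOf_coe, hzZ, orderOf_one])
  have hMZ : M ≤ normalizer (Z : Set G) := fun g hg => by
    have hgP := le_normalizer_sylow_nilpotent hG hM hσ hnil P hPM hg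
    refine Coprime.mem_normalizer_of_conj_smul_eq (eq_of_le_of_card_ge ?_ (Coprime.card_conj_smul g Z).ge)
    rintro y hy
    obtain ⟨w, hw, rfl⟩ := hy
    have h1 : g * w * g⁻¹ ∈ centralizer ((P : Subgroup G) : Set G) := mem_centralizer_iff.mpr fun v hv => by
      have h2 := mem_centralizer_iff.mp hw.2 _ ((mem_normalizer_iff''.mp hgP v).mp hv)
      calc v * (g * w * g⁻¹) = g * ((g⁻¹ * v * g) * w) * g⁻¹ := by group
        _ = g * (w * (g⁻¹ * v * g)) * g⁻¹ := by rw [h2]
        _ = g * w * g⁻¹ * v := by group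
    refine ⟨mem_of_commute_maximal hA hmax ?_ fun a ha => mem_centralizer_iff.mp h1 a (hAP ha), h1⟩
    show (g * w * g⁻¹) ^ p = 1
    rw [conj_pow, hA.2 w hw.1]; group
  exact ((Subgroup.centralizer_le (inf_le_left : Z ≤ A)).trans (centralizer_le_normalizer _)).trans
    (normalizer_eq_of_normal hG hM hZ1 (inf_le_left.trans hAM) hMZ).le

end Cfsg.Agent.Lib.Uniq
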