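import Cfsg.Agent.Lib.Uniq.TauTwoUnique
import Cfsg.Agent.Lib.Hall.OddRankTwo
import Cfsg.Agent.S1403
import Cfsg.Agent.S1412
import Cfsg.Agent.S1416
set_option autoImplicit false

/-! BG 12.13: a nonabelian `p`-subgroup lies in a unique maximal subgroup. -/

namespace Cfsg.Agent.Lib.Uniq

open Subgroup
open scoped Pointwise commutatorElement
open Cfsg.Agent.Lib.OddLocal

variable {G : Type*} [Group G] [Finite G] {M : Subgroup G} {p : ℕ} [hp : Fact p.Prime]

/-- The derived group of a `p`-group centralizes a `q`-group of rank at most two it normalizes. -/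
theorem derived_centralizes_rank_two (hodd : Odd (Nat.card G)) {q : ℕ} [hq : Fact q.Prime] (hqp : q ≠ p)
    {R Q : Subgroup G} (hR : IsPGroup p R) (hQ : IsPGroup q Q) (hr : PRankLE q 2 Q)
    (hRQ : R ≤ normalizer (Q : Set G)) : ⁅R, R⁆ ≤ centralizer (Q : Set G) := by
  rcases eq_or_ne Q ⊥ with rfl | hQ1
  · exact fun x _ => mem_centralizer_iff.mpr fun y hy => by rw [mem_bot.mp hy, one_mul, mul_one]
  have hq2 : q ≠ 2 := fun e => by
    obtain ⟨k, hk⟩ := IsPGroup.iff_card.mp hQ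
    have h1 : q ∣ Nat.card Q := by
      refine hk ▸ dvd_pow_self q fun h0 => hQ1 (Q.eq_bot_of_card_eq ?_)
      rw [hk, h0, pow_zero]
    exact hodd.not_two_dvd_nat (e ▸ h1.trans Q.card_subgroup_dvd_card)
  haveI := hR.isNilpotent
  rw [← map_subtype_commutator]
  rintro _ ⟨d, hd, rfl⟩
  obtain ⟨k, hk⟩ := Hall.commutator_act_pPow hq2 hQ hr
    (hodd.of_dvd_nat R.card_subgroup_dvd_card) (Coprime.conjHom hRQ) d hd
  obtain ⟨j, hj⟩ := IsPGroup.iff_orderOf.mp hR d
  have h1 : Coprime.conjHom hRQ d = 1 := orderOf_eq_one_iff.mp (Nat.eq_one_of_dvd_coprimes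
    (((Nat.coprime_primes hp.out hq.out).mpr (Ne.symm hqp)).pow j k) (hj ▸ orderOf_map_dvd _ d)
    (orderOf_dvd_of_pow_eq_one hk))
  rw [mem_centralizer_iff]
  intro x hx
  have h2 := congrArg Subtype.val (DFunLike.congr_fun h1 (⟨x, hx⟩ : Q))
  rw [Coprime.coe_conjHom_apply] at h2
  exact (mul_inv_eq_iff_eq_mul.mp h2).symm

/-- An exponent `p` group of order `p³` acting through its centre-free quotient. -/
theorem le_of_fixed_noncentral {R Q K : Subgroup G} (hR3 : Nat.card R = p ^ 3) (hexp : ∀ x ∈ R, x ^ p = 1)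
    {Z : Subgroup G} (hZR : Z ≤ R) (hZc : Nat.card Z = p) (hZC : R ≤ centralizer (Z : Set G))
    (hcom : ⁅R, R⁆ ≤ Z) (hRQ : R ≤ normalizer (Q : Set G)) (hcop : (Nat.card R).Coprime (Nat.card Q))
    (hZQ : Z ≤ centralizer (Q : Set G))
    (h : ∀ w ∈ R, w ∉ Z → Q ⊓ centralizer ({w} : Set G) ≤ K) : Q ≤ K := by
  set L := Q ⊔ R
  have hQL : Q ≤ L := le_sup_left
  have hRL : R ≤ L := le_sup_right
  have hLC : L ≤ centralizer (Z : Set G) := sup_le (le_centralizer_iff.mp hZQ) hZC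
  haveI hn : (Z.subgroupOf L).Normal := ⟨fun z hz g => by
    rw [mem_subgroupOf] at hz ⊢
    have hc := mem_centralizer_iff.mp (hLC g.2) _ hz
    show (g : G) * z * (g : G)⁻¹ ∈ Z
    rw [← hc, mul_inv_cancel_right]; exact hz⟩
  set π := QuotientGroup.mk' (Z.subgroupOf L)
  set B := (R.subgroupOf L).map π
  set Qb := (Q.subgroupOf L).map π
  have hBcard : Nat.card B = p ^ 2 := by
    have h1 := Coprime.card_map_mul_card_inf_ker π (R.subgroupOf L)
    have hinf : R.subgroupOf L ⊓ Z.subgroupOf L = Z.subgroupOf L := inf_eq_right.mpr fun x hx => hZR hx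
    rw [QuotientGroup.ker_mk', hinf, Coprime.card_subgroupOf hRL,
      Coprime.card_subgroupOf (hZR.trans hRL), hR3, hZc] at h1
    exact Nat.eq_of_mul_eq_mul_right hp.out.pos (h1.trans (pow_succ p 2))
  have hBc : ∀ x ∈ B, ∀ y ∈ B, x * y = y * x := by
    rintro _ ⟨x, hx, rfl⟩ _ ⟨y, hy, rfl⟩
    rw [← commutatorElement_eq_one_iff_mul_comm, ← map_commutatorElement]
    exact (QuotientGroup.eq_one_iff _).mpr (mem_subgroupOf.mpr (hcom (commutator_mem_commutator hx hy)))
  have hBexp : ∀ x ∈ B, x ^ p = 1 := by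
    rintro _ ⟨x, hx, rfl⟩
    rw [← map_pow, show x ^ p = 1 from Subtype.ext (by simpa using hexp _ hx), map_one]
  have hBQ : B ≤ normalizer (Qb : Set (↥L ⧸ Z.subgroupOf L)) := by
    refine (map_mono ?_).trans (le_normalizer_map π)
    intro x hx
    rw [← subgroupOf_normalizer_eq hQL, mem_subgroupOf]
    exact hRQ hx
  have hcop' : (Nat.card B).Coprime (Nat.card Qb) :=
    ((hcop.coprime_dvd_left ((card_map_dvd _ _).trans (by rw [Coprime.card_subgroupOf hRL]))).coprime_dvd_right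
      ((card_map_dvd _ _).trans (by rw [Coprime.card_subgroupOf hQL])))
  have hgen := Coprime.fixGen_eq_of_elementary hp.out hBc hBexp hBcard hBQ hcop'
  have hle : Qb ≤ ((Q ⊓ K).subgroupOf L).map π := by
    rw [← hgen, Coprime.fixGen]
    refine iSup₂_le fun a ha => ?_
    obtain ⟨⟨w, hw, rfl⟩, hw1⟩ := ha
    rintro _ ⟨⟨c, hc, rfl⟩, hcc⟩
    have hwZ : (w : G) ∉ Z := fun e => hw1 ((QuotientGroup.eq_one_iff w).mpr e)
    have h1 : π ⁅c, w⁆ = 1 := by
      rw [map_commutatorElement, commutatorElement_eq_one_iff_mul_comm]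
      exact mem_centralizer_singleton_iff.mp hcc
    have h2 : ⁅(c : G), (w : G)⁆ ∈ Z := mem_subgroupOf.mp ((QuotientGroup.eq_one_iff _).mp h1)
    have h3 : ⁅(c : G), (w : G)⁆ ∈ Q := by
      rw [show ⁅(c : G), (w : G)⁆ = (c : G) * ((w : G) * (c : G)⁻¹ * (w : G)⁻¹) by group]
      exact mul_mem hc ((mem_normalizer_iff.mp (hRQ hw) _).mp (Q.inv_mem hc))
    have h4 : ⁅(c : G), (w : G)⁆ ∈ Q ⊓ Z := ⟨h3, h2⟩
    rw [Coprime.inf_eq_bot_of_coprime (hcop.symm.coprime_dvd_right (card_dvd_of_le hZR)), mem_bot,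
      commutatorElement_eq_one_iff_mul_comm] at h4
    exact ⟨c, ⟨hc, h _ hw hwZ ⟨hc, mem_centralizer_singleton_iff.mpr h4⟩⟩, rfl⟩
  intro x hx
  obtain ⟨y, hy, he⟩ := hle ⟨⟨x, hQL hx⟩, hx, rfl⟩
  have h1 : (y : G)⁻¹ * x ∈ Z := mem_subgroupOf.mp (QuotientGroup.eq.mp he)
  have h2 : (y : G)⁻¹ * x ∈ Q ⊓ Z := ⟨mul_mem (Q.inv_mem hy.1) hx, h1⟩
  rw [Coprime.inf_eq_bot_of_coprime (hcop.symm.coprime_dvd_right (card_dvd_of_le hZR)), mem_bot,
    inv_mul_eq_one] at h2
  exact h2 ▸ hy.2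

/-- Every maximal subgroup over a nonabelian `p`-group has `p` in `σ` and contains a Sylow over it. -/
theorem sylow_le_of_nonabelian (hG : IsMinSimpleOddOrder G) {P : Subgroup G}
    (hna : ¬ IsMulCommutative P) (S : Sylow p G) (hPS : P ≤ S) (hM : IsCoatom M) (hPM : P ≤ M) :
    p ∈ sigma M ∧ (S : Subgroup G) ≤ M := by
  classical
  have hP : IsPGroup p P := S.2.to_le hPS
  have hσ : p ∈ sigma M := by
    by_contra hσ
    haveI := hP.isNilpotent
    refine hna (nilpotent_comm_of_not_sigma hG hM hPM hP.isNilpotent fun r hr hd => ?_)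
    rw [isPGroup_ne_dvd hP hr hd]; exact hσ
  refine ⟨hσ, ?_⟩
  obtain ⟨R, hR, hmax⟩ := (Set.toFinite {R : Subgroup G | P ≤ R ∧ R ≤ S ∧ R ≤ M}).exists_maximal ⟨P, le_rfl, hPS, hPM⟩
  obtain ⟨hPR, hRS, hRM⟩ := hR
  rcases hRS.eq_or_lt with h | h
  · exact h ▸ hRM
  exfalso
  have hnc : ¬ IsCyclic R := fun h => hna (by
    haveI := h
    haveI : IsCyclic P := isCyclic_of_le hPR
    exact ⟨⟨fun a b => (IsCyclic.commGroup (α := P)).mul_comm a b⟩⟩)
  have hN := normalizer_noncyclic_le hG hM hσ (S.2.to_le hRS) hRM hnc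
  obtain ⟨x, hxS, hxN, hxR⟩ : ∃ x, x ∈ (S : Subgroup G) ∧ x ∈ normalizer (R : Set G) ∧ x ∉ R := by
    haveI := S.2.isNilpotent
    have hlt : R.subgroupOf S < ⊤ := lt_top_iff_ne_top.2 fun e => h.ne (le_antisymm hRS (subgroupOf_eq_top.mp e))
    obtain ⟨x, hxN, hxR⟩ := SetLike.exists_of_lt (Group.normalizerCondition_of_isNilpotent _ hlt)
    refine ⟨x, x.2, ?_, fun e => hxR e⟩
    rw [← subgroupOf_normalizer_eq hRS, mem_subgroupOf] at hxN
    exact hxN
  have hle : R ⊔ zpowers x ≤ R := hmax ⟨hPR.trans le_sup_left, sup_le hRS (zpowers_le.2 hxS),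
    sup_le hRM (zpowers_le.2 (hN hxN))⟩ le_sup_left
  exact hxR (hle (mem_sup_right (mem_zpowers x)))

/-- The unique line property for a line of a pair, unless `M_σ` is nilpotent. -/
theorem exists_unique_line (hG : IsMinSimpleOddOrder G) (hM : IsCoatom M) {A : Subgroup G}
    (hA : A ≤ M ∧ IsElementaryAbelian p A ∧ Nat.card A = p ^ 2) (hnn : ¬ Group.IsNilpotent (sigmaCore M)) :
    ∃ A₀ : Subgroup G, A₀ ≤ A ∧ Nat.card A₀ = p ∧ normalizer (A₀ : Set G) ≤ M ∧
      ∀ L : Subgroup G, IsCoatom L → normalizer (A₀ : Set G) ≤ L → L = M := by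
  by_contra h
  push Not at h
  exact hnn ((S1416.result hG M hM p A hA).2 fun A₀ h1 h2 h3 =>
    (h A₀ h1 h2 h3.1).elim fun L hL => hL.2.2 (h3.2 L hL.1 hL.2.1)).2.2

theorem centralizer_singleton_le_normalizer {x : G} :
    centralizer ({x} : Set G) ≤ normalizer (zpowers x : Set G) := by
  rw [← centralizer_zpowers]
  exact centralizer_le_normalizer _

/-- Two conjugate maximal subgroups sharing a Sylow subgroup for a prime of `σ` coincide. -/
theorem eq_conj_of_sylow (hG : IsMinSimpleOddOrder G) {M N : Subgroup G} (hM : IsCoatom M)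
    (hσ : p ∈ sigma M) (S : Sylow p G) (hSM : (S : Subgroup G) ≤ M) (_hN : IsCoatom N) (g : G)
    (hg : N = MulAut.conj g • M) (hSN : (S : Subgroup G) ≤ N) : M = N := by
  have hgS : MulAut.conj g • (S : Subgroup G) ≤ N := hg ▸ pointwise_smul_le_pointwise_smul_iff.mpr hSM
  obtain ⟨n, hn, he⟩ : ∃ n ∈ N, MulAut.conj n • (MulAut.conj g • (S : Subgroup G)) = S := by
    obtain ⟨m, hm⟩ := MulAction.exists_smul_eq ↥N ((g • S).subtype (show ((g • S : Sylow p G) : Subgroup G) ≤ N from hgS))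
      (S.subtype hSN)
    refine ⟨m, m.2, ?_⟩
    have h1 := congrArg (fun T : Sylow p ↥N => (T : Subgroup ↥N).map N.subtype) hm
    simp only [Sylow.smul_subtype, Sylow.coe_subtype, map_subgroupOf_eq_of_le hSN] at h1
    rw [map_subgroupOf_eq_of_le] at h1
    · exact h1
    exact (pointwise_smul_le_pointwise_smul_iff.mpr hgS).trans (Coprime.conj_smul_eq_self (le_normalizer m.2)).le
  rw [← Coprime.conj_smul_mul] at he
  have hng : n * g ∈ M := sylow_normalizer_le hG hM hσ S hSM (Coprime.mem_normalizer_of_conj_smul_eq he)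
  have h1 : MulAut.conj (n * g) • M = M := Coprime.conj_smul_eq_self (le_normalizer hng)
  have h2 : MulAut.conj n • N = N := Coprime.conj_smul_eq_self (le_normalizer hn)
  rw [Coprime.conj_smul_mul, ← hg, h2] at h1
  exact h1.symm

theorem exists_conj_sylow_of_normal {L K : Subgroup G} (hLK : L ≤ normalizer (K : Set G)) {m : G} (hm : m ∈ L)
    (S : Sylow p ↥K) : ∃ k : K, (k : G)⁻¹ * m ∈ normalizer (((S : Subgroup K).map K.subtype : Subgroup G) : Set G) := by
  let e : MulAut K := K.normalizerMonoidHom ⟨m, hLK hm⟩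
  obtain ⟨k, hk⟩ := MulAction.exists_smul_eq ↥K S (e • S)
  refine ⟨k, Coprime.mem_normalizer_of_conj_smul_eq (eq_of_le_of_card_ge ?_ (by rw [Coprime.card_conj_smul]))⟩
  intro y hy
  rw [Coprime.mem_conj_smul] at hy
  obtain ⟨z, hz, he⟩ := hy
  have hy' : y = (k : G)⁻¹ * ((e z : K) : G) * k := by
    have : ((e z : K) : G) = m * z * m⁻¹ := rfl
    have he' : (z : G) = ((k : G)⁻¹ * m)⁻¹ * y * ((k : G)⁻¹ * m) := he
    rw [this, he']; group
  have hez : e z ∈ (k • S : Sylow p ↥K) := hk ▸ Subgroup.smul_mem_pointwise_smul _ _ _ hz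
  have hez' : k⁻¹ * e z * k ∈ (S : Subgroup K) := by
    change e z ∈ MulAut.conj k • (S : Subgroup K) at hez
    rwa [Coprime.mem_conj_smul] at hez
  exact ⟨_, hez', hy'.symm⟩

theorem le_pPrimeCore_sup {X : Subgroup G} (h : HasNormalPComplement p ↥X) (S : Sylow p G)
    (hS : (S : Subgroup G) ≤ X) : X ≤ (pPrimeCore p ↥X).map X.subtype ⊔ (S : Subgroup G) := by
  obtain ⟨N, hN, hc⟩ := Transfer.hasNormalPComplement_iff_forall.mp h (S.subtype hS)
  haveI := hN
  have hNle : N ≤ pPrimeCore p ↥X := Hall.le_pPrimeCore (by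
    rw [← hc.index_eq_card]
    exact ((hp.out.coprime_iff_not_dvd.mpr (S.subtype hS).not_dvd_index)).symm)
  have htop : N ⊔ ((S.subtype hS : Sylow p ↥X) : Subgroup ↥X) = ⊤ := hc.sup_eq_top
  conv_lhs => rw [← range_subtype X, MonoidHom.range_eq_map, ← htop, Subgroup.map_sup]
  rw [Sylow.coe_subtype, map_subgroupOf_eq_of_le hS]
  exact sup_le_sup (map_mono hNle) le_rfl

/-- The main step: two maximal subgroups over the Sylow subgroup coincide. -/
theorem eq_of_sylow_le (hG : IsMinSimpleOddOrder G) {M₁ M₂ : Subgroup G} (hM₁ : IsCoatom M₁) (hM₂ : IsCoatom M₂)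
    (S : Sylow p G) (hna : ¬ IsMulCommutative (S : Subgroup G)) (h₁ : (S : Subgroup G) ≤ M₁) (h₂ : (S : Subgroup G) ≤ M₂) :
    M₁ = M₂ := by
  have hSnc : ¬ IsCyclic (S : Subgroup G) := fun h => hna
    ⟨⟨fun a b => (IsCyclic.commGroup (α := (S : Subgroup G))).mul_comm a b⟩⟩
  have hσ : ∀ {M : Subgroup G}, IsCoatom M → (S : Subgroup G) ≤ M → p ∈ sigma M :=
    fun hM h => (sylow_le_of_nonabelian hG hna S le_rfl hM h).1
  have hN : ∀ {M : Subgroup G}, IsCoatom M → (S : Subgroup G) ≤ M → normalizer ((S : Subgroup G) : Set G) ≤ M :=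
    fun hM h => normalizer_noncyclic_le hG hM (hσ hM h) S.2 h hSnc
  by_cases hr : PRankLE p 2 (S : Subgroup G)
  swap
  · have hU := S1403.result hG (S : Subgroup G) (ne_top_of_le hM₁ h₁)
      (fun h => hr (pRankLE_succ (h p hp.out))) (Or.inl fun h => hr (h p hp.out))
    exact max_eq hU hM₁ hM₂ h₁ h₂
  by_contra hne
  obtain ⟨P₁, P₂, hsup, hc12, hP₁na, hP₁c, hP₁exp, hP₂cyc, hΩ⟩ := (S1412.result hG p S hr).resolve_left hna
  set Z := P₁ ⊓ centralizer (P₁ : Set G) with hZdef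
  have hZR : Z ≤ P₁ := inf_le_left
  have hexp : ∀ x ∈ P₁, x ^ p = 1 := fun x hx => by
    have h := Monoid.order_dvd_exponent (⟨x, hx⟩ : P₁)
    rw [hP₁exp, Subgroup.orderOf_mk] at h
    exact orderOf_dvd_iff_pow_eq_one.mp h
  have hP₁S : P₁ ≤ S := hsup ▸ le_sup_left
  have hZC : P₁ ≤ centralizer (Z : Set G) := le_centralizer_iff.mp inf_le_right
  have hP₁p : IsPGroup p P₁ := S.2.to_le hP₁S
  have hZc : Nat.card Z = p ∧ ⁅P₁, P₁⁆ ≤ Z ∧ ⁅P₁, P₁⁆ ≠ ⊥ := by
    have he : Z = (center P₁).map P₁.subtype := by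
      ext x
      rw [hZdef, mem_inf, mem_centralizer_iff, mem_map]
      constructor
      · rintro ⟨hx, hc⟩
        exact ⟨⟨x, hx⟩, mem_center_iff.mpr fun y => Subtype.ext (hc y y.2), rfl⟩
      · rintro ⟨y, hy, rfl⟩
        exact ⟨y.2, fun a ha => congrArg Subtype.val (mem_center_iff.mp hy ⟨a, ha⟩)⟩
    have hnc' : ∀ n, Nat.card (P₁ ⧸ center P₁) = p ^ n → 2 ≤ n := by
      intro n hn
      by_contra h2
      haveI : IsCyclic (P₁ ⧸ center P₁) := by
        rcases Nat.lt_succ_iff_lt_or_eq.mp (Nat.lt_of_not_le h2) with h3 | h3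
        · haveI : Subsingleton (P₁ ⧸ center P₁) :=
            (Nat.card_eq_one_iff_unique.mp (by rw [hn, show n = 0 by omega, pow_zero])).1
          exact isCyclic_of_subsingleton
        · exact isCyclic_of_prime_card (by rw [hn, h3, pow_one])
      exact hP₁na ⟨⟨commutative_of_cyclic_center_quotient (QuotientGroup.mk' (center P₁)) (by rw [QuotientGroup.ker_mk'])⟩⟩
    obtain ⟨n, hn⟩ := IsPGroup.iff_card.mp (hP₁p.to_quotient (center P₁))
    have hmul := (center P₁).card_mul_index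
    rw [index_eq_card, hn, hP₁c] at hmul
    obtain ⟨i, hi⟩ := IsPGroup.iff_card.mp (hP₁p.to_subgroup (center P₁))
    have hi0 : i ≠ 0 := fun h0 => by
      haveI : Nontrivial P₁ := (nontrivial_iff_ne_bot P₁).mpr fun e => by
        rw [e, card_bot] at hP₁c; exact (Nat.one_lt_pow three_ne_zero hp.out.one_lt).ne hP₁c
      haveI := hP₁p.center_nontrivial
      rw [h0, pow_zero] at hi
      exact Finite.one_lt_card.ne' hi
    rw [hi, ← pow_add] at hmul
    have hin := Nat.pow_right_injective hp.out.two_le hmul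
    have := hnc' n hn
    have hi1 : i = 1 := by omega
    refine ⟨by rw [he, card_map_of_injective P₁.subtype_injective, hi, hi1, pow_one], ?_, ?_⟩
    · rw [← map_subtype_commutator, he]
      refine map_mono ?_
      rw [commutator_eq_closure, closure_le]
      rintro _ ⟨a, b, rfl⟩
      rw [SetLike.mem_coe, ← QuotientGroup.eq_one_iff, ← QuotientGroup.mk'_apply, map_commutatorElement,
        commutatorElement_eq_one_iff_mul_comm]
      haveI : Fact p.Prime := hp
      exact (IsPGroup.commGroupOfCardEqPrimeSq (p := p) (by rw [hn, show n = 2 by omega])).mul_comm _ _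
    · intro hb
      refine hP₁na ⟨⟨fun a b => Subtype.ext ?_⟩⟩
      have : ⁅(a : G), (b : G)⁆ ∈ ⁅P₁, P₁⁆ := commutator_mem_commutator a.2 b.2
      rw [hb, mem_bot] at this
      exact commutatorElement_eq_one_iff_mul_comm.mp this
  obtain ⟨hZc, hcomZ, hcomne⟩ := hZc
  have hcomeq : ⁅P₁, P₁⁆ = Z := by
    refine eq_of_le_of_card_ge hcomZ ?_
    rw [hZc]
    exact Nat.le_of_dvd Nat.card_pos (((hP₁p.to_le (hcomZ.trans hZR)).card_eq_or_dvd).resolve_left
      fun e => hcomne (eq_bot_of_card_eq _ e))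
  -- lines of the pairs through the centre
  have hnn : ∀ {M N : Subgroup G}, IsCoatom M → IsCoatom N → M ≠ N → (S : Subgroup G) ≤ M → (S : Subgroup G) ≤ N →
      ¬ Group.IsNilpotent (sigmaCore M) := fun {M N} hM hN' hMN hSM hSN hnil => by
    have hle : M ≤ N := (le_normalizer_sylow_nilpotent hG hM (hσ hM hSM) hnil S hSM).trans (hN hN' hSN)
    rcases hle.eq_or_lt with h | h
    · exact hMN h
    · exact hN'.1 (hM.2 _ h)
  have hpair : ∀ w ∈ P₁, w ∉ Z → (Z ⊔ zpowers w ≤ M₁ ∧ IsElementaryAbelian p (Z ⊔ zpowers w) ∧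
      Nat.card ↥(Z ⊔ zpowers w) = p ^ 2) ∧ ∀ B : Subgroup G, B ≤ Z ⊔ zpowers w → Nat.card B = p → B ≠ Z →
        ∃ s ∈ (S : Subgroup G), B = MulAut.conj s • zpowers w := by
    intro w hw hwZ
    have hAP : Z ⊔ zpowers w ≤ P₁ := sup_le hZR (zpowers_le.2 hw)
    have hel : IsElementaryAbelian p (Z ⊔ zpowers w) := elem_sup_zpowers
      ⟨⟨⟨fun (a b : ↥Z) => Subtype.ext (mem_centralizer_iff.mp (mem_inf.mp a.2).2 b (mem_inf.mp b.2).1).symm⟩⟩, fun a ha => hexp a (hZR ha)⟩
      (hexp w hw) fun a ha => (mem_centralizer_iff.mp ha.2 w hw).symm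
    have hwo : orderOf w = p := orderOf_eq_prime (hexp w hw) fun e => hwZ (e ▸ Z.one_mem)
    have hcard : Nat.card ↥(Z ⊔ zpowers w) = p ^ 2 := by
      have hzn : zpowers w ≤ normalizer (Z : Set G) :=
        (zpowers_le.2 hw).trans (hZC.trans (centralizer_le_normalizer _))
      have hdis : zpowers w ⊓ Z = ⊥ := by
        rcases (Nat.dvd_prime hp.out).mp (hwo ▸ Nat.card_zpowers w ▸
          card_dvd_of_le (inf_le_left : zpowers w ⊓ Z ≤ zpowers w)) with h | h
        · exact eq_bot_of_card_eq _ h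
        · have h' : zpowers w ⊓ Z = zpowers w :=
            eq_of_le_of_card_ge inf_le_left (by rw [h, Nat.card_zpowers, hwo])
          exact absurd ((h'.ge.trans inf_le_right) (mem_zpowers w)) hwZ
      have := Coprime.card_sup_mul_card_inf_of_le_normalizer hzn
      rw [hdis, card_bot, mul_one, Nat.card_zpowers, hwo, hZc] at this
      rw [sup_comm, this, sq]
    refine ⟨⟨hAP.trans (hP₁S.trans h₁), hel, hcard⟩, fun B hB hBc hBZ => ?_⟩
    -- conjugation by `P₁` moves `w` through the coset `w Z`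
    obtain ⟨b, hb, hbw⟩ : ∃ b ∈ P₁, ⁅b, w⁆ ≠ 1 := by
      by_contra hc
      push Not at hc
      exact hwZ ⟨hw, mem_centralizer_iff.mpr fun b hb => commutatorElement_eq_one_iff_mul_comm.mp (hc b hb)⟩
    set c := ⁅b, w⁆
    have hcZ : c ∈ Z := hcomZ (commutator_mem_commutator hb hw)
    have hZgen : zpowers c = Z := eq_of_le_of_card_ge (zpowers_le.2 hcZ) (by
      rw [hZc, Nat.card_zpowers, orderOf_eq_prime (hexp c (hZR hcZ)) hbw])
    haveI : Finite B := inferInstance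
    obtain ⟨⟨β, hβ⟩, hβo⟩ := exists_prime_orderOf_dvd_card' (G := B) p (dvd_of_eq hBc.symm)
    rw [Subgroup.orderOf_mk] at hβo
    have hβB : zpowers β = B := eq_of_le_of_card_ge (zpowers_le.2 hβ) (by rw [Nat.card_zpowers, hβo, hBc])
    have hβm : β ∈ Z ⊔ zpowers w := hB hβ
    rw [← SetLike.mem_coe, coe_mul_of_right_le_normalizer_left _ _ ((zpowers_le.2 hw).trans (hZC.trans (centralizer_le_normalizer _)))] at hβm
    obtain ⟨z, hz, v, hv, he⟩ := hβm
    obtain ⟨i, rfl⟩ := mem_zpowers_iff.mp hv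
    obtain ⟨j, rfl⟩ := mem_zpowers_iff.mp (hZgen.ge hz)
    have hi : ¬ (p : ℤ) ∣ i := fun hd => by
      have hwi : w ^ i = 1 := orderOf_dvd_iff_zpow_eq_one.mp (hwo ▸ hd)
      refine hBZ ?_
      rw [← hβB, ← hZgen]
      refine eq_of_le_of_card_ge (zpowers_le.2 ?_) (by
        rw [hZgen, hZc, Nat.card_zpowers, hβo])
      rw [← he]; simp only [hwi, mul_one]
      exact zpow_mem (mem_zpowers c) j
    obtain ⟨k, hk⟩ : ∃ k : ℤ, (p : ℤ) ∣ k * i - j := by
      have hcop : IsCoprime (p : ℤ) i :=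
        (Nat.prime_iff_prime_int.mp hp.out).coprime_iff_not_dvd.mpr hi
      obtain ⟨u, v, huv⟩ := hcop
      exact ⟨v * j, -u * j, by linear_combination j * huv⟩
    refine ⟨b ^ k, S.1.zpow_mem (hP₁S hb) k, ?_⟩
    have hcomm : Commute b c := (mem_centralizer_iff.mp hcZ.2 b hb)
    have hconj : ∀ k : ℤ, b ^ k * w * (b ^ k)⁻¹ = c ^ k * w := by
      intro k
      clear hk
      have h1 : b * w * b⁻¹ = c * w := by simp [c, commutatorElement_def, mul_assoc]
      induction k using Int.induction_on with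
      | zero => simp
      | succ n ih =>
        calc b ^ ((n : ℤ) + 1) * w * (b ^ ((n : ℤ) + 1))⁻¹
            = b * (b ^ (n : ℤ) * w * (b ^ (n : ℤ))⁻¹) * b⁻¹ := by group
          _ = b * c ^ (n : ℤ) * w * b⁻¹ := by rw [ih]; group
          _ = c ^ (n : ℤ) * (b * w * b⁻¹) := by rw [(hcomm.zpow_right _).eq]; group
          _ = c ^ ((n : ℤ) + 1) * w := by rw [h1]; group
      | pred n ih =>
        have h2 : b⁻¹ * w * b = c⁻¹ * w := by
          calc b⁻¹ * w * b = b⁻¹ * (c⁻¹ * (b * w * b⁻¹)) * b := by rw [h1]; group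
            _ = c⁻¹ * w := by rw [← mul_assoc b⁻¹, (hcomm.inv_left.inv_right).eq]; group
        calc b ^ (-(n : ℤ) - 1) * w * (b ^ (-(n : ℤ) - 1))⁻¹
            = b⁻¹ * (b ^ (-(n : ℤ)) * w * (b ^ (-(n : ℤ)))⁻¹) * b := by group
          _ = b⁻¹ * c ^ (-(n : ℤ)) * w * b := by rw [ih]; group
          _ = c ^ (-(n : ℤ)) * (b⁻¹ * w * b) := by rw [((hcomm.zpow_right _).inv_left).eq]; group
          _ = c ^ (-(n : ℤ) - 1) * w := by rw [h2]; group
    have hcw : Commute c w := (mem_centralizer_iff.mp hcZ.2 w hw).symm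
    have hβeq : β = (b ^ k * w * (b ^ k)⁻¹) ^ i := by
      rw [hconj, hcw.zpow_left k |>.mul_zpow, ← zpow_mul, ← he]
      congr 1
      refine orderOf_dvd_sub_iff_zpow_eq_zpow.mp ?_
      rw [orderOf_eq_prime (hexp c (hZR hcZ)) hbw, ← dvd_neg, neg_sub]
      exact hk
    have hmap : MulAut.conj (b ^ k) • zpowers w = zpowers (b ^ k * w * (b ^ k)⁻¹) := MonoidHom.map_zpowers _ _
    rw [hmap, ← hβB]
    refine eq_of_le_of_card_ge (zpowers_le.2 (hβeq ▸ zpow_mem (mem_zpowers _) i)) ?_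
    rw [Nat.card_zpowers, Nat.card_zpowers, hβo, (show orderOf (b ^ k * w * (b ^ k)⁻¹) = orderOf w from MulEquiv.orderOf_eq (MulAut.conj (b ^ k)) w), hwo]
  -- the lines off the centre control `M₂` after renaming
  suffices key : ∀ {M N : Subgroup G}, IsCoatom M → IsCoatom N → M ≠ N → (S : Subgroup G) ≤ M → (S : Subgroup G) ≤ N →
      (∀ w ∈ P₁, w ∉ Z → centralizer ({w} : Set G) ≤ N) → False by
    have hline : ∀ {M : Subgroup G}, IsCoatom M → (S : Subgroup G) ≤ M → ∀ w ∈ P₁, w ∉ Z →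
        ¬ Group.IsNilpotent (sigmaCore M) →
        (normalizer (Z : Set G) ≤ M ∧ ∀ L : Subgroup G, IsCoatom L → normalizer (Z : Set G) ≤ L → L = M) ∨
        (centralizer ({w} : Set G) ≤ M ∧ normalizer (zpowers w : Set G) ≤ M ∧
          ∀ L : Subgroup G, IsCoatom L → normalizer (zpowers w : Set G) ≤ L → L = M) := by
      intro M hM hSM w hw hwZ hn
      obtain ⟨B, hB, hBc, hBM, hBu⟩ := exists_unique_line hG hM
        (A := Z ⊔ zpowers w) ⟨(sup_le hZR (zpowers_le.2 hw)).trans (hP₁S.trans hSM), (hpair w hw hwZ).1.2⟩ hn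
      rcases eq_or_ne B Z with rfl | hne
      · exact Or.inl ⟨hBM, hBu⟩
      obtain ⟨s, hs, rfl⟩ := (hpair w hw hwZ).2 B hB hBc hne
      right
      have hnorm : normalizer ((MulAut.conj s • zpowers w : Subgroup G) : Set G) =
          MulAut.conj s • normalizer (zpowers w : Set G) :=
        (map_equiv_normalizer_eq (zpowers w) (MulAut.conj s)).symm
      have hsM : MulAut.conj s⁻¹ • M = M := Coprime.conj_smul_eq_self (le_normalizer (M.inv_mem (hSM hs)))
      have h1 : normalizer (zpowers w : Set G) ≤ M := by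
        have := pointwise_smul_le_pointwise_smul_iff (a := MulAut.conj s⁻¹).mpr (hnorm ▸ hBM)
        rwa [hsM, Coprime.conj_inv_smul_smul] at this
      refine ⟨centralizer_singleton_le_normalizer.trans h1, h1, fun L hL hwL => ?_⟩
      have h2 := hBu (MulAut.conj s • L) (coatom_smul s hL) (hnorm ▸ pointwise_smul_le_pointwise_smul_iff.mpr hwL)
      have h3 := congrArg (fun T : Subgroup G => MulAut.conj s⁻¹ • T) h2
      simp only [Coprime.conj_inv_smul_smul, hsM] at h3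
      exact h3
    have hn₁ := hnn hM₁ hM₂ hne h₁ h₂
    have hn₂ := hnn hM₂ hM₁ (Ne.symm hne) h₂ h₁
    by_cases hZ₁ : normalizer (Z : Set G) ≤ M₁ ∧ ∀ L : Subgroup G, IsCoatom L → normalizer (Z : Set G) ≤ L → L = M₁
    · refine key hM₁ hM₂ hne h₁ h₂ fun w hw hwZ => ?_
      rcases hline hM₂ h₂ w hw hwZ hn₂ with ⟨h, hu⟩ | h
      · exact absurd (hu M₁ hM₁ hZ₁.1) hne
      · exact h.1
    · by_cases hZ₂ : normalizer (Z : Set G) ≤ M₂ ∧ ∀ L : Subgroup G, IsCoatom L → normalizer (Z : Set G) ≤ L → L = M₂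
      · exact key hM₂ hM₁ (Ne.symm hne) h₂ h₁ fun w hw hwZ => ((hline hM₁ h₁ w hw hwZ hn₁).resolve_left hZ₁).1
      · obtain ⟨w, hw, hwZ⟩ : ∃ w ∈ P₁, w ∉ Z := by
          by_contra hc
          push Not at hc
          have := card_dvd_of_le (show P₁ ≤ Z from hc)
          rw [hP₁c, hZc] at this
          have := Nat.le_of_dvd hp.out.pos this
          nlinarith [hp.out.two_le, Nat.pow_le_pow_right hp.out.pos (show 2 ≤ 3 by norm_num)]
        exact hne ((((hline hM₁ h₁ w hw hwZ hn₁).resolve_left hZ₁).2.2 M₂ hM₂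
          ((hline hM₂ h₂ w hw hwZ hn₂).resolve_left hZ₂).2.1)).symm
  intro M N hM hN' hMN hSM hSN hcent
  have hNσ := hσ hN' hSN
  have hMσ := hσ hM hSM
  have hpM : p ∣ Nat.card M := hMσ.2.1
  have hpα : p ∉ alpha M := fun h => by
    obtain ⟨g, hg⟩ := conj_of_alpha_sigma hG hM hN' h hNσ
    exact hMN (eq_conj_of_sylow hG hM hMσ S hSM hN' g hg hSN)
  have hSσ := pgroup_le_sigmaCore hG hM hMσ S.2 hSM
  set Mσ := sigmaCore M
  set K := (pPrimeCore p ↥Mσ).map Mσ.subtype
  have hKσ : K ≤ Mσ := map_subtype_le _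
  have hKcop : (Nat.card K).Coprime p := by
    rw [card_map_of_injective Mσ.subtype_injective]; exact Hall.coprime_card_pPrimeCore p
  have hSK : (S : Subgroup G) ≤ normalizer (K : Set G) :=
    hSσ.trans (Components.MaxLocal.le_normalizer_map_subtype _)
  have hKN : K ≤ N := by
    refine le_of_invariant_sylows S.2 hKcop hSK fun q _ hqp Q hQ hSQ hQK => ?_
    have hcop : (Nat.card P₁).Coprime (Nat.card Q) := coprime_pgroups hqp hP₁p hQ
    have hQM : Q ≤ M := hQK.trans (hKσ.trans (map_subtype_le _))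
    have hP₁Q : P₁ ≤ normalizer (Q : Set G) := hP₁S.trans hSQ
    by_cases hq3 : PRankLE q 2 Q
    · refine le_of_fixed_noncentral hP₁c hexp hZR hZc hZC hcomZ hP₁Q hcop ?_
        fun w hw hwZ => inf_le_right.trans (hcent w hw hwZ)
      rw [← hcomeq]
      exact derived_centralizes_rank_two hG.1 hqp hP₁p hQ hq3 hP₁Q
    exfalso
    -- the part of `Q` inside `N` has rank at most two
    have hqα : q ∈ alpha M := ⟨Fact.out, fun h => hq3 (Hall.prankLE_of_injective (inclusion hQM) (inclusion_injective _) h)⟩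
    have hqN : PRankLE q 2 N := by
      by_contra h
      obtain ⟨g, hg⟩ := conj_of_alpha_sigma hG hM hN' hqα (alpha_subset_sigma hG hN' ⟨Fact.out, h⟩)
      exact hMN (eq_conj_of_sylow hG hM hMσ S hSM hN' g hg hSN)
    have hD : PRankLE q 2 ↥(Q ⊓ N) := Hall.prankLE_of_injective (inclusion inf_le_right) (inclusion_injective _) hqN
    have hSD : (S : Subgroup G) ≤ normalizer ((Q ⊓ N : Subgroup G) : Set G) :=
      (le_inf hSQ (hSN.trans le_normalizer)).trans inf_normalizer_le_normalizer_inf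
    have hDC : ⁅P₁, P₁⁆ ≤ centralizer ((Q ⊓ N : Subgroup G) : Set G) :=
      derived_centralizes_rank_two hG.1 hqp hP₁p (hQ.to_le inf_le_left) hD (hP₁S.trans hSD)
    rw [hcomeq] at hDC
    -- hence the centre centralizes `Q`, and `Q ≤ N`
    obtain ⟨w, hw, hwZ⟩ : ∃ w ∈ P₁, w ∉ Z := by
      by_contra hc
      push Not at hc
      exact hP₁na ⟨⟨fun a b => Subtype.ext (mem_centralizer_iff.mp (hc b b.2).2 a a.2)⟩⟩
    have hA := (hpair w hw hwZ).1
    have hQC : Q ≤ centralizer (Z : Set G) := by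
      have hgen := Coprime.fixGen_eq_of_elementary (K := Q) hp.out (fun x hx y hy => elem_comm hA.2.1 hx hy) hA.2.1.2
        hA.2.2 ((sup_le hZR (zpowers_le.2 hw)).trans hP₁Q)
        (hcop.coprime_dvd_left (card_dvd_of_le (sup_le hZR (zpowers_le.2 hw))))
      rw [← hgen, Coprime.fixGen]
      refine iSup₂_le fun a ha => ?_
      by_cases haZ : a ∈ Z
      · intro y hy
        have hgen' : zpowers a = Z := eq_of_le_of_card_ge (zpowers_le.2 haZ) (by
          rw [hZc, Nat.card_zpowers, orderOf_eq_prime (hexp a (hZR haZ)) ha.2])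
        rw [← hgen', centralizer_zpowers]
        exact hy.2
      · intro y hy
        have haP : a ∈ P₁ := sup_le hZR (zpowers_le.2 hw) ha.1
        exact le_centralizer_iff.mp hDC ⟨hy.1, hcent a haP haZ hy.2⟩
    have hQN : Q ≤ N := le_of_fixed_noncentral hP₁c hexp hZR hZc hZC hcomZ hP₁Q hcop
      (le_centralizer_iff.mp hQC) fun v hv hvZ => inf_le_right.trans (hcent v hv hvZ)
    exact hq3 (Hall.prankLE_of_injective (inclusion hQN) (inclusion_injective _) hqN)
  have hMle : M ≤ N := by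
    intro m hm
    have hnσ : M ≤ normalizer (Mσ : Set G) := le_normalizer_piCoreOf _ M
    obtain ⟨k, hk, hkm⟩ : ∃ k ∈ Mσ, k⁻¹ * m ∈ normalizer ((S : Subgroup G) : Set G) := by
      let S' : Sylow p ↥Mσ := S.subtype hSσ
      have hmap : (S' : Subgroup ↥Mσ).map Mσ.subtype = S := by
        rw [Sylow.coe_subtype]; exact map_subgroupOf_eq_of_le hSσ
      obtain ⟨k, hk⟩ := exists_conj_sylow_of_normal hnσ hm S'
      exact ⟨k, k.2, hmap ▸ hk⟩
    have hkN : k ∈ N := by
      have hnpc : HasNormalPComplement p ↥Mσ :=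
        normalPComplement_derived hG hM hpM (fun h => hpα h.1) (sigmaCore_le_derived hG hM)
      exact (le_pPrimeCore_sup hnpc S hSσ).trans (sup_le hKN hSN) hk
    have := mul_mem hkN (hN hN' hSN hkm)
    rwa [mul_inv_cancel_left] at this
  rcases hMle.eq_or_lt with h | h
  · exact hMN h
  · exact hN'.1 (hM.2 _ h)

end Cfsg.Agent.Lib.Uniq

namespace Cfsg.Agent.Lib.Uniq

open Subgroup

/-- BG 12.13. -/
theorem nonabelian_unique {G : Type*} [Group G] [Finite G] (hG : IsMinSimpleOddOrder G) {p : ℕ} [Fact p.Prime]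
    {P : Subgroup G} (hP : IsPGroup p P) (hna : ¬ IsMulCommutative P) : InUniqueMaximal P := by
  obtain ⟨S, hPS⟩ := hP.exists_le_sylow
  obtain ⟨M, hM, hPM⟩ := exists_coatom_ge (pgroup_ne_top hG hP)
  have hSna : ¬ IsMulCommutative (S : Subgroup G) := fun h => hna
    ⟨⟨fun a b => Subtype.ext (congrArg Subtype.val (mul_comm' (⟨a, hPS a.2⟩ : (S : Subgroup G)) ⟨b, hPS b.2⟩) :)⟩⟩
  refine ⟨M, ⟨hM, hPM⟩, fun L ⟨hL, hPL⟩ => eq_of_sylow_le hG hL hM S hSna
    (sylow_le_of_nonabelian hG hna S hPS hL hPL).2 (sylow_le_of_nonabelian hG hna S hPS hM hPM).2⟩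

end Cfsg.Agent.Lib.Uniq
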