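import Cfsg.Agent.Lib.Uniq.Beta
set_option autoImplicit false

/-! The complement `E` of `M_σ` in a maximal subgroup. -/

namespace Cfsg.Agent.Lib.Uniq

open Subgroup
open scoped Pointwise commutatorElement

/-- A subgroup of order prime to the index of a normal subgroup lies in it. -/
theorem le_of_coprime_index {X : Type*} [Group X] [Finite X] {N H : Subgroup X} [N.Normal]
    (h : (Nat.card H).Coprime N.index) : H ≤ N := fun x hx =>
  (QuotientGroup.eq_one_iff x).mp (orderOf_eq_one_iff.mp (Nat.eq_one_of_dvd_coprimes h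
    ((orderOf_map_dvd (QuotientGroup.mk' N) x).trans (H.orderOf_dvd_natCard hx))
    (index_eq_card N ▸ _root_.orderOf_dvd_natCard _)))

/-- In a nilpotent group a Hall subgroup is the corresponding core. -/
theorem hall_eq_piCore {X : Type*} [Group X] [Finite X] [Group.IsNilpotent X] (π : Set ℕ) {H : Subgroup X}
    (hH : ∀ r : ℕ, r.Prime → r ∣ Nat.card H → r ∈ π) (hi : ∀ r : ℕ, r.Prime → r ∈ π → ¬ r ∣ H.index) :
    H = piCore π X := by
  have hP : ∀ r : ℕ, r.Prime → r ∈ π → ¬ r ∣ (piCore π X).index := by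
    intro r hr hrπ hd
    haveI := Fact.mk hr
    obtain ⟨S⟩ : Nonempty (Sylow r X) := inferInstance
    haveI : (S : Subgroup X).Normal :=
      Sylow.normal_of_normalizerCondition Group.normalizerCondition_of_isNilpotent S
    refine S.not_dvd_index (hd.trans (index_dvd_of_le (OddLocal.le_piCore fun q hq hqd => ?_)))
    obtain ⟨j, hj⟩ := IsPGroup.iff_card.mp S.2
    rw [hj] at hqd
    exact (Nat.prime_dvd_prime_iff_eq hq hr).mp (hq.dvd_of_dvd_pow hqd) ▸ hrπ
  have hle : H ≤ piCore π X :=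
    le_of_coprime_index (Nat.coprime_of_dvd fun r hr h1 h2 => hP r hr (hH r hr h1) h2)
  refine le_antisymm hle (relIndex_eq_one.mp (Nat.eq_one_iff_not_exists_prime_dvd.mpr fun r hr hd => ?_))
  refine hi r hr ?_ (hd.trans (relIndex_dvd_index_of_le hle))
  exact OddLocal.piCore_isPi π r hr (hd.trans (Dvd.intro_left _ (Hall.card_mul_relIndex' hle)))

universe u

variable {G : Type u} [Group G] [Finite G] {M E : Subgroup G}

lemma piCoreOf_sigma (M : Subgroup G) : piCoreOf (sigma M) M = sigmaCore M := rfl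

theorem sigmaCore_hall (hG : IsMinSimpleOddOrder G) (hM : IsCoatom M) {p : ℕ} [hp : Fact p.Prime]
    (h : p ∈ sigma M) : ¬ p ∣ (sigmaCore M).relIndex M ∧ ¬ p ∣ (sigmaCore M).index :=
  not_dvd_relIndex_core hG hM (alpha_subset_sigma hG hM) le_rfl h

theorem compl_card (hE : IsComplIn E (sigmaCore M) M) :
    Nat.card E * Nat.card (sigmaCore M) = Nat.card M ∧ Nat.card E = (sigmaCore M).relIndex M := by
  obtain ⟨hEM, hKM, hbot, hdec⟩ := hE
  haveI : ((sigmaCore M).subgroupOf M).Normal :=
    (normal_subgroupOf_iff_le_normalizer hKM).mpr (OddLocal.le_normalizer_piCoreOf _ M)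
  have hc : IsComplement' (E.subgroupOf M) ((sigmaCore M).subgroupOf M) := by
    refine isComplement'_of_disjoint_and_mul_eq_univ ?_ ?_
    · rw [disjoint_iff, eq_bot_iff]
      intro x hx
      exact Subtype.ext (mem_bot.mp (hbot ▸ (⟨hx.1, hx.2⟩ : (x : G) ∈ E ⊓ sigmaCore M)))
    · ext x
      simp only [Set.mem_univ, iff_true]
      obtain ⟨a, ha, b, hb, e⟩ := hdec x x.2
      exact ⟨⟨a, hEM ha⟩, ha, ⟨b, hKM hb⟩, hb, Subtype.ext e.symm⟩
  have h1 := hc.card_mul
  have h2 := hc.index_eq_card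
  rw [Coprime.card_subgroupOf hEM, Coprime.card_subgroupOf hKM] at h1
  exact ⟨h1, by rw [relIndex, h2, Coprime.card_subgroupOf hEM]⟩

theorem compl_not_sigma (hG : IsMinSimpleOddOrder G) (hM : IsCoatom M) (hE : IsComplIn E (sigmaCore M) M)
    {p : ℕ} [Fact p.Prime] (hd : p ∣ Nat.card E) : p ∉ sigma M := fun h =>
  (sigmaCore_hall hG hM h).1 ((compl_card hE).2 ▸ hd)

theorem compl_pRankLE_two (hG : IsMinSimpleOddOrder G) (hM : IsCoatom M) (hE : IsComplIn E (sigmaCore M) M)
    {p : ℕ} [hp : Fact p.Prime] (X : Subgroup ↥E) : PRankLE p 2 ↥X := by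
  by_cases hd : p ∣ Nat.card X
  · have hσ := compl_not_sigma hG hM hE (hd.trans X.card_subgroup_dvd_card)
    have hα : PRankLE p 2 M := by
      by_contra h
      exact hσ (alpha_subset_sigma hG hM ⟨hp.out, h⟩)
    exact Hall.prankLE_of_injective ((inclusion hE.1).comp X.subtype)
      ((inclusion_injective hE.1).comp X.subtype_injective) hα
  · exact prankLE_of_not_dvd hd

/-- `E'` is nilpotent. -/
theorem compl_derived_nilpotent (hG : IsMinSimpleOddOrder G) (hM : IsCoatom M)
    (hE : IsComplIn E (sigmaCore M) M) : Group.IsNilpotent (commutator ↥E) := by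
  haveI : Group.IsSolvable ↥E := solvable_of_ne_top hG (ne_top_of_le hM hE.1)
  refine Hall.commutator_isNilpotent (odd_card hG E) fun p hp => ?_
  haveI := Fact.mk hp
  exact compl_pRankLE_two hG hM hE _

theorem derived_nilpotent' (hG : IsMinSimpleOddOrder G) (hM : IsCoatom M)
    (hE : IsComplIn E (sigmaCore M) M) : Group.IsNilpotent ↥⁅E, E⁆ := by
  haveI := compl_derived_nilpotent hG hM hE
  rw [← map_subtype_commutator]
  exact Group.nilpotent_of_mulEquiv ((commutator ↥E).equivMapOfInjective E.subtype E.subtype_injective)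

/-- The order of `M'` divides `|M_σ| |E'|`. -/
theorem card_derived_dvd (hG : IsMinSimpleOddOrder G) (hM : IsCoatom M) (hE : IsComplIn E (sigmaCore M) M) :
    Nat.card ↥⁅M, M⁆ ∣ Nat.card (sigmaCore M) * Nat.card (commutator ↥E) := by
  rw [← map_subtype_commutator, card_map_of_injective M.subtype_injective]
  set K := piCore (sigma M) ↥M
  set π := QuotientGroup.mk' K
  set f := π.comp (inclusion hE.1)
  have hf : Function.Surjective f := by
    intro z
    obtain ⟨m, rfl⟩ := QuotientGroup.mk'_surjective K z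
    obtain ⟨a, ha, b, hb, e⟩ := hE.2.2.2 m m.2
    obtain ⟨b', hb', hbb⟩ := hb
    refine ⟨⟨a, ha⟩, ?_⟩
    have hm : m = inclusion hE.1 ⟨a, ha⟩ * b' := Subtype.ext (by rw [e]; simp [← hbb])
    show π _ = π m
    rw [hm, map_mul, show π b' = 1 from (QuotientGroup.eq_one_iff b').mpr hb', mul_one]
  have h := Coprime.card_map_mk' K (commutator ↥M)
  rw [inf_eq_right.mpr (sigmaCore_le_commutator hG hM)] at h
  rw [← h, show sigmaCore M = K.map M.subtype from rfl, card_map_of_injective M.subtype_injective, mul_comm]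
  refine mul_dvd_mul_left _ ?_
  have h1 : (commutator ↥M).map π = (commutator ↥E).map f := by
    rw [commutator_def, commutator_def, map_commutator, map_commutator, map_top_of_surjective f hf,
      map_top_of_surjective π (QuotientGroup.mk'_surjective K)]
  rw [h1]
  exact card_map_dvd _ _

theorem rank_one_zgroup (hG : IsMinSimpleOddOrder G) {X : Subgroup G} (hXM : X ≤ M)
    (h : ∀ p : ℕ, p.Prime → p ∣ Nat.card X → PRankLE p 1 M) : IsZGroup ↥X :=
  isZGroup_of_rankLE_one (odd_card hG X) fun p hp => by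
    haveI := Fact.mk hp
    by_cases hd : p ∣ Nat.card X
    · exact Hall.prankLE_of_injective (inclusion hXM) (inclusion_injective hXM) (h p hp hd)
    · exact prankLE_of_not_dvd hd

open scoped IsMulCommutative in
theorem tau1_cyclic (hG : IsMinSimpleOddOrder G) (hE : IsComplIn E (sigmaCore M) M)
    {E₁ : Subgroup G} (hE₁ : IsPiHallOf (tau1 M) E₁ E) : IsCyclic E₁ := by
  haveI := rank_one_zgroup hG (hE₁.1.trans hE.1) fun p hp hd => (hE₁.2.1 p hp hd).2.2.2.2
  have hbot : commutator ↥E₁ = ⊥ := by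
    refine card_eq_one.mp (Nat.eq_one_iff_not_exists_prime_dvd.mpr fun p hp hd => ?_)
    refine (hE₁.2.1 p hp (hd.trans (card_subgroup_dvd_card _))).2.2.2.1 ?_
    rw [← card_map_of_injective E₁.subtype_injective] at hd
    refine hd.trans (card_dvd_of_le ?_)
    rw [map_subtype_commutator]
    exact commutator_mono (hE₁.1.trans hE.1) (hE₁.1.trans hE.1)
  haveI : IsMulCommutative ↥E₁ := ⟨⟨fun a b => commutatorElement_eq_one_iff_mul_comm.mp
    (mem_bot.mp (hbot ▸ commutator_mem_commutator (mem_top a) (mem_top b)))⟩⟩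
  haveI : Group.IsNilpotent ↥E₁ := inferInstance
  infer_instance

theorem tau3_struct (hG : IsMinSimpleOddOrder G) (hM : IsCoatom M) (hE : IsComplIn E (sigmaCore M) M)
    {E₃ : Subgroup G} (hE₃ : IsPiHallOf (tau3 M) E₃ E) :
    IsCyclic E₃ ∧ E₃ ≤ ⁅E, E⁆ ∧ E ≤ normalizer (E₃ : Set G) := by
  obtain ⟨h3E, h3p, h3i⟩ := hE₃
  have hcop : (Nat.card (E₃.subgroupOf E)).Coprime (commutator ↥E).index := by
    rw [Coprime.card_subgroupOf h3E]
    refine Nat.coprime_of_dvd fun r hr h1 h2 => ?_
    haveI := Fact.mk hr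
    obtain ⟨-, hrσ, hrD, hr1⟩ := h3p r hr h1
    have hdE : r ∣ Nat.card (commutator ↥E) := by
      refine (hr.dvd_mul.mp (hrD.trans (card_derived_dvd hG hM hE))).resolve_left fun h => hrσ ?_
      exact OddLocal.piCoreOf_isPi (sigma M) M r hr h
    obtain ⟨S⟩ : Nonempty (Sylow r ↥E) := inferInstance
    haveI : IsZGroup ↥((S : Subgroup ↥E).map E.subtype) :=
      rank_one_zgroup hG ((map_subtype_le _).trans hE.1) fun p hp hd => by
        obtain ⟨j, hj⟩ := IsPGroup.iff_card.mp (S.2.map E.subtype)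
        rw [hj] at hd
        exact (Nat.prime_dvd_prime_iff_eq hp hr).mp (hp.dvd_of_dvd_pow hd) ▸ hr1
    haveI := (S.2.map E.subtype).isNilpotent
    haveI : IsCyclic ↥((S : Subgroup ↥E).map E.subtype) := inferInstance
    haveI : IsCyclic ↥(S : Subgroup ↥E) := isCyclic_of_surjective _
      ((S : Subgroup ↥E).equivMapOfInjective E.subtype E.subtype_injective).symm.surjective
    exact (S.not_dvd_card_commutator_or_not_dvd_index_commutator).elim (· hdE) (· h2)
  have hle' : E₃.subgroupOf E ≤ commutator ↥E := le_of_coprime_index hcop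
  have hle : E₃ ≤ ⁅E, E⁆ := by
    have h := map_mono (f := E.subtype) hle'
    rwa [map_subgroupOf_eq_of_le h3E, map_subtype_commutator] at h
  haveI := derived_nilpotent' hG hM hE
  haveI := rank_one_zgroup hG (h3E.trans hE.1) fun p hp hd => (h3p p hp hd).2.2.2
  haveI : Group.IsNilpotent ↥E₃ :=
    Group.nilpotent_of_mulEquiv (subgroupOfEquivOfLe hle)
  refine ⟨inferInstance, hle, ?_⟩
  have heq : E₃.subgroupOf ⁅E, E⁆ = piCore (tau3 M) ↥⁅E, E⁆ := by
    refine hall_eq_piCore _ (fun r hr hd => h3p r hr (by rwa [Coprime.card_subgroupOf hle] at hd))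
      fun r hr hrπ hd => h3i r hr hrπ (hd.trans ?_)
    exact Dvd.intro _ (relIndex_mul_relIndex E₃ ⁅E, E⁆ E hle (commutator_le.mpr fun a ha b hb =>
      E.mul_mem (E.mul_mem (E.mul_mem ha hb) (E.inv_mem ha)) (E.inv_mem hb)))
  have heq' : E₃ = piCoreOf (tau3 M) ⁅E, E⁆ := by
    rw [piCoreOf, ← heq, map_subgroupOf_eq_of_le hle]
  rw [heq']
  refine le_trans ?_ (OddLocal.normalizer_le_normalizer_piCoreOf _ _)
  exact Coprime.left_le_normalizer_commutator E E

end Cfsg.Agent.Lib.Uniq
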