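import Cfsg.Agent.Lib.Uniq.TauTwoNonabelian
import Cfsg.Agent.S1404
set_option autoImplicit false

/-! BG 12.8/12.9: abelian `σ'`-subgroups and uniqueness for `τ₂`-elements. -/

namespace Cfsg.Agent.Lib.Uniq

open Subgroup
open scoped Pointwise commutatorElement

universe u

variable {G : Type u} [Group G] [Finite G] {M A E : Subgroup G} {p : ℕ}

/-- A `σ(M)'`-subgroup is conjugate in `M` into any complement. -/
theorem exists_conj_le_compl' (hG : IsMinSimpleOddOrder G) (hM : IsCoatom M) (hE : IsComplIn E (sigmaCore M) M)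
    {Y : Subgroup G} (hY : ∀ r : ℕ, r.Prime → r ∣ Nat.card Y → r ∉ sigma M) (hYM : Y ≤ M) :
    ∃ m ∈ M, MulAut.conj m • Y ≤ E := by
  classical
  haveI := solvable_of_ne_top hG hM.1
  have hEi : (E.subgroupOf M).index = Nat.card (sigmaCore M) := by
    have h1 := (E.subgroupOf M).card_mul_index
    rw [Coprime.card_subgroupOf hE.1, ← (compl_card hE).1] at h1
    exact Nat.eq_of_mul_eq_mul_left Nat.card_pos h1
  have hπ : ∀ r : ℕ, r.Prime → r ∣ Nat.card (sigmaCore M) → r ∈ sigma M :=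
    OddLocal.piCoreOf_isPi (sigma M) M
  have hcE : (Nat.card (E.subgroupOf M)).Coprime (E.subgroupOf M).index := by
    rw [Coprime.card_subgroupOf hE.1, hEi]
    exact Nat.coprime_of_dvd fun r hr h1 h2 => by
      haveI := Fact.mk hr
      exact compl_not_sigma hG hM hE h1 (hπ r hr h2)
  obtain ⟨g, hg⟩ := Hall.exists_le_conj hcE (K := Y.subgroupOf M) (by
    rw [hEi, Coprime.card_subgroupOf hYM]
    exact Nat.coprime_of_dvd fun r hr h1 h2 => hY r hr h1 (hπ r hr h2))
  refine ⟨((g⁻¹ : M) : G), (g⁻¹).2, ?_⟩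
  rintro y ⟨w, hw, rfl⟩
  have h := hg (show (⟨w, hYM hw⟩ : M) ∈ Y.subgroupOf M from hw)
  rw [mem_pointwise_smul_iff_inv_smul_mem, ← map_inv] at h
  exact h

/-- For `p ∉ σ(M)` the `p`-subgroups of `M` are abelian. -/
theorem pgroup_comm_of_not_sigma (hG : IsMinSimpleOddOrder G) (hM : IsCoatom M) [hp : Fact p.Prime]
    (hpσ : p ∉ sigma M) {P : Subgroup G} (hP : IsPGroup p P) (hPM : P ≤ M) :
    ∀ x ∈ P, ∀ y ∈ P, x * y = y * x := by
  classical
  intro x hx y hy
  by_cases hr1 : PRankLE p 1 M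
  · haveI : IsZGroup ↥P := rank_one_zgroup hG hPM fun r hr hd => isPGroup_ne_dvd hP hr hd ▸ hr1
    haveI := hP.isNilpotent
    exact congrArg Subtype.val
      ((IsCyclic.commGroup (α := P)).mul_comm (⟨x, hx⟩ : P) ⟨y, hy⟩)
  · obtain ⟨A₀, hA₀M, hA₀, hA₀c⟩ := elem_of_not_pRankLE hr1
    obtain ⟨S, hS⟩ := (hP.comap_subtype (K := M)).exists_le_sylow
    obtain ⟨S₀, hS₀⟩ := ((elem_isPGroup hA₀).comap_subtype (K := M)).exists_le_sylow
    obtain ⟨m, hm⟩ := MulAction.exists_smul_eq (↥M) S₀ S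
    have hAS : MulAut.conj (m : G) • A₀ ≤ (S : Subgroup M).map M.subtype := by
      rintro v ⟨w, hw, rfl⟩
      refine ⟨m * ⟨w, hA₀M hw⟩ * m⁻¹, ?_, rfl⟩
      rw [← hm, Sylow.coe_subgroup_smul]
      exact Coprime.conj_mem_conj_smul (hS₀ hw)
    obtain ⟨X, hX⟩ := exists_exc hG hM hpσ (hAS.trans (map_subtype_le _)) (elem_of_conj (m : G) hA₀)
      ((Coprime.card_conj_smul _ _).trans hA₀c)
    have h := (sylow_abelian_of_exc hG hX S hAS).is_comm.comm
      (⟨⟨x, hPM hx⟩, hS hx⟩ : (S : Subgroup M)) ⟨⟨y, hPM hy⟩, hS hy⟩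
    exact congrArg (fun v : (S : Subgroup M) => ((v : M) : G)) h

/-- Nilpotent `σ(M)'`-subgroups of `M` are abelian. -/
theorem nilpotent_comm_of_not_sigma (hG : IsMinSimpleOddOrder G) (hM : IsCoatom M) {N : Subgroup G} (hNM : N ≤ M)
    (hN : Group.IsNilpotent N) (hπ : ∀ r : ℕ, r.Prime → r ∣ Nat.card N → r ∉ sigma M) : IsMulCommutative N := by
  classical
  haveI := hN
  have htop : (⊤ : Subgroup ↥N) ≤ ⨆ r : Nat.Primes, pCore (r : ℕ) ↥N :=
    Hall.le_iSup_pCore (N := (⊤ : Subgroup ↥N)) inferInstance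
  suffices h : ∀ r : Nat.Primes, pCore (r : ℕ) ↥N ≤ center ↥N by
    exact ⟨⟨fun a b => (mem_center_iff.mp ((htop.trans (iSup_le h)) (mem_top b)) a)⟩⟩
  intro r
  haveI := Fact.mk r.2
  intro x hx
  refine mem_center_iff.mpr fun g => ?_
  have hle : (⊤ : Subgroup ↥N) ≤ centralizer ({x} : Set N) := by
    refine htop.trans (iSup_le fun s => ?_)
    haveI := Fact.mk s.2
    intro y hy
    refine mem_centralizer_singleton_iff.mpr ?_
    by_cases hsr : s = r
    · subst hsr
      by_cases hd : (s : ℕ) ∣ Nat.card N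
      · exact Subtype.ext (pgroup_comm_of_not_sigma hG hM (hπ s s.2 hd) ((Hall.isPGroup_pCore (s : ℕ)).map N.subtype)
          ((map_subtype_le _).trans hNM) y (mem_map_of_mem _ hy) x (mem_map_of_mem _ hx))
      · rw [Hall.pCore_eq_bot_of_not_dvd hd, mem_bot] at hx
        simp [hx]
    · exact (Hall.commute_pCore (fun e => hsr (Subtype.ext e)) hy hx).eq
  exact mem_centralizer_singleton_iff.mp (hle (mem_top g))

variable [hp : Fact p.Prime]

/-- A noncyclic `p`-subgroup of `M`, `p ∈ σ(M)`, has its normaliser in `M`. -/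
theorem normalizer_noncyclic_le (hG : IsMinSimpleOddOrder G) (hM : IsCoatom M) (hσ : p ∈ sigma M) {P : Subgroup G}
    (hP : IsPGroup p P) (hPM : P ≤ M) (hnc : ¬ IsCyclic P) : normalizer (P : Set G) ≤ M := by
  have hP1 : P ≠ ⊥ := fun e => hnc (by rw [e]; infer_instance)
  rw [(S1404.result hG M hM p hσ P hP hP1 hPM).2]
  refine sup_le inf_le_left ?_
  have hp2 : p ≠ 2 := fun e => hG.1.not_two_dvd_nat (e ▸ hσ.2.1.trans M.card_subgroup_dvd_card)
  obtain ⟨B, -, -, hBe, hBc⟩ := Thompson.exists_elemAbelian_normal hp2 hP (⊤ : Subgroup ↥P)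
    fun h => hnc (by haveI := h; exact isCyclic_of_surjective _ Subgroup.topEquiv.surjective)
  have hBP : B.map P.subtype ≤ P := map_subtype_le _
  exact (Subgroup.centralizer_le hBP).trans (centralizer_elem_two_le hG hM (hBP.trans hPM) (elem_map _ hBe)
    (by rw [card_map_of_injective P.subtype_injective, hBc]))

/-- A `q`-element with `p < q` fixing a line of `A` and normalising `A` centralises it. -/
theorem centralizes_of_gt {q : ℕ} [hq : Fact q.Prime] (hpq : p < q) (hA : IsElementaryAbelian p A)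
    (hAc : Nat.card A = p ^ 2) {v : G} {k : ℕ} (hv : v ^ q ^ k = 1) (hvA : v ∈ normalizer (A : Set G))
    {X : Subgroup G} (hXA : X ≤ A) (hXc : Nat.card X = p) (hvX : v ∈ centralizer (X : Set G)) :
    v ∈ centralizer (A : Set G) := by
  classical
  set V := zpowers v
  have hVp : IsPGroup q V := by
    rintro ⟨z, hz⟩
    obtain ⟨i, rfl⟩ := mem_zpowers_iff.mp hz
    exact ⟨k, Subtype.ext (by
      show (v ^ i) ^ q ^ k = 1
      rw [← zpow_natCast, ← _root_.zpow_mul, mul_comm, _root_.zpow_mul, zpow_natCast, hv, one_zpow])⟩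
  have hVA : V ≤ normalizer (A : Set G) := zpowers_le.mpr hvA
  haveI := hA.1
  have hcop := coprime_pgroups (p := q) (q := p) hpq.ne hVp (elem_isPGroup hA)
  set D := ⁅A, V⁆
  have hDA : D ≤ A := Coprime.commutator_le_of_le_normalizer' hVA
  have hbot := Coprime.inf_centralizer_inf_commutator hVA hcop
  have hXC : X ≤ A ⊓ centralizer (V : Set G) :=
    le_inf hXA (le_centralizer_iff.mp (zpowers_le.mpr hvX))
  have hinf : D ⊓ X = ⊥ := le_bot_iff.mp (hbot ▸ le_inf (inf_le_right.trans hXC) inf_le_left)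
  suffices hD : D = ⊥ by
    exact (le_centralizer_iff.mp (commutator_eq_bot_iff_le_centralizer.mp hD)) (mem_zpowers v)
  by_contra hD
  obtain ⟨i, hi, hie⟩ := (Nat.dvd_prime_pow hp.out).mp (hAc ▸ card_dvd_of_le hDA)
  have hi0 : i ≠ 0 := fun e => hD (card_eq_one.mp (by rw [hie, e, pow_zero]))
  have hi2 : i ≠ 2 := fun e => by
    have h1 : D = A := eq_of_le_of_card_ge hDA (by rw [hie, e, hAc])
    rw [h1, inf_eq_right.mpr hXA] at hinf
    rw [hinf, card_bot] at hXc
    exact hp.out.ne_one hXc.symm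
  have hDc : Nat.card D = p := by rw [hie, show i = 1 by omega, pow_one]
  have hVD : V ≤ normalizer (D : Set G) := Coprime.right_le_normalizer_commutator A V
  let f : V →* MulAut D := Coprime.conjHom hVD
  haveI := isCyclic_of_prime_card (p := p) hDc
  have hf : f ⟨v, mem_zpowers v⟩ = 1 := by
    rw [← orderOf_eq_one_iff]
    obtain ⟨j, hj⟩ := IsPGroup.iff_orderOf.mp hVp ⟨v, mem_zpowers v⟩
    refine Nat.eq_one_of_dvd_coprimes (a := q ^ j) (b := Nat.card (MulAut D)) ?_
      (hj ▸ orderOf_map_dvd f _) (_root_.orderOf_dvd_natCard _)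
    rw [IsCyclic.card_mulAut, hDc, Nat.totient_prime hp.out]
    refine Nat.Coprime.pow_left j (hq.out.coprime_iff_not_dvd.mpr fun h => ?_)
    have := Nat.le_of_dvd (by have := hp.out.two_le; omega) h
    omega
  have hDC : D ≤ A ⊓ centralizer (V : Set G) := by
    refine le_inf hDA (le_centralizer_iff.mp (zpowers_le.mpr (mem_centralizer_iff.mpr fun d hd => ?_)))
    have h := congrArg (fun φ : MulAut D => ((φ ⟨d, hd⟩ : D) : G)) hf
    simp only [f, Coprime.coe_conjHom_apply, MulAut.one_apply] at h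
    exact (mul_inv_eq_iff_eq_mul.mp h).symm
  exact hD (le_bot_iff.mp (hbot ▸ le_inf hDC le_rfl))

/-- BG 12.9(d). -/
theorem tau_two_element_unique (hG : IsMinSimpleOddOrder G) (hM : IsCoatom M) {x : G} (hxM : x ∈ M) (hx1 : x ≠ 1)
    (hπ : ∀ r : ℕ, r.Prime → r ∣ orderOf x → r ∈ tau2 M) (hσ : x ∈ sigmaHat M) :
    centralizer ({x} : Set G) ≤ M ∧
      ∀ L : Subgroup G, IsCoatom L → centralizer ({x} : Set G) ≤ L → L = M := by
  classical
  obtain ⟨-, y, hy, hy1, hxy⟩ := hσ
  have hn1 : orderOf x ≠ 1 := fun h => hx1 (orderOf_eq_one_iff.mp h)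
  set r := (orderOf x).minFac with hrdef
  have hr : r.Prime := Nat.minFac_prime hn1
  haveI := Fact.mk hr
  have hrd : r ∣ orderOf x := Nat.minFac_dvd _
  have hrτ := hπ r hr hrd
  set w := x ^ (orderOf x / r) with hw
  have hwo : orderOf w = r := orderOf_pow_orderOf_div (orderOf_pos x).ne' hrd
  set X := zpowers w
  have hXc : Nat.card X = r := by rw [Nat.card_zpowers, hwo]
  -- a complement containing `x`, and `A`
  obtain ⟨A₀, hA₀M, hA₀, hA₀c⟩ := elem_of_not_pRankLE hrτ.2.2.2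
  obtain ⟨E₀, hE₀, hA₀E⟩ := exists_compl_ge hG hM hrτ.2.1 (elem_isPGroup hA₀) hA₀M
  obtain ⟨m, hm, hmx⟩ := exists_conj_le_compl' hG hM hE₀ (Y := zpowers x)
    (fun s hs hd => (hπ s hs (by rwa [Nat.card_zpowers] at hd)).2.1) (zpowers_le.mpr hxM)
  set E := MulAut.conj m⁻¹ • E₀
  have hxE : x ∈ E := by
    rw [mem_pointwise_smul_iff_inv_smul_mem, ← map_inv, inv_inv]
    exact hmx (smul_mem_pointwise_smul x (MulAut.conj m) (zpowers x) (mem_zpowers x))
  set A := MulAut.conj m⁻¹ • A₀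
  have hAE : A ≤ E := pointwise_smul_le_pointwise_smul_iff.mpr hA₀E
  have hEM : E ≤ M := (pointwise_smul_le_pointwise_smul_iff.mpr hE₀.1).trans
    (Coprime.conj_smul_eq_self (le_normalizer (M.inv_mem hm))).le
  have hE : IsComplIn E (sigmaCore M) M := by
    have hK : MulAut.conj m⁻¹ • sigmaCore M = sigmaCore M :=
      Coprime.conj_smul_eq_self (OddLocal.le_normalizer_piCoreOf (sigma M) M (M.inv_mem hm))
    refine ⟨hEM, hE₀.2.1, ?_, fun k hk => ?_⟩
    · rw [← hK, ← Subgroup.smul_inf, hE₀.2.2.1, Subgroup.smul_bot]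
    · obtain ⟨e, he, b, hb, hkb⟩ := hE₀.2.2.2 (m * k * m⁻¹) (M.mul_mem (M.mul_mem hm hk) (M.inv_mem hm))
      refine ⟨m⁻¹ * e * m⁻¹⁻¹, smul_mem_pointwise_smul e (MulAut.conj m⁻¹) E₀ he, m⁻¹ * b * m⁻¹⁻¹,
        hK ▸ smul_mem_pointwise_smul b (MulAut.conj m⁻¹) (sigmaCore M) hb, ?_⟩
      calc k = m⁻¹ * (m * k * m⁻¹) * m := by group
        _ = _ := by rw [hkb]; group
  have hAe : IsElementaryAbelian r A := elem_of_conj _ hA₀
  have hAc : Nat.card A = r ^ 2 := (Coprime.card_conj_smul _ _).trans hA₀c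
  obtain ⟨hEA, hXA'⟩ := le_normalizer_compl hG hM hE hrτ.2.1 hAE hAe hAc
  have hXA : X ≤ A := hXA' X (zpowers_le.mpr (pow_mem hxE _)) hXc
  have hxC : x ∈ centralizer (A : Set G) := by
    have key : ∀ q k : ℕ, q.Prime → q ^ k ∣ orderOf x → x ^ (orderOf x / q ^ k) ∈ centralizer (A : Set G) := by
      intro q k hq hqk
      haveI := Fact.mk hq
      set v := x ^ (orderOf x / q ^ k)
      have hv : v ^ q ^ k = 1 := by rw [← pow_mul, Nat.div_mul_cancel hqk, pow_orderOf_eq_one]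
      rcases Nat.eq_zero_or_pos k with hk | hk
      · rw [hk, pow_zero, pow_one] at hv
        rw [hv]; exact one_mem _
      have hqd : q ∣ orderOf x := (dvd_pow_self q hk.ne').trans hqk
      have hvE : v ∈ E := pow_mem hxE _
      by_cases hqr : q = r
      · have hp : IsPGroup r (zpowers v ⊔ A : Subgroup G) := by
          have hvn : zpowers v ≤ normalizer (A : Set G) := (zpowers_le.mpr hvE).trans hEA
          refine IsPGroup.to_sup_of_normal_right' (IsPGroup.of_card (n := k) ?_ |>.to_le le_rfl) (elem_isPGroup hAe) hvn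
          rw [Nat.card_zpowers, ← hqr]
          exact orderOf_pow_orderOf_div (orderOf_pos x).ne' hqk
        refine mem_centralizer_iff.mpr fun a ha => ?_
        exact pgroup_comm_of_not_sigma hG hM hrτ.2.1 hp
          (sup_le ((zpowers_le.mpr hvE).trans hEM) (hAE.trans hEM)) a (mem_sup_right ha) v
          (mem_sup_left (mem_zpowers v))
      · refine centralizes_of_gt (lt_of_le_of_ne (Nat.minFac_le_of_dvd hq.two_le hqd) (Ne.symm hqr)) hAe hAc hv
          (hEA hvE) hXA hXc ?_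
        rw [centralizer_zpowers]
        exact mem_centralizer_singleton_iff.mpr (Commute.pow_pow_self x _ _).eq
    set C := zpowers x ⊓ centralizer (A : Set G)
    have hdvd : orderOf x ∣ Nat.card C := by
      refine (Nat.dvd_iff_prime_pow_dvd_dvd _ _).mpr fun q k hq hqk => ?_
      have h : x ^ (orderOf x / q ^ k) ∈ C := ⟨pow_mem (mem_zpowers x) _, key q k hq hqk⟩
      have h2 := Subgroup.orderOf_dvd_natCard C h
      rwa [orderOf_pow_orderOf_div (orderOf_pos x).ne' hqk] at h2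
    have heq : C = zpowers x := eq_of_le_of_card_ge inf_le_left (by
      rw [Nat.card_zpowers]; exact Nat.le_of_dvd Nat.card_pos hdvd)
    exact (heq.ge (mem_zpowers x)).2
  have hCX : centralizer ({x} : Set G) ≤ centralizer (X : Set G) := by
    intro c hc
    rw [centralizer_zpowers]
    exact mem_centralizer_singleton_iff.mpr ((show Commute c x from mem_centralizer_singleton_iff.mp hc).pow_right _).eq
  have hyX : sigmaCore M ⊓ centralizer (X : Set G) ≠ ⊥ := fun e => hy1 (mem_bot.mp (e ▸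
    (⟨hy, hCX (mem_centralizer_singleton_iff.mpr hxy.symm)⟩ : y ∈ sigmaCore M ⊓ centralizer (X : Set G))))
  have hX1 : X ≠ ⊥ := fun e => by rw [e, card_bot] at hXc; exact hr.ne_one hXc.symm
  refine ⟨hCX.trans (centralizer_line_unique hG hM hrτ.2.1 (hAE.trans hEM) hAe hAc hXA hX1 hyX).1,
    fun L hL hle => ?_⟩
  by_contra hne
  have hAL : A ≤ L := fun a ha =>
    hle (mem_centralizer_singleton_iff.mpr (mem_centralizer_iff.mp hxC a ha))
  refine hy1 (mem_bot.mp (sigmaCore_inf_eq_bot hG hM hrτ.2.1 (hAE.trans hEM) hAe hAc hL hne hAL ▸ ?_))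
  exact ⟨hy, hle (mem_centralizer_singleton_iff.mpr hxy.symm)⟩

end Cfsg.Agent.Lib.Uniq
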