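import Cfsg.Agent.Lib.Uniq.Alpha
import Cfsg.Agent.Lib.Thompson.Elementary
set_option autoImplicit false

/-! Primes outside `σ(M)` of rank two (BG 10.6). -/

namespace Cfsg.Agent.Lib.Uniq

open Subgroup
open scoped Pointwise commutatorElement
open Cfsg.Agent.Lib.OddLocal

universe u

variable {G : Type u} [Group G] [Finite G] {p : ℕ} [hp : Fact p.Prime]

theorem elem_two_maximal (hG : IsMinSimpleOddOrder G) {M : Subgroup G} (hM : IsCoatom M)
    (hr2 : PRankLE p 2 M) {A : Subgroup G} (hAM : A ≤ M) (hA : IsElementaryAbelian p A)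
    (hAc : Nat.card A = p ^ 2) {B : Subgroup G} (hB : IsElementaryAbelian p B) (hAB : A ≤ B) : B = A := by
  by_contra hne
  have hlt : p ^ 2 < Nat.card B := hAc ▸
    (Set.toFinite _).card_lt_card (SetLike.coe_ssubset_coe.2 (lt_of_le_of_ne hAB (Ne.symm hne)))
  have hBC : B ≤ centralizer (A : Set G) := (comm_le_centralizer hB.1).trans (centralizer_le hAB)
  obtain ⟨E, hEB, hE, hEc⟩ := elem_of_not_pRankLE (not_pRankLE_of_elem (Z := B) le_rfl hB hlt)
  have hU := unique_of_rank_three' hG (elem_isPGroup hE) hE.1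
    (not_pRankLE_of_elem le_rfl hE (hEc ▸ Nat.pow_lt_pow_right hp.out.one_lt (Nat.lt_succ_self 2)))
    (unique_elem_three hG (narrowFitting hG) hE hEc.ge) (not_pRankLE_one le_rfl hA hAc.ge)
    (not_pRankLE_of_elem hBC hB hlt)
  exact not_pRankLE_of_elem (hBC.trans (centralizer_unique_le hG hU hM hAM)) hB hlt hr2

theorem not_idealPrime (hG : IsMinSimpleOddOrder G) {M : Subgroup G} (hM : IsCoatom M)
    (hr2 : PRankLE p 2 M) (hr1 : ¬ PRankLE p 1 M) : ¬ IsIdealPrime p G := by
  rintro ⟨-, -, h⟩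
  obtain ⟨A, hAM, hA, hAc⟩ := elem_of_not_pRankLE hr1
  obtain ⟨P, hP⟩ := (elem_isPGroup hA).exists_le_sylow
  obtain ⟨B, -, hB, hlt⟩ := h P A hP hA hAc
  exact hlt.ne (elem_two_maximal hG hM hr2 hAM hA hAc hB hlt.le).symm

/-- A subgroup of order `p` with normaliser in `M` lies in an elementary abelian subgroup of order `p²` of `M`. -/
theorem exists_elem_two (hG : IsMinSimpleOddOrder G) {M : Subgroup G} (hM : IsCoatom M) (hσ : p ∉ sigma M)
    {X : Subgroup G} (hX : Nat.card X = p) (hNX : normalizer (X : Set G) ≤ M) :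
    ∃ A : Subgroup G, A ≤ M ∧ IsElementaryAbelian p A ∧ Nat.card A = p ^ 2 ∧ X ≤ A := by
  haveI : IsCyclic X := isCyclic_of_prime_card hX
  have hXM : X ≤ M := le_normalizer.trans hNX
  have hXp : IsPGroup p X := IsPGroup.of_card (n := 1) (by rw [hX, pow_one])
  have hpM : p ∣ Nat.card M := hX ▸ card_dvd_of_le hXM
  obtain ⟨S, hS⟩ := (hXp.comap_subtype (K := M)).exists_le_sylow
  set P := (S : Subgroup M).map M.subtype
  have hPp : IsPGroup p P := S.2.map _
  have hXP : X ≤ P := fun x hx => ⟨⟨x, hXM hx⟩, hS hx, rfl⟩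
  set Z := P ⊓ centralizer (P : Set G)
  have hXmem : ∀ x ∈ X, x ^ p = 1 := fun x hx => by
    have h := pow_card_eq_one' (G := X) (x := ⟨x, hx⟩)
    rw [hX] at h
    exact congrArg Subtype.val h
  by_cases h : ∀ z ∈ Z, orderOf z = p → z ∈ X
  · exfalso
    refine hσ ⟨hp.out, hpM, S, fun g hg => hNX ?_⟩
    haveI : Nontrivial P := P.nontrivial_iff_ne_bot.mpr fun e => by
      have := card_dvd_of_le hXP
      rw [hX, e, card_bot, Nat.dvd_one] at this
      exact hp.out.ne_one this
    haveI := hPp.center_nontrivial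
    obtain ⟨z, hz⟩ := exists_prime_orderOf_dvd_card' (G := center P) p (by
      obtain ⟨i, hi⟩ := IsPGroup.iff_card.mp (hPp.to_subgroup (center P))
      have hi0 : i ≠ 0 := fun h => (Finite.one_lt_card (α := center P)).ne' (by rw [hi, h, pow_zero])
      exact hi ▸ dvd_pow_self p hi0)
    have hzZ : ((z : P) : G) ∈ Z := ⟨(z : P).2, mem_centralizer_iff.mpr fun y hy =>
      congrArg Subtype.val (mem_center_iff.mp z.2 ⟨y, hy⟩)⟩
    have hzo : orderOf ((z : P) : G) = p := by rw [orderOf_coe, orderOf_coe, hz]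
    have hzX := h _ hzZ hzo
    have hgz : g * ((z : P) : G) * g⁻¹ ∈ X := by
      refine h _ ⟨(mem_normalizer_iff.mp hg _).mp hzZ.1, mem_centralizer_iff.mpr fun y hy => ?_⟩ ?_
      · have h1 := mem_centralizer_iff.mp hzZ.2 _ ((mem_normalizer_iff''.mp hg y).mp hy)
        calc y * (g * ((z : P) : G) * g⁻¹) = g * ((g⁻¹ * y * g) * ((z : P) : G)) * g⁻¹ := by group
          _ = g * ((z : P) : G) * g⁻¹ * y := by rw [h1]; group
      · rw [← hzo]
        exact orderOf_injective (MulAut.conj g).toMonoidHom (MulAut.conj g).injective _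
    have hgen : zpowers ((z : P) : G) = X := eq_of_le_of_card_ge (zpowers_le.mpr hzX) (by
      rw [Nat.card_zpowers, hzo, hX])
    refine Coprime.mem_normalizer_of_conj_smul_eq (eq_of_le_of_card_ge ?_ ?_)
    · rw [← hgen]
      rintro _ ⟨y, hy, rfl⟩
      obtain ⟨i, rfl⟩ := mem_zpowers_iff.mp hy
      rw [hgen]
      simpa [MulDistribMulAction.toMonoidEnd_apply, ← conj_zpow] using zpow_mem hgz i
    · rw [Coprime.card_conj_smul]
  · push Not at h
    obtain ⟨z, ⟨hzP, hzC⟩, hzo, hzX⟩ := h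
    have hXe : IsElementaryAbelian p X := ⟨inferInstance, hXmem⟩
    have hA := Thompson.isElementaryAbelian_sup hXe
      (Thompson.isElementaryAbelian_zpowers (hzo ▸ pow_orderOf_eq_one z)) fun a ha b hb => by
        obtain ⟨i, rfl⟩ := mem_zpowers_iff.mp hb
        exact mem_centralizer_iff.mp ((centralizer (P : Set G)).zpow_mem hzC i) a (hXP ha)
    have hlt : Nat.card X < Nat.card (X ⊔ zpowers z : Subgroup G) :=
      (Set.toFinite _).card_lt_card (SetLike.coe_ssubset_coe.2 (lt_of_le_of_ne le_sup_left fun e =>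
        hzX (e ▸ mem_sup_right (mem_zpowers z))))
    refine ⟨X ⊔ zpowers z, sup_le hXM (zpowers_le.mpr (map_subtype_le _ hzP)), hA, ?_, le_sup_left⟩
    have hzN : zpowers z ≤ normalizer (X : Set G) := (zpowers_le.mpr
      (centralizer_le hXP hzC)).trans (centralizer_le_normalizer _)
    have h1 := Coprime.card_sup_mul_card_inf_of_le_normalizer hzN
    rw [hX, Nat.card_zpowers, hzo, sup_comm] at h1
    have hle : Nat.card (X ⊔ zpowers z : Subgroup G) ≤ p ^ 2 := by
      rw [pow_two, ← h1]; exact Nat.le_mul_of_pos_right _ Nat.card_pos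
    obtain ⟨i, hi⟩ := IsPGroup.iff_card.mp (elem_isPGroup hA)
    rw [hX] at hlt
    rw [hi] at hle hlt ⊢
    have h2 := (Nat.pow_le_pow_iff_right hp.out.one_lt).mp hle
    have h3 : 1 < i := (Nat.pow_lt_pow_iff_right hp.out.one_lt).mp (by rw [pow_one]; exact hlt)
    rw [show i = 2 by omega]

end Cfsg.Agent.Lib.Uniq
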