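import Cfsg.Agent.Lib.Uniq.EliminateLines
import Cfsg.Agent.Lib.Uniq.EStruct
set_option autoImplicit false

/-! BG 12.5–12.6: the structure given by `A ∈ E²_p(M)` with `p ∉ σ(M)`. -/

namespace Cfsg.Agent.Lib.Uniq

open Subgroup
open scoped Pointwise commutatorElement

universe u

variable {G : Type u} [Group G] [Finite G] {M H A B X : Subgroup G} {p q : ℕ}

omit [Finite G] in
theorem IsComplIn.le_left {E : Subgroup G} (h : IsComplIn E (sigmaCore M) M) : E ≤ M := h.1

/-- A `p`-subgroup, `p ∉ σ(M)`, lies in a complement to `M_σ`. -/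
theorem exists_compl_ge (hG : IsMinSimpleOddOrder G) (hM : IsCoatom M) [hp : Fact p.Prime] (hpσ : p ∉ sigma M)
    (hA : IsPGroup p A) (hAM : A ≤ M) : ∃ E : Subgroup G, IsComplIn E (sigmaCore M) M ∧ A ≤ E := by
  classical
  haveI := solvable_of_ne_top hG hM.1
  set K := piCore (sigma M) ↥M
  have hKc : Nat.card K = Nat.card (sigmaCore M) := (card_map_of_injective M.subtype_injective).symm
  have hσK : ∀ r : ℕ, r.Prime → r ∣ Nat.card K → r ∈ sigma M := fun r hr h =>
    OddLocal.piCoreOf_isPi (sigma M) M r hr (h.trans hKc.dvd)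
  have hrel : (sigmaCore M).relIndex M = K.index := by
    show ((K.map M.subtype).subgroupOf M).index = K.index
    rw [subgroupOf, comap_map_eq_self_of_injective M.subtype_injective]
  have hcop : (Nat.card K).Coprime K.index := Nat.coprime_of_dvd fun r hr h1 h2 => by
    haveI := Fact.mk hr
    exact (sigmaCore_hall hG hM (hσK r hr h1)).1 (hrel ▸ h2)
  obtain ⟨C, hC⟩ := exists_left_complement'_of_coprime hcop
  have hCi : C.index = Nat.card K := hC.symm.index_eq_card
  have hCc : (Nat.card C).Coprime C.index := by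
    rw [hCi, ← hC.index_eq_card]; exact hcop.symm
  have hAc : (Nat.card (A.subgroupOf M)).Coprime C.index := by
    rw [hCi, Coprime.card_subgroupOf hAM]
    exact Nat.coprime_of_dvd fun r hr h1 h2 => hpσ (isPGroup_ne_dvd hA hr h1 ▸ hσK r hr h2)
  obtain ⟨g, hg⟩ := Hall.exists_le_conj hCc hAc
  set C' := MulAut.conj g • C
  have hC' : IsComplement' C' K := by
    refine isComplement'_of_coprime ?_ ?_
    · rw [Coprime.card_conj_smul]; exact hC.card_mul
    · rw [Coprime.card_conj_smul, ← hC.index_eq_card]; exact hcop.symm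
  refine ⟨C'.map M.subtype, ⟨map_subtype_le _, map_subtype_le _, ?_, fun m hm => ?_⟩, ?_⟩
  · rw [show sigmaCore M = K.map M.subtype from rfl, ← map_inf _ _ _ M.subtype_injective, hC'.disjoint.eq_bot,
      Subgroup.map_bot]
  · obtain ⟨⟨a, b⟩, hab, -⟩ := hC'.existsUnique ⟨m, hm⟩
    exact ⟨_, mem_map_of_mem _ a.2, _, mem_map_of_mem _ b.2, (congrArg Subtype.val hab).symm⟩
  · exact fun a ha => ⟨⟨a, hAM ha⟩, hg (show (⟨a, hAM ha⟩ : M) ∈ A.subgroupOf M from ha), rfl⟩

/-- For `p ∉ σ(M)` some line of `A` has its normaliser only in `M`. -/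
theorem exists_exc (hG : IsMinSimpleOddOrder G) (hM : IsCoatom M) [hp : Fact p.Prime] (hpσ : p ∉ sigma M)
    (hAM : A ≤ M) (hA : IsElementaryAbelian p A) (hAc : Nat.card A = p ^ 2) : ∃ X, Exc M A X p := by
  by_contra h
  push Not at h
  refine hpσ (NoLine.mem_sigma ?_ hG hM hAM hA hAc)
  exact noLine_of_not_unique hG fun X hX hXc hc => h X ⟨hM, hpσ, hAM, hA, hAc, hX, hXc, hc.1⟩

/-- `p ∈ σ(H)` makes `A` centralise coprime groups of `H` for non-ideal primes. -/
theorem centralizes_of_sigma (hG : IsMinSimpleOddOrder G) (hH : IsCoatom H) [hp : Fact p.Prime] [hq : Fact q.Prime]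
    (hqp : q ≠ p) (hpH : p ∈ sigma H) (hA : IsPGroup p A) (hAH : A ≤ H) (hβ : q ∉ beta H) {Y : Subgroup G}
    (hY : IsPGroup q Y) (hYH : Y ≤ H) (hAY : A ≤ normalizer (Y : Set G)) : A ≤ centralizer (Y : Set G) :=
  centralizes_of_derived hG hH hqp hA (le_derived_of_sigma hG hH hpH hA hAH) hβ hY hYH hAY

/-- `A` fixes no nontrivial element of a cyclic commutator. -/
theorem not_centralizes_line (hG : IsMinSimpleOddOrder G) [hp : Fact p.Prime] [hq : Fact q.Prime] (hqp : q ≠ p)
    (hA : IsPGroup p A) {Y L : Subgroup G} (hY : IsPGroup q Y) (hAY : A ≤ normalizer (Y : Set G))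
    (hcyc : IsCyclic ↥⁅Y, A⁆) (hL : L ≤ ⁅Y, A⁆) (hL1 : L ≠ ⊥) : ¬ A ≤ centralizer (L : Set G) := by
  intro h
  haveI := solvable_of_ne_top hG (pgroup_ne_top hG hA)
  haveI : IsMulCommutative ↥⁅Y, A⁆ := hcyc.isMulCommutative
  have hAD : A ≤ normalizer ((⁅Y, A⁆ : Subgroup G) : Set G) := Coprime.right_le_normalizer_commutator Y A
  have hDq : IsPGroup q ↥⁅Y, A⁆ := hY.to_le (Coprime.commutator_le_of_le_normalizer' hAY)
  refine hL1 (le_bot_iff.mp ?_)
  rw [← Coprime.inf_centralizer_inf_commutator hAD (coprime_pgroups hqp hA hDq),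
    Coprime.commutator_commutator hAY (coprime_pgroups hqp hA hY) (Or.inl inferInstance)]
  exact le_inf (le_inf hL (le_centralizer_iff.mp h)) hL

omit [Finite G] in
theorem elem_of_conj [hp : Fact p.Prime] (g : G) (hA : IsElementaryAbelian p A) :
    IsElementaryAbelian p (MulAut.conj g • A : Subgroup G) := elem_map _ hA

/-- An invariant Sylow `q`-subgroup of `M` above `A` for primes `p < q` of rank at most two. -/
theorem exists_invariant_sylow_maximal (hG : IsMinSimpleOddOrder G) (hM : IsCoatom M) [hp : Fact p.Prime]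
    [hq : Fact q.Prime] (hpq : p < q) (hrp : PRankLE p 2 M) (hA : IsPGroup p A) (hAM : A ≤ M) :
    ∃ T : Sylow q M, A ≤ normalizer (((T : Subgroup M).map M.subtype : Subgroup G) : Set G) := by
  classical
  haveI := solvable_of_ne_top hG hM.1
  obtain ⟨D₀, hDπ, hDi⟩ := Hall.exists_piHall (G := ↥M) {p, q}
  have hD₀ : (Nat.card D₀).Coprime D₀.index := Nat.coprime_of_dvd fun r hr h1 h2 => hDi r hr (hDπ r hr h1) h2
  obtain ⟨g, hg⟩ := Hall.exists_le_conj hD₀ (K := A.subgroupOf M) (by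
    rw [Coprime.card_subgroupOf hAM]
    exact Nat.coprime_of_dvd fun r hr h1 h2 => hDi r hr (Or.inl (isPGroup_ne_dvd hA hr h1)) h2)
  set D := MulAut.conj g • D₀
  have hDc : Nat.card D = Nat.card D₀ := Coprime.card_conj_smul g D₀
  have hDi' : ¬ q ∣ D.index := by
    have h1 := D.card_mul_index
    rw [hDc, ← D₀.card_mul_index] at h1
    rw [Nat.eq_of_mul_eq_mul_left Nat.card_pos h1]
    exact hDi q hq.out (Or.inr rfl)
  haveI : Group.IsSolvable ↥D := inferInstance
  obtain ⟨R⟩ : Nonempty (Sylow q ↥D) := inferInstance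
  set T₀ := (R : Subgroup ↥D).map D.subtype
  have hcard : Nat.card T₀ = q ^ (Nat.card ↥M).factorization q := by
    rw [card_map_of_injective D.subtype_injective, R.card_eq_multiplicity]
    congr 1
    rw [← D.card_mul_index, Nat.factorization_mul Nat.card_pos.ne' D.index_ne_zero_of_finite, Finsupp.add_apply,
      Nat.factorization_eq_zero_of_not_dvd hDi', add_zero]
  have hn : (R : Subgroup ↥D).Normal := by
    by_cases hpD : p ∣ Nat.card D
    · obtain ⟨S⟩ : Nonempty (Sylow p ↥D) := inferInstance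
      obtain ⟨P', N, hN, hNP⟩ := (Hall.p_structure_rank_two ((odd_card hG M).of_dvd_nat D.card_subgroup_dvd_card) p hpD S
        (Hall.prankLE_of_injective (D.subtype.comp (S : Subgroup ↥D).subtype)
          (D.subtype_injective.comp (S : Subgroup ↥D).subtype_injective) hrp)).2.1 (Or.inr fun r hr hd => by
            rcases hDπ r hr (hd.trans hDc.dvd) with e | e
            · exact e.ge
            · rw [Set.mem_singleton_iff.mp e]; exact hpq.le)
      have hNc : ∀ r : ℕ, r.Prime → r ∣ Nat.card N → r = q := fun r hr hd => by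
        rcases hDπ r hr ((hd.trans N.card_subgroup_dvd_card).trans hDc.dvd) with e | e
        · subst e
          exact absurd (hNP.index_eq_card.symm ▸ hd) P'.not_dvd_index
        · exact e
      haveI := hN
      have hNp : IsPGroup q N := IsPGroup.of_card (Nat.eq_prime_pow_of_unique_prime_dvd Nat.card_pos.ne'
        fun {r} hr hd => hNc r hr hd)
      have hNR : N ≤ (R : Subgroup ↥D) := (Hall.le_pCore hNp).trans (Hall.pCore_le_sylow R)
      have hNi : ¬ q ∣ N.index := fun h => by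
        rw [hNP.symm.index_eq_card] at h
        exact hpq.ne (isPGroup_ne_dvd P'.2 hq.out h).symm
      rw [eq_of_le_of_card_ge hNR (Nat.le_of_dvd Nat.card_pos ?_)] at hN
      · exact hN
      · rw [R.card_eq_multiplicity]
        refine (Nat.Coprime.dvd_of_dvd_mul_right ((hq.out.coprime_iff_not_dvd.mpr hNi).pow_left _) ?_)
        rw [N.card_mul_index]
        exact Nat.ordProj_dvd _ _
    · have hDq : IsPGroup q D := IsPGroup.of_card (Nat.eq_prime_pow_of_unique_prime_dvd Nat.card_pos.ne'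
        fun {r} hr hd => by
          rcases hDπ r hr (hd.trans hDc.dvd) with e | e
          · exact absurd (e ▸ hd) hpD
          · exact e)
      have : (R : Subgroup ↥D) = ⊤ := R.3 (hDq.of_equiv (topEquiv).symm) le_top |>.symm
      rw [this]; infer_instance
  refine ⟨Sylow.ofCard T₀ hcard, ?_⟩
  rw [Sylow.coe_ofCard]
  intro a ha
  have hgD : (⟨a, hAM ha⟩ : M) ∈ D := hg ha
  refine Coprime.mem_normalizer_of_conj_smul_eq (eq_of_le_of_card_ge ?_ (Coprime.card_conj_smul _ _).ge)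
  rintro y hy
  obtain ⟨w, ⟨v, hv, rfl⟩, rfl⟩ : ∃ w ∈ T₀.map M.subtype, MulAut.conj a w = y := hy
  obtain ⟨u, hu, rfl⟩ := hv
  exact ⟨_, ⟨_, hn.conj_mem u hu ⟨_, hgD⟩, rfl⟩, rfl⟩

/-- Two subgroups of order `q` in the centraliser of `A` are conjugate there, when it has `q`-rank one. -/
theorem exists_conj_line_centralizer [hq : Fact q.Prime] {C : Subgroup G} {B₁ B₂ : Subgroup G}
    (h1 : B₁ ≤ C) (h2 : B₂ ≤ C) (hc1 : Nat.card B₁ = q) (hc2 : Nat.card B₂ = q)
    (hr : ∀ u ∈ C, ∀ v ∈ C, u ^ q = 1 → v ^ q = 1 → u * v = v * u → v ≠ 1 → u ∈ zpowers v) :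
    ∃ c ∈ C, MulAut.conj c • B₁ = B₂ := by
  classical
  obtain ⟨R, hR⟩ := ((IsPGroup.of_card (n := 1) (by rw [hc2, pow_one]) : IsPGroup q B₂).comap_subtype (K := C)).exists_le_sylow
  obtain ⟨R₁, hR₁⟩ := ((IsPGroup.of_card (n := 1) (by rw [hc1, pow_one]) : IsPGroup q B₁).comap_subtype (K := C)).exists_le_sylow
  obtain ⟨c, hc⟩ := MulAction.exists_smul_eq (↥C) R₁ R
  have hne : Nontrivial ↥(R : Subgroup ↥C) := by
    refine (nontrivial_iff_ne_bot _).mpr fun e => hq.out.ne_one ?_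
    rw [← hc2, card_eq_one]
    exact le_bot_iff.mp fun x hx => by
      have := hR (show (⟨x, h2 hx⟩ : C) ∈ B₂.comap C.subtype from hx)
      rw [e, mem_bot] at this
      exact mem_bot.mpr (congrArg Subtype.val this)
  obtain ⟨z, -, hzc, hzo⟩ := Thompson.exists_central_order_p R.2 top_ne_bot
  have key : ∀ B : Subgroup G, Nat.card B = q → (∀ x ∈ B, ∃ y : (R : Subgroup ↥C), ((y : C) : G) = x) →
      B ≤ zpowers ((z : C) : G) := fun B hBc hB x hx => by
    obtain ⟨y, rfl⟩ := hB x hx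
    have hyq : ((y : C) : G) ^ q = 1 := by
      have := congrArg Subtype.val (pow_card_eq_one' (G := B) (x := ⟨_, hx⟩))
      rwa [hBc] at this
    refine hr _ (y : C).2 _ (z : C).2 hyq ?_ ?_ ?_
    · have := congrArg (fun t : (R : Subgroup ↥C) => ((t : C) : G)) ((congrArg (z ^ ·) hzo).symm.trans (pow_orderOf_eq_one z) : z ^ q = 1)
      simpa using this
    · exact congrArg (fun t : (R : Subgroup ↥C) => ((t : C) : G)) (mem_center_iff.mp hzc y)
    · intro e
      refine hq.out.ne_one ?_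
      rw [← hzo, orderOf_eq_one_iff]
      exact Subtype.ext (Subtype.ext e)
  have hzc' : Nat.card (zpowers ((z : C) : G)) = q := by
    rw [Nat.card_zpowers, orderOf_coe, orderOf_coe, hzo]
  have eq2 : B₂ = zpowers ((z : C) : G) := eq_of_le_of_card_ge
    (key B₂ hc2 fun x hx => ⟨⟨⟨x, h2 hx⟩, hR hx⟩, rfl⟩) (hzc'.le.trans hc2.ge)
  refine ⟨c, c.2, eq_of_le_of_card_ge (eq2 ▸ key _ ((Coprime.card_conj_smul _ _).trans hc1) ?_) ?_⟩
  · rintro x ⟨w, hw, rfl⟩
    have : c * ⟨w, h1 hw⟩ * c⁻¹ ∈ (R : Subgroup ↥C) := by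
      rw [← hc, Sylow.coe_subgroup_smul]
      exact Coprime.conj_mem_conj_smul (hR₁ hw)
    exact ⟨⟨_, this⟩, rfl⟩
  · rw [Coprime.card_conj_smul, hc1, hc2]

variable [hp : Fact p.Prime]

/-- BG 12.5: `A` centralises every invariant `q`-subgroup of `M`, for `q ∉ σ(M)` different from `p`. -/
theorem centralizes_of_not_sigma (hG : IsMinSimpleOddOrder G) (hM : IsCoatom M) (hpσ : p ∉ sigma M) (hAM : A ≤ M)
    (hA : IsElementaryAbelian p A) (hAc : Nat.card A = p ^ 2) [hq : Fact q.Prime] (hqp : q ≠ p) (hqσ : q ∉ sigma M)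
    {Y : Subgroup G} (hY : IsPGroup q Y) (hYM : Y ≤ M) (hAY : A ≤ normalizer (Y : Set G)) :
    A ≤ centralizer (Y : Set G) := by
  classical
  by_contra hne
  obtain ⟨X, hE⟩ := exists_exc hG hM hpσ hAM hA hAc
  obtain ⟨⟨g, hgN, hgM⟩, t₁, t₂, -, -, -, -, hgen, h₁, h₂⟩ := hE.exists_fpf hG
  obtain ⟨hW, hcyc, L, hL, hLD, hNL, huniq⟩ := exists_twist hG hM hqp hpσ hqσ (hE.sigmaCore_nilpotent hG) hAM hA
    hgen h₁ h₂ (fun B hBM hB hBc => sigmaCore_inf_centralizer_elem hG hM hqσ hBM hB hBc) hY hYM hAY hne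
  have hL1 : L ≠ ⊥ := fun e => by rw [e, card_bot] at hL; exact hq.out.ne_one hL.symm
  have hLM : L ≤ M := hNL ▸ le_normalizer
  haveI := hcyc
  have hcycD : IsCyclic ↥⁅Y, A⁆ := isCyclic_of_injective (inclusion hW) (inclusion_injective hW)
  have hAL : ¬ A ≤ centralizer (L : Set G) :=
    not_centralizes_line hG hqp (elem_isPGroup hA) hY hAY hcycD hLD hL1
  -- `p < q`
  have hpq : p < q := by
    by_contra hlt
    refine hAL fun a ha => ?_
    by_contra hac
    obtain ⟨l, hl, hl1⟩ := L.bot_or_exists_ne_one.resolve_left hL1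
    have hLl : zpowers l = L := eq_of_le_of_card_ge (zpowers_le.mpr hl) (by
      rw [hL, Nat.card_zpowers]
      have := pow_card_eq_one' (G := L) (x := ⟨l, hl⟩)
      rw [hL] at this
      exact (orderOf_eq_prime (congrArg Subtype.val this) hl1).ge)
    -- `A / C_A(L)` embeds in `Aut L`
    have hdvd : p ∣ q - 1 := by
      have hφ : Nat.card (MulAut L) = q - 1 := by
        rw [IsCyclic.card_mulAut (G := L) (h := hLl ▸ isCyclic_zpowers l), hL, Nat.totient_prime hq.out]
      let f : A →* MulAut L := Coprime.conjHom (hAM.trans hNL.ge)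
      have ha1 : f ⟨a, ha⟩ ≠ 1 := fun e => hac (by
        refine mem_centralizer_iff.mpr fun y hy => ?_
        have h := congrArg (fun φ : MulAut L => ((φ ⟨y, hy⟩ : L) : G)) e
        simp only [f, Coprime.coe_conjHom_apply, MulAut.one_apply] at h
        exact (mul_inv_eq_iff_eq_mul.mp h).symm)
      have ho : orderOf (f ⟨a, ha⟩) = p := orderOf_eq_prime
        (by rw [← map_pow, show (⟨a, ha⟩ : A) ^ p = 1 from Subtype.ext (hA.2 a ha), map_one]) ha1
      exact ho ▸ hφ ▸ _root_.orderOf_dvd_natCard _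
    have := Nat.le_of_dvd (by have := hq.out.one_lt; omega) hdvd
    omega
  have hr2 := rank_two_of_not_sigma hG hM hq.out hqσ
  by_cases hr1 : PRankLE q 1 M
  · exact rank_one_no_normal_line hG hM hqσ hr1 hL hLM hNL
  -- an invariant elementary subgroup `B ≥ L`
  obtain ⟨T, hAT⟩ := exists_invariant_sylow_maximal hG hM hpq (rank_two_of_not_sigma hG hM hp.out hpσ)
    (elem_isPGroup hA) hAM
  obtain ⟨B₀, hB₀M, hB₀, hB₀c⟩ := elem_of_not_pRankLE hr1
  obtain ⟨T', hT'⟩ := ((elem_isPGroup hB₀).comap_subtype (K := M)).exists_le_sylow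
  obtain ⟨m, hm⟩ := MulAction.exists_smul_eq (↥M) T' T
  set B := MulAut.conj (m : G) • B₀
  set T₀ := (T : Subgroup ↥M).map M.subtype
  have hBe : IsElementaryAbelian q B := elem_of_conj _ hB₀
  have hBc : Nat.card B = q ^ 2 := (Coprime.card_conj_smul _ _).trans hB₀c
  have hBT : B ≤ T₀ := by
    rintro x ⟨w, hw, rfl⟩
    refine ⟨m * ⟨w, hB₀M hw⟩ * m⁻¹, ?_, rfl⟩
    rw [← hm, Sylow.coe_subgroup_smul]
    exact Coprime.conj_mem_conj_smul (hT' hw)
  have hBM : B ≤ M := hBT.trans (map_subtype_le _)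
  obtain ⟨X', hE'⟩ := exists_exc hG hM hqσ hBM hBe hBc
  have hLT : L ≤ T₀ := by
    haveI : (L.subgroupOf M).Normal := (normal_subgroupOf_iff_le_normalizer hLM).mpr hNL.ge
    have hpL : IsPGroup q (L.subgroupOf M) := IsPGroup.of_card (n := 1) (by rw [Coprime.card_subgroupOf hLM, hL, pow_one])
    rw [← map_subgroupOf_eq_of_le hLM]
    exact map_mono ((Hall.le_pCore hpL).trans (Hall.pCore_le_sylow T))
  have hLq : ∀ x ∈ L, x ^ q = 1 := fun x hx => by
    have := congrArg Subtype.val (pow_card_eq_one' (G := L) (x := ⟨x, hx⟩))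
    rwa [hL] at this
  have hLB : L ≤ B := fun x hx => (hE'.mem_iff_pow_eq_one hG T hBT (hLT hx)).mp (hLq x hx)
  have hAB : A ≤ normalizer (B : Set G) := fun a ha => by
    refine Coprime.mem_normalizer_of_conj_smul_eq (eq_of_le_of_card_ge ?_ (Coprime.card_conj_smul _ _).ge)
    rintro x ⟨w, hw, rfl⟩
    refine (hE'.mem_iff_pow_eq_one hG T hBT ((mem_normalizer_iff.mp (hAT ha) w).mp (hBT hw))).mp ?_
    show (a * w * a⁻¹) ^ q = 1
    rw [conj_pow, hBe.2 w hw]; group
  haveI := solvable_of_ne_top hG (pgroup_ne_top hG (elem_isPGroup hA))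
  have hcopB := coprime_pgroups hqp (elem_isPGroup hA) (elem_isPGroup hBe)
  have hBA : ⁅B, A⁆ ≤ L := fun x hx => by
    refine huniq x ((exists_twist hG hM hqp hpσ hqσ (hE.sigmaCore_nilpotent hG) hAM hA hgen h₁ h₂
      (fun B hBM hB hBc => sigmaCore_inf_centralizer_elem hG hM hqσ hBM hB hBc) (elem_isPGroup hBe) hBM hAB
      (fun h => hAL (h.trans (Subgroup.centralizer_le hLB)))).1 hx) (hBe.2 x (Coprime.commutator_le_of_le_normalizer' hAB hx))
  set B₂ := B ⊓ centralizer (A : Set G)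
  have hB₂1 : B₂ ≠ ⊥ := fun e => by
    have h := Coprime.commutator_sup_centralizer hAB hcopB (Or.inl inferInstance)
    change ⁅B, A⁆ ⊔ B₂ = B at h
    rw [e, sup_bot_eq] at h
    have hle := card_dvd_of_le (h ▸ hBA : B ≤ L)
    rw [hBc, hL] at hle
    have := Nat.le_of_dvd hq.out.pos hle
    have := hq.out.one_lt
    nlinarith
  -- `C(A)` has `q`-rank one
  have hrank : ∀ u ∈ centralizer (A : Set G), ∀ v ∈ centralizer (A : Set G),
      u ^ q = 1 → v ^ q = 1 → u * v = v * u → v ≠ 1 → u ∈ zpowers v := by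
    intro u hu v hv huq hvq huv hv1
    by_contra hnot
    set F := zpowers v ⊔ zpowers u
    have hvc : Nat.card (zpowers v) = q := by rw [Nat.card_zpowers, orderOf_eq_prime hvq hv1]
    have hFe : IsElementaryAbelian q F := elem_sup_zpowers
      (Thompson.isElementaryAbelian_zpowers hvq) huq (fun w hw => by
        obtain ⟨i, rfl⟩ := mem_zpowers_iff.mp hw
        exact ((show Commute v u from huv.symm).zpow_left i).eq)
    have hFC : F ≤ centralizer (A : Set G) := sup_le (zpowers_le.mpr hv) (zpowers_le.mpr hu)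
    have hlt : q < Nat.card F := hvc ▸ (Set.toFinite _).card_lt_card (SetLike.coe_ssubset_coe.2
      (lt_of_le_of_ne le_sup_left fun e => hnot (e.ge.trans le_rfl (mem_sup_right (mem_zpowers u)))))
    obtain ⟨F₂, hF₂, hF₂e, hF₂c⟩ := elem_of_not_pRankLE (Z := F) (p := q)
      (not_pRankLE_of_elem le_rfl hFe (by rwa [pow_one]))
    have hF₂M : F₂ ≤ M := (hF₂.trans hFC).trans (hE.centralizer_le)
    obtain ⟨X₂, hE₂⟩ := exists_exc hG hM hqσ hF₂M hF₂e hF₂c
    obtain ⟨S, hS⟩ := hE₂.exists_sylow_ge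
    have hLS : L ≤ (S : Subgroup ↥M).map M.subtype := by
      haveI : (L.subgroupOf M).Normal := (normal_subgroupOf_iff_le_normalizer hLM).mpr hNL.ge
      have hpL : IsPGroup q (L.subgroupOf M) := IsPGroup.of_card (n := 1) (by rw [Coprime.card_subgroupOf hLM, hL, pow_one])
      rw [← map_subgroupOf_eq_of_le hLM]
      exact map_mono ((Hall.le_pCore hpL).trans (Hall.pCore_le_sylow S))
    exact hAL (le_centralizer_iff.mp fun x hx =>
      hFC (hF₂ ((hE₂.mem_iff_pow_eq_one hG S hS (hLS hx)).mp (hLq x hx))))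
  obtain ⟨b, hb, hb1⟩ := B₂.bot_or_exists_ne_one.resolve_left hB₂1
  have hbq := hBe.2 b hb.1
  set Z := zpowers b
  have hZc : Nat.card Z = q := by rw [Nat.card_zpowers, orderOf_eq_prime hbq hb1]
  have hgC : g ∈ normalizer ((centralizer (A : Set G) : Subgroup G) : Set G) :=
    Coprime.normalizer_le_normalizer_centralizer A hgN
  obtain ⟨c, hc, hcZ⟩ := exists_conj_line_centralizer (B₁ := MulAut.conj g • Z) (zpowers_le.mpr hb.2 |> fun h => by
    rintro x ⟨w, hw, rfl⟩
    exact (mem_normalizer_iff.mp hgC w).mp (h hw)) (zpowers_le.mpr hb.2)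
    ((Coprime.card_conj_smul _ _).trans hZc) hZc hrank
  have hcg : c * g ∈ normalizer (Z : Set G) := Coprime.mem_normalizer_of_conj_smul_eq (by rw [map_mul, mul_smul, hcZ])
  have hcgM : c * g ∉ M := fun h => hgM ((M.mul_mem_cancel_left (hE.centralizer_le hc)).mp h)
  have hNne : normalizer (Z : Set G) ≠ ⊤ := fun e => by
    rcases hG.2.1.eq_bot_or_eq_top_of_normal Z (normalizer_eq_top_iff.mp e) with h1 | h1
    · rw [h1, card_bot] at hZc; exact hq.out.ne_one hZc.symm
    · exact ne_top_of_le hM (zpowers_le.mpr (hBM hb.1)) h1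
  obtain ⟨H, hH, hNH⟩ := exists_coatom_ge hNne
  have hHM : H ≠ M := fun e => hcgM (e ▸ hNH hcg)
  have hCb : centralizer ({b} : Set G) ≤ H :=
    ((centralizer_zpowers b).ge.trans (centralizer_le_normalizer _)).trans hNH
  have hAH : A ≤ H := fun a ha => hCb (mem_centralizer_singleton_iff.mpr (mem_centralizer_iff.mp hb.2 a ha))
  have hLH : L ≤ H := fun x hx => hCb (mem_centralizer_singleton_iff.mpr (elem_comm hBe (hLB hx) hb.1))
  have hAL' : A ≤ normalizer (L : Set G) := hAM.trans hNL.ge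
  have hLp : IsPGroup q L := IsPGroup.of_card (n := 1) (by rw [hL, pow_one])
  by_cases hpH : p ∈ sigma H
  · exact hAL (centralizes_of_sigma hG hH hqp hpH (elem_isPGroup hA) hAH
      (fun h => not_idealPrime hG hM hr2 hr1 h.2) hLp hLH hAL')
  obtain ⟨X₁, hE₁⟩ := exists_exc hG hH hpH hAH hA hAc
  by_cases hqH : q ∈ sigma H
  · have : b ∈ sigmaCore H ⊓ centralizer (A : Set G) := ⟨pgroup_le_sigmaCore hG hH hqH
      (IsPGroup.of_card (n := 1) (by rw [hZc, pow_one]))
      (zpowers_le.mpr (hCb (mem_centralizer_singleton_iff.mpr rfl))) (mem_zpowers b), hb.2⟩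
    rw [hE₁.inf_centralizer_eq_bot hG, mem_bot] at this
    exact hb1 this
  · obtain ⟨-, s₁, s₂, -, -, -, -, hgen', k₁, k₂⟩ := hE₁.exists_fpf hG
    obtain ⟨hW', -, L', hL', hL'D, hNL', -⟩ := exists_twist hG hH hqp hpH hqH (hE₁.sigmaCore_nilpotent hG) hAH hA
      hgen' k₁ k₂ (fun B hBH hB hBc => sigmaCore_inf_centralizer_elem hG hH hqH hBH hB hBc) hLp hLH hAL' hAL
    have hLL : L' = L := eq_of_le_of_card_ge (hL'D.trans (Coprime.commutator_le_of_le_normalizer' hAL')) (by rw [hL', hL])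
    exact hHM (by rw [← hNL', hLL, hNL])

/-- `A` is normal in every complement to `M_σ` containing it. -/
theorem le_normalizer_compl (hG : IsMinSimpleOddOrder G) (hM : IsCoatom M) {E : Subgroup G}
    (hE : IsComplIn E (sigmaCore M) M) (hpσ : p ∉ sigma M) (hAE : A ≤ E) (hA : IsElementaryAbelian p A)
    (hAc : Nat.card A = p ^ 2) :
    E ≤ normalizer (A : Set G) ∧ ∀ X : Subgroup G, X ≤ E → Nat.card X = p → X ≤ A := by
  classical
  have hEM : E ≤ M := hE.1
  haveI := solvable_of_ne_top hG (ne_top_of_le hM hEM)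
  set F := fittingSubgroup ↥E
  haveI hFnil : Group.IsNilpotent ↥F := Hall.fittingSubgroup_isNilpotent
  obtain ⟨X₀, hX₀⟩ := exists_exc hG hM hpσ (hAE.trans hEM) hA hAc
  -- a Sylow `p`-subgroup of `E` is one of `M`
  have hsyl : ∀ R : Sylow p ↥E, ∃ S : Sylow p ↥M,
      (S : Subgroup ↥M).map M.subtype = (R : Subgroup ↥E).map E.subtype := by
    intro R
    have hle : (R : Subgroup ↥E).map E.subtype ≤ M := (map_subtype_le _).trans hEM
    refine ⟨Sylow.ofCard (((R : Subgroup ↥E).map E.subtype).subgroupOf M) ?_, ?_⟩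
    · rw [Coprime.card_subgroupOf hle, card_map_of_injective E.subtype_injective, R.card_eq_multiplicity]
      congr 1
      rw [← (compl_card hE).1, Nat.factorization_mul Nat.card_pos.ne' Nat.card_pos.ne', Finsupp.add_apply,
        Nat.factorization_eq_zero_of_not_dvd (n := Nat.card ↥(sigmaCore M))
          (fun h => hpσ (OddLocal.piCoreOf_isPi (sigma M) M p hp.out h)), add_zero]
    · rw [Sylow.coe_ofCard, map_subgroupOf_eq_of_le hle]
  obtain ⟨R₀, hR₀⟩ := ((elem_isPGroup hA).comap_subtype (K := E)).exists_le_sylow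
  have hAR₀ : A ≤ (R₀ : Subgroup ↥E).map E.subtype := fun a ha => ⟨⟨a, hAE ha⟩, hR₀ ha, rfl⟩
  have hAF : A.subgroupOf E ≤ F := by
    refine le_trans ?_ (Hall.centralizer_fittingSubgroup_le (G := ↥E))
    intro a ha
    refine mem_centralizer_iff.mpr fun y hy => ?_
    suffices F ≤ centralizer ({a} : Set E) from mem_centralizer_singleton_iff.mp (this hy)
    refine (Hall.le_iSup_pCore (N := F) hFnil).trans ?_
    refine iSup_le fun ⟨r, hr⟩ => ?_
    haveI := Fact.mk hr
    intro y hy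
    refine mem_centralizer_singleton_iff.mpr (Subtype.ext ?_)
    by_cases hrp : r = p
    · subst hrp
      obtain ⟨S, hS⟩ := hsyl R₀
      exact (mem_centralizer_iff.mp (hX₀.le_centralizer_sylow hG S (hS ▸ hAR₀) ha) _
        (hS ▸ mem_map_of_mem _ (Hall.pCore_le_sylow R₀ hy)))
    · set Y := (pCore r ↥E).map E.subtype
      have hYp : IsPGroup r Y := (Hall.isPGroup_pCore r).map _
      by_cases hrd : r ∈ sigma M
      · have hY1 : pCore r ↥E = ⊥ := by
          obtain ⟨j, hj⟩ := IsPGroup.iff_card.mp (Hall.isPGroup_pCore (G := ↥E) r)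
          rcases Nat.eq_zero_or_pos j with h | h
          · rw [← card_eq_one, hj, h, pow_zero]
          · exact absurd hrd (compl_not_sigma hG hM hE
              (((dvd_pow_self r h.ne').trans hj.symm.dvd).trans (pCore r ↥E).card_subgroup_dvd_card))
        rw [hY1, mem_bot] at hy
        simp [hy]
      have hAY : A ≤ normalizer (Y : Set G) := fun b hb => by
        refine Coprime.mem_normalizer_of_conj_smul_eq (eq_of_le_of_card_ge ?_ (Coprime.card_conj_smul _ _).ge)
        rintro w ⟨v, ⟨u, hu, rfl⟩, rfl⟩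
        exact ⟨_, (inferInstance : (pCore r ↥E).Normal).conj_mem u hu ⟨b, hAE hb⟩, rfl⟩
      exact (mem_centralizer_iff.mp (centralizes_of_not_sigma hG hM hpσ (hAE.trans hEM) hA hAc hrp hrd hYp
        ((map_subtype_le _).trans hEM) hAY ha) _ (mem_map_of_mem _ hy))
  have hAP : A.subgroupOf E ≤ pCore p ↥E := by
    obtain ⟨R, hR⟩ := ((elem_isPGroup hA).comap_subtype (K := E)).comap_subtype (K := F) |>.exists_le_sylow
    have hn : (R : Subgroup ↥F).Normal := Sylow.normal_of_normalizerCondition Group.normalizerCondition_of_isNilpotent _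
    haveI := Sylow.characteristic_of_normal R hn
    haveI : ((R : Subgroup ↥F).map F.subtype).Normal := ConjAct.normal_of_characteristic_of_normal
    intro a ha
    exact Hall.le_pCore (R.2.map F.subtype) ⟨⟨a, hAF ha⟩, hR ha, rfl⟩
  have hmem : ∀ x : ↥E, x ∈ pCore p ↥E → (x : G) ^ p = 1 → (x : G) ∈ A := by
    intro x hx hxp
    obtain ⟨S, hS⟩ := hsyl R₀
    exact (hX₀.mem_iff_pow_eq_one hG S (hS ▸ hAR₀) (hS ▸ mem_map_of_mem _ (Hall.pCore_le_sylow R₀ hx))).mp hxp
  refine ⟨fun e he => ?_, fun X hXE hXc x hx => ?_⟩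
  · refine Coprime.mem_normalizer_of_conj_smul_eq (eq_of_le_of_card_ge ?_ (Coprime.card_conj_smul _ _).ge)
    rintro y ⟨a, ha, rfl⟩
    refine hmem (⟨e, he⟩ * ⟨a, hAE ha⟩ * ⟨e, he⟩⁻¹) ((inferInstance : (pCore p ↥E).Normal).conj_mem _ (hAP ha) _) ?_
    show (e * a * e⁻¹) ^ p = 1
    rw [conj_pow, hA.2 a ha]; group
  · obtain ⟨R, hR⟩ := ((IsPGroup.of_card (n := 1) (by rw [hXc, pow_one]) : IsPGroup p X).comap_subtype (K := E)).exists_le_sylow
    obtain ⟨S, hS⟩ := hsyl R
    have hxp : x ^ p = 1 := by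
      have := congrArg Subtype.val (pow_card_eq_one' (G := X) (x := ⟨x, hx⟩))
      rwa [hXc] at this
    refine (hX₀.mem_iff_pow_eq_one hG S (hS ▸ fun a ha => ⟨⟨a, hAE ha⟩, Hall.pCore_le_sylow R (hAP ha), rfl⟩)
      (hS ▸ ⟨⟨x, hXE hx⟩, hR hx, rfl⟩)).mp hxp

/-- `M ∩ N(A) = E`, `C(A) ≤ E` and `N(A) ⊄ M`. -/
theorem normalizer_inf_eq_compl (hG : IsMinSimpleOddOrder G) (hM : IsCoatom M) {E : Subgroup G}
    (hE : IsComplIn E (sigmaCore M) M) (hpσ : p ∉ sigma M) (hAE : A ≤ E) (hA : IsElementaryAbelian p A)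
    (hAc : Nat.card A = p ^ 2) :
    centralizer (A : Set G) ≤ M ⊓ normalizer (A : Set G) ∧ M ⊓ normalizer (A : Set G) = E ∧
      ¬ normalizer (A : Set G) ≤ M := by
  have hAM := hAE.trans hE.1
  obtain ⟨X, hX⟩ := exists_exc hG hM hpσ hAM hA hAc
  have hEN := (le_normalizer_compl hG hM hE hpσ hAE hA hAc).1
  refine ⟨le_inf hX.centralizer_le (centralizer_le_normalizer _), le_antisymm ?_ (le_inf hE.1 hEN), fun h => ?_⟩
  · rintro m ⟨hm, hmA⟩
    obtain ⟨e, he, b, hb, rfl⟩ := hE.2.2.2 m hm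
    have hbN : b ∈ normalizer (A : Set G) := by
      have := (normalizer (A : Set G)).mul_mem ((normalizer (A : Set G)).inv_mem (hEN he)) hmA
      rwa [inv_mul_cancel_left] at this
    have hbC : b ∈ sigmaCore M ⊓ centralizer (A : Set G) := by
      refine ⟨hb, mem_centralizer_iff.mpr fun a ha => ?_⟩
      have h1 : ⁅b, a⁆ ∈ A := A.mul_mem ((mem_normalizer_iff.mp hbN a).mp ha) (A.inv_mem ha)
      have h2 : ⁅b, a⁆ ∈ sigmaCore M := by
        rw [commutatorElement_def, mul_assoc, mul_assoc]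
        refine (sigmaCore M).mul_mem hb ?_
        rw [← mul_assoc]
        exact (mem_normalizer_iff.mp (OddLocal.le_normalizer_piCoreOf (sigma M) M (hAM ha)) _).mp
          ((sigmaCore M).inv_mem hb)
      have h3 : ⁅b, a⁆ = 1 := by
        by_contra h1'
        refine hpσ (OddLocal.piCoreOf_isPi (sigma M) M p hp.out ?_)
        have := orderOf_eq_prime (hA.2 _ h1) h1'
        exact this ▸ Subgroup.orderOf_dvd_natCard _ h2
      rw [commutatorElement_eq_one_iff_mul_comm] at h3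
      exact h3.symm
    rw [sigmaCore_inf_centralizer_elem hG hM hpσ hAM hA hAc, mem_bot] at hbC
    rwa [hbC, mul_one]
  · obtain ⟨⟨g, hg, hgM⟩, -⟩ := hX.exists_fpf hG
    exact hgM (h hg)

/-- BG 12.5(e): another maximal subgroup containing `A` meets `M_σ` trivially. -/
theorem sigmaCore_inf_eq_bot (hG : IsMinSimpleOddOrder G) (hM : IsCoatom M) (hpσ : p ∉ sigma M) (hAM : A ≤ M)
    (hA : IsElementaryAbelian p A) (hAc : Nat.card A = p ^ 2) (hH : IsCoatom H) (hne : H ≠ M) (hAH : A ≤ H) :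
    sigmaCore M ⊓ H = ⊥ := by
  classical
  by_contra hbot
  set D := sigmaCore M ⊓ H
  obtain ⟨q, hq, hqd⟩ := Nat.exists_prime_and_dvd (fun e => hbot (card_eq_one.mp e) : Nat.card D ≠ 1)
  haveI := Fact.mk hq
  have hσ : q ∈ sigma M := OddLocal.piCoreOf_isPi (sigma M) M q hq (hqd.trans (card_dvd_of_le inf_le_left))
  have hqp : q ≠ p := fun e => hpσ (e ▸ hσ)
  have hAD : A ≤ normalizer (D : Set G) :=
    (le_inf (hAM.trans (OddLocal.le_normalizer_piCoreOf _ M)) (hAH.trans le_normalizer)).trans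
      inf_normalizer_le_normalizer_inf
  have hcop : (Nat.card A).Coprime (Nat.card D) := Nat.coprime_of_dvd fun r hr h1 h2 =>
    hpσ (isPGroup_ne_dvd (elem_isPGroup hA) hr h1 ▸
      OddLocal.piCoreOf_isPi (sigma M) M r hr (h2.trans (card_dvd_of_le inf_le_left)))
  haveI := solvable_of_ne_top hG (pgroup_ne_top hG (elem_isPGroup hA))
  obtain ⟨S, hS⟩ := Coprime.exists_invariant_sylow hAD hcop (Or.inl inferInstance) q
  set Y := (S : Subgroup D).map D.subtype
  have hY : IsPGroup q Y := S.2.map _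
  have hY1 : Y ≠ ⊥ := fun e => S.ne_bot_of_dvd_card hqd
    ((Subgroup.map_eq_bot_iff_of_injective _ D.subtype_injective).mp e)
  have hYD : Y ≤ D := map_subtype_le _
  have hYH : Y ≤ H := hYD.trans inf_le_right
  have hYM : Y ≤ M := hYD.trans (inf_le_left.trans (OddLocal.piCoreOf_le _ M))
  have hnc : ¬ A ≤ centralizer (Y : Set G) := fun h => hY1 (le_bot_iff.mp
    (sigmaCore_inf_centralizer_elem hG hM hpσ hAM hA hAc ▸ le_inf (hYD.trans inf_le_left) (le_centralizer_iff.mp h)))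
  by_cases hpH : p ∈ sigma H
  · refine hnc (centralizes_of_sigma hG hH hqp hpH (elem_isPGroup hA) hAH (fun hβ => ?_) hY hYH hS)
    obtain ⟨g, hg⟩ := conj_of_alpha_sigma hG hH hM hβ.1 hσ
    exact hpσ (sigma_conj hM hG (g := g⁻¹) (by rw [hg, map_inv, inv_smul_smul]) hpH)
  by_cases hqH : q ∈ sigma H
  swap
  · exact hnc (centralizes_of_not_sigma hG hH hpH hAH hA hAc hqp hqH hY hYH hS)
  obtain ⟨Q, hQM, hYQ, hAQ⟩ := exists_invariant_sylow_sigma hG hM hσ hpσ (elem_isPGroup hA) hAM hY hYM hS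
  obtain ⟨Q', hQH, hYQ', hAQ'⟩ := exists_invariant_sylow_sigma hG hH hqH hpH (elem_isPGroup hA) hAH hY hYH hS
  have hmax : ∀ B : Subgroup G, IsElementaryAbelian p B → A ≤ B → B = A := fun _ hB hAB =>
    elem_two_maximal hG hM (rank_two_of_not_sigma hG hM hp.out hpσ) hAM hA hAc hB hAB
  obtain ⟨k, hk, e⟩ := invariant_sylow_conj hG hqp hA hAc hmax hAQ' hAQ hH.1 hAH
    (ne_bot_of_le_ne_bot hY1 (le_inf hYH hYQ')) (ne_bot_of_le_ne_bot hY1 (le_inf hYH hYQ))
  have hQH' : (Q : Subgroup G) ≤ H := by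
    rw [e]
    exact (pointwise_smul_le_pointwise_smul_iff.mpr hQH).trans
      (Coprime.conj_smul_eq_self (le_normalizer (centralizer_elem_two_le hG hH hAH hA hAc hk))).le
  obtain ⟨X, hX⟩ := exists_exc hG hM hpσ hAM hA hAc
  obtain ⟨X', hX'⟩ := exists_exc hG hH hpH hAH hA hAc
  have hQ1 : (Q : Subgroup G) ≠ ⊥ := ne_bot_of_le_ne_bot hY1 hYQ
  have h1 := normalizer_eq_of_normal hG hM hQ1 hQM (le_normalizer_sylow_nilpotent hG hM hσ (hX.sigmaCore_nilpotent hG) Q hQM)
  have h2 := normalizer_eq_of_normal hG hH hQ1 hQH'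
    (le_normalizer_sylow_nilpotent hG hH hqH (hX'.sigmaCore_nilpotent hG) Q hQH')
  exact hne (h2.symm.trans h1)

/-- BG 12.6, last part. -/
theorem centralizer_line_unique (hG : IsMinSimpleOddOrder G) (hM : IsCoatom M) (hpσ : p ∉ sigma M) (hAM : A ≤ M)
    (hA : IsElementaryAbelian p A) (hAc : Nat.card A = p ^ 2) (hXA : X ≤ A) (hX : X ≠ ⊥)
    (hne : sigmaCore M ⊓ centralizer (X : Set G) ≠ ⊥) :
    centralizer (X : Set G) ≤ M ∧ ∀ L : Subgroup G, IsCoatom L → centralizer (X : Set G) ≤ L → L = M := by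
  have key : ∀ L : Subgroup G, IsCoatom L → centralizer (X : Set G) ≤ L → L = M := fun L hL hle => by
    by_contra hLM
    refine hne (le_bot_iff.mp ?_)
    rw [← sigmaCore_inf_eq_bot hG hM hpσ hAM hA hAc hL hLM
      (((comm_le_centralizer hA.1).trans (Subgroup.centralizer_le hXA)).trans hle)]
    exact inf_le_inf_left _ hle
  refine ⟨?_, key⟩
  have hN : centralizer (X : Set G) ≠ ⊤ := fun e => by
    have hn : normalizer (X : Set G) = ⊤ := top_le_iff.mp (e.ge.trans (centralizer_le_normalizer _))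
    rcases hG.2.1.eq_bot_or_eq_top_of_normal X (normalizer_eq_top_iff.mp hn) with h1 | h1
    · exact hX h1
    · exact ne_top_of_le hM (hXA.trans hAM) h1
  obtain ⟨L, hL, hle⟩ := exists_coatom_ge hN
  exact key L hL hle ▸ hle

end Cfsg.Agent.Lib.Uniq
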