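import Cfsg.Agent.Lib.Uniq.FrobeniusType
set_option autoImplicit false

/-! BG 12.16: the abelian normal subgroup and the regular subgroup of full exponent. -/

namespace Cfsg.Agent.Lib.Uniq

open Subgroup
open scoped Pointwise commutatorElement

universe u

variable {G : Type u} [Group G] [Finite G] {M A E : Subgroup G} {p : ℕ}

/-- The Fitting subgroup of a complement to `M_σ` is abelian. -/
theorem fitting_compl_comm (hG : IsMinSimpleOddOrder G) (hM : IsCoatom M) (hE : IsComplIn E (sigmaCore M) M) :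
    IsMulCommutative ↥((fittingSubgroup ↥E).map E.subtype) := by
  haveI : Group.IsNilpotent ↥(fittingSubgroup ↥E) := Hall.fittingSubgroup_isNilpotent
  exact nilpotent_comm_of_not_sigma hG hM ((map_subtype_le _).trans hE.1)
    ((Group.isNilpotent_congr (equivMapOfInjective _ E.subtype E.subtype_injective)).mp inferInstance)
    fun r hr hd => by
      haveI := Fact.mk hr
      exact compl_not_sigma hG hM hE (hd.trans (card_dvd_of_le (map_subtype_le _)))

/-- The Sylow subgroups for one prime are all abelian or all non-abelian. -/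
theorem sylow_comm_dichotomy [Fact p.Prime] (h : ¬ ∀ S : Sylow p G, IsMulCommutative (S : Subgroup G))
    (S : Sylow p G) : ¬ IsMulCommutative (S : Subgroup G) := fun hS => h fun Q =>
  ⟨⟨fun a b => (Sylow.equiv Q S).injective (by rw [map_mul, map_mul]; exact hS.is_comm.comm _ _)⟩⟩

/-- A regular subgroup of full exponent when all `τ₂`-Sylow subgroups are abelian. -/
theorem regular_subgroup_abelian (hG : IsMinSimpleOddOrder G) (hM : IsCoatom M)
    (hE : IsComplIn E (sigmaCore M) M)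
    (hτ : ∀ q ∈ tau2 M, ∀ S : Sylow q G, IsMulCommutative (S : Subgroup G))
    (h : ∀ e ∈ E, e ≠ 1 → (∀ q : ℕ, q.Prime → q ∣ orderOf e → q ∈ tau1 M ∪ tau3 M) →
      sigmaCore M ⊓ centralizer ({e} : Set G) = ⊥) :
    (∀ p ∈ tau2 M, ∀ u ∈ E, ∀ k : ℕ, u ^ p ^ k = 1 → u ∈ (fittingSubgroup ↥E).map E.subtype) ∧
      ∃ E₀ : Subgroup G, E₀ ≤ E ∧ Monoid.exponent E₀ = Monoid.exponent E ∧
        ∀ y ∈ E₀, ∀ q : ℕ, q.Prime → q ∈ tau2 M → orderOf y = q →
          sigmaCore M ⊓ centralizer ({y} : Set G) = ⊥ := by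
  classical
  have hex : ∀ i : tau2 M, ∃ (C : Subgroup G) (n : ℕ), C ≤ E ∧ E ≤ normalizer (C : Set G) ∧
      IsPGroup (i : ℕ) C ∧ (∃ c ∈ C, orderOf c = (i : ℕ) ^ n) ∧
      C ≤ (fittingSubgroup ↥E).map E.subtype ∧
      (∀ x ∈ C, x ^ (i : ℕ) = 1 → x ≠ 1 → sigmaCore M ⊓ centralizer ({x} : Set G) = ⊥) ∧
      ∀ g ∈ E, ∀ k, g ^ (i : ℕ) ^ k = 1 → g ^ (i : ℕ) ^ n = 1 ∧ g ∈ (fittingSubgroup ↥E).map E.subtype :=
    fun i => haveI : Fact (i : ℕ).Prime := ⟨i.2.1⟩; exists_regular_part hG hM hE i.2 (hτ _ i.2) hτ h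
  choose C n hCE hCN hCp hCc hCF hCgood hCexp using hex
  refine ⟨fun p hp u hu k hk => ((hCexp ⟨p, hp⟩) u hu k hk).2, ?_⟩
  set D := ⨆ i, C i with hD
  have hDF : D ≤ (fittingSubgroup ↥E).map E.subtype := iSup_le hCF
  have hDE : D ≤ E := hDF.trans (map_subtype_le _)
  haveI := solvable_of_ne_top hG (ne_top_of_le hM hE.1)
  obtain ⟨H, hH, hHi⟩ := Hall.exists_piHall (G := ↥E) {r | r ∉ tau2 M}
  refine ⟨D ⊔ H.map E.subtype, sup_le hDE (map_subtype_le _),
    exponent_eq_of_parts (sup_le hDE (map_subtype_le _)) ?_, ?_⟩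
  · intro y hy q k hq hk0 hyo
    haveI := Fact.mk hq
    by_cases hq2 : q ∈ tau2 M
    · obtain ⟨c, hc, hco⟩ := hCc ⟨q, hq2⟩
      refine ⟨c, le_sup_left (b := H.map E.subtype) (le_iSup C ⟨q, hq2⟩ hc), ?_⟩
      rw [hco, ← hyo]
      exact orderOf_dvd_of_pow_eq_one ((hCexp ⟨q, hq2⟩) y hy k (hyo ▸ pow_orderOf_eq_one y)).1
    · have hco : (Nat.card (zpowers (⟨y, hy⟩ : E))).Coprime H.index := by
        rw [Nat.card_zpowers, Subgroup.orderOf_mk, hyo]
        exact Nat.Coprime.pow_left k (hq.coprime_iff_not_dvd.mpr (hHi q hq hq2))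
      obtain ⟨g, hg⟩ := Hall.exists_le_conj (H := H) (Nat.coprime_of_dvd fun r hr h1 h2 => hHi r hr (hH r hr h1) h2) hco
      obtain ⟨w, hw, hwy⟩ := hg (mem_zpowers _)
      refine ⟨(w : G), le_sup_right (a := D) (mem_map_of_mem _ hw), ?_⟩
      rw [orderOf_coe, ← hyo, ← Subgroup.orderOf_mk y hy, ← hwy]
      exact (orderOf_map_dvd (MulAut.conj g).toMonoidHom w)
  intro y hy p hp hpτ hyo
  haveI := Fact.mk hp
  have hED : E ≤ normalizer (D : Set G) := fun e he => by
    refine Coprime.mem_normalizer_of_conj_smul_eq (eq_of_le_of_card_ge ?_ (Coprime.card_conj_smul _ _).ge)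
    rw [show MulAut.conj e • D = D.map (MulAut.conj e).toMonoidHom from rfl, hD, Subgroup.map_iSup]
    refine iSup_le fun i => le_trans (le_of_eq ?_) (le_iSup C i)
    exact Coprime.conj_smul_eq_self (hCN i he)
  haveI : (D.subgroupOf E).Normal := (normal_subgroupOf_iff_le_normalizer hDE).mpr hED
  have hyE : y ∈ E := sup_le hDE (map_subtype_le _) hy
  -- `y ∈ D`
  have hyD : y ∈ D := by
    have h1 : (⟨y, hyE⟩ : E) ∈ D.subgroupOf E ⊔ H := by
      obtain ⟨d, hd, w, hw, hdw⟩ : ∃ d ∈ D, ∃ w ∈ H.map E.subtype, d * w = y := by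
        have := (Subgroup.coe_mul_of_right_le_normalizer_left D (H.map E.subtype) ((map_subtype_le H).trans hED))
        rw [← SetLike.mem_coe, this] at hy
        exact hy
      obtain ⟨w', hw', rfl⟩ := hw
      have : (⟨y, hyE⟩ : E) = ⟨d, hDE hd⟩ * w' := Subtype.ext hdw.symm
      rw [this]
      exact mul_mem (mem_sup_left hd) (mem_sup_right hw')
    let π := QuotientGroup.mk' (D.subgroupOf E)
    have h2 : π ⟨y, hyE⟩ ∈ H.map π := by
      have h3 := mem_map_of_mem π h1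
      rwa [Subgroup.map_sup, (Subgroup.map_eq_bot_iff _).mpr (le_of_eq (QuotientGroup.ker_mk' _).symm),
        bot_sup_eq] at h3
    have h4 : π ⟨y, hyE⟩ = 1 := orderOf_eq_one_iff.mp (Nat.eq_one_of_dvd_coprimes
      (hp.coprime_iff_not_dvd.mpr fun hd => hH p hp hd hpτ)
      ((orderOf_map_dvd π _).trans (by rw [Subgroup.orderOf_mk, hyo]))
      ((Subgroup.orderOf_dvd_natCard _ h2).trans (Subgroup.card_map_dvd H π)))
    exact (QuotientGroup.eq_one_iff (⟨y, hyE⟩ : E)).mp h4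
  -- `y ∈ C p`
  have hFc := fitting_compl_comm hG hM hE
  set N := Nat.card E / p ^ (Nat.card E).factorization p with hN
  have hyC : y ∈ C ⟨p, hpτ⟩ := by
    let F := (fittingSubgroup ↥E).map E.subtype
    let W : Subgroup G :=
      { carrier := {d | d ∈ F ∧ d ^ N ∈ C ⟨p, hpτ⟩}
        one_mem' := ⟨one_mem _, by rw [one_pow]; exact one_mem _⟩
        mul_mem' := fun {a b} ha hb => ⟨F.mul_mem ha.1 hb.1, by
          rw [(show Commute a b from congrArg Subtype.val (hFc.is_comm.comm (⟨a, ha.1⟩ : F) ⟨b, hb.1⟩)).mul_pow]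
          exact mul_mem ha.2 hb.2⟩
        inv_mem' := fun {a} ha => ⟨F.inv_mem ha.1, by rw [inv_pow]; exact inv_mem ha.2⟩ }
    have hW : D ≤ W := iSup_le fun i z hz => by
      refine ⟨hCF i hz, ?_⟩
      by_cases hi : i = ⟨p, hpτ⟩
      · subst hi; exact pow_mem hz _
      haveI : Fact (i : ℕ).Prime := ⟨i.2.1⟩
      obtain ⟨j, hj⟩ := IsPGroup.iff_orderOf.mp (hCp i) ⟨z, hz⟩
      rw [Subgroup.orderOf_mk] at hj
      have hd : orderOf z ∣ Nat.card E := Subgroup.orderOf_dvd_natCard E (hCE i hz)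
      have hcop : (orderOf z).Coprime (p ^ (Nat.card E).factorization p) := by
        rw [hj]
        exact ((Nat.coprime_primes i.2.1 hp).mpr fun e => hi (Subtype.ext e)).pow _ _
      rw [← Nat.ordProj_mul_ordCompl_eq_self (Nat.card E) p] at hd
      have hzN : z ^ N = 1 := orderOf_dvd_iff_pow_eq_one.mp (hcop.dvd_of_dvd_mul_left hd)
      rw [hzN]; exact one_mem _
    have hNp : N.Coprime (orderOf y) := by
      rw [hyo]; exact (Nat.coprime_ordCompl hp Nat.card_pos.ne').symm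
    obtain ⟨m, hm⟩ := exists_pow_eq_self_of_coprime hNp
    rw [← hm]
    exact pow_mem (hW hyD).2 m
  exact hCgood _ y hyC (hyo ▸ pow_orderOf_eq_one y) fun e => hp.ne_one (by rw [← hyo, e, orderOf_one])

variable [hp : Fact p.Prime]

/-- A regular subgroup of full exponent when the `τ₂`-Sylow subgroup is non-abelian. -/
theorem regular_subgroup_nonabelian (hG : IsMinSimpleOddOrder G) (hM : IsCoatom M)
    (hE : IsComplIn E (sigmaCore M) M) (hpτ : p ∈ tau2 M)
    (hS : ∀ S : Sylow p G, ¬ IsMulCommutative (S : Subgroup G)) :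
    (∀ q ∈ tau2 M, q = p) ∧
    (∀ u ∈ E, ∀ k : ℕ, u ^ p ^ k = 1 → sigmaCore M ⊓ centralizer ({u} : Set G) ≠ ⊥ →
      u ∈ (fittingSubgroup ↥E).map E.subtype) ∧
      ∃ E₀ : Subgroup G, E₀ ≤ E ∧ Monoid.exponent E₀ = Monoid.exponent E ∧
        ∀ y ∈ E₀, ∀ q : ℕ, q.Prime → q ∈ tau2 M → orderOf y = q →
          sigmaCore M ⊓ centralizer ({y} : Set G) = ⊥ := by
  classical
  have hpσ := hpτ.2.1
  obtain ⟨A, hAE, hA, hAc⟩ := exists_elem_compl hG hM hE hpτ
  obtain ⟨honly, ⟨hX₀c, -⟩, hline⟩ := tau_two_nonabelian hG hM hE hpσ hS hA hAE hAc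
  set X₀ := A ⊓ centralizer (sigmaCore M : Set G) with hX₀
  have hX₀A : X₀ ≤ A := inf_le_left
  have hX₀E : X₀ ≤ E := hX₀A.trans hAE
  have hEA := (le_normalizer_compl hG hM hE hpσ hAE hA hAc).1
  have hEX : E ≤ normalizer (X₀ : Set G) := fun e he => inf_normalizer_le_normalizer_inf
    ⟨hEA he, Coprime.normalizer_le_normalizer_centralizer _
      (piCoreOf_sigma M ▸ OddLocal.le_normalizer_piCoreOf (sigma M) M (hE.1 he))⟩
  set K := X₀.subgroupOf E with hK
  haveI hKn : K.Normal := (normal_subgroupOf_iff_le_normalizer hX₀E).mpr hEX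
  have hKc : Nat.card K = p := (Nat.card_congr (subgroupOfEquivOfLe hX₀E).toEquiv).trans hX₀c
  have hKp : IsPGroup p K := IsPGroup.of_card (n := 1) (by rw [hKc, pow_one])
  haveI : IsCyclic K := isCyclic_of_prime_card hKc
  haveI : IsMulCommutative K := ⟨⟨fun a b => (IsCyclic.commGroup (α := K)).mul_comm a b⟩⟩
  have hX₀F : X₀ ≤ (fittingSubgroup ↥E).map E.subtype := fun x hx => by
    haveI : Group.IsNilpotent K := hKp.isNilpotent
    exact ⟨⟨x, hX₀E hx⟩, Hall.le_fittingSubgroup (N := K) inferInstance (show (⟨x, hX₀E hx⟩ : E) ∈ K from hx), rfl⟩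
  have hexc : ∀ u ∈ E, ∀ k : ℕ, u ^ p ^ k = 1 → u ^ p ≠ 1 → u ^ p ∉ X₀ := fun u hu k hk h1 =>
    pow_not_mem_exc hG hM hE hpσ hS hA hAE hAc hu hk h1
  refine ⟨honly, ?_, ?_⟩
  · intro u hu k hk hne
    obtain ⟨j, -, hj⟩ := (Nat.dvd_prime_pow hp.out).mp (orderOf_dvd_of_pow_eq_one hk)
    have hcen : ∀ v ∈ zpowers u, sigmaCore M ⊓ centralizer ((zpowers v : Subgroup G) : Set G) ≠ ⊥ := fun v hv e =>
      hne (eq_bot_iff.mpr (le_trans (inf_le_inf_left _
        (le_trans (centralizer_zpowers u).ge (centralizer_le (SetLike.coe_subset_coe.mpr (zpowers_le.mpr hv))))) e.le))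
    have hord : ∀ v ∈ zpowers u, orderOf v = p → v ∈ X₀ := fun v hv hvo => by
      by_contra hvX
      refine hcen v hv (hline (zpowers v) (zpowers_le.mpr (zpowers_le.mpr hu hv)) (by rw [Nat.card_zpowers, hvo])
        (fun e => hvX (e.le (mem_zpowers v)))).1
    rcases j with _ | _ | i
    · rw [orderOf_eq_one_iff.mp (hj.trans (pow_zero p))]; exact one_mem _
    · exact hX₀F (hord u (mem_zpowers u) (by rw [hj, pow_one]))
    · exfalso
      set v := u ^ p ^ i
      have hv : orderOf v = p ^ 2 := by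
        rw [orderOf_pow, hj, Nat.gcd_eq_right (pow_dvd_pow p (by omega)), Nat.pow_div (by omega) hp.out.pos]
        congr 1
        omega
      have hvp : orderOf (v ^ p) = p := by
        rw [orderOf_pow, hv, Nat.gcd_eq_right (dvd_pow_self p two_ne_zero), sq,
          Nat.mul_div_cancel_left _ hp.out.pos]
      exact hexc v (pow_mem hu _) 2 (hv ▸ pow_orderOf_eq_one v)
        (fun e => hp.out.ne_one (by rw [← hvp, e, orderOf_one]))
        (hord _ (pow_mem (pow_mem (mem_zpowers u) _) _) hvp)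
  haveI := solvable_of_ne_top hG (ne_top_of_le hM hE.1)
  obtain ⟨U⟩ : Nonempty (Sylow p E) := inferInstance
  have hKU : K ≤ (U : Subgroup E) := hKp.le_sylow_of_normal U
  have hsylc : ∀ (P : Subgroup E), IsPGroup p P → ∀ a ∈ P, ∀ b ∈ P, a * b = b * a := fun P hP a ha b hb =>
    Subtype.ext (pgroup_comm_of_not_sigma hG hM hpσ (hP.map E.subtype) ((map_subtype_le P).trans hE.1)
      _ (mem_map_of_mem _ ha) _ (mem_map_of_mem _ hb))
  -- a complement of `K` in `U`
  letI : CommGroup (U : Subgroup E) :=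
    { (inferInstance : Group (U : Subgroup E)) with
      mul_comm := fun a b => Subtype.ext (hsylc _ U.2 _ a.2 _ b.2) }
  set K' := K.subgroupOf (U : Subgroup E) with hK'
  have hK'c : Nat.card K' = p := (Nat.card_congr (subgroupOfEquivOfLe hKU).toEquiv).trans hKc
  have hmemK : ∀ z : (U : Subgroup E), z ∈ K' ↔ ((z : E) : G) ∈ X₀ := fun z => Iff.rfl
  let W : Subgroup (U : Subgroup E) := (powMonoidHom p).range
  have hKW : K' ⊓ W = ⊥ := by
    rw [eq_bot_iff]
    rintro z ⟨hz, w, rfl⟩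
    rw [mem_bot]
    by_contra hne
    obtain ⟨k, hk⟩ := U.2 w
    refine hexc ((w : E) : G) (w : E).2 k (by simpa using congrArg (fun z : (U : Subgroup E) => ((z : E) : G)) hk)
      (fun e => hne (Subtype.ext (Subtype.ext (by simpa using e)))) ?_
    simpa using (hmemK _).mp hz
  obtain ⟨R, hWR, hR⟩ := Finite.exists_le_maximal (p := fun R : Subgroup (U : Subgroup E) => K' ⊓ R = ⊥) hKW
  have hKR : K' ⊔ R = ⊤ := by
    refine eq_top_iff.mpr fun r _ => ?_
    by_cases hr : r ∈ R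
    · exact mem_sup_right hr
    have hne : K' ⊓ (R ⊔ zpowers r) ≠ ⊥ := fun e =>
      hr ((hR.2 e le_sup_left) (mem_sup_right (mem_zpowers r)))
    obtain ⟨a, ha, ha1⟩ := (K' ⊓ (R ⊔ zpowers r)).bot_or_exists_ne_one.resolve_left hne
    obtain ⟨r', hr', s, hs, hrs⟩ := mem_sup.mp ha.2
    obtain ⟨i, rfl⟩ := mem_zpowers_iff.mp hs
    by_cases hip : (p : ℤ) ∣ i
    · obtain ⟨i', rfl⟩ := hip
      refine absurd (mem_bot.mp (hR.1 ▸ (⟨ha.1, ?_⟩ : a ∈ K' ⊓ R))) ha1
      rw [← hrs]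
      exact mul_mem hr' (hWR ⟨r ^ i', by rw [powMonoidHom_apply, ← zpow_natCast, ← _root_.zpow_mul, mul_comm]⟩)
    · have hri : r ^ i ∈ K' ⊔ R := by
        have : r ^ i = r'⁻¹ * a := by rw [← hrs, inv_mul_cancel_left]
        rw [this]
        exact mul_mem (inv_mem (mem_sup_right hr')) (mem_sup_left ha.1)
      have hrp : r ^ (p : ℤ) ∈ K' ⊔ R := mem_sup_right (hWR ⟨r, by rw [powMonoidHom_apply, zpow_natCast]⟩)
      obtain ⟨u, v, huv⟩ := (Int.isCoprime_iff_gcd_eq_one.mpr (by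
        rw [Int.gcd_comm]
        exact Int.isCoprime_iff_gcd_eq_one.mp ((Nat.prime_iff_prime_int.mp hp.out).coprime_iff_not_dvd.mpr hip)) :
          IsCoprime i (p : ℤ))
      rw [← zpow_one r, ← huv, zpow_add, mul_comm u i, _root_.zpow_mul, mul_comm v, _root_.zpow_mul]
      exact mul_mem (zpow_mem hri u) (zpow_mem hrp v)
  have hcompl : IsComplement' K' R := by
    refine isComplement'_of_disjoint_and_mul_eq_univ (disjoint_iff.mpr hR.1) ?_
    rw [← normal_mul K' R, hKR, coe_top]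
  obtain ⟨L, hL⟩ := Hall.exists_complement_of_relative (K := K) hKU (by
      rw [hKc]; exact hp.out.coprime_iff_not_dvd.mpr U.not_dvd_index)
    (A := R.map (U : Subgroup E).subtype) (by
      rw [subgroupOf, subgroupOf, comap_map_eq_self_of_injective (U : Subgroup E).subtype_injective]
      exact hcompl)
  refine ⟨L.map E.subtype, map_subtype_le _, exponent_eq_of_parts (map_subtype_le _) ?_, ?_⟩
  · intro y hy q k hq hk0 hyo
    obtain ⟨⟨⟨x, hx⟩, ⟨l, hl⟩⟩, hxl⟩ := hL.2 (⟨y, hy⟩ : E)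
    replace hxl : x * l = (⟨y, hy⟩ : E) := hxl
    by_cases hqp : q = p
    · subst hqp
      by_cases hk1 : k = 1
      · -- an element of `A` outside `X₀`
        obtain ⟨a, ha, haX⟩ := SetLike.not_le_iff_exists.mp (fun hle : A ≤ X₀ => by
          have := card_dvd_of_le hle
          rw [hAc, hX₀c] at this
          exact (Nat.pow_lt_pow_right hp.out.one_lt (show 1 < 2 by omega)).not_ge
            (by rw [pow_one]; exact Nat.le_of_dvd hp.out.pos this))
        obtain ⟨⟨⟨x', hx'⟩, ⟨l', hl'⟩⟩, hxl'⟩ := hL.2 (⟨a, hAE ha⟩ : E)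
        replace hxl' : x' * l' = (⟨a, hAE ha⟩ : E) := hxl'
        refine ⟨(l' : G), mem_map_of_mem _ hl', ?_⟩
        have hlA : (l' : G) ∈ A := by
          have : l' = x'⁻¹ * ⟨a, hAE ha⟩ := by rw [← hxl', inv_mul_cancel_left]
          rw [this]; exact A.mul_mem (A.inv_mem (hX₀A hx')) ha
        have hl1 : (l' : G) ≠ 1 := fun e => haX (by
          have := congrArg Subtype.val hxl'
          rw [coe_mul, e, mul_one] at this
          have h0 : (x' : G) ∈ X₀ := hx'
          rwa [show (x' : G) = a from this] at h0)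
        rw [hk1, pow_one, orderOf_eq_prime (hA.2 _ hlA) hl1]
      obtain ⟨S, hS'⟩ := (show IsPGroup q (zpowers (⟨y, hy⟩ : E)) from IsPGroup.of_card (n := k)
        (by rw [Nat.card_zpowers, Subgroup.orderOf_mk, hyo])).exists_le_sylow
      have hc : Commute x (⟨y, hy⟩ : E) := hsylc _ S.2 _ (hKp.le_sylow_of_normal S hx) _ (hS' (mem_zpowers _))
      have hl' : l = x⁻¹ * ⟨y, hy⟩ := by rw [← hxl, inv_mul_cancel_left]
      have hxp : x ^ q = 1 := by
        have h0 := pow_card_eq_one' (G := K) (x := ⟨x, hx⟩)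
        rw [hKc] at h0
        exact congrArg Subtype.val h0
      have hlp : l ^ q = (⟨y, hy⟩ : E) ^ q := by rw [hl', hc.inv_left.mul_pow, inv_pow, hxp, inv_one, one_mul]
      refine ⟨(l : G), mem_map_of_mem _ hl, ?_⟩
      obtain ⟨k', rfl⟩ : ∃ k', k = k' + 2 := ⟨k - 2, by omega⟩
      rw [orderOf_coe, orderOf_eq_prime_pow (x := l) (p := q) (n := k' + 1)]
      · intro e
        rw [pow_succ', pow_mul, hlp, ← pow_mul, ← pow_succ'] at e
        have h2 := Nat.le_of_dvd (pow_pos hp.out.pos _)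
          (hyo ▸ orderOf_dvd_of_pow_eq_one (x := y) (n := q ^ (k' + 1)) (congrArg Subtype.val e))
        exact (Nat.pow_lt_pow_right hp.out.one_lt (show k' + 1 < k' + 2 by omega)).not_ge h2
      · rw [pow_succ', pow_mul, hlp, ← pow_mul, ← pow_succ']
        exact Subtype.ext (show y ^ q ^ (k' + 1 + 1) = 1 by rw [← hyo]; exact pow_orderOf_eq_one y)
    · refine ⟨(l : G), mem_map_of_mem _ hl, ?_⟩
      rw [orderOf_coe]
      let π := QuotientGroup.mk' K
      have hπ : π ⟨y, hy⟩ = π l := by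
        rw [← hxl, map_mul, show π x = 1 from (QuotientGroup.eq_one_iff x).mpr hx, one_mul]
      set m := orderOf (π ⟨y, hy⟩)
      have hm : (⟨y, hy⟩ : E) ^ m ∈ K := (QuotientGroup.eq_one_iff _).mp (by
        show π ((⟨y, hy⟩ : E) ^ m) = 1
        rw [map_pow, pow_orderOf_eq_one])
      have h1 : (⟨y, hy⟩ : E) ^ m = 1 := orderOf_eq_one_iff.mp (Nat.eq_one_of_dvd_coprimes
        (((Nat.coprime_primes hp.out hq).mpr (Ne.symm hqp)).pow_right k)
        (hKc ▸ Subgroup.orderOf_dvd_natCard K hm)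
        ((orderOf_pow_dvd m).trans (by rw [Subgroup.orderOf_mk, hyo])))
      have h2 : q ^ k ∣ m := hyo ▸ Subgroup.orderOf_mk y hy ▸ orderOf_dvd_of_pow_eq_one h1
      exact h2.trans ((show m = orderOf (π l) by rw [← hπ]) ▸ orderOf_map_dvd π l)
  rintro y ⟨l, hl, rfl⟩ q hq hqτ hlo
  obtain rfl := honly q hqτ
  rw [← centralizer_zpowers]
  refine (hline _ (zpowers_le.mpr l.2) (by rw [Nat.card_zpowers]; exact hlo) fun e => ?_).1
  have hlX : (l : G) ∈ X₀ := e.le (mem_zpowers _)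
  have := disjoint_def.mp hL.disjoint (show l ∈ K from hlX) hl
  rw [this, map_one, orderOf_one] at hlo
  exact hq.ne_one hlo.symm

end Cfsg.Agent.Lib.Uniq
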