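import Cfsg.Agent.Lib.Uniq.KappaLines
import Cfsg.Agent.Lib.OddLocal.CyclicFix
import Cfsg.Agent.Lib.Coprime.OmegaFixed
set_option autoImplicit false

/-! BG 14.2 (a), (b), (c): prime action of a Hall `κ(M)`-subgroup. -/

namespace Cfsg.Agent.Lib.Uniq

open Subgroup
open scoped Pointwise commutatorElement

universe u

variable {G : Type u} [Group G] [Finite G] {M E K : Subgroup G} {p q : ℕ}

/-- The fixed points of the line in a cyclic `q`-subgroup of `E` are fixed by the whole of it. -/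
theorem fixed_prime_power (hG : IsMinSimpleOddOrder G) (hM : IsCoatom M) (hE : IsComplIn E (sigmaCore M) M)
    [hq : Fact q.Prime] (hq1 : PRankLE q 1 M) {y : G} (hyE : y ∈ E) {j : ℕ} (hj : orderOf y = q ^ (j + 1)) :
    sigmaCore M ⊓ centralizer ((zpowers (y ^ q ^ j) : Subgroup G) : Set G) ≤ centralizer ({y} : Set G) := by
  intro v hv
  rw [centralizer_zpowers] at hv
  obtain ⟨S, hS⟩ := (IsPGroup.of_card (n := j + 1) (by rw [Nat.card_zpowers, Subgroup.orderOf_mk, hj]) :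
    IsPGroup q (zpowers (⟨y, hyE⟩ : E))).exists_le_sylow
  have hSc : IsCyclic (S : Subgroup E) := by
    haveI : IsZGroup ↥((S : Subgroup E).map E.subtype) := rank_one_zgroup hG ((map_subtype_le _).trans hE.1)
      fun r hr hd => isPGroup_ne_dvd (S.2.map E.subtype) hr hd ▸ hq1
    haveI := (S.2.map E.subtype).isNilpotent
    haveI : IsCyclic ↥((S : Subgroup E).map E.subtype) := inferInstance
    exact isCyclic_of_surjective _ ((S : Subgroup E).equivMapOfInjective E.subtype E.subtype_injective).symm.surjective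
  have hyS : y ∈ (S : Subgroup E).map E.subtype := ⟨⟨y, hyE⟩, hS (mem_zpowers _), rfl⟩
  have hy1 : y ^ q ^ j ≠ 1 := fun e => by
    have h := Nat.le_of_dvd (pow_pos hq.out.pos j) (hj ▸ orderOf_dvd_of_pow_eq_one e)
    exact absurd h (not_le.mpr (Nat.pow_lt_pow_right hq.out.one_lt (Nat.lt_succ_self j)))
  rw [cyclic_sylow_prime_action hG hM hE S hSc (pow_mem hyS _) hy1] at hv
  exact mem_centralizer_singleton_iff.mpr (mem_centralizer_iff.mp hv.2 y hyS).symm

/-- An element of `M` normalising a subgroup of `E` factors through the complement. -/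
theorem exists_normalizer_factor (hE : IsComplIn E (sigmaCore M) M) {Y : Subgroup G} (hYE : Y ≤ E) {n : G}
    (hnM : n ∈ M) (hn : n ∈ normalizer (Y : Set G)) :
    ∃ a ∈ E ⊓ normalizer (Y : Set G), ∃ b ∈ sigmaCore M ⊓ centralizer (Y : Set G), n = a * b := by
  obtain ⟨hEM, hσM, hbot, hdec⟩ := hE
  obtain ⟨a, ha, b, hb, rfl⟩ := hdec n hnM
  have hbY : b ∈ centralizer (Y : Set G) := mem_centralizer_iff.mpr fun y hy => by
    have h1 : b * y * b⁻¹ ∈ E := by
      have h := E.mul_mem (E.mul_mem (E.inv_mem ha) (hYE ((mem_normalizer_iff.mp hn y).mp hy))) ha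
      have he : a⁻¹ * (a * b * y * (a * b)⁻¹) * a = b * y * b⁻¹ := by group
      rwa [he] at h
    have h2 : b * y * b⁻¹ * y⁻¹ ∈ E ⊓ sigmaCore M := ⟨E.mul_mem h1 (E.inv_mem (hYE hy)), by
      rw [show b * y * b⁻¹ * y⁻¹ = b * (y * b⁻¹ * y⁻¹) by group]
      exact mul_mem hb ((mem_normalizer_iff.mp (OddLocal.le_normalizer_piCoreOf (sigma M) M (hEM (hYE hy))) _).mp
        (inv_mem hb))⟩
    rw [hbot, mem_bot, mul_inv_eq_one, mul_inv_eq_iff_eq_mul] at h2
    exact h2.symm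
  refine ⟨a, ⟨ha, ?_⟩, b, ⟨hb, hbY⟩, rfl⟩
  simpa using mul_mem hn (inv_mem (centralizer_le_normalizer _ hbY))

/-- Equal fixed points of all lines give a prime action. -/
theorem prime_action_of_lines {S X : Subgroup G} (hX : X ≤ S ⊓ centralizer (K : Set G))
    (h : ∀ (t : ℕ) (P : Subgroup G), t.Prime → P ≤ K → Nat.card P = t → S ⊓ centralizer (P : Set G) = X) :
    ∀ k ∈ K, k ≠ 1 → S ⊓ centralizer ({k} : Set G) = S ⊓ centralizer (K : Set G) := by
  intro k hk hk1
  refine le_antisymm ?_ (inf_le_inf_left _ (centralizer_le (Set.singleton_subset_iff.mpr hk)))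
  obtain ⟨t, ht, htd⟩ := Nat.exists_prime_and_dvd (fun e => hk1 (orderOf_eq_one_iff.mp e))
  refine le_trans ?_ hX
  rw [← h t (zpowers (k ^ (orderOf k / t))) ht (zpowers_le.mpr (K.pow_mem hk _))
    (by rw [Nat.card_zpowers, orderOf_pow_orderOf_div (orderOf_pos k).ne' htd]), centralizer_zpowers]
  exact inf_le_inf_left _ fun v hv => mem_centralizer_singleton_iff.mpr
    ((Commute.pow_right (mem_centralizer_singleton_iff.mp hv) _).eq)

/-- BG 14.2 when some prime of `κ(M)` lies in `τ₃(M)`: the Hall `κ(M)`-subgroup is a complement to `M_σ`. -/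
theorem kappa_case_tau_three (hG : IsMinSimpleOddOrder G) (hM : IsCoatom M) (hE : IsComplIn E (sigmaCore M) M)
    (hK : IsPiHallOf (kappa M) K M) (hKE : K ≤ E) [hp : Fact p.Prime] (hpκ : p ∈ kappa M) (hp3 : p ∈ tau3 M) :
    E = K ∧ (∀ k ∈ K, k ≠ 1 → sigmaCore M ⊓ centralizer ({k} : Set G) = sigmaCore M ⊓ centralizer (K : Set G)) ∧
      sigmaCore M ⊓ centralizer (K : Set G) ≠ ⊥ ∧
      ∀ X : Subgroup G, X ≤ K → (Nat.card X).Prime → K ≤ normalizer (X : Set G) := by
  classical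
  obtain ⟨R, hRE, hR⟩ := exists_line (E := E) (dvd_compl hE hp.out hpκ.2.1 hp3.2.1)
  have hX := (kappa_line hG hM hE hpκ).2 R hRE hR
  set X := sigmaCore M ⊓ centralizer (R : Set G) with hXdef
  have hR1 : R ≠ ⊥ := fun h => hp.out.ne_one (by rw [← hR, h, card_bot])
  obtain ⟨H, hH, hNH⟩ := exists_coatom_ge
    (normalizer_line_ne_top hG (IsPGroup.of_card (n := 1) (by rw [hR, pow_one])) hR1)
  obtain ⟨-, -, -, hτ2⟩ := tau_three_setup hG hM hE hp3 hRE hR hX hH hNH
  have hcases : ∀ t : ℕ, t.Prime → t ∣ Nat.card E → t ∈ tau1 M ∪ tau3 M := fun t ht hd =>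
    (tau_cases hG hM hE ht hd).resolve_left (hτ2 t)
  have hfix : ∀ (t : ℕ) (P : Subgroup G), t.Prime → P ≤ E → Nat.card P = t →
      sigmaCore M ⊓ centralizer (P : Set G) = X := by
    intro t P ht hPE hP
    haveI := Fact.mk ht
    exact (tau_three_fixed_all hG hM hE hp3 hRE hR hX hPE hP).2 (hcases t ht (hP ▸ card_dvd_of_le hPE))
  have hκ : ∀ t : ℕ, t.Prime → t ∣ Nat.card E → t ∈ kappa M := by
    intro t ht hd
    haveI := Fact.mk ht
    obtain ⟨P, hPE, hP⟩ := exists_line (E := E) hd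
    rcases hcases t ht hd with h | h
    · exact kappa_of_line hG hM h.2.1 h.2.2.2.2 (hPE.trans hE.1) hP (by rw [hfix t P ht hPE hP]; exact hX)
    · exact kappa_of_line hG hM h.2.1 h.2.2.2 (hPE.trans hE.1) hP (by rw [hfix t P ht hPE hP]; exact hX)
  have hEK : E = K := by
    refine le_antisymm (relIndex_eq_one.mp (Nat.eq_one_iff_not_exists_prime_dvd.mpr fun t ht hd => ?_)) hKE
    exact hK.2.2 t ht (hκ t ht (hd.trans (relIndex_dvd_card K E)))
      (hd.trans ⟨_, (relIndex_mul_relIndex _ _ _ hKE hE.1).symm⟩)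
  subst hEK
  have hXE : X ≤ sigmaCore M ⊓ centralizer (E : Set G) := by
    refine le_inf inf_le_left (le_centralizer_iff.mp fun e he => abelian_of_prime_pow_parts fun t k ht htk => ?_)
    haveI := Fact.mk ht
    set y := e ^ (orderOf e / t ^ k) with hy
    have hyo : orderOf y = t ^ k := orderOf_pow_orderOf_div (orderOf_pos e).ne' htk
    rcases k with _ | j
    · rw [orderOf_eq_one_iff.mp (hyo.trans (pow_zero t))]
      exact one_mem _
    have hyE : y ∈ E := E.pow_mem he _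
    have htd : t ∣ Nat.card E :=
      ((dvd_pow_self t (Nat.succ_ne_zero j)).trans hyo.symm.dvd).trans (Subgroup.orderOf_dvd_natCard E hyE)
    have hao : Nat.card (zpowers (y ^ t ^ j)) = t := by
      rw [Nat.card_zpowers, orderOf_pow_of_dvd (pow_ne_zero _ ht.ne_zero) (hyo ▸ pow_dvd_pow t (Nat.le_succ j)), hyo,
        Nat.pow_div (Nat.le_succ j) ht.pos, Nat.succ_sub (le_refl j), Nat.sub_self, pow_one]
    have hr1 : PRankLE t 1 M := (hcases t ht htd).elim (fun h => h.2.2.2.2) fun h => h.2.2.2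
    refine mem_centralizer_iff.mpr fun v hv => ?_
    exact mem_centralizer_singleton_iff.mp (fixed_prime_power hG hM hE hr1 hyE hyo
      ((hfix t _ ht (zpowers_le.mpr (E.pow_mem hyE _)) hao).ge hv))
  refine ⟨rfl, prime_action_of_lines hXE hfix, fun h => hX (le_bot_iff.mp (hXE.trans h.le)), fun P hPE hP => ?_⟩
  -- lines are normal
  haveI := Fact.mk hP
  set t := Nat.card P with ht
  have h3 : ∀ (u : ℕ) (y : G), u.Prime → u ∈ tau3 M → y ∈ E → orderOf y = u →
      E ≤ normalizer ((zpowers y : Subgroup G) : Set G) := fun u y hu hu3 hy hyo => by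
    haveI := Fact.mk hu
    exact le_normalizer_tau_three_line hG hM hE hu3 hy hyo
  rcases hcases t hP (card_dvd_of_le hPE) with h1 | h1
  swap
  · obtain ⟨y, hy, hy1⟩ := P.bot_or_exists_ne_one.resolve_left fun h => hP.ne_one (by rw [ht, h, card_bot])
    have hyo : orderOf y = t := ((Nat.dvd_prime hP).mp (Subgroup.orderOf_dvd_natCard P hy)).resolve_left
      fun h => hy1 (orderOf_eq_one_iff.mp h)
    have hyP : zpowers y = P := eq_of_le_of_card_ge (zpowers_le.mpr hy) (by rw [Nat.card_zpowers, hyo])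
    exact hyP ▸ h3 t y hP h1 (hPE hy) hyo
  obtain ⟨E₁, hE₁, hPE₁⟩ := exists_hall_ge hG (ne_top_of_le hM hE.1) hPE (tau1 M) (fun u hu hd =>
    (Nat.prime_dvd_prime_iff_eq hu hP).mp hd ▸ h1)
  obtain ⟨E₃, hE₃, -⟩ := exists_hall_ge hG (ne_top_of_le hM hE.1) (bot_le : ⊥ ≤ E) (tau3 M) (fun u hu hd =>
    absurd (card_bot (G := G) ▸ hd) hu.not_dvd_one)
  obtain ⟨hc3, -, hN3⟩ := tau3_struct hG hM hE hE₃
  haveI := hc3
  haveI : IsCyclic E₁ := tau1_cyclic hG hE hE₁
  have hE₁P : E₁ ≤ centralizer (P : Set G) := fun z hz => mem_centralizer_iff.mpr fun a ha =>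
    congrArg Subtype.val ((IsCyclic.commGroup (α := E₁)).mul_comm (⟨a, hPE₁ ha⟩ : E₁) ⟨z, hz⟩)
  have hE₃P : E₃ ≤ centralizer (P : Set G) := fun e he => abelian_of_prime_pow_parts fun u k hu huk => by
    haveI := Fact.mk hu
    set y := e ^ (orderOf e / u ^ k) with hy
    have hyo : orderOf y = u ^ k := orderOf_pow_orderOf_div (orderOf_pos e).ne' huk
    rcases k with _ | j
    · rw [orderOf_eq_one_iff.mp (hyo.trans (pow_zero u))]
      exact one_mem _
    have hy3 : y ∈ E₃ := E₃.pow_mem he _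
    have hu3 : u ∈ tau3 M := hE₃.2.1 u hu
      (((dvd_pow_self u (Nat.succ_ne_zero j)).trans hyo.symm.dvd).trans (Subgroup.orderOf_dvd_natCard E₃ hy3))
    have hEy : E ≤ normalizer ((zpowers y : Subgroup G) : Set G) := fun g hg =>
      Coprime.mem_normalizer_of_conj_smul_eq (OddLocal.eq_of_card_eq_of_le_cyclic (W := E₃)
        ((pointwise_smul_le_pointwise_smul_iff.mpr (zpowers_le.mpr hy3)).trans
          (Coprime.conj_smul_eq_self (hN3 hg)).le) (zpowers_le.mpr hy3) (Coprime.card_conj_smul _ _))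
    have hu2 : u ≠ 2 := fun h => prime_ne_two_of_dvd hG
      (((dvd_pow_self u (Nat.succ_ne_zero j)).trans hyo.symm.dvd).trans (_root_.orderOf_dvd_natCard y)) h
    refine Coprime.le_centralizer_of_omega_fixed hu2 (E := (⊥ : Subgroup G)) IsPGroup.of_bot ?_ bot_le
      (IsPGroup.of_card (n := j + 1) (by rw [Nat.card_zpowers, hyo]) : IsPGroup u (zpowers y)) bot_le
      (hPE.trans hEy) (fun x hx hxu => ?_) (mem_zpowers y)
    · exact (Nat.coprime_primes hP hu).mpr fun h => h1.2.2.2.1 (h ▸ hu3.2.2.1)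
    rcases eq_or_ne x 1 with rfl | hx1
    · exact one_mem _
    have hxE : x ∈ E := hE₃.1 ((zpowers_le.mpr hy3) hx.1)
    have hxc : Nat.card (zpowers x) = u := by rw [Nat.card_zpowers, orderOf_eq_prime hxu hx1]
    have h := (tau_three_fixed_all hG hM hE hu3 (zpowers_le.mpr hxE) hxc
      (by rw [hfix u _ hu (zpowers_le.mpr hxE) hxc]; exact hX) hPE rfl).1 h1
    exact le_centralizer_iff.mp h (mem_zpowers x)
  have htop : E ≤ E₁ ⊔ E₃ := relIndex_eq_one.mp (Nat.eq_one_iff_not_exists_prime_dvd.mpr fun u hu hd => by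
    rcases hcases u hu (hd.trans (relIndex_dvd_card _ _)) with h | h
    · exact hE₁.2.2 u hu h (hd.trans (relIndex_dvd_of_le_left _ le_sup_left))
    · exact hE₃.2.2 u hu h (hd.trans (relIndex_dvd_of_le_left _ le_sup_right)))
  exact (htop.trans (sup_le hE₁P hE₃P)).trans (centralizer_le_normalizer _)

/-- BG 14.2 when `κ(M) ⊆ τ₁(M)`: the cyclic Hall `κ(M)`-subgroup has an abelian normal complement in `E`. -/
theorem kappa_case_tau_one (hG : IsMinSimpleOddOrder G) (hM : IsCoatom M) (hE : IsComplIn E (sigmaCore M) M)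
    (hK : IsPiHallOf (kappa M) K M) (hKE : K ≤ E) (hK1 : K ≠ ⊥) (h3 : ∀ t ∈ kappa M, t ∉ tau3 M) :
    IsCyclic K ∧
      (∀ k ∈ K, k ≠ 1 → sigmaCore M ⊓ centralizer ({k} : Set G) = sigmaCore M ⊓ centralizer (K : Set G)) ∧
      (∀ X : Subgroup G, X ≤ K → (Nat.card X).Prime → E ⊓ normalizer (X : Set G) ≤ K) ∧
      ∃ U : Subgroup G, IsMulCommutative U ∧ IsPiHallOf {t | t.Prime ∧ t ∉ kappa M ∧ t ∉ sigma M} U M ∧
        K ≤ normalizer (U : Set G) ∧ ∀ k ∈ K, k ≠ 1 → U ⊓ centralizer ({k} : Set G) = ⊥ := by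
  classical
  have hEM := hE.1
  have hτ : ∀ t : ℕ, t.Prime → t ∣ Nat.card K → t ∈ tau1 M := fun t ht hd => by
    haveI := Fact.mk ht
    exact (kappa_line hG hM hE (hK.2.1 t ht hd)).1.resolve_right (h3 t (hK.2.1 t ht hd))
  obtain ⟨E₁, hE₁, hKE₁⟩ := exists_hall_ge hG (ne_top_of_le hM hEM) hKE (tau1 M) hτ
  haveI : IsCyclic E₁ := tau1_cyclic hG hE hE₁
  haveI hKc : IsCyclic K := isCyclic_of_le hKE₁
  have hcomm : ∀ a ∈ K, ∀ b ∈ K, a * b = b * a := fun a ha b hb =>
    congrArg Subtype.val ((IsCyclic.commGroup (α := K)).mul_comm (⟨a, ha⟩ : K) ⟨b, hb⟩)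
  obtain ⟨k₀, hk₀, hk₀1⟩ := K.bot_or_exists_ne_one.resolve_left hK1
  obtain ⟨p, hp, hpd⟩ := Nat.exists_prime_and_dvd (fun e => hk₀1 (orderOf_eq_one_iff.mp e))
  haveI := Fact.mk hp
  obtain ⟨P₀, hP₀K, hP₀⟩ := exists_line (E := K) (hpd.trans (Subgroup.orderOf_dvd_natCard K hk₀))
  set X := sigmaCore M ⊓ centralizer (P₀ : Set G) with hXdef
  have hline : ∀ (t : ℕ) (P : Subgroup G), t.Prime → P ≤ K → Nat.card P = t →
      sigmaCore M ⊓ centralizer (P : Set G) = X := fun t P ht hPK hP => by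
    haveI := Fact.mk ht
    exact tau_one_fixed_eq hG hM hE (hτ t ht (hP ▸ card_dvd_of_le hPK)) (hτ p hp (hP₀ ▸ card_dvd_of_le hP₀K))
      (hPK.trans hKE) hP (hP₀K.trans hKE) hP₀
      fun a ha => mem_centralizer_iff.mpr fun b hb => hcomm b (hP₀K hb) a (hPK ha)
  have hXK : X ≤ sigmaCore M ⊓ centralizer (K : Set G) := by
    refine le_inf inf_le_left (le_centralizer_iff.mp fun e he => abelian_of_prime_pow_parts fun t k ht htk => ?_)
    haveI := Fact.mk ht
    set y := e ^ (orderOf e / t ^ k) with hy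
    have hyo : orderOf y = t ^ k := orderOf_pow_orderOf_div (orderOf_pos e).ne' htk
    rcases k with _ | j
    · rw [orderOf_eq_one_iff.mp (hyo.trans (pow_zero t))]
      exact one_mem _
    have hyK : y ∈ K := K.pow_mem he _
    have htd : t ∣ Nat.card K :=
      ((dvd_pow_self t (Nat.succ_ne_zero j)).trans hyo.symm.dvd).trans (Subgroup.orderOf_dvd_natCard K hyK)
    refine mem_centralizer_iff.mpr fun v hv => ?_
    refine mem_centralizer_singleton_iff.mp (fixed_prime_power hG hM hE (hτ t ht htd).2.2.2.2 (hKE hyK) hyo ?_)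
    rw [hline t _ ht (zpowers_le.mpr (K.pow_mem hyK _)) (by
      rw [Nat.card_zpowers, orderOf_pow_of_dvd (pow_ne_zero _ ht.ne_zero) (hyo ▸ pow_dvd_pow t (Nat.le_succ j)), hyo,
        Nat.pow_div (Nat.le_succ j) ht.pos, Nat.succ_sub (le_refl j), Nat.sub_self, pow_one])]
    exact hv
  set π : Set ℕ := {t | t.Prime ∧ t ∉ kappa M ∧ t ∉ sigma M} with hπ
  have hDπ : ∀ t : ℕ, t.Prime → t ∣ Nat.card ↥(E ⊓ ⁅M, M⁆) → t ∈ π := by
    intro t ht hd
    haveI := Fact.mk ht
    refine ⟨ht, fun hκ => ?_, compl_not_sigma hG hM hE (hd.trans (card_dvd_of_le inf_le_left))⟩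
    exact ((kappa_line hG hM hE hκ).1.resolve_right (h3 t hκ)).2.2.2.1 (hd.trans (card_dvd_of_le inf_le_right))
  obtain ⟨U, hU, hDU⟩ := exists_hall_ge hG (ne_top_of_le hM hEM) (inf_le_left : E ⊓ ⁅M, M⁆ ≤ E) π hDπ
  have hUE : U ≤ E := hU.1
  have hEU : E ≤ normalizer (U : Set G) := by
    have key : ∀ e ∈ E, ∀ u ∈ U, e * u * e⁻¹ ∈ U := fun e he u hu => by
      have h : ⁅e, u⁆ ∈ U := hDU ⟨E.mul_mem (E.mul_mem (E.mul_mem he (hUE hu)) (E.inv_mem he)) (E.inv_mem (hUE hu)),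
        commutator_mem_commutator (hEM he) (hEM (hUE hu))⟩
      simpa [commutatorElement_def] using U.mul_mem h hu
    exact fun e he => mem_normalizer_iff.mpr fun u =>
      ⟨key e he u, fun hu => by simpa [mul_assoc] using key _ (E.inv_mem he) _ hu⟩
  have hfree : ∀ k ∈ K, k ≠ 1 → U ⊓ centralizer ({k} : Set G) = ⊥ := by
    intro k hk hk1
    by_contra hne
    obtain ⟨u, hu, hu1⟩ := (bot_or_exists_ne_one _).resolve_left hne
    obtain ⟨s, hs, hsd⟩ := Nat.exists_prime_and_dvd (fun e => hk1 (orderOf_eq_one_iff.mp e))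
    obtain ⟨t, ht, htd⟩ := Nat.exists_prime_and_dvd (fun e => hu1 (orderOf_eq_one_iff.mp e))
    haveI := Fact.mk hs
    haveI := Fact.mk ht
    set a := k ^ (orderOf k / s)
    set b := u ^ (orderOf u / t) with hb
    have hbU : b ∈ U := U.pow_mem hu.1 _
    have hac : Nat.card (zpowers a) = s := by rw [Nat.card_zpowers, orderOf_pow_orderOf_div (orderOf_pos k).ne' hsd]
    have hbc : Nat.card (zpowers b) = t := by rw [Nat.card_zpowers, orderOf_pow_orderOf_div (orderOf_pos u).ne' htd]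
    have haK : zpowers a ≤ K := zpowers_le.mpr (K.pow_mem hk _)
    have hsτ : s ∈ tau1 M := hτ s hs (hac ▸ card_dvd_of_le haK)
    have hab : Commute b a := Commute.pow_pow (mem_centralizer_singleton_iff.mp hu.2) _ _
    have hbP : zpowers b ≤ centralizer ((zpowers a : Subgroup G) : Set G) := by
      rw [centralizer_zpowers]
      exact zpowers_le.mpr (mem_centralizer_singleton_iff.mpr hab.eq)
    have hbE : zpowers b ≤ E := zpowers_le.mpr (hUE hbU)
    have hle := tau_one_prime_action hG hM hE hsτ (haK.trans hKE) hac (R := zpowers b) (r := t)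
      (le_inf hbE hbP) hbc
    have hane := (kappa_line hG hM hE (hK.2.1 s hs (hac ▸ card_dvd_of_le haK))).2 _ (haK.trans hKE) hac
    have htπ : t ∈ π := hU.2.1 t ht (hbc ▸ card_dvd_of_le (zpowers_le.mpr hbU))
    have hbne : sigmaCore M ⊓ centralizer ((zpowers b : Subgroup G) : Set G) ≠ ⊥ := fun h =>
      hane (le_bot_iff.mp ((le_inf inf_le_left hle).trans h.le))
    rcases tau_cases hG hM hE ht (hbc ▸ card_dvd_of_le hbE) with h2 | h | h
    · obtain ⟨x, hx, hx1⟩ := (bot_or_exists_ne_one _).resolve_left hane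
      exact tau_two_not_fixed hG hM hsτ h2 ((haK.trans hKE).trans hEM) hac (hbE.trans hEM) hbc hbP hx.1 hx1 hx.2
        (hle hx)
    · exact htπ.2.1 (kappa_of_line hG hM h.2.1 h.2.2.2.2 (hbE.trans hEM) hbc hbne)
    · exact htπ.2.1 (kappa_of_line hG hM h.2.1 h.2.2.2 (hbE.trans hEM) hbc hbne)
  have hKU : K ≤ normalizer (U : Set G) := hKE.trans hEU
  have hUnil : Group.IsNilpotent U := OddLocal.CyclicFix.isNilpotent_kernel U K hK1
    (fun e he u hu => (mem_normalizer_iff.mp (hKU he) u).mp hu) fun e he he1 u hu hc =>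
      mem_bot.mp (hfree e he he1 ▸ (⟨hu, mem_centralizer_singleton_iff.mpr hc.symm⟩ :
        u ∈ U ⊓ centralizer ({e} : Set G)))
  have hUc : IsMulCommutative U := nilpotent_comm_of_not_sigma hG hM (hUE.trans hEM) hUnil
    fun t ht hd => (hU.2.1 t ht hd).2.2
  have hUM : IsPiHallOf π U M := ⟨hUE.trans hEM, hU.2.1, fun t ht htπ hd => by
    rw [← relIndex_mul_relIndex _ _ _ hUE hEM] at hd
    rcases ht.dvd_mul.mp hd with h | h
    · exact hU.2.2 t ht htπ h
    · have h1 := relIndex_mul_relIndex ⊥ E M bot_le hEM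
      rw [relIndex_bot_left, relIndex_bot_left, ← (compl_card hE).1,
        Nat.mul_right_inj Nat.card_pos.ne'] at h1
      exact htπ.2.2 (OddLocal.piCoreOf_isPi (sigma M) M t ht (h1 ▸ h))⟩
  refine ⟨hKc, prime_action_of_lines hXK hline, fun P hPK hP e he => ?_, U, hUc, hUM, hKU, hfree⟩
  haveI := Fact.mk hP
  have hKUE : E ≤ K ⊔ U := relIndex_eq_one.mp (Nat.eq_one_iff_not_exists_prime_dvd.mpr fun t ht hd => by
    haveI := Fact.mk ht
    have hσ := compl_not_sigma hG hM hE (hd.trans (relIndex_dvd_card _ _))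
    by_cases hκ : t ∈ kappa M
    · exact hK.2.2 t ht hκ ((hd.trans (relIndex_dvd_of_le_left _ le_sup_left)).trans
        ⟨_, (relIndex_mul_relIndex _ _ _ hKE hEM).symm⟩)
    · exact hU.2.2 t ht ⟨ht, hκ, hσ⟩ (hd.trans (relIndex_dvd_of_le_left _ le_sup_right)))
  have hec : e ∈ centralizer (P : Set G) := centralizes_of_tau_one (hτ _ hP (card_dvd_of_le hPK)).2.2.2.1
    (IsPGroup.of_card (n := 1) (pow_one _).symm) ((hPK.trans hKE).trans hEM) ⟨hEM he.1, he.2⟩
  have hmem : e ∈ (↑(K ⊔ U) : Set G) := hKUE he.1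
  rw [coe_mul_of_left_le_normalizer_right _ _ hKU] at hmem
  obtain ⟨k, hk, u, hu, rfl⟩ := hmem
  obtain ⟨a, ha, ha1⟩ := P.bot_or_exists_ne_one.resolve_left fun h => hP.ne_one (by rw [h, card_bot])
  have hu1 : u ∈ U ⊓ centralizer ({a} : Set G) := ⟨hu, by
    have h := mul_mem (inv_mem (mem_centralizer_singleton_iff.mpr (hcomm k hk a (hPK ha)) :
      k ∈ centralizer ({a} : Set G))) (centralizer_le (Set.singleton_subset_iff.mpr ha) hec)
    simpa using h⟩
  rw [hfree a (hPK ha) ha1, mem_bot] at hu1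
  show k * u ∈ K
  rw [hu1, mul_one]
  exact hk

/-- BG 14.2 (a), (b), (c). -/
theorem kappa_structure (hG : IsMinSimpleOddOrder G) (hM : IsCoatom M) (hK : IsPiHallOf (kappa M) K M)
    (hK1 : K ≠ ⊥) :
    (∀ k ∈ K, k ≠ 1 → sigmaCore M ⊓ centralizer ({k} : Set G) = sigmaCore M ⊓ centralizer (K : Set G)) ∧
      (∃ U : Subgroup G, IsMulCommutative U ∧ IsPiHallOf {t | t.Prime ∧ t ∉ kappa M ∧ t ∉ sigma M} U M ∧
        K ≤ normalizer (U : Set G) ∧ ∀ k ∈ K, k ≠ 1 → U ⊓ centralizer ({k} : Set G) = ⊥) ∧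
      ∀ X : Subgroup G, X ≤ K → (Nat.card X).Prime →
        M ⊓ normalizer (X : Set G) = K ⊔ (sigmaCore M ⊓ centralizer (K : Set G)) ∧
        M ⊓ normalizer (K : Set G) = K ⊔ (sigmaCore M ⊓ centralizer (K : Set G)) ∧
        ∀ Mstar : Subgroup G, IsCoatom Mstar → normalizer (X : Set G) ≤ Mstar → X ≤ sigmaCore Mstar := by
  classical
  obtain ⟨k₀, hk₀, hk₀1⟩ := K.bot_or_exists_ne_one.resolve_left hK1
  obtain ⟨p, hp, hpd⟩ := Nat.exists_prime_and_dvd (fun e => hk₀1 (orderOf_eq_one_iff.mp e))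
  haveI := Fact.mk hp
  obtain ⟨P₀, hP₀K, hP₀⟩ := exists_line (E := K) (hpd.trans (Subgroup.orderOf_dvd_natCard K hk₀))
  obtain ⟨E₀, hE₀, -⟩ := exists_compl_ge hG hM (hK.2.1 p hp (hP₀ ▸ card_dvd_of_le hP₀K)).2.2.1
    (IsPGroup.of_card (n := 1) (by rw [hP₀, pow_one]) : IsPGroup p P₀) (hP₀K.trans hK.1)
  obtain ⟨E, hE, hKE⟩ := exists_compl_ge_pi hG hM hE₀ (Y := K) (fun t ht hd => (hK.2.1 t ht hd).2.2.1) hK.1
  set X₀ := sigmaCore M ⊓ centralizer (K : Set G) with hX₀
  have hstar : ∀ X : Subgroup G, X ≤ K → (Nat.card X).Prime → ∀ H : Subgroup G, IsCoatom H →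
      normalizer (X : Set G) ≤ H → X ≤ sigmaCore H := by
    intro X hXK hX H hH hNH
    haveI := Fact.mk hX
    obtain ⟨hτ, hne⟩ := kappa_line hG hM hE (hK.2.1 _ hX (card_dvd_of_le hXK))
    rcases hτ with h | h
    · exact (tau_one_sigma hG hM h rfl (hXK.trans hK.1) (hne X (hXK.trans hKE) rfl) hH hNH).2
    · exact (tau_three_sigma hG hM hE h (hXK.trans hKE) rfl (hne X (hXK.trans hKE) rfl) hH hNH).2
  -- the two cases
  suffices h : (∀ k ∈ K, k ≠ 1 → sigmaCore M ⊓ centralizer ({k} : Set G) = X₀) ∧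
      (∃ U : Subgroup G, IsMulCommutative U ∧ IsPiHallOf {t | t.Prime ∧ t ∉ kappa M ∧ t ∉ sigma M} U M ∧
        K ≤ normalizer (U : Set G) ∧ ∀ k ∈ K, k ≠ 1 → U ⊓ centralizer ({k} : Set G) = ⊥) ∧
      E ⊓ normalizer (K : Set G) ≤ K ∧
      ∀ X : Subgroup G, X ≤ K → (Nat.card X).Prime →
        K ≤ normalizer (X : Set G) ∧ E ⊓ normalizer (X : Set G) ≤ K by
    obtain ⟨hact, hU, hNK, hlines⟩ := h
    refine ⟨hact, hU, fun X hXK hX => ⟨le_antisymm ?_ ?_, le_antisymm ?_ ?_, hstar X hXK hX⟩⟩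
    · rintro n ⟨hnM, hn⟩
      obtain ⟨a, ha, b, hb, rfl⟩ := exists_normalizer_factor hE (hXK.trans hKE) hnM hn
      refine mul_mem (mem_sup_left ((hlines X hXK hX).2 ha)) (mem_sup_right ?_)
      obtain ⟨x, hx, hx1⟩ := X.bot_or_exists_ne_one.resolve_left fun h => hX.ne_one (by rw [h, card_bot])
      exact (hact x (hXK hx) hx1).le ⟨hb.1, centralizer_le (Set.singleton_subset_iff.mpr hx) hb.2⟩
    · exact sup_le (le_inf hK.1 (hlines X hXK hX).1)
        (le_inf (inf_le_left.trans hE.2.1) (inf_le_right.trans ((centralizer_le hXK).trans (centralizer_le_normalizer _))))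
    · rintro n ⟨hnM, hn⟩
      obtain ⟨a, ha, b, hb, rfl⟩ := exists_normalizer_factor hE hKE hnM hn
      exact mul_mem (mem_sup_left (hNK ha)) (mem_sup_right hb)
    · exact sup_le (le_inf hK.1 le_normalizer)
        (le_inf (inf_le_left.trans hE.2.1) (inf_le_right.trans (centralizer_le_normalizer _)))
  by_cases h3 : ∀ t ∈ kappa M, t ∉ tau3 M
  · obtain ⟨hKc, hact, hlines, hU⟩ := kappa_case_tau_one hG hM hE hK hKE hK1 h3
    refine ⟨hact, hU, fun e he => ?_, fun X hXK hX => ⟨fun k hk => ?_, hlines X hXK hX⟩⟩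
    · refine hlines P₀ hP₀K (hP₀ ▸ hp) ⟨he.1, ?_⟩
      exact Coprime.mem_normalizer_of_conj_smul_eq (OddLocal.eq_of_card_eq_of_le_cyclic (W := K)
        ((pointwise_smul_le_pointwise_smul_iff.mpr hP₀K).trans (Coprime.conj_smul_eq_self he.2).le) hP₀K
        (Coprime.card_conj_smul _ _))
    · exact centralizer_le_normalizer _ (mem_centralizer_iff.mpr fun a ha =>
        congrArg Subtype.val ((IsCyclic.commGroup (α := K)).mul_comm (⟨a, hXK ha⟩ : K) ⟨k, hk⟩))
  · push Not at h3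
    obtain ⟨t, htκ, ht3⟩ := h3
    haveI := Fact.mk ht3.1
    obtain ⟨hEK, hact, -, hlines⟩ := kappa_case_tau_three hG hM hE hK hKE htκ ht3
    subst hEK
    refine ⟨hact, ⟨⊥, ⟨⟨fun a b => Subsingleton.elim _ _⟩⟩, ⟨bot_le, fun u hu hd => absurd (card_bot (G := G) ▸ hd)
      hu.not_dvd_one, fun u hu huπ hd => ?_⟩, ?_, fun _ _ _ => bot_inf_eq _⟩, inf_le_left,
      fun X hXK hX => ⟨hlines X hXK hX, inf_le_left⟩⟩
    · rw [relIndex_bot_left] at hd
      exact huπ.2.1 (hK.2.1 u hu (dvd_compl hE hu hd huπ.2.2))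
    · rw [normalizer_eq_top_iff.mpr inferInstance]
      exact le_top

end Cfsg.Agent.Lib.Uniq
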