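import Cfsg.Agent.Lib.Uniq.PGroup
import Cfsg.Agent.Lib.OddLocal.PStable
import Cfsg.Agent.Lib.Components.Signalizer
set_option autoImplicit false

/-! When does the transitivity hypothesis hold (BG 7.5). -/

namespace Cfsg.Agent.Lib.Uniq

open Subgroup
open scoped Pointwise commutatorElement
open Cfsg.Agent.Lib.OddLocal

lemma normalizer_inf_le_normalizer_commutator {G : Type*} [Group G] (H K : Subgroup G) :
    normalizer (H : Set G) ⊓ normalizer (K : Set G) ≤ normalizer ((⁅H, K⁆ : Subgroup G) : Set G) := by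
  intro g hg
  refine Coprime.mem_normalizer_of_conj_smul_eq ?_
  show (⁅H, K⁆ : Subgroup G).map (MulAut.conj g).toMonoidHom = _
  rw [map_commutator]
  exact congrArg₂ (fun a b => ⁅a, b⁆) (Coprime.conj_smul_eq_self hg.1) (Coprime.conj_smul_eq_self hg.2)

variable {Q : Type*} [Group Q] [Finite Q] {p : ℕ} [hp : Fact p.Prime]

/-- The key step: in a solvable group of odd order with trivial `O_{p'}`, a cubically acting abelian
`p`-subgroup `A` that almost contains its centraliser in `O_p` normalises no nontrivial `p'`-subgroup. -/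
theorem pPrime_eq_bot_of_cubic [Group.IsSolvable Q] (hp2 : p ≠ 2) (hodd : Odd (Nat.card Q))
    (hO : pPrimeCore p Q = ⊥) {A T : Subgroup Q} (hA : IsPGroup p A) (hAc : IsMulCommutative A)
    (hT : (Nat.card T).Coprime p) (hAT : A ≤ normalizer (T : Set Q))
    (hC : pCore p Q ⊓ centralizer (A : Set Q) ≤ A)
    (hq : ∀ x ∈ pCore p Q, ∀ a ∈ A, ∀ a' ∈ A, ⁅⁅x, a⁆, a'⁆ ∈ A) : T = ⊥ := by
  set R := pCore p Q with hR
  have hRp : IsPGroup p R := Hall.isPGroup_pCore p
  set A₀ := R ⊓ A with hA₀
  have hTA₀ : T ≤ centralizer (A₀ : Set Q) := by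
    rw [← commutator_eq_bot_iff_le_centralizer, eq_bot_iff,
      ← Components.inf_eq_bot_of_pGroup_coprime hRp hT]
    exact le_inf ((commutator_mono le_top inf_le_left).trans (commutator_le_right ⊤ R))
      (Coprime.commutator_le_of_le_normalizer' (inf_le_right.trans hAT))
  have key : ∀ n, ∀ H : Subgroup Q, Nat.card H = n → H ≤ R → A ≤ normalizer (H : Set Q) →
      T ≤ normalizer (H : Set Q) → T ≤ centralizer (H : Set Q) := by
    intro n
    induction n using Nat.strong_induction_on with
    | _ n ih =>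
    rintro H rfl hHR hAH hTH
    by_cases hbot : H = ⊥
    · rw [hbot]; intro t _; rw [mem_centralizer_iff]; intro x hx; simp [mem_bot.mp hx]
    have hHp : IsPGroup p H := hRp.to_le hHR
    obtain ⟨k, hk⟩ := IsPGroup.iff_card.mp hHp
    have hcop : (Nat.card T).Coprime (Nat.card H) := hk ▸ hT.pow_right k
    haveI : Group.IsNilpotent H := hHp.isNilpotent
    have hsolv : Group.IsSolvable T ∨ Group.IsSolvable H := Or.inr inferInstance
    have hlt : ∀ L : Subgroup Q, L ≤ H → L ≠ H → Nat.card L < Nat.card H := fun L hL hne =>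
      lt_of_le_of_ne (card_le_of_le hL) fun h => hne (eq_of_le_of_card_ge hL h.ge)
    set D := ⁅H, T⁆ with hD
    have hDH : D ≤ H := Coprime.commutator_le_of_le_normalizer' hTH
    by_cases hDe : D = H
    swap
    · have h := ih _ (hlt D hDH hDe) D rfl (hDH.trans hHR)
        ((le_inf hAH hAT).trans (normalizer_inf_le_normalizer_commutator H T))
        (Coprime.right_le_normalizer_commutator H T)
      have h1 : ⁅⁅H, T⁆, T⁆ = ⊥ := by
        rw [commutator_comm, commutator_eq_bot_iff_le_centralizer]; exact h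
      rw [Coprime.commutator_commutator hTH hcop hsolv, commutator_comm] at h1
      exact commutator_eq_bot_iff_le_centralizer.mp h1
    set M := powCommSub p H with hM
    have hMH : M ≤ H := powCommSub_le p H
    have hHM : H ≤ normalizer (M : Set Q) := le_normalizer.trans (le_normalizer_powCommSub p)
    have hTM : T ≤ normalizer (M : Set Q) := hTH.trans (le_normalizer_powCommSub p)
    have hMc : T ≤ centralizer (M : Set Q) := ih _ (hlt M hMH (powCommSub_ne p hHp hbot)) M rfl
      (hMH.trans hHR) (hAH.trans (le_normalizer_powCommSub p)) hTM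
    -- the quotient `V = H/M` inside `Y = N(M)/M`
    let N := normalizer (M : Set Q)
    let M' : Subgroup N := M.subgroupOf N
    haveI : M'.Normal := normal_in_normalizer
    let π := QuotientGroup.mk' M'
    let V : Subgroup (N ⧸ M') := (H.subgroupOf N).map π
    let Tb : Subgroup (N ⧸ M') := (T.subgroupOf N).map π
    haveI hVc : IsMulCommutative V := by
      refine ⟨⟨?_⟩⟩
      rintro ⟨_, x, hx, rfl⟩ ⟨_, y, hy, rfl⟩
      refine Subtype.ext (QuotientGroup.eq.mpr ?_)
      rw [mem_subgroupOf]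
      refine subset_closure (Or.inr ⟨(y : Q)⁻¹, inv_mem (mem_subgroupOf.mp hy), (x : Q)⁻¹,
        inv_mem (mem_subgroupOf.mp hx), ?_⟩)
      simp [commutatorElement_def, mul_assoc]
    have hVp : IsPGroup p V := (hHp.of_equiv (subgroupOfEquivOfLe hHM).symm).map π
    have hTbV : Tb ≤ normalizer (V : Set (N ⧸ M')) :=
      (map_mono ((comap_mono (f := N.subtype) hTH).trans (le_normalizer_comap _))).trans (le_normalizer_map π)
    have hTbc : (Nat.card Tb).Coprime p := by
      refine Nat.Coprime.coprime_dvd_left ((card_map_dvd _ π)) ?_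
      rwa [Coprime.card_subgroupOf hTM]
    have hcopV : (Nat.card Tb).Coprime (Nat.card V) := by
      obtain ⟨j, hj⟩ := IsPGroup.iff_card.mp hVp
      rw [hj]; exact hTbc.pow_right j
    have hVT : ⁅V, Tb⁆ = V := by
      have e : ⁅H.subgroupOf N, T.subgroupOf N⁆ = H.subgroupOf N := by
        apply map_injective N.subtype_injective
        rw [map_commutator, map_subgroupOf_eq_of_le hHM, map_subgroupOf_eq_of_le hTM]
        exact hDe
      show ⁅(H.subgroupOf N).map π, (T.subgroupOf N).map π⁆ = _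
      rw [← map_commutator, e]
    have hfix : V ⊓ centralizer (Tb : Set (N ⧸ M')) = ⊥ := by
      have h := Coprime.inf_centralizer_inf_commutator (A := Tb) (V := V) hTbV hcopV
      rw [hVT] at h
      rw [eq_bot_iff, ← h]
      exact le_inf le_rfl inf_le_left
    have hquad : ∀ a : N, (a : Q) ∈ A → ∀ v ∈ V, Commute (π a) ⁅π a, v⁆ := by
      rintro a ha _ ⟨x, hx, rfl⟩
      have h0 : π ⁅⁅x, a⁆, a⁆ = 1 := by
        have hmem : ⁅⁅(x : Q), (a : Q)⁆, (a : Q)⁆ ∈ A₀ ∧ ⁅⁅(x : Q), (a : Q)⁆, (a : Q)⁆ ∈ H := by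
          have h1 : ⁅(x : Q), (a : Q)⁆ ∈ H := Coprime.commutator_le_of_le_normalizer' hAH
            (commutator_mem_commutator (mem_subgroupOf.mp hx) ha)
          have h2 : ⁅⁅(x : Q), (a : Q)⁆, (a : Q)⁆ ∈ H := Coprime.commutator_le_of_le_normalizer' hAH
            (commutator_mem_commutator h1 ha)
          exact ⟨⟨hHR h2, hq _ (hHR (mem_subgroupOf.mp hx)) _ ha _ ha⟩, h2⟩
        have h3 : π ⁅⁅x, a⁆, a⁆ ∈ V ⊓ centralizer (Tb : Set (N ⧸ M')) := by
          refine ⟨⟨_, mem_subgroupOf.mpr (by simpa [commutatorElement_def] using hmem.2), rfl⟩,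
            mem_centralizer_iff.mpr ?_⟩
          rintro _ ⟨t, ht, rfl⟩
          rw [← map_mul, ← map_mul]
          congr 1
          refine Subtype.ext ?_
          have := (mem_centralizer_iff.mp (hTA₀ (mem_subgroupOf.mp ht)) _ hmem.1).symm
          simpa [commutatorElement_def] using this
        rwa [hfix, mem_bot] at h3
      rw [map_commutatorElement, map_commutatorElement, commutatorElement_eq_one_iff_commute] at h0
      have h4 := h0.inv_left.symm
      rwa [commutatorElement_inv] at h4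
    have hgen : ∀ t ∈ T, ∀ a ∈ A, ∀ x ∈ H, ⁅x, ⁅t, a⁆⁆ ∈ M := by
      intro t ht a ha x hx
      let t' : N := ⟨t, hTM ht⟩
      let a' : N := ⟨a, hAH.trans (le_normalizer_powCommSub p) ha⟩
      let x' : N := ⟨x, hHM hx⟩
      have haV : π a' ∈ normalizer (V : Set (N ⧸ M')) :=
        ((map_mono ((comap_mono (f := N.subtype) hAH).trans (le_normalizer_comap _))).trans
          (le_normalizer_map π)) ⟨a', ha, rfl⟩
      have htV : π t' ∈ normalizer (V : Set (N ⧸ M')) := hTbV ⟨t', ht, rfl⟩
      set b := π t' * π a' * (π t')⁻¹ with hb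
      have hqb : ∀ v ∈ V, Commute b ⁅b, v⁆ := by
        intro v hv
        have hv' : (π t')⁻¹ * v * π t' ∈ V := by
          simpa using (mem_normalizer_iff.mp (inv_mem htV) v).mp hv
        have h := (hquad a' ha _ hv').map (MulAut.conj (π t')).toMonoidHom
        simp only [MulEquiv.coe_toMonoidHom, MulAut.conj_apply, map_commutatorElement] at h
        simpa [hb, mul_assoc] using h
      have hk : π ⁅t', a'⁆ ∈ closure ({π a', b} : Set (N ⧸ M')) := by
        have e : π ⁅t', a'⁆ = b * (π a')⁻¹ := by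
          simp [hb, commutatorElement_def, map_mul, map_inv, mul_assoc]
        rw [e]
        exact mul_mem (subset_closure (by simp)) (inv_mem (subset_closure (by simp)))
      have htT : ⁅t, a⁆ ∈ T :=
        Coprime.commutator_le_of_le_normalizer' hAT (commutator_mem_commutator ht ha)
      have hkT : π ⁅t', a'⁆ ∈ Tb := ⟨_, mem_subgroupOf.mpr (by
        simpa [commutatorElement_def] using htT), rfl⟩
      have hc := quadratic_centralizes p hp2 hVp haV (mul_mem (mul_mem htV haV) (inv_mem htV))
        (hquad a' ha) hqb ((hodd.of_dvd_nat ((card_quotient_dvd_card M').trans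
          (card_subgroup_dvd_card N))).of_dvd_nat (card_subgroup_dvd_card _)) hk
        (hTbc.coprime_dvd_left (Tb.orderOf_dvd_natCard hkT))
      have h5 : π ⁅x', ⁅t', a'⁆⁆ = 1 := by
        rw [map_commutatorElement, commutatorElement_eq_one_iff_commute]
        exact mem_centralizer_iff.mp hc _ ⟨x', hx, rfl⟩
      have h6 := mem_subgroupOf.mp ((QuotientGroup.eq_one_iff _).mp h5)
      simpa [commutatorElement_def] using h6
    set D2 := ⁅T, A⁆ with hD2
    have hD2T : D2 ≤ T := Coprime.commutator_le_of_le_normalizer' hAT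
    have hD2M : ⁅H, D2⁆ ≤ M := by
      rw [commutator_le]
      intro x hx d hd
      have hdN : D2 ≤ N := hD2T.trans hTM
      let C0 : Subgroup N := (centralizer ({π ⟨x, hHM hx⟩} : Set (N ⧸ M'))).comap π
      have hle : D2 ≤ C0.map N.subtype := by
        rw [hD2, commutator_le]
        intro t ht a ha
        refine ⟨⟨⁅t, a⁆, hdN (commutator_mem_commutator ht ha)⟩, ?_, rfl⟩
        rw [SetLike.mem_coe, mem_comap, mem_centralizer_singleton_iff]
        refine (show Commute _ _ from ?_).eq
        refine Commute.symm ?_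
        rw [← commutatorElement_eq_one_iff_commute, ← map_commutatorElement]
        exact (QuotientGroup.eq_one_iff _).mpr (mem_subgroupOf.mpr (by
          simpa [commutatorElement_def] using hgen t ht a ha x hx))
      obtain ⟨d', hd', rfl⟩ := hle hd
      have h7 : π ⁅(⟨x, hHM hx⟩ : N), d'⁆ = 1 := by
        rw [map_commutatorElement, commutatorElement_eq_one_iff_commute]
        exact (show Commute _ _ from mem_centralizer_singleton_iff.mp (mem_comap.mp hd')).symm
      simpa [commutatorElement_def] using mem_subgroupOf.mp ((QuotientGroup.eq_one_iff _).mp h7)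
    have hcopD : (Nat.card D2).Coprime (Nat.card H) := hcop.coprime_dvd_left (card_dvd_of_le hD2T)
    have hD2c : D2 ≤ centralizer (H : Set Q) := by
      have h1 : ⁅⁅H, D2⁆, D2⁆ = ⊥ := by
        rw [eq_bot_iff]
        refine (commutator_mono hD2M hD2T).trans ?_
        rw [commutator_comm, commutator_eq_bot_iff_le_centralizer.mpr hMc]
      rw [Coprime.commutator_commutator (hD2T.trans hTH) hcopD (Or.inr inferInstance),
        commutator_comm] at h1
      exact commutator_eq_bot_iff_le_centralizer.mp h1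
    have hT1c : T ⊓ centralizer (A : Set Q) ≤ centralizer (H : Set Q) := by
      rintro x ⟨hxT, hxA⟩
      have h := Components.axb hHp hA hAH hxA (hTH hxT)
        (hT.coprime_dvd_left (T.orderOf_dvd_natCard hxT)) (fun y hy =>
          mem_centralizer_singleton_iff.mpr
            (mem_centralizer_iff.mp (hTA₀ hxT) y ⟨hHR hy.1, hC ⟨hHR hy.1, hy.2⟩⟩))
      exact mem_centralizer_iff.mpr fun y hy => mem_centralizer_singleton_iff.mp (h hy)
    obtain ⟨j, hj⟩ := IsPGroup.iff_card.mp hA
    rw [← Coprime.commutator_sup_centralizer (A := A) (K := T) hAT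
      (by rw [hj]; exact hT.symm.pow_left j) (Or.inl (Group.isSolvable_of_comm hAc.is_comm.comm))]
    exact sup_le hD2c hT1c
  have hTR : T ≤ centralizer (R : Set Q) :=
    key _ R rfl le_rfl (by rw [normalizer_eq_top]; exact le_top) (by rw [normalizer_eq_top]; exact le_top)
  have h := le_inf le_rfl (hTR.trans (Hall.centralizer_pCore_le p hO))
  rwa [inf_comm, Components.inf_eq_bot_of_pGroup_coprime hRp hT, le_bot_iff] at h

variable {G : Type*} [Group G] [Finite G]

/-- A self-centralising normal abelian subgroup of a Sylow subgroup is Sylow in its centralizer. -/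
theorem le_of_pGroup_centralizer (P : Sylow p G) {A D : Subgroup G} (hA : A ≤ (P : Subgroup G))
    (hn : (P : Subgroup G) ≤ normalizer (A : Set G))
    (hC : (P : Subgroup G) ⊓ centralizer (A : Set G) = A) (hD : IsPGroup p D)
    (hDC : D ≤ centralizer (A : Set G)) (hAD : A ≤ D) : D = A := by
  refine (eq_of_le_of_card_ge hAD ?_).symm
  set C := centralizer (A : Set G)
  have h := Coprime.card_sup_mul_card_inf_of_le_normalizer (A := (P : Subgroup G)) (N := C)
    (hn.trans (Coprime.normalizer_le_normalizer_centralizer A))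
  rw [hC] at h
  obtain ⟨a, ha⟩ := IsPGroup.iff_card.mp (P.2.to_le hA)
  obtain ⟨b, hb⟩ := IsPGroup.iff_card.mp hD
  obtain ⟨m, hm⟩ := IsPGroup.iff_card.mp P.2
  rw [ha, hb]
  refine Nat.pow_le_pow_right hp.out.pos ?_
  by_contra hlt
  push Not at hlt
  obtain ⟨c, hc⟩ : p ^ b ∣ Nat.card C := hb ▸ card_dvd_of_le hDC
  have hdvd : p ^ (m + (b - a)) ∣ Nat.card G := by
    refine dvd_trans ?_ (card_subgroup_dvd_card ((P : Subgroup G) ⊔ C))
    refine ⟨c, Nat.eq_of_mul_eq_mul_right (pow_pos hp.out.pos a) ?_⟩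
    rw [← ha, h, hm, hc, ha, mul_right_comm, ← pow_add, add_assoc, Nat.sub_add_cancel hlt.le, pow_add]
    ring
  have hfac := hm.symm.trans P.card_eq_multiplicity
  have := (hp.out.pow_dvd_iff_le_factorization Nat.card_pos.ne').mp hdvd
  have := Nat.pow_right_injective hp.out.two_le hfac
  omega

/-- An `A`-invariant `p'`-subgroup of a proper subgroup meeting `P` in index at most `p` is in its `O_{p'}`. -/
theorem le_opc_of_small_index (hG : IsMinSimpleOddOrder G) (P : Sylow p G) {A C T : Subgroup G}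
    (hA1 : A ≠ ⊥) (hA : A ≤ (P : Subgroup G)) (hn : (P : Subgroup G) ≤ normalizer (A : Set G))
    (hC : (P : Subgroup G) ⊓ centralizer (A : Set G) = A) (hCt : C ≠ ⊤) (hAC : A ≤ C)
    (hidx : C.relIndex (P : Subgroup G) ≤ p) (hTC : T ≤ C) (hT : (Nat.card T).Coprime p)
    (hAT : A ≤ normalizer (T : Set G)) : T ≤ opc p C := by
  have hp2 := ne_two_of_pgroup hG (P.2.to_le hA) hA1
  haveI hCs : Group.IsSolvable C := solvable_of_ne_top hG hCt
  have hAc : IsMulCommutative A :=
    le_centralizer_iff_isMulCommutative.mp (hC.ge.trans inf_le_right)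
  set R₀ : Subgroup G := (P : Subgroup G) ⊓ C with hR₀
  obtain ⟨S, hS⟩ := ((P.2.to_le inf_le_left).of_equiv
    (subgroupOfEquivOfLe (inf_le_right : R₀ ≤ C)).symm).exists_le_sylow
  let N := pPrimeCore p C
  let π := QuotientGroup.mk' N
  haveI : Group.IsSolvable (C ⧸ N) := Group.isSolvable_of_surjective (QuotientGroup.mk'_surjective N)
  have hR₀n : (S : Subgroup C) ≤ normalizer ((R₀.subgroupOf C : Subgroup C) : Set C) := by
    have hSG : IsPGroup p ((S : Subgroup C).map C.subtype) := S.2.map _
    obtain ⟨S', hS'⟩ := hSG.exists_le_sylow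
    have h1 : Nat.card (S : Subgroup C) ≤ Nat.card (P : Subgroup G) := by
      rw [P.card_eq_multiplicity, ← S'.card_eq_multiplicity,
        ← card_map_of_injective (f := C.subtype) C.subtype_injective]
      exact card_le_of_le hS'
    have h2 : (R₀.subgroupOf C).relIndex S ≤ p := by
      have e1 := Components.Sig.card_mul_relIndex (H := R₀.subgroupOf C) (K := (S : Subgroup C)) hS
      have e2 := Components.Sig.card_mul_relIndex (H := R₀) (K := (P : Subgroup G)) inf_le_left
      rw [Coprime.card_subgroupOf (inf_le_right : R₀ ≤ C)] at e1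
      have e3 : R₀.relIndex (P : Subgroup G) = C.relIndex (P : Subgroup G) := by
        rw [hR₀, inf_relIndex_left]
      rw [e3] at e2
      have hpos : 0 < Nat.card R₀ := Nat.card_pos
      refine Nat.le_of_mul_le_mul_left ?_ hpos
      rw [e1]
      exact h1.trans (e2.symm.le.trans (Nat.mul_le_mul_left _ hidx))
    haveI : ((R₀.subgroupOf C).subgroupOf (S : Subgroup C)).Normal := by
      obtain ⟨j, hj⟩ := IsPGroup.iff_card.mp S.2
      obtain ⟨i, -, hi⟩ := (Nat.dvd_prime_pow hp.out).mp (hj ▸ relIndex_dvd_card (R₀.subgroupOf C) (S : Subgroup C))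
      rcases i with _ | _ | i
      · rw [pow_zero, relIndex] at hi
        rw [index_eq_one.mp hi]; infer_instance
      · refine normal_of_index_eq_minFac_card ?_
        rw [show ((R₀.subgroupOf C).subgroupOf (S : Subgroup C)).index = p by rw [← relIndex, hi, zero_add, pow_one],
          hj]
        rcases j with _ | j
        · exfalso
          have h9 := relIndex_dvd_card (R₀.subgroupOf C) (S : Subgroup C)
          rw [hi, hj, pow_zero, zero_add, pow_one, Nat.dvd_one] at h9
          exact hp.out.one_lt.ne' h9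
        · rw [Nat.pow_minFac (Nat.succ_ne_zero j), hp.out.minFac_eq]
      · have := hp.out.two_le
        rw [hi, pow_succ, pow_succ] at h2
        have h1' : 1 * p ≤ p ^ i * p := Nat.mul_le_mul_right _ (Nat.one_le_pow _ _ hp.out.pos)
        have h2' := Nat.mul_le_mul h1' this
        have := hp.out.pos
        omega
    exact (normal_subgroupOf_iff_le_normalizer hS).mp inferInstance
  have hTN : (T.subgroupOf C).map π = ⊥ := by
    have hAb : IsPGroup p ((A.subgroupOf C).map π) :=
      ((P.2.to_le hA).of_equiv (subgroupOfEquivOfLe hAC).symm).map π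
    have hS' : pCore p (C ⧸ N) ≤ (S : Subgroup C).map π :=
      Hall.pCore_le_sylow (S.mapSurjective (QuotientGroup.mk'_surjective N))
    have hAS : A.subgroupOf C ≤ (S : Subgroup C) := (comap_mono (le_inf hA hAC)).trans hS
    refine pPrime_eq_bot_of_cubic hp2 ((odd_card hG C).of_dvd_nat (card_quotient_dvd_card N))
      (pPrimeCore_quotient_eq_bot p) hAb ?_ (coprime_image_of_pPrime π (by
        rwa [Coprime.card_subgroupOf hTC])) ?_ ?_ ?_
    · haveI : IsMulCommutative (A.subgroupOf C) := by
        haveI := hAc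
        exact ⟨⟨fun a b => Subtype.ext (Subtype.ext (by
          simpa using congrArg Subtype.val
            (hAc.is_comm.comm (⟨((a : C) : G), mem_subgroupOf.mp a.2⟩ : A) ⟨((b : C) : G), mem_subgroupOf.mp b.2⟩)))⟩⟩
      exact map_isMulCommutative _ π
    · exact (map_mono ((comap_mono (f := C.subtype) hAT).trans (le_normalizer_comap _))).trans
        (le_normalizer_map π)
    · rintro _ ⟨hy, hyc⟩
      obtain ⟨s, hs, rfl⟩ := hS' hy
      have hsC : (s : G) ∈ centralizer (A : Set G) := by
        rw [mem_centralizer_iff]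
        intro a ha
        have h1 : ⁅(⟨a, hAC ha⟩ : C), s⁆ ∈ N := by
          rw [← QuotientGroup.eq_one_iff]
          show π _ = 1
          rw [map_commutatorElement, commutatorElement_eq_one_iff_commute]
          exact mem_centralizer_iff.mp hyc _ (mem_map_of_mem π (mem_subgroupOf.mpr ha))
        have h2 : ⁅(⟨a, hAC ha⟩ : C), s⁆ ∈ (S : Subgroup C) := by
          have hAs := hAS (mem_subgroupOf.mpr (show ((⟨a, hAC ha⟩ : C) : G) ∈ A from ha))
          exact mul_mem (mul_mem (mul_mem hAs hs) (inv_mem hAs)) (inv_mem hs)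
        have h3 : ⁅(⟨a, hAC ha⟩ : C), s⁆ = 1 := by
          have : ⁅(⟨a, hAC ha⟩ : C), s⁆ ∈ (S : Subgroup C) ⊓ N := ⟨h2, h1⟩
          rwa [Components.inf_eq_bot_of_pGroup_coprime S.2 (Hall.coprime_card_pPrimeCore p), mem_bot] at this
        exact congrArg Subtype.val (commutatorElement_eq_one_iff_commute.mp h3).eq
      have hD : ((S : Subgroup C).map C.subtype ⊓ centralizer (A : Set G)) = A := by
        refine le_of_pGroup_centralizer P hA hn hC ((S.2.map _).to_le inf_le_left) inf_le_right
          (le_inf ?_ (comm_le_centralizer hAc))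
        rw [← map_subgroupOf_eq_of_le hAC]
        exact map_mono hAS
      exact ⟨s, mem_subgroupOf.mpr (hD.le ⟨mem_map_of_mem _ hs, hsC⟩), rfl⟩
    · rintro _ hy _ ⟨a, ha, rfl⟩ _ ⟨a', ha', rfl⟩
      obtain ⟨s, hs, rfl⟩ := hS' hy
      rw [← map_commutatorElement, ← map_commutatorElement]
      refine mem_map_of_mem π ?_
      have haR : a ∈ R₀.subgroupOf C := comap_mono (le_inf hA hAC) ha
      have h1 : ⁅s, a⁆ ∈ R₀.subgroupOf C :=
        mul_mem ((mem_normalizer_iff.mp (hR₀n hs) a).mp haR) (inv_mem haR)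
      have hsn : ((⁅s, a⁆ : C) : G) ∈ normalizer (A : Set G) := hn (mem_subgroupOf.mp h1).1
      rw [SetLike.mem_coe, mem_subgroupOf] at ha'
      rw [mem_subgroupOf]
      have h2 := A.mul_mem ((mem_normalizer_iff.mp hsn _).mp ha') (inv_mem ha')
      simpa [commutatorElement_def] using h2
  rw [opc_eq hp.out, ← map_subgroupOf_eq_of_le hTC]
  refine map_mono ?_
  rwa [Subgroup.map_eq_bot_iff, QuotientGroup.ker_mk'] at hTN

theorem transHyp_of_forall_le {A : Subgroup G} (hAp : IsPGroup p A) (hA1 : A ≠ ⊥) (hAt : A ≠ ⊤)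
    (h : ∀ X : Subgroup G, X ≠ ⊤ → A ≤ X → ∀ T : Subgroup G, T ≤ X → (Nat.card T).Coprime p →
      A ≤ normalizer (T : Set G) → T ≤ opc p X) : TransitivityHypothesis A := by
  refine ⟨hA1, hAt, fun X hX hAX => ?_⟩
  rw [primesNotDvd_card hAp hA1]
  exact le_antisymm (sSup_le fun T hT => h X hX hAX T hT.1 (coprime_of_pi hT.2.1) hT.2.2)
    (le_sSup ⟨piCoreOf_le _ X, piCoreOf_isPi _ X, hAX.trans (le_normalizer_piCoreOf _ X)⟩)

theorem transHyp_plength (hG : IsMinSimpleOddOrder G) (hpG : p ∣ Nat.card G) {A : Subgroup G}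
    (hAp : IsPGroup p A) (hAc : IsMulCommutative A)
    (h1 : ∀ x ∈ centralizer (A : Set G), x ^ p = 1 ↔ x ∈ A)
    (h2 : ∀ H : Subgroup G, H ≠ ⊤ → PLengthLE p 1 H) : TransitivityHypothesis A := by
  have hp2 := prime_ne_two_of_dvd hG hpG
  have hA1 : A ≠ ⊥ := by
    rintro rfl
    obtain ⟨g, hg⟩ := exists_prime_orderOf_dvd_card' p hpG
    have := (h1 g (mem_centralizer_iff.mpr fun x hx => by simp [mem_bot.mp hx])).mp
      (hg ▸ pow_orderOf_eq_one g)
    rw [mem_bot] at this
    rw [this, orderOf_one] at hg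
    exact hp.out.one_lt.ne hg
  refine transHyp_of_forall_le hAp hA1 (pgroup_ne_top hG hAp) fun X hX hAX T hTX hT hAT => ?_
  haveI := solvable_of_ne_top hG hX
  rw [opc_eq hp.out, ← map_subgroupOf_eq_of_le hTX]
  refine map_mono (pPrime_le_pPrimeCore_of_maximal_elementary (E := A.subgroupOf X) p hp2 (h2 X hX)
    ⟨⟨fun a b => Subtype.ext (Subtype.ext (by
      simpa using congrArg Subtype.val
        (hAc.is_comm.comm (⟨((a : X) : G), mem_subgroupOf.mp a.2⟩ : A) ⟨((b : X) : G), mem_subgroupOf.mp b.2⟩)))⟩⟩ ?_ ?_ (by rwa [Coprime.card_subgroupOf hTX]) ?_)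
  · intro x hx
    exact Subtype.ext (by simpa using (h1 x (comm_le_centralizer hAc (mem_subgroupOf.mp hx))).mpr (mem_subgroupOf.mp hx))
  · intro B hBc hBp hAB
    refine le_antisymm (fun (b : X) hb => mem_subgroupOf.mpr ((h1 (b : G) (mem_centralizer_iff.mpr fun a ha => ?_)).mp ?_)) hAB
    · exact congrArg Subtype.val (congrArg Subtype.val (hBc.is_comm.comm
        (⟨⟨a, hAX ha⟩, hAB (mem_subgroupOf.mpr ha)⟩ : B) ⟨b, hb⟩))
    · simpa using congrArg Subtype.val (hBp b hb)
  · exact (comap_mono hAT).trans (le_normalizer_comap _)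

/-- BG 7.5(2). -/
theorem transHyp_scn (hG : IsMinSimpleOddOrder G) (P : Sylow p G) {A : Subgroup G}
    (hA : IsSCN (P : Subgroup G) A) (hr : ¬ PRankLE p 1 A) : TransitivityHypothesis A := by
  obtain ⟨hAP, hn, hC⟩ := hA
  have hAp : IsPGroup p A := P.2.to_le hAP
  have hAc : IsMulCommutative A := le_centralizer_iff_isMulCommutative.mp (hC.ge.trans inf_le_right)
  -- the subgroup of elements of order dividing `p`
  let Ω : Subgroup G :=
    { carrier := {x | x ∈ A ∧ x ^ p = 1}
      one_mem' := ⟨one_mem _, one_pow p⟩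
      mul_mem' := fun {a b} ha hb => ⟨mul_mem ha.1 hb.1, by
        rw [Commute.mul_pow (congrArg Subtype.val (hAc.is_comm.comm (⟨a, ha.1⟩ : A) ⟨b, hb.1⟩)),
          ha.2, hb.2, one_mul]⟩
      inv_mem' := fun {a} ha => ⟨inv_mem ha.1, by rw [inv_pow, ha.2, inv_one]⟩ }
  have hΩA : Ω ≤ A := fun x hx => hx.1
  have hΩe : IsElementaryAbelian p Ω :=
    ⟨⟨⟨fun a b => Subtype.ext (by
      simpa using congrArg Subtype.val
        (hAc.is_comm.comm (⟨(a : G), a.2.1⟩ : A) ⟨(b : G), b.2.1⟩))⟩⟩, fun a ha => ha.2⟩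
  have hΩn : (P : Subgroup G) ≤ normalizer (Ω : Set G) := fun g hg =>
    mem_normalizer_iff.mpr fun x =>
      ⟨fun hx => ⟨(mem_normalizer_iff.mp (hn hg) x).mp hx.1, by rw [conj_pow, hx.2]; simp⟩,
       fun hx => ⟨(mem_normalizer_iff.mp (hn hg) x).mpr hx.1, by
        have := hx.2; rw [conj_pow] at this; simpa using this⟩⟩
  obtain ⟨E, hEA, hEe, hEc⟩ := elem_of_not_pRankLE hr
  have hΩcard : p < Nat.card Ω := by
    refine lt_of_lt_of_le ?_ (card_le_of_le (fun x hx => ⟨hEA hx, hEe.2 x hx⟩ : E ≤ Ω))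
    rw [hEc, pow_two]
    exact lt_mul_of_one_lt_left hp.out.pos hp.out.one_lt
  obtain ⟨U, hUΩ, -, hUe, hUc, hUi, -⟩ := exists_small_pair P.2 (hΩA.trans hAP) hΩn hΩe hΩcard
  have hA1 : A ≠ ⊥ := fun h => by
    rw [h] at hΩA
    rw [le_bot_iff.mp hΩA, card_bot] at hΩcard
    have := hp.out.one_lt
    omega
  refine transHyp_of_forall_le hAp hA1 (pgroup_ne_top hG hAp) fun X hX hAX T hTX hT hAT => ?_
  have hcop : (Nat.card U).Coprime (Nat.card T) := by
    rw [hUc]; exact hT.symm.pow_left 2
  have hUA : U ≤ A := hUΩ.trans hΩA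
  rw [← Coprime.fixGen_eq_of_elementary hp.out (fun x hx y hy => elem_comm hUe hx hy) hUe.2 hUc
    (hUA.trans hAT) hcop]
  refine iSup₂_le fun u hu => ?_
  set C := centralizer ({u} : Set G) with hCdef
  have hCt : C ≠ ⊤ := minSimple_centralizer_ne_top hG hu.2
  have hAC : A ≤ C := fun a ha => mem_centralizer_singleton_iff.mpr
    (congrArg Subtype.val (hAc.is_comm.comm (⟨a, ha⟩ : A) ⟨u, hUA hu.1⟩))
  have hW : T ⊓ C ≤ opc p C ⊓ X := le_inf
    (le_opc_of_small_index hG P hA1 hAP hn hC hCt hAC (hUi u hu.1) inf_le_right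
      (hT.coprime_dvd_left (card_dvd_of_le inf_le_left))
      ((le_inf hAT (hAC.trans le_normalizer)).trans inf_normalizer_le_normalizer_inf))
    (inf_le_left.trans hTX)
  refine hW.trans ?_
  let D := opc p C ⊓ X
  change D ≤ opc p X
  haveI := solvable_of_ne_top hG hX
  rw [opc_eq hp.out X]
  refine (map_subgroupOf_eq_of_le (inf_le_right : D ≤ X)).ge.trans ?_
  refine map_mono (Components.le_pPrimeCore_of_local
    (P := zpowers (⟨u, hAX (hUA hu.1)⟩ : X)) Components.pLayer_eq_bot_of_isSolvable ?_ ?_ ?_ ?_)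
  · refine IsPGroup.of_card (n := 1) ?_
    rw [pow_one, Nat.card_zpowers,
      show orderOf (⟨u, hAX (hUA hu.1)⟩ : X) = orderOf u from
        (orderOf_injective X.subtype X.subtype_injective _).symm]
    exact orderOf_eq_prime (hUe.2 u hu.1) hu.2
  · rw [Coprime.card_subgroupOf inf_le_right]
    exact (coprime_opc p C).coprime_dvd_left (card_dvd_of_le inf_le_left)
  · intro x hx
    rw [mem_centralizer_iff]
    rintro y ⟨i, rfl⟩
    refine (Commute.zpow_left ?_ i).eq
    exact Subtype.ext (mem_centralizer_singleton_iff.mp (opc_le p C (mem_subgroupOf.mp hx).1)).symm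
  · intro x hx
    have hxC : (x : G) ∈ C := mem_centralizer_singleton_iff.mpr
      (congrArg Subtype.val (mem_centralizer_iff.mp hx _ (mem_zpowers _))).symm
    exact (le_normalizer_comap X.subtype) (mem_comap.mpr (inf_normalizer_le_normalizer_inf
      ⟨le_normalizer_piCoreOf _ C hxC, le_normalizer x.2⟩))

end Cfsg.Agent.Lib.Uniq
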