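import Cfsg.Agent.Lib.Uniq.EStruct
import Cfsg.Agent.Lib.Uniq.RankTwoPrimes
import Cfsg.Agent.S1392
import Cfsg.Agent.S1396
set_option autoImplicit false

/-! Tools for BG 11-12: `σ(M)`-subgroups and invariant Sylow subgroups. -/

namespace Cfsg.Agent.Lib.Uniq

open Subgroup
open scoped Pointwise commutatorElement

universe u

variable {G : Type u} [Group G] [Finite G] {M H A : Subgroup G} {p q : ℕ}

theorem rank_two_of_not_sigma (hG : IsMinSimpleOddOrder G) (hM : IsCoatom M) (hp : p.Prime)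
    (h : p ∉ sigma M) : PRankLE p 2 M :=
  by_contra fun h2 => h (alpha_subset_sigma hG hM ⟨hp, h2⟩)

lemma coatom_ne_top (hM : IsCoatom M) : M ≠ ⊤ := hM.1

theorem normalizer_eq_of_normal (hG : IsMinSimpleOddOrder G) (hM : IsCoatom M) {N : Subgroup G}
    (hN : N ≠ ⊥) (hNM : N ≤ M) (h : M ≤ normalizer (N : Set G)) : normalizer (N : Set G) = M := by
  refine (hM.le_iff.mp h).resolve_left fun e => ?_
  rcases hG.2.1.eq_bot_or_eq_top_of_normal N (normalizer_eq_top_iff.mp e) with h1 | h1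
  · exact hN h1
  · exact ne_top_of_le hM hNM h1

/-- Some prime lies in `σ(M)`. -/
theorem sigma_nonempty (hG : IsMinSimpleOddOrder G) (hM : IsCoatom M) (hM1 : M ≠ ⊥) :
    ∃ q : ℕ, q.Prime ∧ q ∈ sigma M := by
  classical
  haveI : Group.IsSolvable ↥M := solvable_of_ne_top hG hM.1
  by_cases hα : ∃ q : ℕ, q.Prime ∧ q ∈ alpha M
  · obtain ⟨q, hq, hqα⟩ := hα
    exact ⟨q, hq, alpha_subset_sigma hG hM hqα⟩
  push Not at hα
  have hne : (Nat.card M).primeFactors.Nonempty := by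
    rw [Nat.nonempty_primeFactors]
    by_contra h
    exact hM1 (card_eq_one.mp (by have := Nat.card_pos (α := M); omega))
  set q := (Nat.card M).primeFactors.max' hne
  have hqmem : q ∈ (Nat.card M).primeFactors := (Nat.card M).primeFactors.max'_mem hne
  have hq := Nat.prime_of_mem_primeFactors hqmem
  haveI := Fact.mk hq
  have hqM := Nat.dvd_of_mem_primeFactors hqmem
  obtain ⟨S⟩ : Nonempty (Sylow q ↥M) := inferInstance
  let I := {r : ℕ // r.Prime ∧ r ∣ Nat.card M ∧ r ≠ q}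
  let N : Subgroup ↥M := ⨅ i : I, pPrimeCore i.1 ↥M
  haveI : N.Normal := normal_iInf_normal fun i => Hall.pPrimeCore_normal i.1
  have hSN : (S : Subgroup ↥M) ≤ N := le_iInf fun i => by
    obtain ⟨hr, hrM, hrq⟩ := i.2
    haveI := Fact.mk hr
    haveI := Hall.pPrimeCore_normal (G := ↥M) i.1
    obtain ⟨R⟩ : Nonempty (Sylow i.1 ↥M) := inferInstance
    have hrk : PRankLE i.1 2 ↥(R : Subgroup ↥M) := Hall.prankLE_of_injective _ (R : Subgroup ↥M).subtype_injective
      (by_contra fun h => hα i.1 hr ⟨hr, h⟩)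
    obtain ⟨k, hk⟩ := IsPGroup.iff_card.mp S.2
    refine le_of_coprime_index (hk ▸ Nat.Coprime.pow_left k (hq.coprime_iff_not_dvd.mpr fun hd => ?_))
    have h1 := (Hall.p_structure_rank_two (odd_card hG M) i.1 hrM R hrk).1 q hq hd
    have h2 : i.1 ≤ q := Finset.le_max' _ _ (Nat.mem_primeFactors.mpr ⟨hr, hrM, Nat.card_pos.ne'⟩)
    exact hrq (le_antisymm h2 h1)
  have hNq : ∀ r : ℕ, r.Prime → r ∣ Nat.card N → r = q := fun r hr hd => by
    by_contra hne'
    have hle : N ≤ pPrimeCore r ↥M :=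
      iInf_le (fun i : I => pPrimeCore i.1 ↥M) ⟨r, hr, hd.trans N.card_subgroup_dvd_card, hne'⟩
    exact Hall.not_dvd_card_pPrimeCore hr (hd.trans (card_dvd_of_le hle))
  have hNp : IsPGroup q N := IsPGroup.of_card (n := (Nat.card N).primeFactorsList.length)
    (Nat.eq_prime_pow_of_unique_prime_dvd Nat.card_pos.ne' fun {d} hd hdd => hNq d hd hdd)
  have hNS : N = (S : Subgroup ↥M) := S.3 hNp hSN
  set T := (S : Subgroup ↥M).map M.subtype
  have hT1 : T ≠ ⊥ := fun e =>
    S.ne_bot_of_dvd_card hqM ((Subgroup.map_eq_bot_iff_of_injective _ M.subtype_injective).mp e)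
  have hMT : M ≤ normalizer (T : Set G) := by
    refine (normal_subgroupOf_iff_le_normalizer (map_subtype_le _)).mp ?_
    rw [show T.subgroupOf M = N from (comap_map_eq_self_of_injective M.subtype_injective _).trans hNS.symm]
    infer_instance
  exact ⟨q, hq, hq, hqM, S, (normalizer_eq_of_normal hG hM hT1 (map_subtype_le _) hMT).le⟩

theorem sigma_dvd_core (hG : IsMinSimpleOddOrder G) (hM : IsCoatom M) [hq : Fact q.Prime]
    (h : q ∈ sigma M) : q ∣ Nat.card (sigmaCore M) := by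
  have h1 : q ∣ Nat.card (sigmaCore M) * (sigmaCore M).relIndex M :=
    h.2.1.trans (Hall.card_mul_relIndex' (OddLocal.piCoreOf_le _ M)).symm.dvd
  exact (hq.out.dvd_mul.mp h1).resolve_right (sigmaCore_hall hG hM h).1

theorem sigmaCore_ne_bot (hG : IsMinSimpleOddOrder G) (hM : IsCoatom M) (hM1 : M ≠ ⊥) : sigmaCore M ≠ ⊥ := by
  obtain ⟨q, hq, hqσ⟩ := sigma_nonempty hG hM hM1
  haveI := Fact.mk hq
  intro e
  have h := sigma_dvd_core hG hM hqσ
  rw [e, card_bot] at h
  exact hq.not_dvd_one h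

theorem le_sigmaCore (hG : IsMinSimpleOddOrder G) (hM : IsCoatom M) {Y : Subgroup G} (hYM : Y ≤ M)
    (hY : ∀ r : ℕ, r.Prime → r ∣ Nat.card Y → r ∈ sigma M) : Y ≤ sigmaCore M := by
  have h : Y.subgroupOf M ≤ piCore (sigma M) ↥M := le_of_coprime_index <|
    Nat.coprime_of_dvd fun r hr h1 h2 => by
      haveI := Fact.mk hr
      rw [Coprime.card_subgroupOf hYM] at h1
      exact not_dvd_index_piCore hG hM (alpha_subset_sigma hG hM) le_rfl (hY r hr h1) h2
  rw [← map_subgroupOf_eq_of_le hYM]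
  exact map_mono h

theorem pgroup_le_sigmaCore (hG : IsMinSimpleOddOrder G) (hM : IsCoatom M) [hq : Fact q.Prime]
    (h : q ∈ sigma M) {Y : Subgroup G} (hY : IsPGroup q Y) (hYM : Y ≤ M) : Y ≤ sigmaCore M := by
  refine le_sigmaCore hG hM hYM fun r hr hd => ?_
  obtain ⟨j, hj⟩ := IsPGroup.iff_card.mp hY
  rw [hj] at hd
  exact (Nat.prime_dvd_prime_iff_eq hr hq.out).mp (hr.dvd_of_dvd_pow hd) ▸ h

/-- Every Sylow subgroup of `G` inside `M` for a prime in `σ(M)` has its normaliser in `M`. -/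
theorem sylow_normalizer_le (hG : IsMinSimpleOddOrder G) (hM : IsCoatom M) [hq : Fact q.Prime]
    (h : q ∈ sigma M) (P : Sylow q G) (hPM : (P : Subgroup G) ≤ M) :
    normalizer ((P : Subgroup G) : Set G) ≤ M := by
  obtain ⟨P₀, hP₀M, hN⟩ := exists_sigma_sylow h
  obtain ⟨m, hm⟩ := MulAction.exists_smul_eq ↥M (P₀.subtype hP₀M) (P.subtype hPM)
  have he : MulAut.conj (m : G) • (P₀ : Subgroup G) = (P : Subgroup G) := by
    have h1 := congrArg (fun T : Sylow q ↥M => (T : Subgroup ↥M).map M.subtype) hm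
    simp only [Sylow.smul_subtype, Sylow.coe_subtype, map_subgroupOf_eq_of_le hPM] at h1
    rw [map_subgroupOf_eq_of_le] at h1
    · exact h1
    exact (pointwise_smul_le_pointwise_smul_iff.mpr hP₀M).trans
      (Coprime.conj_smul_eq_self (le_normalizer m.2)).le
  intro g hg
  have h1 : (m : G)⁻¹ * g * m ∈ normalizer ((P₀ : Subgroup G) : Set G) := by
    refine Coprime.mem_normalizer_of_conj_smul_eq ?_
    rw [map_mul, map_mul, mul_smul, mul_smul, he, Coprime.conj_smul_eq_self hg, ← he, map_inv, inv_smul_smul]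
  have h2 := M.mul_mem (M.mul_mem m.2 (hN h1)) (M.inv_mem m.2)
  simpa [mul_assoc] using h2

/-- Sylow subgroups of `G` inside `M` are conjugate in `M`. -/
theorem exists_conj_sylow [hq : Fact q.Prime] {P R : Sylow q G} (hP : (P : Subgroup G) ≤ M)
    (hR : (R : Subgroup G) ≤ M) : ∃ m ∈ M, MulAut.conj m • (P : Subgroup G) = (R : Subgroup G) := by
  obtain ⟨m, hm⟩ := MulAction.exists_smul_eq ↥M (P.subtype hP) (R.subtype hR)
  refine ⟨m, m.2, ?_⟩
  have h1 := congrArg (fun T : Sylow q ↥M => (T : Subgroup ↥M).map M.subtype) hm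
  simp only [Sylow.smul_subtype, Sylow.coe_subtype, map_subgroupOf_eq_of_le hR] at h1
  rw [map_subgroupOf_eq_of_le] at h1
  · exact h1
  exact (pointwise_smul_le_pointwise_smul_iff.mpr hP).trans
    (Coprime.conj_smul_eq_self (le_normalizer m.2)).le

/-- A prime in `α(M) ∩ σ(H)` makes the maximal subgroups conjugate. -/
theorem conj_of_alpha_sigma (hG : IsMinSimpleOddOrder G) (hM : IsCoatom M) (hH : IsCoatom H) [hq : Fact q.Prime]
    (hα : q ∈ alpha M) (hσ : q ∈ sigma H) : ∃ g : G, H = MulAut.conj g • M := by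
  obtain ⟨E, hEM, hE, hEc⟩ := elem_of_not_pRankLE hα.2
  obtain ⟨T, hT⟩ := (elem_isPGroup hE).exists_le_sylow
  obtain ⟨P, hPH, -⟩ := exists_sigma_sylow hσ
  obtain ⟨g, hg⟩ := MulAction.exists_smul_eq G T P
  refine ⟨g, ?_⟩
  have hU := unique_elem_three hG (narrowFitting hG) (E := E.map (MulAut.conj g).toMonoidHom)
    (elem_map _ hE) (by rw [card_map_of_injective (MulAut.conj g).injective, hEc])
  refine max_eq hU hH (coatom_smul g hM) ?_ ?_
  · refine (map_mono hT).trans (le_trans (le_of_eq ?_) hPH)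
    rw [← hg]; rfl
  · exact map_mono hEM

theorem isPGroup_ne_dvd [hp : Fact p.Prime] {P : Subgroup G} (hP : IsPGroup p P) {r : ℕ} (hr : r.Prime)
    (hd : r ∣ Nat.card P) : r = p := by
  obtain ⟨j, hj⟩ := IsPGroup.iff_card.mp hP
  rw [hj] at hd
  exact (Nat.prime_dvd_prime_iff_eq hr hp.out).mp (hr.dvd_of_dvd_pow hd)

theorem coprime_pgroups [hp : Fact p.Prime] [hq : Fact q.Prime] (hpq : q ≠ p) {A Y : Subgroup G}
    (hA : IsPGroup p A) (hY : IsPGroup q Y) : (Nat.card A).Coprime (Nat.card Y) :=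
  Nat.coprime_of_dvd fun r hr h1 h2 =>
    hpq ((isPGroup_ne_dvd hY hr h2).symm.trans (isPGroup_ne_dvd hA hr h1))

/-- An `A`-invariant Sylow subgroup of `G` inside `M` above a given invariant subgroup. -/
theorem exists_invariant_sylow_sigma (hG : IsMinSimpleOddOrder G) (hM : IsCoatom M) [hp : Fact p.Prime]
    [hq : Fact q.Prime] (hσ : q ∈ sigma M) (hpσ : p ∉ sigma M) {A Y : Subgroup G}
    (hA : IsPGroup p A) (hAM : A ≤ M) (hY : IsPGroup q Y) (hYM : Y ≤ M) (hAY : A ≤ normalizer (Y : Set G)) :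
    ∃ Q : Sylow q G, (Q : Subgroup G) ≤ M ∧ Y ≤ (Q : Subgroup G) ∧ A ≤ normalizer ((Q : Subgroup G) : Set G) := by
  have hcop : (Nat.card A).Coprime (Nat.card (sigmaCore M)) := Nat.coprime_of_dvd fun r hr h1 h2 =>
    hpσ (isPGroup_ne_dvd hA hr h1 ▸ OddLocal.piCoreOf_isPi (sigma M) M r hr h2)
  haveI := solvable_of_ne_top hG (pgroup_ne_top hG hA)
  obtain ⟨S, hYS, hAS⟩ := Coprime.exists_invariant_sylow_ge (K := sigmaCore M) (hAM.trans (OddLocal.le_normalizer_piCoreOf _ M))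
    hcop (Or.inl inferInstance) (pgroup_le_sigmaCore hG hM hσ hY hYM) hY hAY
  obtain ⟨P, hP⟩ := (S.2.map (sigmaCore M).subtype).exists_le_sylow
  have heq : (S : Subgroup ↥(sigmaCore M)).map (sigmaCore M).subtype = (P : Subgroup G) := by
    refine eq_of_le_of_card_ge hP ?_
    rw [card_map_of_injective (sigmaCore M).subtype_injective, S.card_eq_multiplicity, P.card_eq_multiplicity,
      ← card_mul_index (sigmaCore M), Nat.factorization_mul Nat.card_pos.ne' index_ne_zero_of_finite,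
      Finsupp.add_apply, Nat.factorization_eq_zero_of_not_dvd (n := (sigmaCore M).index) (sigmaCore_hall hG hM hσ).2,
      add_zero]
  exact ⟨P, heq ▸ (map_subtype_le _).trans (OddLocal.piCoreOf_le _ M), heq ▸ hYS, heq ▸ hAS⟩

theorem elem_sup_zpowers [Fact p.Prime] (hA : IsElementaryAbelian p A) {x : G}
    (hx : x ^ p = 1) (hc : ∀ a ∈ A, a * x = x * a) : IsElementaryAbelian p (A ⊔ zpowers x) :=
  Thompson.isElementaryAbelian_sup hA (Thompson.isElementaryAbelian_zpowers hx) fun a ha b hb => by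
    obtain ⟨i, rfl⟩ := mem_zpowers_iff.mp hb
    exact ((show Commute a x from hc a ha).zpow_right i).eq

theorem mem_of_commute_maximal [Fact p.Prime] (hA : IsElementaryAbelian p A)
    (hmax : ∀ B : Subgroup G, IsElementaryAbelian p B → A ≤ B → B = A) {x : G} (hx : x ^ p = 1)
    (hc : ∀ a ∈ A, a * x = x * a) : x ∈ A :=
  hmax _ (elem_sup_zpowers hA hx hc) le_sup_left ▸ mem_sup_right (mem_zpowers x)

/-- A maximal elementary abelian subgroup of order `p²` satisfies the transitivity hypothesis. -/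
theorem transitivity_maximal (hG : IsMinSimpleOddOrder G) [hp : Fact p.Prime] (hA : IsElementaryAbelian p A)
    (hAc : Nat.card A = p ^ 2) (hmax : ∀ B : Subgroup G, IsElementaryAbelian p B → A ≤ B → B = A) :
    TransitivityHypothesis A :=
  S1396.result hG p ((Dvd.intro p (pow_two p).symm).trans (hAc ▸ A.card_subgroup_dvd_card)) A
    (elem_isPGroup hA) hA.1 (Or.inl ⟨fun x hx => ⟨fun h => mem_of_commute_maximal hA hmax h
      fun a ha => mem_centralizer_iff.mp hx a ha, fun h => hA.2 x h⟩,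
      fun _ hH => pLengthLE_one_all hG p hH⟩)

theorem not_dvd_card_of_ne [hp : Fact p.Prime] [hq : Fact q.Prime] (hqp : q ≠ p) {A : Subgroup G}
    (hA : IsPGroup p A) : ¬ q ∣ Nat.card A := fun h => hqp (isPGroup_ne_dvd hA hq.out h)

theorem sylow_mem_maxInv [hq : Fact q.Prime] (R : Sylow q G)
    (hR : A ≤ normalizer ((R : Subgroup G) : Set G)) : (R : Subgroup G) ∈ maxInvSubgroups ⊤ A {q} := by
  refine ⟨⟨le_top, fun r hr hd => isPGroup_ne_dvd R.2 hr hd, hR⟩, fun T hT hle => R.3 ?_ hle⟩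
  refine IsPGroup.of_card (n := (Nat.card T).primeFactorsList.length) ?_
  exact Nat.eq_prime_pow_of_unique_prime_dvd Nat.card_pos.ne' fun {d} hd hdd => hT.2.1 d hd hdd

/-- Transitivity for two invariant Sylow subgroups meeting a common proper subgroup. -/
theorem invariant_sylow_conj (hG : IsMinSimpleOddOrder G) [hp : Fact p.Prime] [hq : Fact q.Prime] (hqp : q ≠ p)
    (hA : IsElementaryAbelian p A) (hAc : Nat.card A = p ^ 2)
    (hmax : ∀ B : Subgroup G, IsElementaryAbelian p B → A ≤ B → B = A) {R₁ R₂ : Sylow q G}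
    (h₁ : A ≤ normalizer ((R₁ : Subgroup G) : Set G)) (h₂ : A ≤ normalizer ((R₂ : Subgroup G) : Set G))
    {L : Subgroup G} (hL : L ≠ ⊤) (hAL : A ≤ L) (hL₁ : L ⊓ (R₁ : Subgroup G) ≠ ⊥) (hL₂ : L ⊓ (R₂ : Subgroup G) ≠ ⊥) :
    ∃ k ∈ centralizer (A : Set G), (R₂ : Subgroup G) = MulAut.conj k • (R₁ : Subgroup G) := by
  obtain ⟨k, hk, e⟩ := S1392.result hG A (transitivity_maximal hG hA hAc hmax) q hq.out
    (not_dvd_card_of_ne hqp (elem_isPGroup hA)) _ _ (sylow_mem_maxInv R₁ h₁) (sylow_mem_maxInv R₂ h₂)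
    L hL hAL hL₁ hL₂
  exact ⟨k, OddLocal.piCoreOf_le _ _ hk, e⟩

end Cfsg.Agent.Lib.Uniq
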