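import Cfsg.Agent.Lib.Uniq.TauTwoUnique
import Cfsg.Agent.Lib.Hall.OddRankTwo
import Cfsg.Agent.S1446
set_option autoImplicit false

/-! BG 12.8 (normality of abelian `τ₂`-Sylow subgroups) and the steps towards BG 12.16. -/

namespace Cfsg.Agent.Lib.Uniq

open Subgroup
open scoped Pointwise commutatorElement

universe u

variable {G : Type u} [Group G] [Finite G] {M A E : Subgroup G} {p : ℕ}

/-- A line fixed by an element outside `M` normalising it is good. -/
theorem good_of_normalized (hG : IsMinSimpleOddOrder G) (hM : IsCoatom M) [hp : Fact p.Prime] (hpσ : p ∉ sigma M)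
    (hAM : A ≤ M) (hA : IsElementaryAbelian p A) (hAc : Nat.card A = p ^ 2) {Y : Subgroup G} (hYA : Y ≤ A)
    (hY1 : Y ≠ ⊥) {g : G} (hg : g ∈ normalizer (Y : Set G)) (hgM : g ∉ M) :
    sigmaCore M ⊓ centralizer (Y : Set G) = ⊥ := by
  by_contra h
  obtain ⟨hle, huniq⟩ := centralizer_line_unique hG hM hpσ hAM hA hAc hYA hY1 h
  have hle' : centralizer (Y : Set G) ≤ MulAut.conj g • M := by
    rw [← Coprime.conj_smul_eq_self (Coprime.normalizer_le_normalizer_centralizer Y hg)]
    exact pointwise_smul_le_pointwise_smul_iff.mpr hle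
  have hgN : g ∈ normalizer (M : Set G) :=
    Coprime.mem_normalizer_of_conj_smul_eq (huniq _ (coatom_smul _ hM) hle')
  have hA1 : A ≠ ⊥ := ne_bot_of_le_ne_bot hY1 hYA
  rw [normalizer_eq_of_normal hG hM (ne_bot_of_le_ne_bot hA1 hAM) le_rfl le_normalizer] at hgN
  exact hgM hgN

variable [hp : Fact p.Prime]

/-- BG 12.8(b): abelian Sylow `p`-subgroups of `G` for `p ∈ τ₂(M)` are normal in the complement. -/
theorem exists_normal_sylow (hG : IsMinSimpleOddOrder G) (hM : IsCoatom M) (hE : IsComplIn E (sigmaCore M) M)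
    (hpσ : p ∉ sigma M) (hS : ∀ S : Sylow p G, IsMulCommutative (S : Subgroup G))
    (hA : IsElementaryAbelian p A) (hAE : A ≤ E) (hAc : Nat.card A = p ^ 2) :
    ∃ T : Sylow p G, A ≤ (T : Subgroup G) ∧ (T : Subgroup G) ≤ E ∧
      E ≤ normalizer ((T : Subgroup G) : Set G) ∧
      (T : Subgroup G) ≤ centralizer (A : Set G) ∧
      (∀ x ∈ (T : Subgroup G), x ^ p = 1 → x ∈ A) ∧
      (T : Subgroup G).subgroupOf E ≤ fittingSubgroup ↥E ∧
      ∃ g ∈ normalizer ((T : Subgroup G) : Set G), g ∈ normalizer (A : Set G) ∧ g ∉ M := by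
  classical
  have hAM := hAE.trans hE.1
  obtain ⟨X₀, hX₀⟩ := exists_exc hG hM hpσ hAM hA hAc
  obtain ⟨hC, hCE, -⟩ := normalizer_inf_eq_compl hG hM hE hpσ hAE hA hAc
  obtain ⟨T, hAT⟩ := (elem_isPGroup hA).exists_le_sylow
  have hTC : (T : Subgroup G) ≤ centralizer (A : Set G) := fun t ht => mem_centralizer_iff.mpr fun a ha =>
    congrArg Subtype.val ((hS T).is_comm.comm (⟨a, hAT ha⟩ : (T : Subgroup G)) ⟨t, ht⟩)
  have hTE : (T : Subgroup G) ≤ E := (hTC.trans hC).trans hCE.le
  have hTM : (T : Subgroup G) ≤ M := hTE.trans hE.1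
  have hTA : ∀ x ∈ (T : Subgroup G), x ^ p = 1 → x ∈ A := fun x hx hxp =>
    mem_of_commute_maximal hA (hX₀.hmax hG) hxp fun a ha => mem_centralizer_iff.mp (hTC hx) a ha
  have hAT' : normalizer ((T : Subgroup G) : Set G) ≤ normalizer (A : Set G) := fun h hh => by
    refine Coprime.mem_normalizer_of_conj_smul_eq (eq_of_le_of_card_ge ?_ (Coprime.card_conj_smul h A).ge)
    rintro y ⟨w, hw, rfl⟩
    refine hTA _ ((mem_normalizer_iff.mp hh w).mp (hAT hw)) ?_
    show (h * w * h⁻¹) ^ p = 1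
    rw [conj_pow, hA.2 w hw]; group
  haveI := solvable_of_ne_top hG (ne_top_of_le hM hE.1)
  have hEA := (le_normalizer_compl hG hM hE hpσ hAE hA hAc).1
  -- `T` centralises every `O_q(E)`
  have hTq : ∀ q : Nat.Primes, (T : Subgroup G) ≤ centralizer (((pCore (q : ℕ) ↥E).map E.subtype : Subgroup G) : Set G) := by
    rintro ⟨q, hq⟩
    haveI := Fact.mk hq
    show (T : Subgroup G) ≤ centralizer (((pCore q ↥E).map E.subtype : Subgroup G) : Set G)
    set Y := (pCore q ↥E).map E.subtype with hY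
    have hYq : IsPGroup q Y := (Hall.isPGroup_pCore q).map _
    have hYE : Y ≤ E := map_subtype_le _
    have hEY : E ≤ normalizer (Y : Set G) := by
      refine (normal_subgroupOf_iff_le_normalizer hYE).mp ?_
      rw [hY, subgroupOf, comap_map_eq_self_of_injective E.subtype_injective]
      infer_instance
    by_cases hqp : q = p
    · subst hqp
      refine le_centralizer_iff.mp ?_
      have hYT : Y ≤ (T : Subgroup G) := by
        have h : pCore q ↥E ≤ ((T.subtype hTE : Sylow q E) : Subgroup ↥E) := Hall.pCore_le_sylow _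
        exact (map_mono h).trans (le_of_eq (by rw [Sylow.coe_subtype, map_subgroupOf_eq_of_le hTE]))
      exact fun y hy => mem_centralizer_iff.mpr fun t ht =>
        congrArg Subtype.val ((hS T).is_comm.comm (⟨t, ht⟩ : (T : Subgroup G)) ⟨y, hYT hy⟩)
    by_cases hY1 : Y = ⊥
    · intro t _
      refine mem_centralizer_iff.mpr fun y hy => ?_
      rw [SetLike.mem_coe, hY1, mem_bot] at hy
      rw [hy, one_mul, mul_one]
    have hqσ : q ∉ sigma M := by
      obtain ⟨j, hj⟩ := IsPGroup.iff_card.mp hYq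
      rcases Nat.eq_zero_or_pos j with h | h
      · exact absurd (card_eq_one.mp (hj.trans (by rw [h, pow_zero]))) hY1
      · exact compl_not_sigma hG hM hE (((dvd_pow_self q h.ne').trans hj.symm.dvd).trans (card_dvd_of_le hYE))
    have hAY : A ≤ centralizer (Y : Set G) :=
      centralizes_of_not_sigma hG hM hpσ hAM hA hAc hqp hqσ hYq (hYE.trans hE.1) (hAE.trans hEY)
    -- `N(A) ≤ N(Y)`
    set C := centralizer (A : Set G)
    have hCE' : C ≤ E := hC.trans hCE.le
    have hYC : Y ≤ C := le_centralizer_iff.mp hAY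
    have hEC : E ≤ normalizer (C : Set G) := hEA.trans (Coprime.normalizer_le_normalizer_centralizer A)
    set Z := (pCore q ↥C).map C.subtype with hZ
    have hZY : Z ≤ Y := by
      have hZn : E ≤ normalizer (Z : Set G) :=
        hEC.trans (PL.normalizer_le_normalizer_map_char C (pCore q ↥C))
      have hZE : Z ≤ E := (map_subtype_le _).trans hCE'
      haveI : (Z.subgroupOf E).Normal := (normal_subgroupOf_iff_le_normalizer hZE).mpr hZn
      rw [← map_subgroupOf_eq_of_le hZE]
      exact map_mono (Hall.le_pCore (((Hall.isPGroup_pCore q).map C.subtype).comap_subtype))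
    have hYZ : Y ≤ Z := by
      haveI : (Y.subgroupOf C).Normal := (normal_subgroupOf_iff_le_normalizer hYC).mpr (hCE'.trans hEY)
      rw [← map_subgroupOf_eq_of_le hYC]
      exact map_mono (Hall.le_pCore hYq.comap_subtype)
    have hNA : normalizer (A : Set G) ≤ normalizer (Y : Set G) := by
      rw [show Y = Z from le_antisymm hYZ hZY]
      exact (Coprime.normalizer_le_normalizer_centralizer A).trans
        (PL.normalizer_le_normalizer_map_char C (pCore q ↥C))
    set N := normalizer (Y : Set G)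
    have hTN : (T : Subgroup G) ≤ ⁅N, N⁆ :=
      (sylow_le_commutator_normalizer hG T).trans (commutator_mono (hAT'.trans hNA) (hAT'.trans hNA))
    have hNne : N ≠ ⊤ := fun e => by
      rcases hG.2.1.eq_bot_or_eq_top_of_normal Y (normalizer_eq_top_iff.mp e) with h1 | h1
      · exact hY1 h1
      · exact ne_top_of_le hM (hYE.trans hE.1) h1
    haveI := solvable_of_ne_top hG hNne
    have hr : Cfsg.PRankLE q 2 ↥Y := Hall.prankLE_of_injective (inclusion (hYE.trans hE.1))
      (inclusion_injective _) (rank_two_of_not_sigma hG hM hq hqσ)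
    have hq2 : q ≠ 2 := fun e => hG.1.not_two_dvd_nat (e ▸ by
      obtain ⟨j, hj⟩ := IsPGroup.iff_card.mp hYq
      rcases Nat.eq_zero_or_pos j with h | h
      · exact absurd (card_eq_one.mp (hj.trans (by rw [h, pow_zero]))) hY1
      · exact ((dvd_pow_self q h.ne').trans hj.symm.dvd).trans Y.card_subgroup_dvd_card)
    intro t ht
    have h1 := hTN ht
    rw [← map_subtype_commutator] at h1
    obtain ⟨d, hd, rfl⟩ := h1
    let f : N →* MulAut Y := Coprime.conjHom le_rfl
    obtain ⟨k, hk⟩ := Hall.commutator_act_pPow hq2 hYq hr (hG.1.of_dvd_nat N.card_subgroup_dvd_card) f d hd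
    obtain ⟨j, hj⟩ := IsPGroup.iff_orderOf.mp T.2 (⟨(d : G), ht⟩ : (T : Subgroup G))
    have hdo : orderOf d = p ^ j := by
      rw [← orderOf_coe d]; exact (orderOf_coe (⟨(d : G), ht⟩ : (T : Subgroup G))).trans hj
    have hone : f d = 1 := orderOf_eq_one_iff.mp (Nat.eq_one_of_dvd_coprimes
      (((Nat.coprime_primes hp.out hq).mpr (Ne.symm hqp)).pow j k)
      (hdo ▸ orderOf_map_dvd f d) (orderOf_dvd_of_pow_eq_one hk))
    refine mem_centralizer_iff.mpr fun y hy => ?_
    have h := congrArg (fun φ : MulAut Y => ((φ ⟨y, hy⟩ : Y) : G)) hone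
    simp only [f, Coprime.coe_conjHom_apply, MulAut.one_apply] at h
    exact (mul_inv_eq_iff_eq_mul.mp h).symm
  have hTF : (T : Subgroup G).subgroupOf E ≤ fittingSubgroup ↥E := by
    refine le_trans ?_ (Hall.centralizer_fittingSubgroup_le (G := ↥E))
    intro t ht
    refine mem_centralizer_iff.mpr fun y hy => ?_
    suffices fittingSubgroup ↥E ≤ centralizer ({t} : Set E) from mem_centralizer_singleton_iff.mp (this hy)
    rw [Hall.fittingSubgroup_eq_iSup_pCore]
    exact iSup_le fun q y hy => mem_centralizer_singleton_iff.mpr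
      (Subtype.ext (mem_centralizer_iff.mp (hTq q ht) _ (mem_map_of_mem _ hy)))
  have hTn : E ≤ normalizer ((T : Subgroup G) : Set G) := by
    haveI : Group.IsNilpotent ↥(fittingSubgroup ↥E) := Hall.fittingSubgroup_isNilpotent
    set T' := (T.subtype hTE).subtype (by rw [Sylow.coe_subtype]; exact hTF : ((T.subtype hTE : Sylow p E) : Subgroup E) ≤ fittingSubgroup ↥E)
    have hn : (T' : Subgroup ↥(fittingSubgroup ↥E)).Normal :=
      Sylow.normal_of_normalizerCondition Group.normalizerCondition_of_isNilpotent _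
    haveI := Sylow.characteristic_of_normal T' hn
    have h : ((T' : Subgroup ↥(fittingSubgroup ↥E)).map (fittingSubgroup ↥E).subtype).Normal :=
      ConjAct.normal_of_characteristic_of_normal
    rw [show (T' : Subgroup ↥(fittingSubgroup ↥E)).map (fittingSubgroup ↥E).subtype = (T : Subgroup G).subgroupOf E by
      rw [Sylow.coe_subtype, Sylow.coe_subtype, map_subgroupOf_eq_of_le hTF]] at h
    exact (normal_subgroupOf_iff_le_normalizer hTE).mp h
  obtain ⟨g, hg, hgM⟩ := SetLike.not_le_iff_exists.mp (by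
    have h := hX₀.normalizer_sylow_not_le (T.subtype hTM)
    rwa [Sylow.coe_subtype, map_subgroupOf_eq_of_le hTM] at h)
  exact ⟨T, hAT, hTE, hTn, hTC, hTA, hTF, g, hg, hAT' hg, hgM⟩

omit [Finite G] hp in
theorem abelian_of_prime_pow_parts {C : Subgroup G} {x : G}
    (h : ∀ q k : ℕ, q.Prime → q ^ k ∣ orderOf x → x ^ (orderOf x / q ^ k) ∈ C) [Finite G] : x ∈ C := by
  set D := zpowers x ⊓ C
  have hdvd : orderOf x ∣ Nat.card D := by
    refine (Nat.dvd_iff_prime_pow_dvd_dvd _ _).mpr fun q k hq hqk => ?_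
    have h1 : x ^ (orderOf x / q ^ k) ∈ D := ⟨pow_mem (mem_zpowers x) _, h q k hq hqk⟩
    have h2 := Subgroup.orderOf_dvd_natCard D h1
    rwa [orderOf_pow_orderOf_div (orderOf_pos x).ne' hqk] at h2
  have heq : D = zpowers x := eq_of_le_of_card_ge inf_le_left (by
    rw [Nat.card_zpowers]; exact Nat.le_of_dvd Nat.card_pos hdvd)
  exact (heq.ge (mem_zpowers x)).2

/-- An element of prime power order acts on `A` with an invariant line, or centralises it. -/
theorem exists_invariant_line (hG : IsMinSimpleOddOrder G) (hM : IsCoatom M) (hE : IsComplIn E (sigmaCore M) M)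
    (hpσ : p ∉ sigma M) (hS : ∀ S : Sylow p G, IsMulCommutative (S : Subgroup G))
    (hA : IsElementaryAbelian p A) (hAE : A ≤ E) (hAc : Nat.card A = p ^ 2) {r : ℕ} [hr : Fact r.Prime] (hrp : r ≠ p)
    (hrσ : r ∉ sigma M) (hr1 : PRankLE r 1 M)
    (hfpf : ∀ e ∈ E, e ≠ 1 → (∃ k, e ^ r ^ k = 1) → sigmaCore M ⊓ centralizer ({e} : Set G) = ⊥)
    {y : G} (hyE : y ∈ E) {k : ℕ} (hy : y ^ r ^ k = 1) (hyA : y ∉ centralizer (A : Set G)) :
    ∃ Y : Subgroup G, Y ≤ A ∧ Nat.card Y = p ∧ y ∈ normalizer (Y : Set G) := by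
  classical
  by_contra hno
  push Not at hno
  have hAM := hAE.trans hE.1
  have hEA := (le_normalizer_compl hG hM hE hpσ hAE hA hAc).1
  obtain ⟨X₀, hX₀⟩ := exists_exc hG hM hpσ hAM hA hAc
  obtain ⟨hC, hCE, -⟩ := normalizer_inf_eq_compl hG hM hE hpσ hAE hA hAc
  obtain ⟨⟨g, hgN, hgM⟩, -⟩ := hX₀.exists_fpf hG
  -- elements fixing a non-trivial element of `A` and commuting with `y`
  have hfix : ∀ s : G, s ∈ normalizer (A : Set G) → s ∉ centralizer (A : Set G) →
      Commute s y → A ⊓ centralizer ({s} : Set G) = ⊥ := by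
    intro s hs hsC hsy
    by_contra hne
    set Y := A ⊓ centralizer ({s} : Set G)
    obtain ⟨i, hi, hie⟩ := (Nat.dvd_prime_pow hp.out).mp (hAc ▸ card_dvd_of_le (inf_le_left : Y ≤ A))
    have hi0 : i ≠ 0 := fun e => hne (card_eq_one.mp (by rw [hie, e, pow_zero]))
    have hi2 : i ≠ 2 := fun e => hsC (mem_centralizer_iff.mpr fun a ha => mem_centralizer_singleton_iff.mp
      ((eq_of_le_of_card_ge (inf_le_left : Y ≤ A) (by rw [hie, e, hAc])).ge ha).2)
    refine hno Y inf_le_left (by rw [hie, show i = 1 by omega, pow_one]) ?_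
    exact inf_normalizer_le_normalizer_inf ⟨hEA hyE, le_normalizer (mem_centralizer_singleton_iff.mpr hsy.symm.eq)⟩
  -- make `y ^ r` centralise `A`
  have hex : ∃ c, y ^ r ^ c ∈ centralizer (A : Set G) := ⟨k, by rw [hy]; exact one_mem _⟩
  obtain ⟨c, hc⟩ : ∃ c, Nat.find hex = c + 1 := Nat.exists_eq_succ_of_ne_zero fun h => hyA (by
    have := Nat.find_spec hex
    rwa [h, pow_zero, pow_one] at this)
  set y' := y ^ r ^ c with hy'
  have hy'C : y' ∉ centralizer (A : Set G) := Nat.find_min hex (by omega)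
  have hy'r : y' ^ r ∈ centralizer (A : Set G) := by
    have h := Nat.find_spec hex
    rw [hc, pow_succ, pow_mul] at h
    exact h
  have hy'E : y' ∈ E := pow_mem hyE _
  have hy'N := hEA hy'E
  have hy'fix := hfix y' hy'N hy'C (Commute.self_pow y _).symm
  have hy'1 : y' ≠ 1 := fun e => hy'C (e ▸ one_mem _)
  have hy'k : y' ^ r ^ k = 1 := by rw [hy', ← pow_mul, mul_comm, pow_mul, hy, one_pow]
  have hp1 : A ≠ ⊥ := fun e => by
    rw [e, card_bot] at hAc
    exact (Nat.one_lt_pow two_ne_zero hp.out.one_lt).ne hAc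
  by_cases hyr : y' ^ r = 1
  · -- a Frobenius group acting on `M_σ`
    set R := zpowers y'
    have hRo : Nat.card R = r := by rw [Nat.card_zpowers, orderOf_eq_prime hyr hy'1]
    have hRA : R ≤ normalizer (A : Set G) := zpowers_le.mpr hy'N
    have hK1 : sigmaCore M ≠ ⊥ := sigmaCore_ne_bot hG hM (ne_bot_of_le_ne_bot hp1 hAM)
    have hCR : ∀ z ∈ R, z ≠ 1 → zpowers z = R := fun z hz hz1 => eq_of_le_of_card_ge (zpowers_le.mpr hz) (by
      rw [hRo, Nat.card_zpowers, orderOf_eq_prime (p := r) ?_ hz1]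
      have := congrArg Subtype.val (pow_card_eq_one' (G := R) (x := ⟨z, hz⟩))
      rwa [hRo] at this)
    have hK : ∀ z ∈ R, z ≠ 1 → sigmaCore M ⊓ centralizer ({z} : Set G) = ⊥ := fun z hz hz1 => by
      rw [← centralizer_zpowers, hCR z hz hz1, centralizer_zpowers]
      exact hfpf y' hy'E hy'1 ⟨k, hy'k⟩
    have hcop : (Nat.card ↥(A ⊔ R)).Coprime (Nat.card (sigmaCore M)) := by
      refine Nat.coprime_of_dvd fun s hs h1 h2 => ?_
      have hsσ := OddLocal.piCoreOf_isPi (sigma M) M s hs h2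
      haveI := Fact.mk hs
      exact compl_not_sigma hG hM hE (h1.trans (card_dvd_of_le (sup_le hAE (zpowers_le.mpr hy'E)))) hsσ
    obtain ⟨-, hcard, -⟩ := S1446.result A R (sigmaCore M) hp1
      (fun e => hy'1 (zpowers_eq_bot.mp e))
      (Coprime.inf_eq_bot_of_coprime (by
        rw [hAc, hRo]; exact ((Nat.coprime_primes hp.out hr.out).mpr (Ne.symm hrp)).pow_left 2))
      hRA (fun z hz hz1 => by rw [← centralizer_zpowers, hCR z hz hz1, centralizer_zpowers]; exact hy'fix)
      (solvable_of_ne_top hG (ne_top_of_le hM ((sup_le hAE (zpowers_le.mpr hy'E)).trans hE.1)))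
      (hG.1.of_dvd_nat (A ⊔ R).card_subgroup_dvd_card) hK1 (hX₀.sigmaCore_nilpotent hG)
      (hAM.trans (OddLocal.le_normalizer_piCoreOf (sigma M) M))
      ((zpowers_le.mpr (hE.1 hy'E)).trans (OddLocal.le_normalizer_piCoreOf (sigma M) M)) hcop
      (hX₀.inf_centralizer_eq_bot hG) (fun z hz hz1 => by
        rw [hK z hz hz1, centralizer_zpowers]; exact (hfpf y' hy'E hy'1 ⟨k, hy'k⟩).symm)
    rw [centralizer_zpowers, hfpf y' hy'E hy'1 ⟨k, hy'k⟩, card_bot, one_pow] at hcard
    exact hK1 (card_eq_one.mp hcard)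
  -- the element `l` of order `r` in `⟨y' ^ r⟩`
  have hord : r ∣ orderOf (y' ^ r) := by
    have hne : orderOf (y' ^ r) ≠ 1 := fun e => hyr (orderOf_eq_one_iff.mp e)
    have hd : orderOf (y' ^ r) ∣ r ^ k :=
      orderOf_dvd_of_pow_eq_one (by rw [← pow_mul, mul_comm, pow_mul, hy'k, one_pow])
    obtain ⟨i, -, hi⟩ := (Nat.dvd_prime_pow hr.out).mp hd
    rw [hi] at hne ⊢
    exact dvd_pow_self r fun h => hne (by rw [h, pow_zero])
  set l := (y' ^ r) ^ (orderOf (y' ^ r) / r) with hl
  have hlo : orderOf l = r := orderOf_pow_orderOf_div (orderOf_pos _).ne' hord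
  set L := zpowers l with hL
  have hLc : Nat.card L = r := by rw [Nat.card_zpowers, hlo]
  have hlC : l ∈ centralizer (A : Set G) := pow_mem hy'r _
  have hly : Commute y l := by
    rw [hl, hy', ← pow_mul, ← pow_mul]
    exact Commute.self_pow y _
  -- rank one in `C(A)`
  have hrank : ∀ u ∈ centralizer (A : Set G), ∀ v ∈ centralizer (A : Set G),
      u ^ r = 1 → v ^ r = 1 → u * v = v * u → v ≠ 1 → u ∈ zpowers v := by
    intro u hu v hv hu1 hv1 huv hvne
    by_contra hnot
    set F := zpowers v ⊔ zpowers u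
    have hFe : IsElementaryAbelian r F := elem_sup_zpowers
      (Thompson.isElementaryAbelian_zpowers hv1) hu1 (fun w hw => by
        obtain ⟨i, rfl⟩ := mem_zpowers_iff.mp hw
        exact ((show Commute v u from huv.symm).zpow_left i).eq)
    have hFM : F ≤ M := (sup_le (zpowers_le.mpr hv) (zpowers_le.mpr hu)).trans (hC.trans inf_le_left)
    have hlt : r < Nat.card F := by
      have h := (Set.toFinite _).card_lt_card (SetLike.coe_ssubset_coe.2
        (lt_of_le_of_ne (le_sup_left : zpowers v ≤ F) fun e => hnot (e.ge (mem_sup_right (mem_zpowers u)))))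
      rwa [show Nat.card (zpowers v : Set G) = r from (Nat.card_zpowers v).trans (orderOf_eq_prime hv1 hvne)] at h
    exact not_pRankLE_of_elem hFM hFe (by rwa [pow_one]) hr1
  obtain ⟨d, hd, hdL⟩ := exists_conj_line_centralizer (B₁ := MulAut.conj g • L)
    (C := centralizer (A : Set G)) (by
      rintro x ⟨w, hw, rfl⟩
      exact (mem_normalizer_iff.mp (Coprime.normalizer_le_normalizer_centralizer A hgN) w).mp
        (zpowers_le.mpr hlC hw)) (zpowers_le.mpr hlC) ((Coprime.card_conj_smul _ _).trans hLc) hLc hrank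
  have hdg : d * g ∈ normalizer (L : Set G) :=
    Coprime.mem_normalizer_of_conj_smul_eq (by rw [map_mul, mul_smul, hdL])
  have hL1 : L ≠ ⊥ := fun e => by rw [e, card_bot] at hLc; exact hr.out.ne_one hLc.symm
  have hLM : L ≤ M := (zpowers_le.mpr hlC).trans hX₀.centralizer_le
  have hNne : normalizer (L : Set G) ≠ ⊤ := fun e => by
    rcases hG.2.1.eq_bot_or_eq_top_of_normal L (normalizer_eq_top_iff.mp e) with h1 | h1
    · exact hL1 h1
    · exact ne_top_of_le hM hLM h1
  obtain ⟨H, hH, hNH⟩ := exists_coatom_ge hNne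
  have hCl : centralizer ({l} : Set G) ≤ H :=
    ((centralizer_zpowers l).ge.trans (centralizer_le_normalizer _)).trans hNH
  have hAH : A ≤ H := fun a ha => hCl (mem_centralizer_singleton_iff.mpr (mem_centralizer_iff.mp hlC a ha))
  have hyH : y ∈ H := hCl (mem_centralizer_singleton_iff.mpr hly.eq)
  have hlH : l ∈ H := le_normalizer.trans hNH (mem_zpowers l)
  have hl1 : l ≠ 1 := fun e => hr.out.ne_one (by rw [← hlo, e, orderOf_one])
  have hyp : IsPGroup r (zpowers y) := by
    rintro ⟨z, hz⟩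
    obtain ⟨i, rfl⟩ := mem_zpowers_iff.mp hz
    exact ⟨k, Subtype.ext (by
      show (y ^ i) ^ r ^ k = 1
      rw [← zpow_natCast, ← _root_.zpow_mul, mul_comm, _root_.zpow_mul, zpow_natCast, hy, one_zpow])⟩
  by_cases hrH : r ∈ sigma H
  · by_cases hpH : p ∈ sigma H
    · -- `y` lies in the normal `p`-complement of `H_σ`
      have hr2' := rank_two_of_not_sigma hG hM hp.out hpσ
      have hpβ : p ∉ beta H := fun h =>
        not_idealPrime hG hM hr2' (not_pRankLE_one hAM hA hAc.ge) h.2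
      obtain ⟨P, N, hN, hNP⟩ := normalPComplement_derived hG hH
        ((dvd_pow_self p two_ne_zero).trans (hAc.symm.dvd.trans (card_dvd_of_le hAH))) hpβ
        (sigmaCore_le_derived hG hH)
      have hyK := pgroup_le_sigmaCore hG hH hrH hyp (zpowers_le.mpr hyH) (mem_zpowers y)
      have hAK := pgroup_le_sigmaCore hG hH hpH (elem_isPGroup hA) hAH
      haveI := hN
      have hy_N : (⟨y, hyK⟩ : sigmaCore H) ∈ N := by
        refine le_of_coprime_index (H := zpowers (⟨y, hyK⟩ : sigmaCore H)) ?_ (mem_zpowers _)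
        rw [Nat.card_zpowers, Subgroup.orderOf_mk, hNP.symm.index_eq_card]
        obtain ⟨j, hj⟩ := IsPGroup.iff_card.mp P.2
        rw [hj]
        exact ((((Nat.coprime_primes hr.out hp.out).mpr hrp).pow k j)).coprime_dvd_left
          (orderOf_dvd_of_pow_eq_one hy)
      refine hyA (mem_centralizer_iff.mpr fun a ha => ?_)
      have h1 : ⁅(⟨a, hAK ha⟩ : sigmaCore H), (⟨y, hyK⟩ : sigmaCore H)⁆ ∈ N := by
        rw [commutatorElement_def]
        exact N.mul_mem (hN.conj_mem _ hy_N _) (N.inv_mem hy_N)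
      have h2 : ⁅a, y⁆ ∈ A := by
        rw [commutatorElement_def, show a * y * a⁻¹ * y⁻¹ = a * (y * a⁻¹ * y⁻¹) by group]
        exact A.mul_mem ha ((mem_normalizer_iff.mp (hEA hyE) _).mp (A.inv_mem ha))
      have h3 : ⁅(⟨a, hAK ha⟩ : sigmaCore H), (⟨y, hyK⟩ : sigmaCore H)⁆ = 1 := by
        rw [← orderOf_eq_one_iff]
        have hco : p.Coprime (Nat.card N) := by
          rw [← hNP.index_eq_card]
          exact hp.out.coprime_iff_not_dvd.mpr P.not_dvd_index
        have hpow : ⁅(⟨a, hAK ha⟩ : sigmaCore H), (⟨y, hyK⟩ : sigmaCore H)⁆ ^ p = 1 := Subtype.ext (hA.2 _ h2)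
        exact Nat.eq_one_of_dvd_coprimes hco (orderOf_dvd_of_pow_eq_one hpow) (N.orderOf_dvd_natCard h1)
      exact commutatorElement_eq_one_iff_mul_comm.mp (congrArg Subtype.val h3)
    · obtain ⟨X, hX⟩ := exists_exc hG hH hpH hAH hA hAc
      refine hl1 (mem_bot.mp (hX.inf_centralizer_eq_bot hG ▸ (⟨?_, hlC⟩ : l ∈ sigmaCore H ⊓ centralizer (A : Set G))))
      exact pgroup_le_sigmaCore hG hH hrH (IsPGroup.of_card (n := 1) (by rw [hLc, pow_one]) : IsPGroup r L)
        (zpowers_le.mpr hlH) (mem_zpowers l)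
  -- `r ∉ σ(H)`
  have hyS : ∃ S : Sylow r H, zpowers y ≤ (S : Subgroup H).map H.subtype := by
    obtain ⟨S, hS'⟩ := (hyp.comap_subtype (K := H)).exists_le_sylow
    exact ⟨S, fun z hz => ⟨⟨z, zpowers_le.mpr hyH hz⟩, hS' hz, rfl⟩⟩
  obtain ⟨S, hyS⟩ := hyS
  set T := (S : Subgroup H).map H.subtype with hT
  have hTp : IsPGroup r T := S.2.map _
  have hTH : T ≤ H := map_subtype_le _
  have hlT : l ∈ T := hyS (pow_mem (pow_mem (pow_mem (mem_zpowers y) _) _) _)
  by_cases hr1H : PRankLE r 1 H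
  · haveI : IsZGroup ↥T := rank_one_zgroup hG hTH fun s hs hd => isPGroup_ne_dvd hTp hs hd ▸ hr1H
    refine hrH ⟨hr.out, ?_, S, fun z hz => hNH ?_⟩
    · exact hLc ▸ card_dvd_of_le (zpowers_le.mpr hlH)
    refine Coprime.mem_normalizer_of_conj_smul_eq (eq_of_le_of_card_ge ?_ (Coprime.card_conj_smul _ _).ge)
    rw [hL, show MulAut.conj z • zpowers l = (zpowers l).map (MulAut.conj z).toMonoidHom from rfl,
      MonoidHom.map_zpowers, zpowers_le]
    have hzl : z * l * z⁻¹ ∈ T := (mem_normalizer_iff.mp hz l).mp hlT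
    have hlr : l ^ r = 1 := by rw [← hlo]; exact pow_orderOf_eq_one _
    have h := PL.zpowers_eq_of_cyclic (H := ↥T) (p := r) (S := ⊤) (hTp.to_subgroup ⊤) (v := ⟨l, hlT⟩)
      (w := ⟨z * l * z⁻¹, hzl⟩) (mem_top _) (mem_top _) (Subtype.ext hlr)
      (Subtype.ext (show (z * l * z⁻¹) ^ r = 1 by rw [conj_pow, hlr]; group))
      (fun e => hl1 (congrArg Subtype.val e))
    obtain ⟨i, hi⟩ := mem_zpowers_iff.mp h
    exact mem_zpowers_iff.mpr ⟨i, congrArg Subtype.val hi⟩
  obtain ⟨B₀, hB₀H, hB₀, hB₀c⟩ := elem_of_not_pRankLE hr1H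
  by_cases hpH : p ∈ sigma H
  swap
  · -- `A` and an `E²_r` would commute
    obtain ⟨EH, hEH⟩ : ∃ EH, IsComplIn EH (sigmaCore H) H ∧ A ≤ EH :=
      exists_compl_ge hG hH hpH (elem_isPGroup hA) hAH
    obtain ⟨m, hm, hmB⟩ := exists_conj_le_compl hG hH hEH.1 hrH (elem_isPGroup hB₀) hB₀H
    set B := MulAut.conj m • B₀
    have hBe : IsElementaryAbelian r B := elem_of_conj m hB₀
    have hBc : Nat.card B = r ^ 2 := (Coprime.card_conj_smul _ _).trans hB₀c
    have hBA : B ≤ centralizer (A : Set G) := by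
      rw [← commutator_eq_bot_iff_le_centralizer, ← le_bot_iff]
      refine le_trans (le_inf (commutator_comm B A ▸ Coprime.commutator_le_of_le_normalizer'
        (hmB.trans (le_normalizer_compl hG hH hEH.1 hpH hEH.2 hA hAc).1))
        (Coprime.commutator_le_of_le_normalizer' (hEH.2.trans (le_normalizer_compl hG hH hEH.1 hrH hmB hBe hBc).1))) ?_
      exact (Coprime.inf_eq_bot_of_coprime (coprime_pgroups hrp (elem_isPGroup hA) (elem_isPGroup hBe))).le
    exact not_pRankLE_one (hBA.trans hX₀.centralizer_le) hBe hBc.ge hr1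
  -- `A ◁ H`
  obtain ⟨S₀, hS₀⟩ := ((elem_isPGroup hB₀).comap_subtype (K := H)).exists_le_sylow
  obtain ⟨m, hm⟩ := MulAction.exists_smul_eq (↥H) S₀ S
  set B := MulAut.conj (m : G) • B₀
  have hBT : B ≤ T := by
    rintro x ⟨w, hw, rfl⟩
    refine ⟨m * ⟨w, hB₀H hw⟩ * m⁻¹, ?_, rfl⟩
    rw [← hm, Sylow.coe_subgroup_smul]
    exact Coprime.conj_mem_conj_smul (hS₀ hw)
  have hBe : IsElementaryAbelian r B := elem_of_conj (m : G) hB₀
  have hBc : Nat.card B = r ^ 2 := (Coprime.card_conj_smul _ _).trans hB₀c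
  obtain ⟨XB, hXB⟩ := exists_exc hG hH hrH (hBT.trans hTH) hBe hBc
  have hnil := hXB.sigmaCore_nilpotent hG
  have hHA : H ≤ normalizer (A : Set G) := by
    haveI := hnil
    have hAK := pgroup_le_sigmaCore hG hH hpH (elem_isPGroup hA) hAH
    obtain ⟨P, hP⟩ := ((elem_isPGroup hA).comap_subtype (K := sigmaCore H)).exists_le_sylow
    have hn : (P : Subgroup (sigmaCore H)).Normal :=
      Sylow.normal_of_normalizerCondition Group.normalizerCondition_of_isNilpotent _
    haveI := Sylow.characteristic_of_normal P hn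
    set P' := (P : Subgroup (sigmaCore H)).map (sigmaCore H).subtype with hP'
    have hHP : H ≤ normalizer (P' : Set G) := (OddLocal.le_normalizer_piCoreOf (sigma H) H).trans
      (PL.normalizer_le_normalizer_map_char (sigmaCore H) (P : Subgroup (sigmaCore H)))
    have hAP' : A ≤ P' := fun a ha => ⟨⟨a, hAK ha⟩, hP ha, rfl⟩
    obtain ⟨T', hT'⟩ := (P.2.map (sigmaCore H).subtype).exists_le_sylow
    have hP'A : ∀ x ∈ P', x ^ p = 1 → x ∈ A := fun x hx hxp =>
      mem_of_commute_maximal hA (hX₀.hmax hG) hxp fun a ha =>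
        congrArg Subtype.val ((hS T').is_comm.comm (⟨a, hT' (hAP' ha)⟩ : (T' : Subgroup G)) ⟨x, hT' hx⟩)
    intro z hz
    refine Coprime.mem_normalizer_of_conj_smul_eq (eq_of_le_of_card_ge ?_ (Coprime.card_conj_smul z A).ge)
    rintro x ⟨w, hw, rfl⟩
    refine hP'A _ ((mem_normalizer_iff.mp (hHP hz) w).mp (hAP' hw)) ?_
    show (z * w * z⁻¹) ^ p = 1
    rw [conj_pow, hA.2 w hw]; group
  have hTc : ∀ u ∈ T, ∀ v ∈ T, Commute u v := fun u hu v hv => by
    obtain ⟨u', hu', rfl⟩ := hu
    obtain ⟨v', hv', rfl⟩ := hv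
    exact congrArg (fun w : (S : Subgroup H) => ((w : H) : G))
      ((sylow_abelian_of_exc hG hXB S hBT).is_comm.comm (⟨u', hu'⟩ : (S : Subgroup H)) ⟨v', hv'⟩)
  haveI hTMz : IsZGroup ↥(T ⊓ M : Subgroup G) := rank_one_zgroup hG inf_le_right
    fun s hs hd => isPGroup_ne_dvd (hTp.to_le inf_le_left) hs hd ▸ hr1
  have hyT : y ∈ T := hyS (mem_zpowers y)
  -- `b ∈ B ∖ M`
  obtain ⟨b, hb, hbM⟩ : ∃ b ∈ B, b ∉ M := by
    by_contra h
    push Not at h
    exact not_pRankLE_one (fun x hx => h x hx) hBe hBc.ge hr1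
  -- the images of `b` and `y'` in `Aut A`
  let f : ↥T →* MulAut A := Coprime.conjHom (hTH.trans hHA)
  set b' : ↥T := ⟨b, hBT hb⟩
  set s' : ↥T := ⟨y', pow_mem hyT _⟩
  set Q := closure ({f b', f s'} : Set (MulAut A))
  have hker : ∀ t : ↥T, f t = 1 → (t : G) ∈ centralizer (A : Set G) := fun t ht => by
    refine mem_centralizer_iff.mpr fun a ha => ?_
    have h := congrArg (fun φ : MulAut A => ((φ ⟨a, ha⟩ : A) : G)) ht
    simp only [f, Coprime.coe_conjHom_apply, MulAut.one_apply] at h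
    exact (mul_inv_eq_iff_eq_mul.mp h).symm
  have hmemker : ∀ t : ↥T, (t : G) ∈ centralizer (A : Set G) → f t = 1 := fun t ht => by
    refine MulEquiv.ext fun a => Subtype.ext ?_
    simp only [f, Coprime.coe_conjHom_apply, MulAut.one_apply]
    rw [← mem_centralizer_iff.mp ht a a.2, mul_inv_cancel_right]
  have hbr : f b' ^ r = 1 := by
    rw [← map_pow, show b' ^ r = 1 from Subtype.ext (hBe.2 b hb), map_one]
  have hsr : f s' ^ r = 1 := by rw [← map_pow]; exact hmemker _ hy'r
  have hQc : ∀ u ∈ Q, ∀ v ∈ Q, Commute u v := by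
    have hQr : Q ≤ f.range := (closure_le _).mpr (by
      simp [Set.insert_subset_iff, MonoidHom.mem_range])
    intro u hu v hv
    obtain ⟨u', rfl⟩ := hQr hu
    obtain ⟨v', rfl⟩ := hQr hv
    exact (show Commute u' v' from Subtype.ext (hTc _ u'.2 _ v'.2).eq).map f
  have hQexp : ∀ u ∈ Q, u ^ r = 1 := fun u hu => by
    induction hu using closure_induction with
    | mem x hx =>
      rcases hx with rfl | rfl
      · exact hbr
      · exact hsr
    | one => exact one_pow r
    | mul x z hx hz h1 h2 => rw [(hQc x hx z hz).mul_pow, h1, h2, one_mul]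
    | inv x _ h => rw [inv_pow, h, inv_one]
  have hQcard : r ^ 2 ≤ Nat.card Q := by
    have h1 : f b' ≠ 1 := fun e => hbM (hX₀.centralizer_le (hker b' e))
    have hlt : zpowers (f b') < Q := by
      refine lt_of_le_of_ne (zpowers_le.mpr (subset_closure (by simp))) fun e => ?_
      obtain ⟨i, hi⟩ := mem_zpowers_iff.mp (e.ge (subset_closure (by simp : f s' ∈ ({f b', f s'} : Set (MulAut A)))))
      by_cases hir : (r : ℤ) ∣ i
      · obtain ⟨j, rfl⟩ := hir
        rw [_root_.zpow_mul, zpow_natCast, hbr, one_zpow] at hi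
        exact hy'C (hker s' hi.symm)
      · -- `b` would lie in `M`
        have h0 : f (b' ^ i * s'⁻¹) = 1 := by rw [map_mul, map_zpow, map_inv, hi, mul_inv_cancel]
        have hbi : b ^ i * y'⁻¹ ∈ M := hX₀.centralizer_le (hker _ h0)
        have hbi' : b ^ i ∈ M := by
          have := M.mul_mem hbi (hE.1 hy'E)
          rwa [inv_mul_cancel_right] at this
        refine hbM ?_
        obtain ⟨u, v, huv⟩ := (Int.isCoprime_iff_gcd_eq_one.mpr (by
          rw [Int.gcd_comm]
          exact Int.isCoprime_iff_gcd_eq_one.mp ((Nat.prime_iff_prime_int.mp hr.out).coprime_iff_not_dvd.mpr hir)) : IsCoprime i (r : ℤ))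
        rw [← zpow_one b, ← huv, zpow_add, mul_comm u i, _root_.zpow_mul, mul_comm v, _root_.zpow_mul,
          zpow_natCast, hBe.2 b hb, one_zpow, mul_one]
        exact zpow_mem hbi' u
    have hQp : IsPGroup r Q := fun u => ⟨1, Subtype.ext (by simpa using hQexp u u.2)⟩
    have hlt' : Nat.card (zpowers (f b')) < Nat.card Q :=
      (Set.toFinite _).card_lt_card (SetLike.coe_ssubset_coe.2 hlt)
    rw [Nat.card_zpowers, orderOf_eq_prime hbr h1] at hlt'
    obtain ⟨j, hj⟩ := IsPGroup.iff_card.mp hQp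
    rw [hj] at hlt' ⊢
    refine Nat.pow_le_pow_right hr.out.pos ?_
    have := (Nat.pow_lt_pow_iff_right hr.out.one_lt).mp (by rwa [pow_one] : r ^ 1 < r ^ j)
    omega
  have hQp : IsPGroup r Q := fun u => ⟨1, Subtype.ext (by simpa using hQexp u u.2)⟩
  obtain ⟨Q₂, hQ₂⟩ : ∃ Q₂ : Subgroup Q, Nat.card Q₂ = r ^ 2 := by
    obtain ⟨j, hj⟩ := IsPGroup.iff_card.mp hQp
    exact Sylow.exists_subgroup_card_pow_prime r
      (hj ▸ pow_dvd_pow r ((Nat.pow_le_pow_iff_right hr.out.one_lt).mp (hj ▸ hQcard)))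
  letI : CommGroup A := { (inferInstance : Group A) with mul_comm := fun a b => Subtype.ext (elem_comm hA a.2 b.2) }
  haveI := Fintype.ofFinite Q₂
  have htop := Coprime.eq_top_of_fixed_mem (W := A) (A := Q₂) (Q.subtype.comp Q₂.subtype) hr.out
    (fun u => Subtype.ext (Subtype.ext (by simpa using hQexp _ u.1.2))) hQ₂
    (by rw [hAc]; exact ((Nat.coprime_primes hr.out hp.out).mpr hrp).pow_right 2)
    ⊥ (fun u hu w hw => by
      have hQr : Q ≤ f.range := (closure_le _).mpr (by simp [Set.insert_subset_iff, MonoidHom.mem_range])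
      obtain ⟨t, ht⟩ := hQr u.1.2
      have htC : (t : G) ∉ centralizer (A : Set G) := fun h => hu (Subtype.ext (Subtype.ext (by
        show ((u : Q) : MulAut A) = 1
        rw [← ht, hmemker t h])))
      have h0 := hfix t ((hTH.trans hHA) t.2) htC (hTc _ t.2 y hyT)
      have hw' : (w : G) ∈ A ⊓ centralizer ({(t : G)} : Set G) := by
        refine ⟨w.2, mem_centralizer_singleton_iff.mpr ?_⟩
        have h := congrArg Subtype.val ((DFunLike.congr_fun ht w).trans hw)
        simp only [f, Coprime.coe_conjHom_apply] at h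
        exact (mul_inv_eq_iff_eq_mul.mp h).symm
      rw [h0, mem_bot] at hw'
      rw [mem_bot]; exact Subtype.ext hw')
  have h := congrArg (fun Z : Subgroup A => Nat.card Z) htop
  simp only [card_bot, card_top, hAc] at h
  exact (Nat.one_lt_pow two_ne_zero hp.out.one_lt).ne h

end Cfsg.Agent.Lib.Uniq
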