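import Cfsg.Agent.Lib.Uniq.PairFrobenius
set_option autoImplicit false

/-! BG 15.9. -/

namespace Cfsg.Agent.Lib.Uniq

open Subgroup
open scoped Pointwise commutatorElement

universe u

variable {G : Type u} [Group G] [Finite G] {M N E F P A K U : Subgroup G} {p : ℕ}

omit [Finite G] in
/-- A fixed-point-free complement is a Frobenius complement. -/
theorem isFrobeniusComplement_of_free {S : Subgroup G} (hE : IsComplIn E S M) (hS : M ≤ normalizer (S : Set G))
    (hE1 : E ≠ ⊥) (hS1 : S ≠ ⊥) (hfree : ∀ e ∈ E, e ≠ 1 → S ⊓ centralizer ({e} : Set G) = ⊥) :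
    IsFrobeniusComplement (E.subgroupOf M) := by
  refine ⟨fun e => hE1 ?_, fun e => hS1 ?_, fun g hg => ?_⟩
  · rw [← map_subgroupOf_eq_of_le hE.1, e, Subgroup.map_bot]
  · rw [subgroupOf_eq_top] at e
    rw [← inf_eq_right.mpr (hE.2.1.trans e)]
    exact hE.2.2.1
  · rw [eq_bot_iff]
    rintro y ⟨hy, hy'⟩
    obtain ⟨e, he, s, hs, hes⟩ := hE.2.2.2 g g.2
    obtain ⟨z, hz, hzy⟩ := hy'
    have hyz : (g : G) * (z : G) * (g : G)⁻¹ = y := congrArg Subtype.val hzy
    rw [hes] at hyz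
    set y' := e⁻¹ * (y : G) * e with hy'def
    have hy'E : y' ∈ E := E.mul_mem (E.mul_mem (E.inv_mem he) hy) he
    have hy'z : y' = s * z * s⁻¹ := by rw [hy'def, ← hyz]; group
    have hmem : (z : G)⁻¹ * y' ∈ E ⊓ S := ⟨E.mul_mem (E.inv_mem hz) hy'E, by
      rw [hy'z, show (z : G)⁻¹ * (s * z * s⁻¹) = ((z : G)⁻¹ * s * z) * s⁻¹ by group]
      exact S.mul_mem ((mem_normalizer_iff''.mp (hS (hE.1 hz)) s).mp hs) (S.inv_mem hs)⟩
    rw [hE.2.2.1, mem_bot, inv_mul_eq_one] at hmem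
    have hsz : s * z = z * s := by
      rw [← hmem] at hy'z
      exact (mul_inv_eq_iff_eq_mul.mp hy'z.symm)
    rcases eq_or_ne (z : G) 1 with hz1 | hz1
    · refine mem_bot.mpr (Subtype.ext ?_)
      rw [← hyz, hz1, OneMemClass.coe_one]; group
    · have hs0 : s ∈ S ⊓ centralizer ({(z : G)} : Set G) := ⟨hs, mem_centralizer_singleton_iff.mpr hsz⟩
      rw [hfree z hz hz1, mem_bot] at hs0
      exact absurd (show g ∈ E.subgroupOf M by
        show (g : G) ∈ E
        rw [hes, hs0, mul_one]; exact he) hg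

/-- For a pair `N`, `N*` and `M` over `N(R)`: no prime lies in `τ₂(M)`. -/
theorem tau_two_eq_empty (hG : IsMinSimpleOddOrder G) (hM : IsCoatom M) {Ns : Subgroup G}
    (h : IsKappaPair N K Ns) (hne : M ≠ Ns) (hnil : Group.IsNilpotent ↥(sigmaCore M)) (hKM : K ≤ M)
    (hF : IsComplIn (M ⊓ Ns) (sigmaCore M) M) (hFc : IsMulCommutative ↥(M ⊓ Ns)) (hKF : K ≤ M ⊓ Ns)
    {x : G} (hx : x ∈ sigmaCore M) (hx1 : x ≠ 1)
    (hfix : ∀ f ∈ M ⊓ Ns, Commute f x → f = 1) : tau2 M = ∅ := by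
  classical
  rw [Set.eq_empty_iff_forall_notMem]
  intro q hq
  haveI := Fact.mk hq.1
  set F := M ⊓ Ns with hFdef
  obtain ⟨A, hAF, hA, hAc⟩ := exists_elem_compl hG hM hF hq
  have hAM : A ≤ M := hAF.trans inf_le_left
  have hAN : A ≤ Ns := hAF.trans inf_le_right
  have hqσ := hq.2.1
  have hqNs : q ∈ sigma Ns := by
    by_contra hσ
    have h2 : q ∈ tau2 Ns := by
      refine ⟨hq.1, hσ, rank_two_of_not_sigma hG h.coatomN hq.1 hσ, fun hr => ?_⟩
      have hc := hr (A.subgroupOf Ns) ⟨⟨fun a b => Subtype.ext (Subtype.ext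
        (elem_comm hA (mem_subgroupOf.mp a.2) (mem_subgroupOf.mp b.2)))⟩⟩ fun a ha => Subtype.ext (hA.2 _ ha)
      rw [Coprime.card_subgroupOf hAN, hAc, pow_one, pow_two] at hc
      exact absurd hc (not_le.mpr (lt_mul_of_one_lt_left hq.1.pos hq.1.one_lt))
    have hbot := (S1417.result hG Ns h.coatomN q h2 A ⟨hAN, hA, hAc⟩).2.2.2.2.1 M hM hne hAM
    exact h.K_ne (le_bot_iff.mp ((le_inf h.K_le_coreN hKM).trans hbot.le))
  -- a line of `A` with fixed points
  have hgen := Coprime.fixGen_eq_of_elementary hq.1 (fun a ha b hb => elem_comm hA ha hb) hA.2 hAc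
    (hAM.trans (OddLocal.le_normalizer_piCoreOf (sigma M) M)) (Nat.coprime_of_dvd fun r hr h1 h2 =>
      hqσ (isPGroup_ne_dvd (elem_isPGroup hA) hr h1 ▸ OddLocal.piCoreOf_isPi (sigma M) M r hr h2))
  obtain ⟨a, ha, ha1, hCa⟩ : ∃ a ∈ A, a ≠ 1 ∧ sigmaCore M ⊓ centralizer ({a} : Set G) ≠ ⊥ := by
    by_contra h'
    push Not at h'
    have hS1 : sigmaCore M = ⊥ := le_bot_iff.mp (hgen.ge.trans (iSup₂_le fun b hb => (h' b hb.1 hb.2).le))
    exact hx1 (mem_bot.mp (hS1 ▸ hx))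
  have hao : orderOf a = q := orderOf_eq_prime (hA.2 a ha) ha1
  have huniq : centralizer ({a} : Set G) ≤ M ∧
      ∀ L : Subgroup G, IsCoatom L → centralizer ({a} : Set G) ≤ L → L = M := by
    have h3 := (S1418.result hG M hM F hF q hq A ⟨hAF, hA, hAc⟩).2.2 (zpowers a) (zpowers_le.mpr ha)
      (by rw [Nat.card_zpowers, hao]) (by rwa [centralizer_zpowers])
    rwa [centralizer_zpowers] at h3
  have haσ : a ∈ sigmaCore Ns := le_sigmaCore hG h.coatomN (Y := zpowers a) (zpowers_le.mpr (hAN ha))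
    (fun r hr hd => (Nat.prime_dvd_prime_iff_eq hr hq.1).mp (hao ▸ Nat.card_zpowers a ▸ hd) ▸ hqNs) (mem_zpowers a)
  obtain ⟨Us, hUs⟩ := OddLocal.Decomposition.exists_decomposition hG h.coatomN
    (kappa_hall_cyclic hG h.coatomN h.hallN) h.hallN
  set J := sigmaCore N ⊓ centralizer (K : Set G) with hJ
  have hJ1 : J ≠ ⊥ := (h.symm hG).K_ne
  rcases eq_or_ne Us ⊥ with hUs1 | hUs1
  swap
  · exact hne ((huniq.2 Ns h.coatomN (core_centralizer_le hG h.coatomN hUs hJ1 hUs1 haσ ha1)).symm)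
  subst hUs1
  set W := sigmaCore Ns with hW
  have hWN : W ≤ Ns := map_subtype_le _
  have hderived : ⁅Ns, Ns⁆ = W := by
    rw [OddLocal.Decomposition.derived_eq hG h.coatomN hUs hJ1, bot_sup_eq]
  have hKW : K ≤ ⁅W, W⁆ := by
    have h2 := OddLocal.Decomposition.fixed_le_second_derived hG h.coatomN hUs hJ1
    rw [hderived, h.fixed] at h2
    exact h2
  have hKp : (Nat.card K).Prime := by
    have h2 := (h.symm hG).prime_of_isP1 hG ((isP1_iff hG h.coatomN hUs).mpr rfl)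
    rwa [← hJ, h.fixed] at h2
  -- the Sylow `q`-subgroups of `G` are abelian
  have hab : ∀ S : Sylow q G, IsMulCommutative (S : Subgroup G) := by
    by_contra hna
    obtain ⟨-, ⟨hA₀, -⟩, -⟩ := S1419.result hG M hM F hF q hq
      (fun S => sylow_comm_dichotomy hna S) A ⟨hAF, hA, hAc⟩
    obtain ⟨b, hb, hb1⟩ := (bot_or_exists_ne_one (A ⊓ centralizer (sigmaCore M : Set G))).resolve_left fun e => hq.1.ne_one (by
      rw [← hA₀, e, card_bot])
    exact hb1 (hfix b (hAF hb.1) (mem_centralizer_iff.mp hb.2 x hx).symm)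
  obtain ⟨T, hAT, hTF, -⟩ := exists_normal_sylow hG hM hF hqσ hab hA hAF hAc
  have hTW : (T : Subgroup G) ≤ W := le_sigmaCore hG h.coatomN (hTF.trans inf_le_right)
    fun r hr hd => isPGroup_ne_dvd T.2 hr hd ▸ hqNs
  by_cases hqk : q = Nat.card K
  · -- `W` would have an abelian Sylow subgroup and a normal complement
    have hqβ : q ∉ beta Ns := fun hβ => not_tau_two_of_beta hG hM hβ hq
    obtain ⟨Q, Nc, hNc, hcompl⟩ :=
      ((S1414.result hG Ns h.coatomN).2.2.2.2 q hq.1 ((hqk ▸ card_dvd_of_le (h.K_le_coreN.trans hWN) :))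
        hqβ).2.1
    haveI := hNc
    obtain ⟨S, hS⟩ := (Q.2.map W.subtype).exists_le_sylow
    have hQc : ∀ u ∈ (Q : Subgroup W), ∀ v ∈ (Q : Subgroup W), u * v = v * u := fun u hu v hv =>
      haveI := hab S
      Subtype.ext (setLike_mul_comm (hS (mem_map_of_mem W.subtype hu)) (hS (mem_map_of_mem W.subtype hv)))
    have hle : ⁅(⊤ : Subgroup W), ⊤⁆ ≤ Nc := commutator_le.mpr fun u _ v _ => by
      obtain ⟨⟨n₁, u'⟩, hu : (n₁ : W) * u' = u⟩ := hcompl.2 u
      obtain ⟨⟨n₂, v'⟩, hv : (n₂ : W) * v' = v⟩ := hcompl.2 v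
      rw [← QuotientGroup.eq_one_iff, ← QuotientGroup.mk'_apply, map_commutatorElement, ← hu, ← hv, map_mul, map_mul]
      rw [QuotientGroup.mk'_apply Nc (n₁ : W), QuotientGroup.mk'_apply Nc (n₂ : W),
        (QuotientGroup.eq_one_iff _).mpr n₁.2, (QuotientGroup.eq_one_iff _).mpr n₂.2, one_mul, one_mul,
        ← map_commutatorElement, commutatorElement_eq_one_iff_mul_comm.mpr (hQc _ u'.2 _ v'.2), map_one]
    have hKN : K ≤ Nc.map W.subtype := hKW.trans (by
      rw [← map_subtype_commutator]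
      exact map_mono ((_root_.commutator_def W).le.trans hle))
    have hdN : q ∣ Nat.card Nc := by
      rw [← card_map_of_injective W.subtype_injective]
      exact hqk ▸ card_dvd_of_le hKN
    exact Q.not_dvd_index ((hcompl.index_eq_card).symm ▸ hdN)
  obtain ⟨k, hk, hk1⟩ := K.bot_or_exists_ne_one.resolve_left h.K_ne
  obtain ⟨S⟩ : Nonempty (Sylow (Nat.card K) ↥W) := inferInstance
  haveI := Fact.mk hKp
  obtain ⟨-, -, h3, -⟩ := S1431.result hG Ns h.coatomN J h.hallN hJ1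
  obtain ⟨hSu, hSN, -⟩ := h3 (Nat.card K) hKp (by rw [h.fixed]) S
  -- it suffices that `a` centralises that Sylow subgroup
  suffices hgoal : (S : Subgroup W).map W.subtype ≤ centralizer ({a} : Set G) by
    obtain ⟨L, -, hLu⟩ := hSu
    exact hne ((hLu M ⟨hM, hgoal.trans huniq.1⟩).trans (hLu Ns ⟨h.coatomN, hSN⟩).symm)
  by_cases he : fittingHallOf Ns = W
  · haveI : Group.IsNilpotent ↥W := by
      haveI := (OddLocal.fittingHall_mem ↥Ns).2.1
      rw [← he]
      exact Group.nilpotent_of_mulEquiv (equivMapOfInjective _ Ns.subtype Ns.subtype_injective)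
    rintro _ ⟨s, hs, rfl⟩
    refine mem_centralizer_singleton_iff.mpr (congrArg Subtype.val (Transfer.commute_of_coprime_orderOf
      (x := s) (y := (⟨a, haσ⟩ : W)) ?_).eq)
    rw [show orderOf (⟨a, haσ⟩ : W) = q from (Subgroup.orderOf_mk a haσ).trans hao]
    obtain ⟨j, hj⟩ := IsPGroup.iff_orderOf.mp S.2 ⟨s, hs⟩
    rw [Subgroup.orderOf_mk] at hj
    rw [hj]
    exact ((Nat.coprime_primes hKp hq.1).mpr (Ne.symm hqk)).pow_left j
  obtain ⟨k', Q, hQ⟩ := OddLocal.Fcore.exists_structure hG h.coatomN hUs he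
  have hk' : k' = Nat.card K := by
    rw [← hQ.card_star]
    show Nat.card ↥(sigmaCore Ns ⊓ centralizer (J : Set G)) = Nat.card K
    rw [h.fixed]
  subst hk'
  haveI : (Q.subgroupOf W).Normal :=
    (normal_subgroupOf_iff_le_normalizer hQ.le_sigma).mpr (hWN.trans hQ.norm)
  have hSQ : (S : Subgroup W) ≤ Q.subgroupOf W := le_of_coprime_index <| Nat.coprime_of_dvd fun r hr h1 h2 =>
    hQ.hall (isPGroup_ne_dvd S.2 hr h1 ▸ h2)
  suffices hgoal : Q ≤ centralizer ({a} : Set G) by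
    rintro _ ⟨s, hs, rfl⟩
    exact hgoal (hSQ hs)
  obtain ⟨D, hD, hd⟩ := hQ.exists_data
  have hKQ : K ≤ Q := by
    have h2 := hQ.star_le
    rw [h.fixed] at h2
    exact h2
  have hsol : Group.IsSolvable ↥W := solvable_of_ne_top hG (ne_top_of_le h.coatomN hWN)
  haveI := hsol
  have hQW : Q ≤ W := hQ.le_sigma
  have hDW : D ≤ W := hD.2.1
  have hcD : Nat.card Q * Nat.card D = Nat.card W := by
    have h2 := Coprime.card_sup_mul_card_inf_of_le_normalizer (A := D) (N := Q) ((hDW.trans hWN).trans hQ.norm)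
    have hsup : D ⊔ Q = W := le_antisymm (sup_le hDW hQW) fun w hw => by
      obtain ⟨u, hu, d, hd', rfl⟩ := hD.2.2.2 w hw
      exact mul_mem (mem_sup_right hu) (mem_sup_left hd')
    rw [hsup, inf_comm D Q, hD.2.2.1, card_bot, mul_one] at h2
    rw [h2, mul_comm]
  have hidx : (D.subgroupOf W).index = Nat.card Q := by
    have h2 := (D.subgroupOf W).card_mul_index
    rw [Coprime.card_subgroupOf hDW, ← hcD, mul_comm (Nat.card Q)] at h2
    exact Nat.eq_of_mul_eq_mul_left Nat.card_pos h2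
  obtain ⟨w, hw⟩ := Hall.exists_le_conj (H := D.subgroupOf W) (by
    rw [Coprime.card_subgroupOf hDW, hidx]
    exact (hd.cop.coprime_dvd_right (card_dvd_of_le le_sup_left)).symm) (K := (T : Subgroup G).subgroupOf W) (by
    rw [Coprime.card_subgroupOf hTW, hidx]
    exact IsPGroup.coprime_card_of_ne q (Nat.card K) hqk _ _ T.2 hQ.pgroup)
  obtain ⟨v, hv, d₀, hd₀, hvd⟩ := hD.2.2.2 w w.2
  have hTD : ∀ t ∈ (T : Subgroup G), v⁻¹ * t * v ∈ D := fun t ht => by
    obtain ⟨z, hz, hzt⟩ := hw (show (⟨t, hTW ht⟩ : W) ∈ (T : Subgroup G).subgroupOf W from ht)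
    have hzt' : (w : G) * (z : G) * (w : G)⁻¹ = t := congrArg Subtype.val hzt
    rw [← hzt', hvd, show v⁻¹ * (v * d₀ * (z : G) * (v * d₀)⁻¹) * v = d₀ * z * d₀⁻¹ by group]
    exact D.mul_mem (D.mul_mem hd₀ hz) (D.inv_mem hd₀)
  set T' : Sylow q G := v⁻¹ • T with hT'
  have hT'mem : ∀ t, t ∈ (T' : Subgroup G) ↔ v * t * v⁻¹ ∈ (T : Subgroup G) := fun t => by
    rw [hT', Sylow.smul_def, Sylow.pointwise_smul_def, Coprime.mem_conj_smul, inv_inv]
  have hT'D : (T' : Subgroup G) ≤ D := fun t ht => by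
    have h2 := hTD _ ((hT'mem t).mp ht)
    rwa [show v⁻¹ * (v * t * v⁻¹) * v = t by group] at h2
  haveI : Group.IsNilpotent D := OddLocal.CyclicFix.isNilpotent_kernel D J hd.ne hd.conj hd.free
  have hn : ((T'.subtype hT'D : Sylow q D) : Subgroup D).Normal :=
    Sylow.normal_of_normalizerCondition Group.normalizerCondition_of_isNilpotent _
  haveI := Sylow.characteristic_of_normal (T'.subtype hT'D) hn
  have hTn : normalizer (D : Set G) ≤ normalizer ((T' : Subgroup G) : Set G) := by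
    have h2 := PL.normalizer_le_normalizer_map_char D ((T'.subtype hT'D : Sylow q D) : Subgroup D)
    rwa [Sylow.coe_subtype, map_subgroupOf_eq_of_le hT'D] at h2
  have hJD : J ≤ normalizer (D : Set G) := fun j hj => by
    refine Coprime.mem_normalizer_of_conj_smul_eq (eq_of_le_of_card_ge ?_ (Coprime.card_conj_smul j D).ge)
    rintro _ ⟨d, hd', rfl⟩
    exact hd.conj j hj d hd'
  set H := Q ⊓ centralizer ((T' : Subgroup G) : Set G) with hH
  have hHn : D ⊔ J ≤ normalizer (H : Set G) :=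
    (le_inf hd.norm ((sup_le le_normalizer hJD).trans (hTn.trans
      (Coprime.normalizer_le_normalizer_centralizer (T' : Subgroup G))))).trans inf_normalizer_le_normalizer_inf
  have hv' : v⁻¹ ∈ Q := Q.inv_mem hv
  set k₁ := v⁻¹ * k * v with hk₁
  have hk₁H : k₁ ∈ H := by
    refine ⟨Q.mul_mem (Q.mul_mem hv' (hKQ hk)) hv, mem_centralizer_iff.mpr fun t ht => ?_⟩
    have ht' := hTF ((hT'mem t).mp ht)
    have h2 : (v * t * v⁻¹) * k = k * (v * t * v⁻¹) :=
      congrArg Subtype.val (hFc.is_comm.comm (⟨_, ht'⟩ : F) ⟨k, hKF hk⟩)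
    calc t * k₁ = v⁻¹ * ((v * t * v⁻¹) * k) * v := by rw [hk₁]; group
      _ = k₁ * t := by rw [h2, hk₁]; group
  have hk₁0 : k₁ ∉ Q ⊓ centralizer (D : Set G) := fun hmem => by
    have h2 : k ∈ Q ⊓ centralizer (D : Set G) := by
      have := (mem_normalizer_iff.mp (OddLocal.FrobeniusPGroup.normal_fixed hd hv) k₁).mp hmem
      rwa [hk₁, show v * (v⁻¹ * k * v) * v⁻¹ = k by group] at this
    have h3 : k ∈ Q ⊓ centralizer ((D ⊔ J : Subgroup G) : Set G) := by
      refine ⟨h2.1, le_centralizer_iff.mp (sup_le (le_centralizer_iff.mp (zpowers_le.mpr h2.2))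
        (le_centralizer_iff.mp (zpowers_le.mpr (h.fixed.ge hk).2))) (mem_zpowers k)⟩
    rw [OddLocal.FrobeniusPGroup.fixed_all hd, mem_bot] at h3
    exact hk1 h3
  have hHQ : H = Q := (OddLocal.FrobeniusPGroup.eq_or_eq hd
    (inf_le_inf_left Q (centralizer_le hT'D)) inf_le_left hHn).resolve_left fun e => hk₁0 (e ▸ hk₁H)
  -- back to `T`
  intro u hu
  have hu' : v⁻¹ * u * v ∈ centralizer ((T' : Subgroup G) : Set G) :=
    (hHQ.ge (Q.mul_mem (Q.mul_mem hv' hu) hv)).2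
  have h2 := mem_centralizer_iff.mp hu' (v⁻¹ * a * v) ((hT'mem _).mpr (by
    rw [show v * (v⁻¹ * a * v) * v⁻¹ = a by group]; exact hAT ha))
  refine mem_centralizer_singleton_iff.mpr ?_
  calc u * a = v * ((v⁻¹ * u * v) * (v⁻¹ * a * v)) * v⁻¹ := by group
    _ = a * u := by rw [← h2]; group

/-- BG 15.9. -/
theorem frobenius_of_kappa_support (hG : IsMinSimpleOddOrder G) (hM : IsCoatom M) {x : G} (hx : x ∈ sigmaCore M)
    (hx1 : x ≠ 1) (hxM : ¬ centralizer ({x} : Set G) ≤ M) (hN : IsCoatom N)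
    (hxN : centralizer ({x} : Set G) ≤ N) (hkN : (kappa N).Nonempty) :
    kappa M = ∅ ∧ (∃ E : Subgroup ↥M, IsFrobeniusComplement E ∧ IsCyclic E) ∧
      ¬ IsTISubset (fittingHallOf M : Set G) := by
  classical
  obtain ⟨N', ⟨hN', hCN'⟩, huniq, -, -, -, -, hcompN, hpτ⟩ :=
    OddLocal.Support.support_data hG (hdisj hG) (h30 hG) hM hx hx1 hxM
  obtain rfl := huniq N hN hxN
  set E := M ⊓ N with hE
  obtain ⟨K, U, hKU, hK1, hKUE⟩ := exists_decomposition_in hG hN hcompN hkN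
  have hU1 : U ≠ ⊥ := by
    obtain ⟨N', ⟨hN', hCN''⟩, -, -, -, -, -, hdecs⟩ := S1375.result hG M hM x hx hx1 hxM
    obtain rfl := huniq N' hN' hCN''
    exact (hdecs K U hKU).1
  obtain ⟨hUc, hfree⟩ := OddLocal.Decomposition.abelian_free hG hN hKU hK1
  have hUH := OddLocal.Decomposition.hall_U hG hN hKU
  have hUE : U ≤ E := hKUE ▸ le_sup_right
  have hKE : K ≤ E := hKUE ▸ le_sup_left
  have hEU : E ≤ normalizer (U : Set G) := hKUE ▸ sup_le hKU.normal le_normalizer
  have hKp : (Nat.card K).Prime := (prime_of_regular hG hN hKU.hall hK1 hUH hKU.normal hfree hU1).1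
  have hxE : x ∈ E := ⟨(map_subtype_le _ : sigmaCore M ≤ M) hx, hxN (mem_centralizer_singleton_iff.mpr rfl)⟩
  -- a prime `r` of `x`
  obtain ⟨r, hr, hrx⟩ := Nat.exists_prime_and_dvd (fun e => hx1 (orderOf_eq_one_iff.mp e))
  haveI := Fact.mk hr
  obtain ⟨hr2, hrκ⟩ := hpτ r hr hrx
  have hrM : r ∈ sigma M := PiElem.of_sigmaCore hx r hr hrx
  set x₁ := x ^ (orderOf x / r) with hx₁
  have hx₁o : orderOf x₁ = r := orderOf_pow_orderOf_div (orderOf_pos x).ne' hrx
  have hx₁1 : x₁ ≠ 1 := fun e => hr.ne_one (by rw [← hx₁o, e, orderOf_one])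
  have hx₁σ : x₁ ∈ sigmaCore M := pow_mem hx _
  have hCxx : centralizer ({x} : Set G) ≤ centralizer ({x₁} : Set G) := fun c hc =>
    mem_centralizer_singleton_iff.mpr (Commute.pow_right (mem_centralizer_singleton_iff.mp hc) _).eq
  have hne₁ : ¬ centralizer ({x₁} : Set G) ≤ M := fun h => hxM (hCxx.trans h)
  have hCx₁ : centralizer ({x₁} : Set G) ≤ N := by
    obtain ⟨N₁, ⟨hN₁, hCN₁⟩, -⟩ := OddLocal.Support.support_data hG (hdisj hG) (h30 hG) hM hx₁σ hx₁1 hne₁
    exact huniq N₁ hN₁ (hCxx.trans hCN₁) ▸ hCN₁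
  have hcardE : Nat.card E = Nat.card K * Nat.card U := by
    have h := Coprime.card_sup_mul_card_inf_of_le_normalizer hKU.normal
    rwa [hKUE, Coprime.inf_eq_bot_of_coprime (Nat.coprime_of_dvd fun t ht h1 h2 =>
      (hUH.2.1 t ht h2).2.1 (hKU.hall.2.1 t ht h1)), card_bot, mul_one] at h
  have hindU : (U.subgroupOf E).index = Nat.card K := by
    have h := (U.subgroupOf E).card_mul_index
    rw [Coprime.card_subgroupOf hUE, hcardE, mul_comm (Nat.card K)] at h
    exact Nat.eq_of_mul_eq_mul_left Nat.card_pos h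
  haveI : (U.subgroupOf E).Normal := (normal_subgroupOf_iff_le_normalizer hUE).mpr hEU
  have hx₁U : x₁ ∈ U := by
    have hle : zpowers (⟨x₁, E.pow_mem hxE _⟩ : E) ≤ U.subgroupOf E := le_of_coprime_index <| by
      rw [Nat.card_zpowers, Subgroup.orderOf_mk, hindU, hx₁o]
      exact (hr.coprime_iff_not_dvd).mpr fun hd => hrκ (hKU.hall.2.1 r hr hd)
    exact hle (mem_zpowers _)
  have hrU : r ∣ Nat.card U := hx₁o ▸ U.orderOf_dvd_natCard hx₁U
  obtain ⟨R⟩ : Nonempty (Sylow r U) := inferInstance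
  set R' := (R : Subgroup U).map U.subtype with hR'
  -- `R` contains an elementary abelian subgroup of order `r ^ 2`
  obtain ⟨A, hAE, hA, hAc⟩ := exists_elem_compl hG hN hcompN hr2
  have hAU : A ≤ U := by
    have hle : A.subgroupOf E ≤ U.subgroupOf E := le_of_coprime_index <| by
      rw [Coprime.card_subgroupOf hAE, hindU, hAc]
      exact ((hr.coprime_iff_not_dvd).mpr fun hd => hrκ (hKU.hall.2.1 r hr hd)).pow_left 2
    exact fun z hz => hle (show (⟨z, hAE hz⟩ : E) ∈ A.subgroupOf E from hz)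
  haveI := hUc
  haveI hRn : (R : Subgroup U).Normal := ⟨fun n hn g => by rw [mul_comm' g n, mul_inv_cancel_right]; exact hn⟩
  have hAR : A ≤ R' := by
    obtain ⟨S, hS⟩ := ((elem_isPGroup hA).comap_subtype (K := U)).exists_le_sylow
    have hSR : S = R := (Sylow.unique_of_normal R hRn).uniq S |>.trans ((Sylow.unique_of_normal R hRn).uniq R).symm
    exact fun z hz => ⟨⟨z, hAU hz⟩, hSR ▸ hS hz, rfl⟩
  have hR'M : R' ≤ M := (map_subtype_le _).trans (hUE.trans inf_le_left)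
  have hR'nc : ¬ IsCyclic R' := fun hc => not_isCyclic_of_elem hA hAc (by
    haveI := hc
    exact isCyclic_of_injective (Subgroup.inclusion hAR) (Subgroup.inclusion_injective hAR))
  have hNR : normalizer (R' : Set G) ≤ M :=
    normalizer_noncyclic_le hG hM hrM (R.2.map U.subtype) hR'M hR'nc
  obtain ⟨Ns, hpair⟩ := exists_pair hG hN hKU.hall hK1
  obtain ⟨hκM, hUσ, -, -, -, hF⟩ := type_p2_main hG hN hKU hK1 hU1 hpair hrU R hM hNR
  refine ⟨hκM, ?_⟩
  set F := M ⊓ Ns with hFdef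
  have hUM : U ≤ M := hUE.trans inf_le_left
  have hKM : K ≤ M := hKE.trans inf_le_left
  have hneNs : M ≠ Ns := fun e => by
    have h1 := hrU.trans (card_dvd_of_le ((le_inf hUH.1 (hUM.trans e.le)).trans (hpair.inter hG).le))
    rw [card_join hKU.hall] at h1
    obtain ⟨-, hκ, hσ⟩ := hUH.2.1 r hr hrU
    rcases hr.dvd_mul.mp h1 with h3 | h3
    · exact hκ (hKU.hall.2.1 r hr h3)
    · exact hσ (OddLocal.piCoreOf_isPi (sigma N) N r hr (h3.trans (card_dvd_of_le inf_le_left)))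
  have hncN : ∀ g : G, M ≠ MulAut.conj g • N := fun g hg =>
    (hUH.2.1 r hr hrU).2.2 ((sigma_conj_iff hG hN g).mp (hg ▸ hrM))
  have hKfix := hpair.fixed_free hG hM hKM hneNs hncN hKp
  have hMn : M ≤ normalizer (sigmaCore M : Set G) := OddLocal.le_normalizer_piCoreOf (sigma M) M
  haveI hnil : Group.IsNilpotent ↥(sigmaCore M) := OddLocal.CyclicFix.isNilpotent_kernel _ K hK1
    (fun e he u hu => (mem_normalizer_iff.mp (hMn (hKM he)) u).mp hu) fun e he he1 u hu hc => by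
      have heK : zpowers e = K := eq_of_le_of_card_ge (zpowers_le.mpr he) (by
        rw [Nat.card_zpowers, ((Nat.dvd_prime hKp).mp (K.orderOf_dvd_natCard he)).resolve_left
          fun e' => he1 (orderOf_eq_one_iff.mp e')])
      have hu' : u ∈ sigmaCore M ⊓ centralizer (K : Set G) := ⟨hu, by
        rw [← heK, centralizer_zpowers]
        exact mem_centralizer_singleton_iff.mpr hc.symm⟩
      rwa [hKfix, mem_bot] at hu'
  -- no `σ(M)'`-element of `M` centralises `x₁`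
  have hfixF : ∀ f ∈ F, Commute f x₁ → f = 1 := by
    intro f hf hc
    by_contra hf1
    obtain ⟨t, ht, htd⟩ := Nat.exists_prime_and_dvd (fun e => hf1 (orderOf_eq_one_iff.mp e))
    haveI := Fact.mk ht
    have htσ : t ∉ sigma M := compl_not_sigma hG hM hF (htd.trans (F.orderOf_dvd_natCard hf))
    set f₁ := f ^ (orderOf f / t) with hf₁
    have hf₁o : orderOf f₁ = t := orderOf_pow_orderOf_div (orderOf_pos f).ne' htd
    have hf₁C : Commute f₁ x₁ := hc.pow_left _
    have hf₁E : f₁ ∈ E := ⟨M.pow_mem hf.1 _, hCx₁ (mem_centralizer_singleton_iff.mpr hf₁C.eq)⟩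
    have htU : ¬ t ∣ Nat.card U := fun hd =>
      htσ (OddLocal.piCoreOf_isPi (sigma M) M t ht (hd.trans (card_dvd_of_le hUσ)))
    haveI := solvable_of_ne_top hG (ne_top_of_le hM (inf_le_left : E ≤ M))
    have hindK : (K.subgroupOf E).index = Nat.card U := by
      have h := (K.subgroupOf E).card_mul_index
      rw [Coprime.card_subgroupOf hKE, hcardE] at h
      exact Nat.eq_of_mul_eq_mul_left Nat.card_pos h
    obtain ⟨e, he⟩ := Hall.exists_le_conj (H := K.subgroupOf E) (by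
      rw [Coprime.card_subgroupOf hKE, hindK]
      exact Nat.coprime_of_dvd fun s hs h1 h2 => (hUH.2.1 s hs h2).2.1 (hKU.hall.2.1 s hs h1))
      (K := zpowers (⟨f₁, hf₁E⟩ : E)) (by
      rw [Nat.card_zpowers, Subgroup.orderOf_mk, hindK, hf₁o]
      exact (ht.coprime_iff_not_dvd).mpr htU)
    obtain ⟨k, hk, hkf⟩ := he (mem_zpowers _)
    have hkf' : (e : G) * (k : G) * (e : G)⁻¹ = f₁ := congrArg Subtype.val hkf
    set y := (e : G)⁻¹ * x₁ * e with hy
    have hyU : y ∈ U := (mem_normalizer_iff''.mp (hEU e.2) x₁).mp hx₁U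
    have hk1 : (k : G) ≠ 1 := fun e' => ht.ne_one (by
      rw [← hf₁o, ← hkf', e', mul_one, mul_inv_cancel, orderOf_one])
    have hyk : y ∈ U ⊓ centralizer ({(k : G)} : Set G) := ⟨hyU, mem_centralizer_singleton_iff.mpr (by
      calc y * k = (e : G)⁻¹ * (x₁ * ((e : G) * k * (e : G)⁻¹)) * e := by rw [hy]; group
        _ = (e : G)⁻¹ * (x₁ * f₁) * e := by rw [hkf']
        _ = (e : G)⁻¹ * (f₁ * x₁) * e := by rw [hf₁C.eq]
        _ = k * y := by rw [← hkf', hy]; group)⟩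
    rw [hfree k hk hk1, mem_bot, hy] at hyk
    exact hx₁1 (conj_eq_one_iff.mp (show (e : G)⁻¹ * x₁ * (e : G)⁻¹⁻¹ = 1 by rwa [inv_inv]))
  -- the complement is abelian
  set P := (pCore r ↥(sigmaCore M)).map (sigmaCore M).subtype with hP
  have hPp : IsPGroup r P := (Hall.isPGroup_pCore (G := ↥(sigmaCore M)) r).map (sigmaCore M).subtype
  have hmemP : ∀ Y : Subgroup G, IsPGroup r Y → Y ≤ sigmaCore M → Y ≤ P := fun Y hY hYσ z hz => by
    obtain ⟨S, hS⟩ := (hY.comap_subtype (K := sigmaCore M)).exists_le_sylow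
    haveI : (S : Subgroup ↥(sigmaCore M)).Normal :=
      Sylow.normal_of_normalizerCondition Group.normalizerCondition_of_isNilpotent S
    exact ⟨⟨z, hYσ hz⟩, Hall.le_pCore S.2 (hS hz), rfl⟩
  have hAP : A ≤ P := (hmemP R' (R.2.map U.subtype) ((map_subtype_le _).trans hUσ)).trans' hAR
  have hx₁P : x₁ ∈ P := hmemP (zpowers x₁) (IsPGroup.of_card (n := 1) (by rw [Nat.card_zpowers, hx₁o, pow_one]))
    (zpowers_le.mpr hx₁σ) (mem_zpowers x₁)
  have hFσ : ∀ t : ℕ, t.Prime → t ∣ Nat.card F → t ∉ sigma M := fun t ht hd => by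
    haveI := Fact.mk ht
    exact compl_not_sigma hG hM hF hd
  have hFc : IsMulCommutative F := by
    refine abelian_of_faithful (P := P) (A := A) (fun e => hG.1.not_two_dvd_nat (e ▸ hrU.trans U.card_subgroup_dvd_card))
      hPp hA hAc hAP
      ((S1408.result hG N hN r hr2.2.1 hr2.2.2.1 hr2.2.2.2).2 A (hAE.trans inf_le_right) hA hAc)
      ((inf_le_left.trans hMn).trans (PL.normalizer_le_normalizer_map_char _ (pCore r ↥(sigmaCore M))))
      (odd_card hG F) (fun hd => hFσ r hr hd hrM) (eq_bot_iff.mpr fun f hf => mem_bot.mpr ?_)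
      (solvable_of_ne_top hG (ne_top_of_le hM inf_le_left))
    exact hfixF f hf.1 (mem_centralizer_iff.mp hf.2 x₁ hx₁P).symm
  have hKF : K ≤ F := le_inf hKM (h_le hG hpair)
  have hτ : tau2 M = ∅ := tau_two_eq_empty hG hM hpair hneNs hnil hKM hF hFc hKF hx₁σ hx₁1 hfixF
  have hS1 : sigmaCore M ≠ ⊥ := fun e => hx1 (mem_bot.mp (e ▸ hx))
  have hfreeF : ∀ e ∈ F, e ≠ 1 → sigmaCore M ⊓ centralizer ({e} : Set G) = ⊥ := by
    intro e he he1
    by_contra hbot
    obtain ⟨d, hd, hd1⟩ := (bot_or_exists_ne_one _).resolve_left hbot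
    obtain ⟨t, ht, htd⟩ := Nat.exists_prime_and_dvd (fun e' => he1 (orderOf_eq_one_iff.mp e'))
    haveI := Fact.mk ht
    have hc : Commute (e ^ (orderOf e / t)) d :=
      Commute.pow_left (mem_centralizer_singleton_iff.mp hd.2).symm _
    rcases OddLocal.SigmaPrimeElem.kappa_or_tau2 hG hM (hFσ t ht (htd.trans (F.orderOf_dvd_natCard he)))
      (M.pow_mem he.1 _) (orderOf_pow_orderOf_div (orderOf_pos e).ne' htd) hd.1 hd1 hc.eq with h' | h'
    · rw [hκM] at h'; exact h'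
    · rw [hτ] at h'; exact h'
  haveI : Group.IsNilpotent F := nilpotent_of_isMulCommutative hFc
  haveI : IsZGroup ↥F := rank_one_zgroup hG inf_le_left fun s hs hd => by
    rcases tau_cases hG hM hF hs hd with h2 | h1 | h3
    · rw [hτ] at h2; exact h2.elim
    · exact h1.2.2.2.2
    · exact h3.2.2.2
  haveI : IsCyclic F := inferInstance
  have hF1 : F ≠ ⊥ := fun e => hK1 (le_bot_iff.mp (e ▸ hKF))
  refine ⟨⟨F.subgroupOf M, isFrobeniusComplement_of_free hF hMn hF1 hS1 hfreeF,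
    isCyclic_of_injective (subgroupOfEquivOfLe inf_le_left).toMonoidHom (MulEquiv.injective _)⟩, fun hTI => ?_⟩
  have hFH : fittingHallOf M = sigmaCore M := OddLocal.Support.fittingHallOf_eq_sigmaCore hG hM hnil
  rw [hFH] at hTI
  obtain ⟨c, hc, hcM⟩ := SetLike.not_le_iff_exists.mp hxM
  refine hx1 (hTI c ?_ x hx ?_)
  · rw [normalizer_eq_of_normal hG hM hS1 (map_subtype_le _) hMn]
    exact hcM
  · rw [mem_centralizer_singleton_iff.mp hc, mul_inv_cancel_right]
    exact hx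
where
  h_le (hG : IsMinSimpleOddOrder G) {N K Ns : Subgroup G} (h : IsKappaPair N K Ns) : K ≤ Ns :=
    h.K_le_coreN.trans (map_subtype_le _)

end Cfsg.Agent.Lib.Uniq
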