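import Cfsg.Agent.Lib.Uniq.KappaStructure
import Cfsg.Agent.Lib.OddLocal.Support
import Cfsg.Agent.Lib.OddLocal.UPart
import Cfsg.Agent.S1446
import Cfsg.Agent.S1429
set_option autoImplicit false

/-! `σ`-parts of elements, conjugation, and the type P₂ prime (BG 14.2 (g), 14.5). -/

namespace Cfsg.Agent.Lib.Uniq

open Subgroup
open scoped Pointwise commutatorElement

universe u

variable {G : Type u} [Group G] [Finite G] {M N K U : Subgroup G} {π : Set ℕ}

/-- All prime divisors of the order of `x` lie in `π`. -/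
def PiElem (π : Set ℕ) (x : G) : Prop := ∀ p : ℕ, p.Prime → p ∣ orderOf x → p ∈ π

omit [Finite G] in
theorem PiElem.one : PiElem π (1 : G) := fun p hp hd => absurd (orderOf_one (G := G) ▸ hd) hp.not_dvd_one

omit [Finite G] in
theorem PiElem.conj {x : G} (h : PiElem π x) (g : G) : PiElem π (g * x * g⁻¹) := fun p hp hd => by
  rw [show g * x * g⁻¹ = MulAut.conj g x from rfl, MulEquiv.orderOf_eq] at hd
  exact h p hp hd

omit [Finite G] in
theorem PiElem.of_mem {H : Subgroup G} (hH : ∀ p : ℕ, p.Prime → p ∣ Nat.card H → p ∈ π) {x : G} (hx : x ∈ H) :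
    PiElem π x := fun p hp hd => hH p hp (hd.trans (H.orderOf_dvd_natCard hx))

theorem PiElem.of_sigmaCore {x : G} (hx : x ∈ sigmaCore M) : PiElem (sigma M) x :=
  PiElem.of_mem (OddLocal.piCoreOf_isPi (sigma M) M) hx

/-- The factors of a commuting product of a `π`-element and a `π'`-element are unique powers of it. -/
theorem part_pow {a b a' b' : G} (hab : Commute a b) (hab' : Commute a' b') (ha : PiElem π a) (ha' : PiElem π a')
    (hb : PiElem πᶜ b) (hb' : PiElem πᶜ b') :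
    ∃ n : ℕ, (a * b) ^ n = a ∧ (a' * b') ^ n = a' := by
  obtain ⟨n, h1, h2⟩ := OddLocal.Signalizer.exists_exponent (G := G) (a := orderOf a * orderOf a')
    (b := orderOf b * orderOf b') (Nat.coprime_of_dvd fun p hp hA hB => by
      rcases hp.dvd_mul.mp hA with h | h <;> rcases hp.dvd_mul.mp hB with h' | h'
      · exact hb p hp h' (ha p hp h)
      · exact hb' p hp h' (ha p hp h)
      · exact hb p hp h' (ha' p hp h)
      · exact hb' p hp h' (ha' p hp h))
  refine ⟨n, ?_, ?_⟩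
  · rw [hab.mul_pow, h1 a (by rw [pow_mul, pow_orderOf_eq_one, one_pow]),
      h2 b (by rw [pow_mul, pow_orderOf_eq_one, one_pow]), mul_one]
  · rw [hab'.mul_pow, h1 a' (by rw [mul_comm, pow_mul, pow_orderOf_eq_one, one_pow]),
      h2 b' (by rw [mul_comm, pow_mul, pow_orderOf_eq_one, one_pow]), mul_one]

theorem parts_eq {a b a' b' : G} (hab : Commute a b) (hab' : Commute a' b') (ha : PiElem π a) (ha' : PiElem π a')
    (hb : PiElem πᶜ b) (hb' : PiElem πᶜ b') (h : a * b = a' * b') : a = a' ∧ b = b' := by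
  obtain ⟨n, h1, h2⟩ := part_pow hab hab' ha ha' hb hb'
  have he : a = a' := by rw [← h1, ← h2, h]
  exact ⟨he, mul_left_cancel (a := a') (he ▸ h)⟩

/-- A `π`-element of the join of commuting `π`- and `π'`-subgroups lies in the first. -/
theorem mem_left_of_join {A B : Subgroup G} (hAB : A ≤ centralizer (B : Set G))
    (hA : ∀ p : ℕ, p.Prime → p ∣ Nat.card A → p ∈ π) (hB : ∀ p : ℕ, p.Prime → p ∣ Nat.card B → p ∉ π)
    {z : G} (hz : z ∈ A ⊔ B) (hπ : PiElem π z) : z ∈ A := by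
  obtain ⟨a, ha, b, hb, rfl⟩ := (Coprime.mem_sup_of_le_normalizer (hAB.trans (centralizer_le_normalizer _))).mp hz
  have h := parts_eq (π := π) (Commute.one_right (a * b))
    (show Commute a b from (mem_centralizer_iff.mp (hAB ha) b hb).symm) hπ (PiElem.of_mem hA ha) PiElem.one
    (fun p hp hd => hB p hp (hd.trans (B.orderOf_dvd_natCard hb))) (mul_one _)
  rw [h.1]; exact ha

/-- A `π'`-element of the join of commuting `π`- and `π'`-subgroups lies in the second. -/
theorem mem_right_of_join {A B : Subgroup G} (hAB : A ≤ centralizer (B : Set G))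
    (hA : ∀ p : ℕ, p.Prime → p ∣ Nat.card A → p ∈ π) (hB : ∀ p : ℕ, p.Prime → p ∣ Nat.card B → p ∉ π)
    {z : G} (hz : z ∈ A ⊔ B) (hπ : PiElem πᶜ z) : z ∈ B := by
  rw [sup_comm] at hz
  exact mem_left_of_join (π := πᶜ) (le_centralizer_iff.mp hAB) hB (fun p hp hd h => h (hA p hp hd)) hz hπ

/-- `σ(M)` only depends on the class of `M`. -/
theorem sigma_conj_iff (hG : IsMinSimpleOddOrder G) (hM : IsCoatom M) (g : G) {p : ℕ} :
    p ∈ sigma (MulAut.conj g • M) ↔ p ∈ sigma M := by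
  refine ⟨sigma_conj hM hG rfl, fun h => sigma_conj (coatom_smul g hM) hG (g := g⁻¹) (H := M) ?_ h⟩
  rw [map_inv, inv_smul_smul]

/-- Conjugation maps `M_σ` to the core of the conjugate. -/
theorem conj_mem_sigmaCore (hG : IsMinSimpleOddOrder G) (hM : IsCoatom M) {x : G} (hx : x ∈ sigmaCore M) (g : G) :
    g * x * g⁻¹ ∈ sigmaCore (MulAut.conj g • M) := by
  refine le_sigmaCore hG (coatom_smul g hM) (Y := zpowers (g * x * g⁻¹)) (zpowers_le.mpr ?_) (fun r hr hd => ?_)
    (mem_zpowers _)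
  · rw [Coprime.mem_conj_smul]
    simpa [mul_assoc] using (map_subtype_le _ : sigmaCore M ≤ M) hx
  · rw [Nat.card_zpowers] at hd
    exact (sigma_conj_iff hG hM g).mpr ((PiElem.of_sigmaCore hx).conj g r hr hd)

/-- `C_G(x) ≤ L` pins down a conjugate of `L` containing `x ∈ L_σ`. -/
theorem conj_eq_of_mem (hG : IsMinSimpleOddOrder G) (hM : IsCoatom M) {x : G} (hx : x ∈ sigmaCore M)
    (hC : centralizer ({x} : Set G) ≤ M) {g : G} (hg : x ∈ MulAut.conj g • M) : g ∈ M := by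
  rw [Coprime.mem_conj_smul] at hg
  obtain ⟨m, hm, c, hc, he⟩ := OddLocal.SigmaPrimeElem.exists_mul_centralizer hG hM hx (g := g⁻¹) (by simpa using hg)
  have h : g⁻¹ ∈ M := he ▸ M.mul_mem hm (hC hc)
  simpa using M.inv_mem h

theorem hdisj (hG : IsMinSimpleOddOrder G) : ∀ A B : Subgroup G, IsCoatom A → IsCoatom B → ∀ p : ℕ,
    p ∈ sigma A → p ∈ sigma B → ∃ g : G, B = MulAut.conj g • A :=
  fun _ _ hA hB _ h1 h2 => conj_of_sigma_sigma hG hA hB h1 h2

/-- BG 14.2 for every maximal subgroup, in the shape BG 14.3 uses. -/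
theorem h30 (hG : IsMinSimpleOddOrder G) (M : Subgroup G) (hM : IsCoatom M) :
    ∀ K : Subgroup G, IsPiHallOf (kappa M) K M → K ≠ ⊥ →
      (∀ k ∈ K, k ≠ 1 → sigmaCore M ⊓ centralizer ({k} : Set G) = sigmaCore M ⊓ centralizer (K : Set G)) ∧
      (∃ U : Subgroup G, IsMulCommutative U ∧ IsPiHallOf {q | q.Prime ∧ q ∉ kappa M ∧ q ∉ sigma M} U M ∧
        K ≤ normalizer (U : Set G) ∧ ∀ k ∈ K, k ≠ 1 → U ⊓ centralizer ({k} : Set G) = ⊥) ∧
      ∀ X : Subgroup G, X ≤ K → (Nat.card X).Prime →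
        M ⊓ normalizer (X : Set G) = K ⊔ (sigmaCore M ⊓ centralizer (K : Set G)) := fun K hK hK1 => by
  obtain ⟨h1, h2, h3⟩ := kappa_structure hG hM hK hK1
  exact ⟨h1, h2, fun X hX hp => (h3 X hX hp).1⟩

/-- A nontrivial regular part has no fixed points on `M_σ`, which is nilpotent. -/
theorem fixed_compl_eq_bot (hG : IsMinSimpleOddOrder G) (hM : IsCoatom M)
    (hUH : IsPiHallOf {t | t.Prime ∧ t ∉ kappa M ∧ t ∉ sigma M} U M)
    (hU1 : U ≠ ⊥) : sigmaCore M ⊓ centralizer (U : Set G) = ⊥ ∧ Group.IsNilpotent (sigmaCore M) := by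
  obtain ⟨r, hr, hrd⟩ := Nat.exists_prime_and_dvd (mt card_eq_one.mp hU1)
  haveI := Fact.mk hr
  obtain ⟨-, hrκ, hrσ⟩ := hUH.2.1 r hr hrd
  have hrM : r ∣ Nat.card M := hrd.trans (card_dvd_of_le hUH.1)
  obtain ⟨S₀⟩ : Nonempty (Sylow r ↥U) := inferInstance
  set S₀' := ((S₀ : Subgroup ↥U).map U.subtype).subgroupOf M with hS₀'
  have hSU : (S₀ : Subgroup ↥U).map U.subtype ≤ M := (map_subtype_le _).trans hUH.1
  have hS₀p : IsPGroup r S₀' := (S₀.2.map U.subtype).comap_subtype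
  obtain ⟨S, hS⟩ := hS₀p.exists_le_sylow
  have hSeq : (S : Subgroup M).map M.subtype = (S₀ : Subgroup ↥U).map U.subtype := by
    refine (eq_of_le_of_card_ge ?_ ?_).symm
    · have h := map_mono (f := M.subtype) hS
      rwa [hS₀', map_subgroupOf_eq_of_le hSU] at h
    · rw [card_map_of_injective U.subtype_injective, card_map_of_injective M.subtype_injective]
      refine Nat.le_of_dvd Nat.card_pos ?_
      obtain ⟨n, hn⟩ := IsPGroup.iff_card.mp S.2
      rw [hn]
      refine S₀.pow_dvd_card_of_pow_dvd_card ((Nat.Coprime.pow_left n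
        (hr.coprime_iff_not_dvd.mpr (hUH.2.2 r hr ⟨hr, hrκ, hrσ⟩))).dvd_of_dvd_mul_right ?_)
      have h := relIndex_mul_relIndex ⊥ U M bot_le hUH.1
      rw [relIndex_bot_left, relIndex_bot_left] at h
      rw [h, ← hn]
      exact card_subgroup_dvd_card (S : Subgroup M)
  obtain ⟨-, hfix, hnil⟩ := S1429.result hG M hM (fun h => hrκ (h r hr hrM hrσ)) r hrM
    (fun h => h.elim hrσ hrκ) S
  refine ⟨?_, hnil⟩
  refine le_bot_iff.mp ((inf_le_inf_left _ (centralizer_le ?_)).trans hfix.le)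
  exact ((closure_le _).mpr fun x hx => (hSeq.trans_le (map_subtype_le _)) hx.1 :
    closure {x : G | x ∈ (S : Subgroup M).map M.subtype ∧ x ^ r = 1} ≤ U)

/-- BG 14.2 (g): for type P₂ the Hall `κ(M)`-subgroup has prime order and `M_σ` is nilpotent. -/
theorem prime_of_regular (hG : IsMinSimpleOddOrder G) (hM : IsCoatom M) (hK : IsPiHallOf (kappa M) K M)
    (hK1 : K ≠ ⊥) (hUH : IsPiHallOf {t | t.Prime ∧ t ∉ kappa M ∧ t ∉ sigma M} U M)
    (hKU : K ≤ normalizer (U : Set G)) (hfree : ∀ k ∈ K, k ≠ 1 → U ⊓ centralizer ({k} : Set G) = ⊥)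
    (hU1 : U ≠ ⊥) : (Nat.card K).Prime ∧ Group.IsNilpotent (sigmaCore M) := by
  obtain ⟨hact, -, hlines⟩ := kappa_structure hG hM hK hK1
  obtain ⟨hC, hnil⟩ := fixed_compl_eq_bot hG hM hUH hU1
  have hσM : sigmaCore M ≤ M := map_subtype_le _
  have hMn : M ≤ normalizer (sigmaCore M : Set G) := OddLocal.le_normalizer_piCoreOf (sigma M) M
  have hcop : ∀ t : ℕ, t.Prime → t ∣ Nat.card ↥(K ⊔ U) → t ∉ sigma M := fun t ht hd => by
    rcases prime_dvd_sup hKU ht hd with h | h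
    · exact (hK.2.1 t ht h).2.2.1
    · exact (hUH.2.1 t ht h).2.2
  have hUK : U ⊔ K ≤ M := sup_le hUH.1 hK.1
  haveI := solvable_of_ne_top hG hM.1
  obtain ⟨hprime, -, -⟩ := S1446.result U K (sigmaCore M) hU1 hK1
    (Coprime.inf_eq_bot_of_coprime (Nat.coprime_of_dvd fun t ht h1 h2 => (hUH.2.1 t ht h1).2.1 (hK.2.1 t ht h2)))
    hKU hfree (solvable_of_ne_top hG (ne_top_of_le hM hUK)) (odd_card hG _)
    (sigmaCore_ne_bot hG hM fun h => hU1 (le_bot_iff.mp (hUH.1.trans h.le))) hnil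
    (hUH.1.trans hMn) (hK.1.trans hMn)
    (Nat.coprime_of_dvd fun t ht h1 h2 => hcop t ht (sup_comm U K ▸ h1)
      (OddLocal.piCoreOf_isPi (sigma M) M t ht h2))
    hC hact
  exact ⟨hprime, hnil⟩

end Cfsg.Agent.Lib.Uniq
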