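import Cfsg.Agent.Lib.Uniq.TypeP2
set_option autoImplicit false

/-! BG 14.12: the maximal subgroup over a Sylow normaliser of `U`, for type P₂. -/

namespace Cfsg.Agent.Lib.Uniq

open Subgroup
open scoped Pointwise commutatorElement

universe u

variable {G : Type u} [Group G] [Finite G] {M N H K U F V : Subgroup G}

omit [Finite G] in
theorem nilpotent_of_isMulCommutative {A : Subgroup G} (h : IsMulCommutative A) : Group.IsNilpotent A := by
  haveI := h
  refine ⟨1, ?_⟩
  rw [Subgroup.upperCentralSeries_one, eq_top_iff]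
  exact fun x _ => mem_center_iff.mpr fun y => mul_comm' y x

omit [Finite G] in
/-- A subgroup of `F` normalised by `F` that is nilpotent lies in the Fitting subgroup of `F`. -/
theorem le_fittingOf_of_normal (hVF : V ≤ F) (hn : F ≤ normalizer (V : Set G)) (hV : Group.IsNilpotent V) :
    V ≤ fittingOf F := by
  haveI : (V.subgroupOf F).Normal := (normal_subgroupOf_iff_le_normalizer hVF).mpr hn
  haveI := hV
  have h := Hall.le_fittingSubgroup (N := V.subgroupOf F)
    (Group.nilpotent_of_mulEquiv (subgroupOfEquivOfLe hVF).symm)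
  exact fun x hx => ⟨⟨x, hVF hx⟩, h hx, rfl⟩

omit [Finite G] in
/-- The Sylow subgroups of an abelian subgroup are normalised by its normaliser. -/
theorem sylow_of_abelian [Finite U] (hUc : IsMulCommutative U) {r : ℕ} [Fact r.Prime] (R : Sylow r U) :
    normalizer (U : Set G) ≤ normalizer (((R : Subgroup U).map U.subtype : Subgroup G) : Set G) ∧
      U ≤ normalizer (((R : Subgroup U).map U.subtype : Subgroup G) : Set G) := by
  haveI := hUc
  have hn : (R : Subgroup U).Normal := ⟨fun n hn g => by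
    rw [mul_comm' g n, mul_inv_cancel_right]; exact hn⟩
  haveI : (R : Subgroup U).Characteristic := Sylow.characteristic_of_normal R hn
  exact ⟨PL.normalizer_le_normalizer_map_char U (R : Subgroup U),
    le_normalizer.trans (PL.normalizer_le_normalizer_map_char U (R : Subgroup U))⟩

/-- BG 14.12. -/
theorem type_p2_main (hG : IsMinSimpleOddOrder G) (hM : IsCoatom M) (hKU : IsSigmaDecomposition M K U)
    (hK1 : K ≠ ⊥) (hU1 : U ≠ ⊥) (h : IsKappaPair M K N) {r : ℕ} [hr : Fact r.Prime] (hrU : r ∣ Nat.card U)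
    (R : Sylow r U) (hH : IsCoatom H)
    (hNR : normalizer (((R : Subgroup U).map U.subtype : Subgroup G) : Set G) ≤ H) :
    kappa H = ∅ ∧ U ≤ sigmaCore H ∧ M ⊓ H = U ⊔ K ∧ ¬ H ⊓ normalizer (U : Set G) ≤ M ∧
      K ≤ fittingOf (H ⊓ N) ∧ IsComplIn (H ⊓ N) (sigmaCore H) H := by
  classical
  obtain ⟨hUc, hfree⟩ := OddLocal.Decomposition.abelian_free hG hM hKU hK1
  have hUH := OddLocal.Decomposition.hall_U hG hM hKU
  have hKp : (Nat.card K).Prime := (prime_of_regular hG hM hKU.hall hK1 hUH hKU.normal hfree hU1).1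
  have hβ := sigma_subset_beta hG hM hKU hK1 hU1
  obtain ⟨hn1, hn2⟩ := sylow_of_abelian hUc R
  have hKH : K ≤ H := (hKU.normal.trans hn1).trans hNR
  have hUle : U ≤ H := hn2.trans hNR
  have hne : H ≠ N := by
    rintro rfl
    have h1 : U ≤ K ⊔ (sigmaCore M ⊓ centralizer (K : Set G)) := (le_inf hUH.1 hUle).trans (h.inter hG).le
    have h2 := hrU.trans (card_dvd_of_le h1)
    rw [card_join hKU.hall] at h2
    obtain ⟨-, hκ, hσ⟩ := hUH.2.1 r hr.out hrU
    rcases hr.out.dvd_mul.mp h2 with h3 | h3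
    · exact hκ (hKU.hall.2.1 r hr.out h3)
    · exact hσ (OddLocal.piCoreOf_isPi (sigma M) M r hr.out (h3.trans (card_dvd_of_le inf_le_left)))
  have hncM : ∀ g : G, H ≠ MulAut.conj g • M := by
    intro g hg
    obtain ⟨-, -, hσ⟩ := hUH.2.1 r hr.out hrU
    refine hσ ((sigma_conj_iff hG hM g).mp (hg ▸ ?_))
    have hRH : (R : Subgroup U).map U.subtype ≤ H := (map_subtype_le _).trans hUle
    have hcM : Nat.card H = Nat.card M := by
      rw [hg]
      exact (Nat.card_congr (Subgroup.equivSMul (MulAut.conj g) M).toEquiv).symm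
    refine ⟨hr.out, hcM ▸ hrU.trans (card_dvd_of_le hUH.1),
      Sylow.ofCard (((R : Subgroup U).map U.subtype).subgroupOf H) ?_, ?_⟩
    · rw [Coprime.card_subgroupOf hRH, card_map_of_injective U.subtype_injective, R.card_eq_multiplicity, hcM,
        ← Hall.card_mul_relIndex' hUH.1, Nat.factorization_mul Nat.card_pos.ne' (Nat.pos_of_dvd_of_pos (relIndex_dvd_card U M) Nat.card_pos).ne',
        Finsupp.add_apply,
        Nat.factorization_eq_zero_of_not_dvd (hUH.2.2 r hr.out (hUH.2.1 r hr.out hrU)), add_zero]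
    · rw [Sylow.coe_ofCard, map_subgroupOf_eq_of_le hRH]
      exact hNR
  have hκ0 := h.kappa_eq_empty hG hH hKH hne hncM
  -- the primes of `U` belong to `σ(H)`
  have hUσ : ∀ s : ℕ, s.Prime → s ∣ Nat.card U → s ∈ sigma H := by
    intro s hs hsd
    by_contra hsσ
    haveI := Fact.mk hs
    obtain ⟨S⟩ : Nonempty (Sylow s U) := inferInstance
    obtain ⟨k, hk, hk1⟩ := K.bot_or_exists_ne_one.resolve_left hK1
    have h0 : (S : Subgroup U).map U.subtype = ⊥ := by
      refine h.free_trivial hG hH hKH hne hncM hKp hβ ((map_subtype_le _).trans hUle) (fun t ht hd => ?_)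
        (hKU.normal.trans (sylow_of_abelian hUc S).1) (eq_bot_iff.mpr ?_)
      · rw [isPGroup_ne_dvd (S.2.map U.subtype) ht hd]; exact hsσ
      · rw [← hfree k hk hk1]
        exact inf_le_inf (map_subtype_le _) (centralizer_le (Set.singleton_subset_iff.mpr hk))
    rw [map_eq_bot_iff_of_injective _ U.subtype_injective] at h0
    exact hs.ne_one (Nat.dvd_one.mp (card_bot (G := U) ▸ h0 ▸ S.dvd_card_of_dvd_card hsd))
  have hUS : U ≤ sigmaCore H := le_sigmaCore hG hH hUle hUσ
  have hHM : sigmaCore M ⊓ sigmaCore H = ⊥ := Coprime.inf_eq_bot_of_coprime (Nat.coprime_of_dvd fun p hp h1 h2 => by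
    obtain ⟨g, hg⟩ := conj_of_sigma_sigma hG hM hH (OddLocal.piCoreOf_isPi (sigma M) M p hp h1)
      (OddLocal.piCoreOf_isPi (sigma H) H p hp h2)
    exact hncM g hg)
  have hKS : K ⊓ sigmaCore H = ⊥ := Coprime.inf_eq_bot_of_coprime (Nat.coprime_of_dvd fun p hp h1 h2 =>
    h.not_sigma_of_K hG hH hKH hne hp h1 (OddLocal.piCoreOf_isPi (sigma H) H p hp h2))
  have hinter : M ⊓ H = U ⊔ K := by
    refine le_antisymm (fun m hm => ?_) (le_inf (sup_le hUH.1 hKU.hall.1) (sup_le hUle hKH))
    obtain ⟨e, he, s, hs, rfl⟩ := (OddLocal.KappaStar.compl_sigma hG hM hKU.hall hUH hKU.normal).2.2.2 m hm.1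
    have hsH : s ∈ H := by
      have := H.mul_mem (H.inv_mem (sup_le hKH hUle he)) hm.2
      rwa [inv_mul_cancel_left] at this
    have hsU : s ∈ sigmaCore M ⊓ centralizer (U : Set G) := ⟨hs, mem_centralizer_iff.mpr fun u hu => by
      have h1 : ⁅u, s⁆ ∈ sigmaCore M ⊓ sigmaCore H := by
        refine ⟨?_, ?_⟩
        · rw [commutatorElement_def]
          exact mul_mem ((mem_normalizer_iff.mp (OddLocal.le_normalizer_piCoreOf (sigma M) M (hUH.1 hu)) s).mp hs)
            ((sigmaCore M).inv_mem hs)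
        · rw [show ⁅u, s⁆ = u * (s * u⁻¹ * s⁻¹) by group]
          exact mul_mem (hUS hu)
            ((mem_normalizer_iff.mp (OddLocal.le_normalizer_piCoreOf (sigma H) H hsH) _).mp (inv_mem (hUS hu)))
      rw [hHM, mem_bot] at h1
      exact commutatorElement_eq_one_iff_mul_comm.mp h1⟩
    rw [(fixed_compl_eq_bot hG hM hUH hU1).1, mem_bot] at hsU
    rw [hsU, mul_one, sup_comm]
    exact he
  have hfix := h.fixed_free hG hH hKH hne hncM hKp
  have hgen : ∀ e ∈ K, e ≠ 1 → zpowers e = K := fun e he he1 => eq_of_le_of_card_ge (zpowers_le.mpr he) (by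
    rw [Nat.card_zpowers, ((Nat.dvd_prime hKp).mp (K.orderOf_dvd_natCard he)).resolve_left
      fun e' => he1 (orderOf_eq_one_iff.mp e')])
  have hHn := OddLocal.le_normalizer_piCoreOf (sigma H) H
  haveI hnil : Group.IsNilpotent ↥(sigmaCore H) := OddLocal.CyclicFix.isNilpotent_kernel _ K hK1
    (fun e he u hu => (mem_normalizer_iff.mp (hHn (hKH he)) u).mp hu) fun e he he1 u hu hc => by
      have hu' : u ∈ sigmaCore H ⊓ centralizer (K : Set G) := ⟨hu, by
        rw [← hgen e he he1, centralizer_zpowers]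
        exact mem_centralizer_singleton_iff.mpr hc.symm⟩
      rwa [hfix, mem_bot] at hu'
  have hnotM : ¬ H ⊓ normalizer (U : Set G) ≤ M := by
    intro hle
    have hUeq : U.subgroupOf (sigmaCore H) = ⊤ := by
      by_contra htop
      refine (Group.normalizerCondition_of_isNilpotent (U.subgroupOf (sigmaCore H))
        (lt_top_iff_ne_top.mpr htop)).not_ge fun d hd => ?_
      have hdU : (d : G) ∈ normalizer (U : Set G) := mem_normalizer_iff.mpr fun x => by
        constructor
        · intro hx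
          exact (mem_normalizer_iff.mp hd ⟨x, hUS hx⟩).mp hx
        · intro hx
          have hxS : x ∈ sigmaCore H := by
            have := (sigmaCore H).mul_mem ((sigmaCore H).mul_mem ((sigmaCore H).inv_mem d.2) (hUS hx)) d.2
            simpa [mul_assoc] using this
          exact (mem_normalizer_iff.mp hd ⟨x, hxS⟩).mpr hx
      have hdH : (d : G) ∈ H := map_subtype_le _ d.2
      obtain ⟨k, hk, u, hu, hd'⟩ := (Coprime.mem_sup_of_le_normalizer hKU.normal).mp
        (sup_comm U K ▸ hinter.le ⟨hle ⟨hdH, hdU⟩, hdH⟩)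
      have hk0 : k ∈ K ⊓ sigmaCore H := ⟨hk, by
        have := (sigmaCore H).mul_mem d.2 ((sigmaCore H).inv_mem (hUS hu))
        rwa [← hd', mul_inv_cancel_right] at this⟩
      rw [hKS, mem_bot] at hk0
      show (d : G) ∈ U
      rw [← hd', hk0, one_mul]
      exact hu
    rw [subgroupOf_eq_top] at hUeq
    have hHle : H ≤ M := fun x hx => hle ⟨hx, by rw [le_antisymm hUS hUeq]; exact hHn hx⟩
    refine hncM 1 ?_
    rw [map_one, one_smul]
    exact (hH.le_iff.mp hHle).resolve_left hM.1 |>.symm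
  have hNN : sigmaCore H ⊓ sigmaCore N = ⊥ := Coprime.inf_eq_bot_of_coprime (Nat.coprime_of_dvd fun p hp h1 h2 => by
    obtain ⟨g, hg⟩ := conj_of_sigma_sigma hG h.coatomN hH (OddLocal.piCoreOf_isPi (sigma N) N p hp h2)
      (OddLocal.piCoreOf_isPi (sigma H) H p hp h1)
    obtain ⟨k, hk, hk1⟩ := K.bot_or_exists_ne_one.resolve_left hK1
    exact hne (h.eq_N_of_conj hG hk hk1 hg (hKH hk)))
  have hcoreN : sigmaCore H ⊓ N = ⊥ := eq_bot_iff.mpr fun d hd => hfix ▸ ⟨hd.1, mem_centralizer_iff.mpr fun k hk => by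
    have h1 : ⁅k, d⁆ ∈ sigmaCore H ⊓ sigmaCore N := by
      refine ⟨?_, ?_⟩
      · rw [commutatorElement_def]
        exact mul_mem ((mem_normalizer_iff.mp (hHn (hKH hk)) d).mp hd.1) ((sigmaCore H).inv_mem hd.1)
      · rw [show ⁅k, d⁆ = k * (d * k⁻¹ * d⁻¹) by group]
        exact mul_mem (h.K_le_coreN hk)
          ((mem_normalizer_iff.mp (OddLocal.le_normalizer_piCoreOf (sigma N) N hd.2) _).mp (inv_mem (h.K_le_coreN hk)))
    rw [hNN, mem_bot] at h1
    exact commutatorElement_eq_one_iff_mul_comm.mp h1⟩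
  -- a complement over `K`
  obtain ⟨F₀, hF₀⟩ := OddLocal.UPart.exists_compl hG hH
  obtain ⟨F, hF, hKF⟩ := exists_compl_ge_pi hG hH hF₀ (Y := K)
    (fun t ht hd => h.not_sigma_of_K hG hH hKH hne ht hd) hKH
  obtain ⟨k, hk, hk1⟩ := K.bot_or_exists_ne_one.resolve_left hK1
  have hCK : centralizer (K : Set G) ≤ N :=
    (centralizer_le (Set.singleton_subset_iff.mpr hk)).trans (h.centralizer_le_N hG hk hk1)
  haveI hKc := hKU.cyclic
  haveI : IsMulCommutative K := ⟨⟨(IsCyclic.commGroup (α := K)).mul_comm⟩⟩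
  have key : F ≤ N ∧ ∃ V : Subgroup G, K ≤ V ∧ V ≤ F ∧ F ≤ normalizer (V : Set G) ∧ Group.IsNilpotent V := by
    set p := Nat.card K with hp
    haveI := Fact.mk hKp
    have hpF : p ∣ Nat.card F := card_dvd_of_le hKF
    have hpN : p ∈ sigma N := OddLocal.piCoreOf_isPi (sigma N) N p hKp (card_dvd_of_le h.K_le_coreN)
    rcases tau_cases hG hH hF hKp hpF with h2 | h1 | h3
    · obtain ⟨A, hAF, hA, hAc⟩ := exists_elem_compl hG hH hF h2
      obtain ⟨⟨hFA, hlines⟩, -, -⟩ := S1418.result hG H hH F hF p h2 A ⟨hAF, hA, hAc⟩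
      have hKA : K ≤ A := hlines K hKF hp.symm
      have hAN : A ≤ N := le_trans (fun a ha => mem_centralizer_iff.mpr fun x hx =>
        congrArg Subtype.val (hA.1.is_comm.comm (⟨x, hKA hx⟩ : A) ⟨a, ha⟩)) hCK
      obtain ⟨E, hE⟩ := OddLocal.UPart.exists_compl hG h.coatomN
      have hNA := (S1420.result hG N h.coatomN E hE).2.2.1 p A hpN (elem_isPGroup hA) hAN
        (not_isCyclic_of_elem hA hAc)
      exact ⟨hFA.trans hNA, A, hKA, hAF, hFA, nilpotent_of_isMulCommutative hA.1⟩
    · have hD : ⁅F, F⁆ ≤ F := commutator_le_self F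
      haveI hDc : IsMulCommutative ↥⁅F, F⁆ := (S1420.result hG H hH F hF).2.1
      have hKD : K ≤ normalizer ((⁅F, F⁆ : Subgroup G) : Set G) :=
        hKF.trans (Coprime.left_le_normalizer_commutator F F)
      have hcop : (Nat.card K).Coprime (Nat.card ↥⁅F, F⁆) := (Nat.Prime.coprime_iff_not_dvd hKp).mpr fun hd =>
        h1.2.2.2.1 (hd.trans (card_dvd_of_le (commutator_mono hF.1 hF.1)))
      set X := ⁅⁅F, F⁆, K⁆ with hX
      have hXD : X ≤ ⁅F, F⁆ := Coprime.commutator_le_of_le_normalizer' hKD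
      have hbot := Coprime.inf_centralizer_inf_commutator hKD hcop
      have hX0 : X = ⊥ := by
        refine h.free_trivial hG hH hKH hne hncM hKp hβ ((hXD.trans hD).trans hF.1)
          (fun t ht hd => haveI := Fact.mk ht; compl_not_sigma hG hH hF (hd.trans (card_dvd_of_le (hXD.trans hD))))
          (Coprime.right_le_normalizer_commutator ⁅F, F⁆ K) (eq_bot_iff.mpr ?_)
        rw [← hbot]
        exact fun x hx => ⟨⟨hXD hx.1, hx.2⟩, hx.1⟩
      have hFC : F ≤ centralizer (K : Set G) := fun f hf => mem_centralizer_iff.mpr fun x hx => by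
        set c := ⁅f, x⁆ with hc
        have hcD : c ∈ ⁅F, F⁆ := commutator_mem_commutator hf (hKF hx)
        have hcx : Commute c x := (show c * x = x * c from by
          have := commutator_eq_bot_iff_le_centralizer.mp hX0 hcD
          exact (mem_centralizer_iff.mp this x hx).symm)
        have he : f * x * f⁻¹ = c * x := by rw [hc]; group
        have h4 : c ^ p = 1 := by
          have h5 : (f * x * f⁻¹) ^ p = 1 := by
            rw [conj_pow, show x ^ p = 1 from congrArg Subtype.val (pow_card_eq_one' (x := (⟨x, hx⟩ : K))),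
              mul_one, mul_inv_cancel]
          rw [he, hcx.mul_pow, show x ^ p = 1 from congrArg Subtype.val (pow_card_eq_one' (x := (⟨x, hx⟩ : K))),
            mul_one] at h5
          exact h5
        have hc1 : c = 1 := orderOf_eq_one_iff.mp (Nat.eq_one_of_dvd_coprimes hcop
          (orderOf_dvd_of_pow_eq_one h4) (⁅F, F⁆.orderOf_dvd_natCard hcD))
        exact (commutatorElement_eq_one_iff_mul_comm.mp hc1).symm
      exact ⟨hFC.trans hCK, K, le_rfl, hKF, hFC.trans (centralizer_le_normalizer _), nilpotent_of_isMulCommutative ‹_›⟩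
    · have hko : orderOf k = p := ((Nat.dvd_prime hKp).mp (K.orderOf_dvd_natCard hk)).resolve_left
        fun e => hk1 (orderOf_eq_one_iff.mp e)
      have hFn := le_normalizer_tau_three_line hG hH hF h3 (hKF hk) hko
      rw [hgen k hk hk1] at hFn
      have hs := (star_line_unique hG h.coatomN h.hallN (h.symm hG).K_ne (h.fixed.ge hk) (hko ▸ hKp)).1
      rw [hgen k hk hk1] at hs
      exact ⟨hFn.trans hs, K, le_rfl, hKF, hFn, nilpotent_of_isMulCommutative ‹_›⟩
  obtain ⟨hFN, V, hKV, hVF, hVn, hV⟩ := key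
  have hHN : H ⊓ N = F := le_antisymm (fun x hx => by
    obtain ⟨f, hf, s, hs, rfl⟩ := hF.2.2.2 x hx.1
    have hsN : s ∈ sigmaCore H ⊓ N := ⟨hs, by
      have := N.mul_mem (N.inv_mem (hFN hf)) hx.2
      rwa [inv_mul_cancel_left] at this⟩
    rw [hcoreN, mem_bot] at hsN
    rw [hsN, mul_one]
    exact hf) (le_inf hF.1 hFN)
  refine ⟨hκ0, hUS, hinter, hnotM, ?_, hHN ▸ hF⟩
  rw [hHN]
  exact hKV.trans (le_fittingOf_of_normal hVF hVn hV)

end Cfsg.Agent.Lib.Uniq
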