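import Cfsg.Agent.Lib.Uniq.KappaMain
import Cfsg.Agent.Lib.OddLocal.FcoreStructure
import Cfsg.Agent.Lib.OddLocal.CyclicSub
import Cfsg.Agent.S1431
set_option autoImplicit false

/-! BG 15.8: `K*` lies in the noncyclic group `M_F`. -/

namespace Cfsg.Agent.Lib.Uniq

open Subgroup
open scoped Pointwise commutatorElement

universe u

variable {G : Type u} [Group G] [Finite G] {M K U : Subgroup G}

theorem star_cyclic_fitting (hG : IsMinSimpleOddOrder G) (hM : IsCoatom M) (hKU : IsSigmaDecomposition M K U)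
    (hK1 : K ≠ ⊥) :
    IsCyclic ↥(sigmaCore M ⊓ centralizer (K : Set G)) ∧ (sigmaCore M ⊓ centralizer (K : Set G)) ≠ ⊥ ∧
      (sigmaCore M ⊓ centralizer (K : Set G)) ≤ fittingHallOf M ∧ ¬ IsCyclic (fittingHallOf M) := by
  set T := sigmaCore M ⊓ centralizer (K : Set G) with hT
  obtain ⟨N, h⟩ := exists_pair hG hM hKU.hall hK1
  have hT1 : T ≠ ⊥ := star_ne_bot hG hM hKU.hall hK1
  have hTW : T ≤ fittingHallOf M := by
    by_cases he : fittingHallOf M = sigmaCore M
    · exact he ▸ inf_le_left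
    · obtain ⟨q, Q, hQ⟩ := OddLocal.Fcore.exists_structure hG hM hKU he
      exact hQ.star_le.trans hQ.le_fitting
  refine ⟨kappa_hall_cyclic hG h.coatomN h.hallN, hT1, hTW, fun hcyc => ?_⟩
  haveI := hcyc
  obtain ⟨q, hq, hqd⟩ := Nat.exists_prime_and_dvd (mt card_eq_one.mp hT1)
  haveI := Fact.mk hq
  obtain ⟨S⟩ : Nonempty (Sylow q ↥(sigmaCore M)) := inferInstance
  set W := fittingHallOf M with hW
  set S' := (S : Subgroup ↥(sigmaCore M)).map (sigmaCore M).subtype with hS'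
  have hSW : S' ≤ W := by
    by_cases he : W = sigmaCore M
    · exact he ▸ map_subtype_le _
    obtain ⟨q', Q, hQ⟩ := OddLocal.Fcore.exists_structure hG hM hKU he
    have hqq : q = q' := (Nat.prime_dvd_prime_iff_eq hq hQ.prime).mp (hQ.card_star ▸ hqd)
    subst hqq
    haveI : (Q.subgroupOf (sigmaCore M)).Normal :=
      (normal_subgroupOf_iff_le_normalizer hQ.le_sigma).mpr ((map_subtype_le _).trans hQ.norm)
    have hle : (S : Subgroup ↥(sigmaCore M)) ≤ Q.subgroupOf (sigmaCore M) := le_of_coprime_index <| by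
      refine Nat.coprime_of_dvd fun r hr h1 h2 => hQ.hall ?_
      rwa [← isPGroup_ne_dvd S.2 hr h1]
    rintro _ ⟨s, hs, rfl⟩
    exact hQ.le_fitting (hle hs)
  have hKM : K ≤ M := hKU.hall.1
  have hMW : M ≤ normalizer (W : Set G) := by
    haveI : (fittingHall M).Normal := Subgroup.sSup_normal _ fun _ hN => hN.1
    exact (normal_subgroupOf_iff_le_normalizer (map_subtype_le _)).mp (by
      rw [subgroupOf, comap_map_eq_self_of_injective M.subtype_injective]; infer_instance)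
  have hKS : K ≤ normalizer (S' : Set G) := fun k hk => by
    refine Coprime.mem_normalizer_of_conj_smul_eq ?_
    refine OddLocal.eq_of_card_eq_of_le_cyclic (W := W) ?_ hSW (Coprime.card_conj_smul k S')
    rintro _ ⟨s, hs, rfl⟩
    exact (mem_normalizer_iff.mp (hMW (hKM hk)) s).mp (hSW hs)
  have hcop : (Nat.card K).Coprime (Nat.card S') := Nat.coprime_of_dvd fun r hr h1 h2 =>
    (hKU.hall.2.1 r hr h1).2.2.1
      (OddLocal.piCoreOf_isPi (sigma M) M r hr (h2.trans (card_dvd_of_le (map_subtype_le _))))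
  haveI : IsMulCommutative S' := ⟨⟨fun a b => Subtype.ext (congrArg Subtype.val
    ((IsCyclic.commGroup (α := W)).mul_comm (⟨a, hSW a.2⟩ : W) ⟨b, hSW b.2⟩) : (a : G) * b = b * a)⟩⟩
  have hbot := Coprime.inf_centralizer_inf_commutator hKS hcop
  -- the line of `K*` in `S'`
  obtain ⟨X, hXT, hX⟩ := exists_line (E := T) hqd
  obtain ⟨-, -, h3, -⟩ := S1431.result hG M hM K hKU.hall hK1
  obtain ⟨-, -, hnot⟩ := h3 q hq hqd S
  have hqS : q ∣ Nat.card S' := by
    rw [hS', card_map_of_injective (sigmaCore M).subtype_injective]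
    exact S.dvd_card_of_dvd_card (hqd.trans (card_dvd_of_le inf_le_left))
  obtain ⟨X', hX'S, hX'⟩ := exists_line (E := S') hqS
  have hXS : X ≤ S' := OddLocal.eq_of_card_eq_of_le_cyclic (W := W) (hXT.trans hTW) (hX'S.trans hSW) (hX.trans hX'.symm) ▸ hX'S
  have hC0 : ⁅S', K⁆ = ⊥ := by
    by_contra hne
    obtain ⟨r, hr, hrd⟩ := Nat.exists_prime_and_dvd (mt card_eq_one.mp hne)
    have hle : ⁅S', K⁆ ≤ S' := Coprime.commutator_le_of_le_normalizer' hKS
    have hrq := isPGroup_ne_dvd (S.2.map (sigmaCore M).subtype) hr (hrd.trans (card_dvd_of_le hle))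
    subst hrq
    obtain ⟨Y, hY, hYc⟩ := exists_line (E := ⁅S', K⁆) hrd
    have hYX : Y = X := OddLocal.eq_of_card_eq_of_le_cyclic (W := W) ((hY.trans hle).trans hSW) (hXT.trans hTW) (hYc.trans hX.symm)
    obtain ⟨x, hx, hx1⟩ := X.bot_or_exists_ne_one.resolve_left fun e => hr.ne_one (by rw [← hX, e, card_bot])
    have hmem : x ∈ (S' ⊓ centralizer (K : Set G)) ⊓ ⁅S', K⁆ := ⟨⟨hXS hx, (hXT hx).2⟩, hY (hYX ▸ hx)⟩
    rw [hbot, mem_bot] at hmem
    exact hx1 hmem
  exact hnot (le_inf (map_subtype_le _) (commutator_eq_bot_iff_le_centralizer.mp hC0))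

end Cfsg.Agent.Lib.Uniq
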