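import Cfsg.Agent.Lib.Coprime.OmegaFixed
import Cfsg.Agent.Lib.Coprime.Abelian
import Cfsg.Agent.Lib.FitHeight.Operators
set_option autoImplicit false

/-! An abelian group `Y = [Y, v]` centralising the fixed points of order `p` of an operator `v` of prime order
centralises a `p`-group. -/

namespace Cfsg.Agent.Lib.Uniq

open Subgroup
open scoped Pointwise commutatorElement

variable {G : Type*} [Group G] [Finite G]

/-- In an odd `p`-group there is a normaliser-invariant subgroup of exponent `p` and class at most two on which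
coprime automorphisms act faithfully. -/
theorem exists_exponent_class_two {p : ℕ} [hp : Fact p.Prime] (hp2 : p ≠ 2) {R : Subgroup G} (hR : IsPGroup p R) :
    ∃ D : Subgroup G, D ≤ R ∧ normalizer (R : Set G) ≤ normalizer (D : Set G) ∧ (∀ x ∈ D, x ^ p = 1) ∧
      ⁅⁅D, D⁆, D⁆ = ⊥ ∧
      ∀ Q : Subgroup G, (Nat.card Q).Coprime p → Q ≤ normalizer (R : Set G) → D ≤ centralizer (Q : Set G) →
        R ≤ centralizer (Q : Set G) := by
  obtain ⟨H, hH, hH1, hH2, hH3⟩ := Thompson.exists_critical hR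
  haveI := hH
  have hcl : ⁅_root_.commutator H, (⊤ : Subgroup H)⁆ = ⊥ := by
    rw [commutator_eq_bot_iff_le_centralizer, coe_top, centralizer_univ, _root_.commutator_def, commutator_le]
    intro x _ y _
    have h1 : ((⁅x, y⁆ : H) : ↥R) ∈ H ⊓ centralizer (H : Set ↥R) :=
      hH2 (commutator_mem_commutator x.2 (mem_top (y : ↥R)))
    exact mem_center_iff.mpr fun z => Subtype.ext (mem_centralizer_iff.mp h1.2 (z : ↥R) z.2)
  let D : Subgroup G :=
    { carrier := {x | ∃ y : H, y ^ p = 1 ∧ ((y : ↥R) : G) = x}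
      one_mem' := ⟨1, one_pow p, rfl⟩
      mul_mem' := by
        rintro _ _ ⟨x, hx, rfl⟩ ⟨y, hy, rfl⟩
        exact ⟨x * y, Thompson.pow_mul_eq_one_class_two hp2 hcl hx hy, rfl⟩
      inv_mem' := by
        rintro _ ⟨x, hx, rfl⟩
        exact ⟨x⁻¹, by rw [inv_pow, hx, inv_one], rfl⟩ }
  have hDR : D ≤ R := by
    rintro _ ⟨y, -, rfl⟩
    exact (y : ↥R).2
  have hDn : normalizer (R : Set G) ≤ normalizer (D : Set G) := by
    have key : ∀ g ∈ normalizer (R : Set G), ∀ x ∈ D, g * x * g⁻¹ ∈ D := by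
      rintro g hg _ ⟨y, hy, rfl⟩
      let a : MulAut ↥R := R.normalizerMonoidHom ⟨g, hg⟩
      refine ⟨⟨a y, characteristic_iff_le_comap.mp hH a y.2⟩, ?_, rfl⟩
      apply Subtype.ext
      show (a y) ^ p = 1
      rw [← map_pow, ← SubmonoidClass.coe_pow, hy, OneMemClass.coe_one, map_one]
    intro g hg
    refine mem_normalizer_iff.mpr fun x => ⟨key g hg x, fun hx => ?_⟩
    have := key g⁻¹ (inv_mem hg) _ hx
    simpa [mul_assoc] using this
  refine ⟨D, hDR, hDn, ?_, ?_, ?_⟩
  · rintro _ ⟨y, hy, rfl⟩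
    rw [← SubmonoidClass.coe_pow, ← SubmonoidClass.coe_pow, hy]
    rfl
  · rw [← le_bot_iff, commutator_le]
    rintro c hc z ⟨z', -, rfl⟩
    suffices h : ⁅D, D⁆ ≤ centralizer ({((z' : ↥R) : G)} : Set G) by
      exact mem_bot.mpr (commutatorElement_eq_one_iff_mul_comm.mpr (mem_centralizer_singleton_iff.mp (h hc)))
    rw [commutator_le]
    rintro _ ⟨a, -, rfl⟩ _ ⟨b, -, rfl⟩
    have h1 : ((⁅a, b⁆ : H) : ↥R) ∈ H ⊓ centralizer (H : Set ↥R) :=
      hH2 (commutator_mem_commutator a.2 (mem_top (b : ↥R)))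
    exact mem_centralizer_singleton_iff.mpr
      (congrArg (fun w : ↥R => (w : G)) (mem_centralizer_iff.mp h1.2 (z' : ↥R) z'.2)).symm
  intro Q hQ hQR hD r hr
  refine mem_centralizer_iff.mpr fun q hq => ?_
  let a : MulAut ↥R := R.normalizerMonoidHom ⟨q, hQR hq⟩
  have hcop : (orderOf a).Coprime p :=
    ((hQ.coprime_dvd_left (Subgroup.orderOf_dvd_natCard Q hq)).coprime_dvd_left
      ((orderOf_map_dvd R.normalizerMonoidHom ⟨q, hQR hq⟩).trans (orderOf_mk _ _).dvd))
  have hHa : ∀ x ∈ H, a x = x := by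
    have h1 : Hall.charRestrict H a = 1 := by
      refine Cfsg.Agent.S0120.result hp2 (hR.to_subgroup H) _
        (hcop.coprime_dvd_left (orderOf_map_dvd _ a)) fun x hx => ?_
      apply Subtype.ext
      apply Subtype.ext
      show q * ((x : ↥R) : G) * q⁻¹ = ((x : ↥R) : G)
      rw [mem_centralizer_iff.mp (hD ⟨x, hx, rfl⟩) q hq, mul_inv_cancel_right]
    intro x hx
    exact congrArg Subtype.val (DFunLike.congr_fun h1 (⟨x, hx⟩ : H))
  have ha : a = 1 := Cfsg.Agent.S0121.result hR H hH hH1 hH2 hH3 a hcop hHa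
  have := congrArg (fun x : ↥R => (x : G)) (DFunLike.congr_fun ha ⟨r, hr⟩)
  exact mul_inv_eq_iff_eq_mul.mp this

/-- The abelian case. -/
theorem le_centralizer_of_fixed_abelian {A Y : Subgroup G} {v : G} {t : ℕ} (ht : t.Prime) (hv : v ^ t = 1)
    [IsMulCommutative A] (hYc : IsMulCommutative Y) (hvA : v ∈ normalizer (A : Set G))
    (hYA : Y ≤ normalizer (A : Set G)) (hvY : v ∈ normalizer (Y : Set G)) (hY : ⁅Y, zpowers v⁆ = Y)
    (htY : t.Coprime (Nat.card Y)) (hcop : (Nat.card Y).Coprime (Nat.card A))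
    (hfix : ∀ a ∈ A, Commute v a → a ∈ centralizer (Y : Set G)) : A ≤ centralizer (Y : Set G) := by
  classical
  set W := ⁅A, Y⁆ with hW
  have hWA : W ≤ A := Coprime.commutator_le_of_le_normalizer' hYA
  have hbot := Coprime.inf_centralizer_inf_commutator hYA hcop
  haveI : IsMulCommutative W :=
    ⟨⟨fun a b => Subtype.ext (congrArg Subtype.val (mul_comm' (⟨a, hWA a.2⟩ : A) ⟨b, hWA b.2⟩) :)⟩⟩
  have hYW : Y ≤ normalizer (W : Set G) := Coprime.right_le_normalizer_commutator A Y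
  have hvW : v ∈ normalizer (W : Set G) := by
    refine Coprime.mem_normalizer_of_conj_smul_eq ?_
    show (⁅A, Y⁆).map (MulAut.conj v).toMonoidHom = _
    rw [map_commutator]
    exact congrArg₂ (fun a b => ⁅a, b⁆) (Coprime.conj_smul_eq_self hvA) (Coprime.conj_smul_eq_self hvY)
  set N := normalizer (W : Set G)
  let f : N →* MulAut W := Coprime.conjHom le_rfl
  letI : CommGroup W := { (inferInstance : Group W) with mul_comm := fun a b => mul_comm' a b }
  haveI : Finite (MulAut W) := Finite.of_injective (fun σ : MulAut W => (σ : W → W)) DFunLike.coe_injective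
  set σ := f ⟨v, hvW⟩ with hσ
  set Q := (Y.subgroupOf N).map f
  have hσt : σ ^ t = 1 := by rw [hσ, ← map_pow, show (⟨v, hvW⟩ : N) ^ t = 1 from Subtype.ext hv, map_one]
  have hσQ : σ ∈ normalizer (Q : Set (MulAut W)) :=
    le_normalizer_map f (mem_map_of_mem f (show (⟨v, hvW⟩ : N) ∈ normalizer ((Y.subgroupOf N : Subgroup N) : Set N) from
      mem_normalizer_iff.mpr fun z => mem_normalizer_iff.mp hvY (z : G)))
  have hQd : Nat.card Q ∣ Nat.card Y := (card_map_dvd _ f).trans (Coprime.card_subgroupOf hYW).dvd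
  haveI : IsMulCommutative Q := by
    refine ⟨⟨?_⟩⟩
    rintro ⟨_, a, ha, rfl⟩ ⟨_, b, hb, rfl⟩
    refine Subtype.ext (show f a * f b = f b * f a from ?_)
    rw [← map_mul, ← map_mul]
    exact congrArg f (Subtype.ext ((congrArg Subtype.val (hYc.is_comm.comm (⟨(a : G), ha⟩ : Y) ⟨(b : G), hb⟩) :) :
      (a : G) * (b : G) = (b : G) * (a : G)))
  have hQeq : ⁅Q, zpowers σ⁆ = Q := by
    rw [hσ, ← MonoidHom.map_zpowers, ← map_commutator]
    refine congrArg (map f) (map_injective N.subtype_injective ?_)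
    rw [map_commutator, map_subgroupOf_eq_of_le hYW, MonoidHom.map_zpowers]
    exact hY
  have hQfix := Coprime.inf_centralizer_inf_commutator (A := zpowers σ) (V := Q) (zpowers_le.mpr hσQ)
    (by rw [Nat.card_zpowers]; exact (htY.coprime_dvd_right hQd).coprime_dvd_left (orderOf_dvd_of_pow_eq_one hσt))
  have htriv : Y ≤ centralizer (W : Set G) := by
    intro y hy
    refine mem_centralizer_iff.mpr fun w hw => ?_
    have h3 := congrArg Subtype.val (FitHeight.smul_eq_self_of_fpf (V := W) ht hσt hσQ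
      (fun z hz hzc => mem_bot.mp (hQfix.le ⟨⟨hz, mem_centralizer_iff.mpr fun u hu => by
        obtain ⟨i, rfl⟩ := mem_zpowers_iff.mp hu
        exact ((show Commute σ z from hzc).zpow_left i).eq⟩, hQeq.ge hz⟩))
      (fun w hw => by
        have h1 : Commute v (w : G) := mul_inv_eq_iff_eq_mul.mp (congrArg Subtype.val hw)
        exact Subtype.ext (mem_bot.mp (hbot.le ⟨⟨hWA w.2, hfix w (hWA w.2) h1⟩, w.2⟩)))
      ((hcop.coprime_dvd_left hQd).coprime_dvd_right (card_dvd_of_le hWA))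
      (mem_map_of_mem f (show (⟨y, hYW hy⟩ : N) ∈ Y.subgroupOf N from hy)) ⟨w, hw⟩)
    exact (mul_inv_eq_iff_eq_mul.mp h3).symm
  have hW1 : W = ⊥ := by
    have h := Coprime.commutator_commutator (K := A) (A := Y) hYA hcop
      (Or.inl (Group.isSolvable_of_comm fun a b => hYc.is_comm.comm a b))
    rw [← hW] at h
    rw [← h]
    exact commutator_eq_bot_iff_le_centralizer.mpr (le_centralizer_iff.mp htriv)
  exact commutator_eq_bot_iff_le_centralizer.mp hW1

/-- An abelian group `Y = [Y, v]` centralising the elements of order `p` fixed by `v` in a `p`-group `U` centralises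
`U`. -/
theorem le_centralizer_of_fixed_prime {p : ℕ} [hp : Fact p.Prime] (hp2 : p ≠ 2) {U Y : Subgroup G}
    (hU : IsPGroup p U) {v : G} {t : ℕ} (ht : t.Prime) (hv : v ^ t = 1) (hYc : IsMulCommutative Y)
    (hvU : v ∈ normalizer (U : Set G)) (hYU : Y ≤ normalizer (U : Set G)) (hvY : v ∈ normalizer (Y : Set G))
    (hY : ⁅Y, zpowers v⁆ = Y) (htY : t.Coprime (Nat.card Y)) (hpY : (Nat.card Y).Coprime p) (htp : t ≠ p)
    (hfix : ∀ x ∈ U, x ^ p = 1 → Commute v x → x ∈ centralizer (Y : Set G)) : U ≤ centralizer (Y : Set G) := by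
  classical
  obtain ⟨D, hDU, hND, hDexp, hcl, hfaith⟩ := exists_exponent_class_two hp2 hU
  refine hfaith Y hpY hYU ?_
  have hDp : IsPGroup p D := hU.to_le hDU
  have hcopD : (Nat.card Y).Coprime (Nat.card D) := by
    obtain ⟨j, hj⟩ := IsPGroup.iff_card.mp hDp
    rw [hj]; exact hpY.pow_right j
  have hvD := hND hvU
  have hYD : Y ≤ normalizer (D : Set G) := hYU.trans hND
  set Z := ⁅D, D⁆ with hZ
  have hZD : Z ≤ D := commutator_le_self D
  haveI : IsMulCommutative Z := ⟨⟨fun a b => Subtype.ext (commutatorElement_eq_one_iff_mul_comm.mp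
    (mem_bot.mp (hcl.le (commutator_mem_commutator a.2 (hZD b.2)))))⟩⟩
  have hNZ : normalizer (D : Set G) ≤ normalizer (Z : Set G) := fun g hg => by
    refine Coprime.mem_normalizer_of_conj_smul_eq ?_
    show (⁅D, D⁆).map (MulAut.conj g).toMonoidHom = _
    rw [map_commutator]
    exact congrArg₂ (fun a b => ⁅a, b⁆) (Coprime.conj_smul_eq_self hg) (Coprime.conj_smul_eq_self hg)
  have hZY : Z ≤ centralizer (Y : Set G) := le_centralizer_of_fixed_abelian ht hv hYc (hNZ hvD)
    (hYD.trans hNZ) hvY hY htY (hcopD.coprime_dvd_right (card_dvd_of_le hZD))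
    fun a ha hc => hfix a (hDU (hZD ha)) (hDexp a (hZD ha)) hc
  -- `Y` centralises `D / Z`
  set N := normalizer (Z : Set G)
  haveI : (Z.subgroupOf N).Normal := normal_subgroupOf_iff_le_normalizer le_normalizer |>.mpr le_rfl
  set π := QuotientGroup.mk' (Z.subgroupOf N)
  have hDN : D ≤ N := le_normalizer.trans hNZ
  have hYN : Y ≤ N := hYD.trans hNZ
  have hvN : v ∈ N := hNZ hvD
  set A := (D.subgroupOf N).map π
  set Yq := (Y.subgroupOf N).map π
  haveI : IsMulCommutative A := by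
    refine ⟨⟨?_⟩⟩
    rintro ⟨_, a, ha, rfl⟩ ⟨_, b, hb, rfl⟩
    refine Subtype.ext (show π a * π b = π b * π a from ?_)
    rw [← commutatorElement_eq_one_iff_mul_comm, ← map_commutatorElement]
    exact (QuotientGroup.eq_one_iff _).mpr (show ((⁅a, b⁆ : N) : G) ∈ Z from commutator_mem_commutator ha hb)
  have hvsub : ∀ {S : Subgroup G}, v ∈ normalizer (S : Set G) →
      (⟨v, hvN⟩ : N) ∈ normalizer ((S.subgroupOf N : Subgroup N) : Set N) := fun hS =>
    mem_normalizer_iff.mpr fun z => mem_normalizer_iff.mp hS (z : G)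
  have hYYc : IsMulCommutative Yq := by
    refine ⟨⟨?_⟩⟩
    rintro ⟨_, a, ha, rfl⟩ ⟨_, b, hb, rfl⟩
    refine Subtype.ext (show π a * π b = π b * π a from ?_)
    rw [← map_mul, ← map_mul]
    exact congrArg π (Subtype.ext ((congrArg Subtype.val (hYc.is_comm.comm (⟨(a : G), ha⟩ : Y) ⟨(b : G), hb⟩) :) : (a : G) * (b : G) = (b : G) * (a : G)))
  have hYq : ⁅Yq, zpowers (π ⟨v, hvN⟩)⁆ = Yq := by
    rw [← MonoidHom.map_zpowers, ← map_commutator]
    refine congrArg (map π) (map_injective N.subtype_injective ?_)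
    rw [map_commutator, map_subgroupOf_eq_of_le hYN, MonoidHom.map_zpowers]
    exact hY
  have hYA : Yq ≤ normalizer (A : Set (N ⧸ Z.subgroupOf N)) :=
    (map_mono (fun (y : N) (hy : y ∈ Y.subgroupOf N) => (mem_normalizer_iff.mpr fun z => mem_normalizer_iff.mp (hYD hy) (z : G) : y ∈ normalizer ((D.subgroupOf N : Subgroup N) : Set N)))).trans
      (le_normalizer_map π)
  have hcard : Nat.card Yq ∣ Nat.card Y := (card_map_dvd _ π).trans (Coprime.card_subgroupOf hYN).dvd
  have hmain : A ≤ centralizer (Yq : Set (N ⧸ Z.subgroupOf N)) := by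
    refine le_centralizer_of_fixed_abelian (v := π ⟨v, hvN⟩) ht
      (by rw [← map_pow, show (⟨v, hvN⟩ : N) ^ t = 1 from Subtype.ext hv, map_one]) hYYc
      (le_normalizer_map π (mem_map_of_mem π (hvsub hvD))) hYA
      (le_normalizer_map π (mem_map_of_mem π (hvsub hvY))) hYq (htY.coprime_dvd_right hcard)
      ((hcopD.coprime_dvd_left hcard).coprime_dvd_right
        ((card_map_dvd _ π).trans (Coprime.card_subgroupOf hDN).dvd)) ?_
    rintro _ ⟨a, ha, rfl⟩ hc
    obtain ⟨c, hcv, hcZ⟩ := Coprime.exists_centralizer_mem_coset (A := zpowers v) (N := Z) (k := (a : G))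
      (zpowers_le.mpr hvN) (by
        rw [Nat.card_zpowers]
        refine Nat.Coprime.coprime_dvd_left (orderOf_dvd_of_pow_eq_one hv) ?_
        obtain ⟨j, hj⟩ := IsPGroup.iff_card.mp (hDp.to_le hZD)
        rw [hj]
        exact ((Nat.coprime_primes ht hp.out).mpr htp).pow_right j)
      (Or.inl (Group.isSolvable_of_comm fun a b => mul_comm' a b)) (fun u hu => by
        obtain ⟨i, rfl⟩ := mem_zpowers_iff.mp hu
        have h1 : π (a⁻¹ * ((⟨v, hvN⟩ : N) ^ i * a * ((⟨v, hvN⟩ : N) ^ i)⁻¹)) = 1 := by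
          rw [map_mul, map_mul, map_mul, map_inv, map_inv, map_zpow, (hc.zpow_left i).eq,
            mul_inv_cancel_right, inv_mul_cancel]
        exact (show a⁻¹ * ((⟨v, hvN⟩ : N) ^ i * a * ((⟨v, hvN⟩ : N) ^ i)⁻¹) ∈ Z.subgroupOf N from (QuotientGroup.eq_one_iff _).mp h1))
    have hcD : c ∈ D := by
      have := D.mul_mem ha (hZD hcZ)
      simpa using this
    have hcY := hfix c (hDU hcD) (hDexp c hcD) (mem_centralizer_iff.mp hcv v (mem_zpowers v))
    have heq : π a = π ⟨c, hDN hcD⟩ := (QuotientGroup.eq).mpr hcZ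
    refine mem_centralizer_iff.mpr ?_
    rintro _ ⟨y, hy, rfl⟩
    rw [heq, ← map_mul, ← map_mul]
    exact congrArg π (Subtype.ext (mem_centralizer_iff.mp hcY y hy))
  -- stability
  have hDYZ : ⁅D, Y⁆ ≤ Z := by
    rw [commutator_le]
    intro d hd y hy
    have h1 := mem_centralizer_iff.mp (hmain (mem_map_of_mem π (show (⟨d, hDN hd⟩ : N) ∈ D.subgroupOf N from hd)))
      _ (mem_map_of_mem π (show (⟨y, hYN hy⟩ : N) ∈ Y.subgroupOf N from hy))
    have h2 : π ⁅(⟨d, hDN hd⟩ : N), ⟨y, hYN hy⟩⁆ = 1 := by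
      rw [map_commutatorElement, commutatorElement_eq_one_iff_mul_comm]; exact h1.symm
    exact (show ⁅(⟨d, hDN hd⟩ : N), (⟨y, hYN hy⟩ : N)⁆ ∈ Z.subgroupOf N from (QuotientGroup.eq_one_iff _).mp h2)
  refine commutator_eq_bot_iff_le_centralizer.mp ?_
  rw [← Coprime.commutator_commutator (K := D) (A := Y) hYD hcopD
    (Or.inl (Group.isSolvable_of_comm fun a b => hYc.is_comm.comm a b))]
  exact commutator_eq_bot_iff_le_centralizer.mpr (hDYZ.trans hZY)

end Cfsg.Agent.Lib.Uniq
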