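import Cfsg.Agent.Lib.Uniq.CyclicSylowAction
import Cfsg.Agent.Lib.Uniq.FrobeniusFixed
import Cfsg.Agent.S1406
import Cfsg.Agent.S1408
set_option autoImplicit false

/-! Tools for BG 13.1 – 13.4. -/

namespace Cfsg.Agent.Lib.Uniq

open Subgroup
open scoped Pointwise commutatorElement

universe u

variable {G : Type u} [Group G] [Finite G] {M H E : Subgroup G} {p q : ℕ}

/-- A complement to `M_σ` containing a given `σ(M)'`-subgroup. -/
theorem exists_compl_ge_pi (hG : IsMinSimpleOddOrder G) (hM : IsCoatom M) (hE : IsComplIn E (sigmaCore M) M)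
    {Y : Subgroup G} (hY : ∀ r : ℕ, r.Prime → r ∣ Nat.card Y → r ∉ sigma M) (hYM : Y ≤ M) :
    ∃ E' : Subgroup G, IsComplIn E' (sigmaCore M) M ∧ Y ≤ E' := by
  obtain ⟨m, hm, hmY⟩ := exists_conj_le_compl' hG hM hE hY hYM
  have hMm : MulAut.conj m⁻¹ • M = M := Coprime.conj_smul_eq_self (le_normalizer (M.inv_mem hm))
  have hKm : MulAut.conj m⁻¹ • sigmaCore M = sigmaCore M :=
    Coprime.conj_smul_eq_self (OddLocal.le_normalizer_piCoreOf (sigma M) M (M.inv_mem hm))
  refine ⟨MulAut.conj m⁻¹ • E, ⟨?_, hE.2.1, ?_, fun z hz => ?_⟩, ?_⟩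
  · exact (pointwise_smul_le_pointwise_smul_iff.mpr hE.1).trans hMm.le
  · rw [← hKm, ← Subgroup.smul_inf, hE.2.2.1]
    exact Subgroup.smul_bot _
  · obtain ⟨a, ha, b, hb, hab⟩ := hE.2.2.2 (m * z * m⁻¹) (M.mul_mem (M.mul_mem hm hz) (M.inv_mem hm))
    refine ⟨m⁻¹ * a * m, ?_, m⁻¹ * b * m, ?_, ?_⟩
    · rw [Coprime.mem_conj_smul]; simpa [mul_assoc] using ha
    · rw [← hKm, Coprime.mem_conj_smul]; simpa [mul_assoc] using hb
    · calc z = m⁻¹ * (m * z * m⁻¹) * m := by group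
        _ = _ := by rw [hab]; group
  · rw [map_inv]
    exact Subgroup.subset_pointwise_smul_iff.mpr (by rwa [inv_inv]) 

/-- The order of a subgroup generated by two subgroups, one normalising the other, involves only their primes. -/
theorem prime_dvd_sup {A N : Subgroup G} (h : A ≤ normalizer (N : Set G)) {r : ℕ} (hr : r.Prime)
    (hd : r ∣ Nat.card ↥(A ⊔ N)) : r ∣ Nat.card A ∨ r ∣ Nat.card N :=
  hr.dvd_mul.mp (hd.trans ⟨_, (Coprime.card_sup_mul_card_inf_of_le_normalizer h).symm⟩)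

variable [hp : Fact p.Prime]

/-- A subgroup of order `p` has an elementary abelian structure. -/
theorem elem_of_card_prime {X : Subgroup G} (hX : Nat.card X = p) : IsElementaryAbelian p X := by
  obtain ⟨x, hx⟩ := (Subgroup.isCyclic_iff_exists_zpowers_eq_top X).mp (isCyclic_of_prime_card hX)
  rw [← hx]
  refine Thompson.isElementaryAbelian_zpowers ?_
  rw [← hx, Nat.card_zpowers] at hX
  rw [← hX, pow_orderOf_eq_one]

/-- In a group of `p`-rank one, commuting subgroups of order `p` coincide. -/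
theorem eq_of_rank_one {Z : Subgroup G} (hr1 : PRankLE p 1 Z) {x y : G} (hx : x ∈ Z) (hy : y ∈ Z)
    (hxp : x ^ p = 1) (hyp : y ^ p = 1) (hy1 : y ≠ 1) (hxy : Commute x y) : x ∈ zpowers y := by
  by_contra hne
  have hB : IsElementaryAbelian p (zpowers y ⊔ zpowers x) :=
    elem_sup_zpowers (Thompson.isElementaryAbelian_zpowers hyp) hxp fun a ha => by
      obtain ⟨i, rfl⟩ := mem_zpowers_iff.mp ha
      exact (hxy.symm.zpow_left i).eq
  refine not_pRankLE_one (sup_le (zpowers_le.mpr hy) (zpowers_le.mpr hx)) hB ?_ hr1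
  obtain ⟨j, hj⟩ := IsPGroup.iff_card.mp (elem_isPGroup hB)
  have hlt : Nat.card (zpowers y) < Nat.card ↥(zpowers y ⊔ zpowers x) :=
    (Set.toFinite _).card_lt_card (SetLike.coe_ssubset_coe.2 (lt_of_le_of_ne le_sup_left
      fun e => hne (e.ge (mem_sup_right (mem_zpowers x)))))
  rw [Nat.card_zpowers, orderOf_eq_prime hyp hy1, hj] at hlt
  rw [hj]
  refine Nat.pow_le_pow_right hp.out.pos ?_
  have := (Nat.pow_lt_pow_iff_right hp.out.one_lt).mp (by rwa [pow_one] : p ^ 1 < p ^ j)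
  omega

/-- In a group of `p`-rank one all subgroups of order `p` are conjugate. -/
theorem exists_conj_prime_eq {Z : Subgroup G} (hr1 : PRankLE p 1 Z) {X Y : Subgroup G} (hXZ : X ≤ Z) (hYZ : Y ≤ Z)
    (hX : Nat.card X = p) (hY : Nat.card Y = p) : ∃ z ∈ Z, MulAut.conj z • X = Y := by
  classical
  have hc : ∀ {X : Subgroup G}, Nat.card X = p → X ≤ Z → ∃ S : Sylow p Z, X.subgroupOf Z ≤ S := fun hX _ =>
    ((IsPGroup.of_card (n := 1) (by rw [hX, pow_one])).comap_subtype).exists_le_sylow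
  obtain ⟨S₁, h1⟩ := hc hX hXZ
  obtain ⟨S₂, h2⟩ := hc hY hYZ
  obtain ⟨k, hk⟩ := MulAction.exists_smul_eq ↥Z S₁ S₂
  set X' := MulAut.conj (k : G) • X with hX'
  have hX'c : Nat.card X' = p := (Coprime.card_conj_smul _ _).trans hX
  have hX'S : ∀ w ∈ X', ∃ hw : w ∈ Z, (⟨w, hw⟩ : Z) ∈ (S₂ : Subgroup Z) := by
    rintro _ ⟨w, hw, rfl⟩
    refine ⟨(k * (⟨w, hXZ hw⟩ : Z) * k⁻¹).2, ?_⟩
    rw [← hk, Sylow.coe_subgroup_smul]
    exact Coprime.conj_mem_conj_smul (h1 (show (⟨w, hXZ hw⟩ : Z) ∈ X.subgroupOf Z from hw))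
  -- a central element of order `p` in `S₂`
  haveI : Nontrivial (S₂ : Subgroup Z) := by
    obtain ⟨w, hw, hw1⟩ := Y.bot_or_exists_ne_one.resolve_left fun e => by
      rw [e, card_bot] at hY; exact hp.out.ne_one hY.symm
    exact nontrivial_of_ne (⟨⟨w, hYZ hw⟩, h2 hw⟩ : (S₂ : Subgroup Z)) 1 fun e =>
      hw1 (congrArg (fun z : (S₂ : Subgroup Z) => ((z : Z) : G)) e)
  haveI := S₂.2.center_nontrivial
  obtain ⟨j, hj⟩ := IsPGroup.iff_card.mp (S₂.2.to_subgroup (center (S₂ : Subgroup Z)))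
  have hj0 : j ≠ 0 := fun e => by
    rw [e, pow_zero] at hj
    exact (Finite.one_lt_card (α := center (S₂ : Subgroup Z))).ne' (by rw [hj])
  obtain ⟨c, hc⟩ := exists_prime_orderOf_dvd_card' p (show p ∣ Nat.card (center (S₂ : Subgroup Z)) from
    hj ▸ dvd_pow_self p hj0)
  set w : G := (((c : (S₂ : Subgroup Z)) : Z) : G) with hw
  have hwo : orderOf w = p := by rw [hw, orderOf_coe, orderOf_coe, orderOf_coe, hc]
  have hwZ : w ∈ Z := ((c : (S₂ : Subgroup Z)) : Z).2
  have key : ∀ {V : Subgroup G}, Nat.card V = p → (∀ v ∈ V, ∃ hv : v ∈ Z, (⟨v, hv⟩ : Z) ∈ (S₂ : Subgroup Z)) →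
      V = zpowers w := by
    intro V hV hVS
    refine eq_of_le_of_card_ge (fun v hv => ?_) (by rw [Nat.card_zpowers, hwo, hV])
    obtain ⟨hvZ, hvS⟩ := hVS v hv
    refine eq_of_rank_one hr1 hvZ hwZ ?_ (hwo ▸ pow_orderOf_eq_one w)
      (fun e => hp.out.ne_one (by rw [← hwo, e, orderOf_one])) ?_
    · exact orderOf_dvd_iff_pow_eq_one.mp (hV ▸ Subgroup.orderOf_dvd_natCard V hv)
    · have := mem_center_iff.mp c.2 ⟨⟨v, hvZ⟩, hvS⟩
      exact congrArg (fun z : (S₂ : Subgroup Z) => ((z : Z) : G)) this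
  exact ⟨k, k.2, (key hX'c hX'S).trans (key hY fun v hv => ⟨hYZ hv, h2 hv⟩).symm⟩

/-- For `p ∈ τ₁(M)` a subgroup of order `p` is centralised by its normaliser in `M`. -/
theorem centralizes_of_tau_one {X : Subgroup G} (hd : ¬ p ∣ Nat.card ↥⁅M, M⁆) (hX : IsPGroup p X) (hXM : X ≤ M) :
    M ⊓ normalizer (X : Set G) ≤ centralizer (X : Set G) := by
  rintro z ⟨hzM, hzN⟩
  refine mem_centralizer_iff.mpr fun x hx => ?_
  have h1 : ⁅z, x⁆ ∈ X := by
    rw [commutatorElement_def]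
    exact X.mul_mem ((mem_normalizer_iff.mp hzN x).mp hx) (X.inv_mem hx)
  have h2 : ⁅z, x⁆ ∈ ⁅M, M⁆ := commutator_mem_commutator hzM (hXM hx)
  have h3 : ⁅z, x⁆ = 1 := by
    obtain ⟨j, hj⟩ := IsPGroup.iff_card.mp hX
    exact orderOf_eq_one_iff.mp (Nat.eq_one_of_dvd_coprimes (Nat.Coprime.pow_left j (hp.out.coprime_iff_not_dvd.mpr hd))
      (hj ▸ Subgroup.orderOf_dvd_natCard X h1) (Subgroup.orderOf_dvd_natCard _ h2))
  exact (commutatorElement_eq_one_iff_mul_comm.mp h3).symm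

/-- A maximal subgroup containing the normaliser of a line for `p ∉ σ(M)` of rank one is not conjugate to `M`. -/
theorem not_conj_of_normalizer (hM : IsCoatom M) (hH : IsCoatom H) (hne : H ≠ M) (hr1 : PRankLE p 1 M)
    {X : Subgroup G} (hX : Nat.card X = p) (hXM : X ≤ M) (hNX : normalizer (X : Set G) ≤ H) :
    ∀ g : G, H ≠ MulAut.conj g • M := by
  intro g hg
  set Y := MulAut.conj g⁻¹ • X with hY
  have hYM : Y ≤ M := by
    rw [hY, map_inv, pointwise_smul_subset_iff, inv_inv, ← hg]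
    exact le_normalizer.trans hNX
  obtain ⟨z, hz, hzY⟩ := exists_conj_prime_eq hr1 hYM hXM ((Coprime.card_conj_smul _ _).trans hX) hX
  rw [hY, ← mul_smul, ← map_mul] at hzY
  have h1 : z * g⁻¹ ∈ MulAut.conj g • M := hg ▸ hNX (Coprime.mem_normalizer_of_conj_smul_eq hzY)
  rw [Coprime.mem_conj_smul, show g⁻¹ * (z * g⁻¹) * g = g⁻¹ * z by group] at h1
  have hgM : g ∈ M := by
    have := M.mul_mem hz (M.inv_mem h1)
    simpa using this
  exact hne (hg.trans (Coprime.conj_smul_eq_self (le_normalizer hgM)))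

variable [hq : Fact q.Prime]

omit hp in
/-- BG 12.15 for a maximal subgroup containing the normaliser of a `q`-subgroup. -/
theorem exists_factor_of_normalizer (hG : IsMinSimpleOddOrder G) (hM : IsCoatom M) (hqM : q ∈ sigma M)
    {X : Subgroup G} (hXq : IsPGroup q X) (hX1 : X ≠ ⊥) (hXM : X ≤ M) (hH : IsCoatom H) (hne : H ≠ M)
    (hNX : normalizer (X : Set G) ≤ H) :
    ∃ (S : Sylow q H) (K : Subgroup G), (S : Subgroup H).map H.subtype ≤ M ∧ K ≤ H ∧ H ≤ normalizer (K : Set G) ∧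
      (M ⊓ H) ⊔ K = H ∧ (∀ r : ℕ, r.Prime → r ∣ Nat.card K → r ∉ sigma M) ∧
      (∀ g : G, H ≠ MulAut.conj g • M) ∧
      (q ∈ sigma H ∧ K = piCoreOf (beta H) H ∨ q ∈ tau2 H ∧ K = sigmaCore H ∧ sigmaCore H ⊓ M = ⊥) := by
  classical
  obtain ⟨S₀, hS₀⟩ := (hXq.comap_subtype (K := M ⊓ H)).exists_le_sylow
  set R := (S₀ : Subgroup ↥(M ⊓ H)).map (M ⊓ H).subtype with hR
  have hXR : X ≤ R := fun z hz => ⟨⟨z, hXM hz, hNX (le_normalizer hz)⟩, hS₀ hz, rfl⟩
  have hmax : ∀ Q : Subgroup G, IsPGroup q Q → Q ≤ M ⊓ H → R ≤ Q → Q = R := fun Q hQ hQle hRQ => by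
    have h := S₀.3 (hQ.comap_subtype (K := M ⊓ H)) (fun z hz => hRQ (mem_map_of_mem _ hz))
    rw [hR, ← h]
    exact (map_subgroupOf_eq_of_le hQle).symm
  obtain ⟨hnc, hNR, hsyl⟩ := sylow_inter_props hG hM hqM hXq hX1 hXM hH hne hNX (S₀.2.map _)
    (map_subtype_le _) hXR hmax
  obtain ⟨S, hS⟩ := ((S₀.2.map (M ⊓ H).subtype).comap_subtype (K := H)).exists_le_sylow
  have hSR : (S : Subgroup H).map H.subtype = R := hsyl _ (S.2.map _) (map_subtype_le _)
    fun z hz => ⟨⟨z, ((map_subtype_le _ : R ≤ M ⊓ H) hz).2⟩, hS hz, rfl⟩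
  have hSM : (S : Subgroup H).map H.subtype ≤ M := hSR ▸ (map_subtype_le _ : R ≤ M ⊓ H).trans inf_le_left
  obtain ⟨K, hKH, hHK, hMHK, hKπ, hcase⟩ := exists_factor hG hM hH hqM hnc hX1 hNX S (hSR ▸ hXR) hSM (hSR ▸ hNR)
  refine ⟨S, K, hSM, hKH, hHK, hMHK, hKπ, hnc, hcase.imp_right fun ⟨hqτ, hK⟩ => ⟨hqτ, hK, ?_⟩⟩
  obtain ⟨B, hBH, hB, hBc⟩ := elem_of_not_pRankLE hqτ.2.2.2
  obtain ⟨S', hS'⟩ := ((elem_isPGroup hB).comap_subtype (K := H)).exists_le_sylow
  obtain ⟨m, hm⟩ := MulAction.exists_smul_eq (↥H) S' S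
  have hAS : MulAut.conj (m : G) • B ≤ (S : Subgroup H).map H.subtype := by
    rintro x ⟨w, hw, rfl⟩
    refine ⟨m * ⟨w, hBH hw⟩ * m⁻¹, ?_, rfl⟩
    rw [← hm, Sylow.coe_subgroup_smul]
    exact Coprime.conj_mem_conj_smul (hS' hw)
  exact sigmaCore_inf_eq_bot hG hH hqτ.2.1 (hAS.trans (map_subtype_le _)) (elem_of_conj (m : G) hB)
    ((Coprime.card_conj_smul _ _).trans hBc) hM (Ne.symm hne) (hAS.trans hSM)

/-- An element of `σ(M)` commuting with an element of order `p ∈ τ₁(M)`: in a maximal subgroup over its normaliser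
`p` behaves as in `M`, unless `p` is ideal. -/
theorem tau_one_in_normalizer (hG : IsMinSimpleOddOrder G) (hM : IsCoatom M) (hpτ : p ∈ tau1 M)
    (hid : ¬ IsIdealPrime p G) (hqM : q ∈ sigma M) {d : G} (hdM : d ∈ M) (hdo : orderOf d = q) {P : Subgroup G}
    (hP : Nat.card P = p) (hPM : P ≤ M) (hPd : P ≤ centralizer ({d} : Set G))
    (hH : IsCoatom H) (hNH : normalizer ((zpowers d : Subgroup G) : Set G) ≤ H) :
    PRankLE p 1 H ∧ ¬ p ∣ Nat.card ↥⁅H, H⁆ := by
  classical
  obtain ⟨-, hpσ, hpM, hpd, hr1⟩ := hpτ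
  by_cases hne : H = M
  · subst hne; exact ⟨hr1, hpd⟩
  have hXc : Nat.card (zpowers d) = q := by rw [Nat.card_zpowers, hdo]
  obtain ⟨S, K, -, hKH, hHK, hMHK, -, -, hcase⟩ := exists_factor_of_normalizer hG hM hqM (X := zpowers d)
    (IsPGroup.of_card (n := 1) (by rw [hXc, pow_one])) (fun e => hq.out.ne_one (by rw [← hXc, e, card_bot]))
    (zpowers_le.mpr hdM) hH hne hNH
  have hPH : P ≤ H := hPd.trans ((centralizer_zpowers d).ge.trans ((centralizer_le_normalizer _).trans hNH))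
  have hpK : ¬ p ∣ Nat.card K := by
    intro hd'
    rcases hcase with ⟨-, rfl⟩ | ⟨-, rfl, hbot⟩
    · exact hid (OddLocal.piCoreOf_isPi _ _ p hp.out hd').2
    · have hpH : p ∈ sigma H := OddLocal.piCoreOf_isPi (sigma H) H p hp.out hd'
      have h1 : P ≤ sigmaCore H ⊓ M :=
        le_inf (pgroup_le_sigmaCore hG hH hpH (IsPGroup.of_card (n := 1) (by rw [hP, pow_one])) hPH) hPM
      rw [hbot, le_bot_iff] at h1
      rw [h1, card_bot] at hP
      exact hp.out.ne_one hP.symm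
  haveI : (K.subgroupOf H).Normal := (normal_subgroupOf_iff_le_normalizer hKH).mpr hHK
  set π := QuotientGroup.mk' (K.subgroupOf H)
  set A₁ := (M ⊓ H).subgroupOf H with hA₁
  have htop : A₁.map π = ⊤ := by
    have h1 : A₁ ⊔ K.subgroupOf H = ⊤ := by rw [← subgroupOf_sup inf_le_right hKH, hMHK, subgroupOf_self]
    rw [← map_top_of_surjective π (QuotientGroup.mk'_surjective _), ← h1, Subgroup.map_sup,
      QuotientGroup.map_mk'_self, sup_bot_eq]
  refine ⟨fun B hBc hBx => ?_, fun hd' => ?_⟩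
  · -- a Sylow subgroup of `M ∩ H` is one of `H`
    by_contra hlt
    obtain ⟨T⟩ : Nonempty (Sylow p A₁) := inferInstance
    have hidx : ¬ p ∣ ((T : Subgroup A₁).map A₁.subtype).index := by
      rw [index_map, A₁.range_subtype, Subgroup.ker_subtype, sup_bot_eq]
      intro h
      rcases hp.out.dvd_mul.mp h with h | h
      · exact T.not_dvd_index h
      · refine hpK (h.trans ?_)
        have hc : A₁.index ∣ Nat.card (K.subgroupOf H) := by
          have h1 : (K.subgroupOf H).index = ((K.subgroupOf H).subgroupOf A₁).index := by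
            have h2 : A₁ ⊔ K.subgroupOf H = ⊤ := by
              rw [← subgroupOf_sup inf_le_right hKH, hMHK, subgroupOf_self]
            rw [← relIndex_top_right (K.subgroupOf H), ← h2, relIndex_sup_right]; rfl
          refine Dvd.intro (Nat.card ((K.subgroupOf H).subgroupOf A₁))
            (mul_left_cancel₀ (show (K.subgroupOf H).index ≠ 0 from index_ne_zero_of_finite) ?_)
          rw [index_mul_card]
          conv_rhs => rw [← index_mul_card A₁, ← index_mul_card ((K.subgroupOf H).subgroupOf A₁), ← h1]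
          ring
        rwa [Coprime.card_subgroupOf hKH] at hc
    let T' : Sylow p H := ((T.2.map A₁.subtype).toSylow hidx)
    have hBp : IsPGroup p B := fun b => ⟨1, Subtype.ext (by rw [pow_one]; exact hBx b b.2)⟩
    obtain ⟨S₁, hS₁⟩ := hBp.exists_le_sylow
    obtain ⟨h, hh⟩ := MulAction.exists_smul_eq ↥H S₁ T'
    set f := H.subtype.comp (MulAut.conj h).toMonoidHom with hf
    have hfi : Function.Injective f := H.subtype_injective.comp (MulAut.conj h).injective
    have hle : B.map f ≤ M := by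
      rintro _ ⟨w, hw, rfl⟩
      have h1 : MulAut.conj h • (S₁ : Subgroup H) ≤ A₁ := by
        rw [← Sylow.coe_subgroup_smul, hh]; exact map_subtype_le _
      exact (h1 (Coprime.conj_mem_conj_smul (hS₁ hw))).1
    refine hlt ?_
    have := hr1 ((B.map f).subgroupOf M) ⟨⟨fun a b => ?_⟩⟩ (fun a ha => ?_)
    · rwa [Coprime.card_subgroupOf hle, card_map_of_injective hfi] at this
    · obtain ⟨a', ha', hae⟩ := a.2
      obtain ⟨b', hb', hbe⟩ := b.2
      refine Subtype.ext (Subtype.ext ?_)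
      show ((a : M) : G) * ((b : M) : G) = ((b : M) : G) * ((a : M) : G)
      change f a' = ((a : M) : G) at hae
      change f b' = ((b : M) : G) at hbe
      rw [← hae, ← hbe, ← map_mul, ← map_mul]
      exact congrArg f (congrArg Subtype.val (hBc.is_comm.comm (⟨a', ha'⟩ : B) ⟨b', hb'⟩))
    · obtain ⟨a', ha', hae⟩ := ha
      refine Subtype.ext ?_
      show ((a : M) : G) ^ p = 1
      change f a' = (a : G) at hae
      rw [← hae, ← map_pow, hBx a' ha', map_one]
  · have hD : (commutator ↥H).map π ≤ (commutator ↥A₁).map (π.comp A₁.subtype) := by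
      rw [_root_.commutator_def, _root_.commutator_def, map_commutator, map_commutator, ← Subgroup.map_map,
        ← MonoidHom.range_eq_map A₁.subtype, A₁.range_subtype, htop]
      exact commutator_mono le_top le_top
    have h1 : Nat.card ((commutator ↥H).map π) ∣ Nat.card ↥⁅M, M⁆ := by
      refine (card_dvd_of_le hD).trans ((card_map_dvd _ _).trans ?_)
      rw [← card_map_of_injective (f := H.subtype.comp A₁.subtype) (H.subtype_injective.comp A₁.subtype_injective)]
      refine card_dvd_of_le ?_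
      rw [_root_.commutator_def, map_commutator]
      refine commutator_mono ?_ ?_ <;> · rintro _ ⟨w, -, rfl⟩; exact w.2.1
    have hd2 : p ∣ Nat.card (commutator ↥H) := by
      rw [← map_subtype_commutator, card_map_of_injective H.subtype_injective] at hd'
      exact hd'
    rw [← card_mul_index ((K.subgroupOf H).subgroupOf (commutator ↥H))] at hd2
    rcases hp.out.dvd_mul.mp hd2 with h | h
    · exact hpK (h.trans ((card_comap_dvd_of_injective _ _ (commutator ↥H).subtype_injective).trans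
        (Coprime.card_subgroupOf hKH).dvd))
    · refine hpd ((h.trans ?_).trans h1)
      exact dvd_of_eq ((congrArg (fun Z : Subgroup ↥H => Z.relIndex (commutator ↥H)) (QuotientGroup.ker_mk' (K.subgroupOf H)).symm).trans (Subgroup.relIndex_ker _ π))

end Cfsg.Agent.Lib.Uniq
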