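import Cfsg.Agent.Lib.Uniq.Exceptional
import Cfsg.Agent.Lib.FitHeight.HallHigman
import Cfsg.Agent.Lib.FitHeight.WardCore
import Cfsg.Agent.Lib.PGroupFrattini
set_option autoImplicit false

/-! A fixed-point-free element forces its commutators with a coprime group to centralise. -/

namespace Cfsg.Agent.Lib.Uniq

open Subgroup
open scoped Pointwise commutatorElement

universe u

variable {G : Type u} [Group G] [Finite G] {p q r : ℕ}

/-- If `t` of prime order has no fixed points on an `r`-group `R`, the commutator of a `t`-invariant `q`-group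
with `t` centralises `R`. -/
theorem commutator_le_centralizer_pgroup [hp : Fact p.Prime] [hq : Fact q.Prime] [hr : Fact r.Prime]
    (hqp : q ≠ p) (hrp : r ≠ p) (hrq : r ≠ q) (hq2 : q ≠ 2) {R U : Subgroup G} {t : G} (hR : IsPGroup r R)
    (hU : IsPGroup q U) (ht : t ^ p = 1) (htR : t ∈ normalizer (R : Set G)) (htU : t ∈ normalizer (U : Set G))
    (hUR : U ≤ normalizer (R : Set G)) (hfree : ∀ c ∈ R, t * c = c * t → c = 1) :
    ⁅U, zpowers t⁆ ≤ centralizer (R : Set G) := by
  classical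
  set Nn := normalizer (R : Set G)
  set Φ := (frattini R).map R.subtype with hΦ
  have hΦR : Φ ≤ R := map_subtype_le _
  haveI : (Φ.subgroupOf Nn).Normal := (normal_subgroupOf_iff_le_normalizer (hΦR.trans le_normalizer)).mpr
    (FitHeight.normalizer_le_normalizer_map_frattini R)
  haveI : (R.subgroupOf Nn).Normal := (normal_subgroupOf_iff_le_normalizer le_normalizer).mpr le_rfl
  set π := QuotientGroup.mk' (Φ.subgroupOf Nn)
  set Kb := (R.subgroupOf Nn).map π
  haveI : Kb.Normal := Subgroup.Normal.map inferInstance π (QuotientGroup.mk'_surjective _)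
  letI : CommGroup Kb := { (inferInstance : Group Kb) with
    mul_comm := by
      rintro ⟨_, a, ha, rfl⟩ ⟨_, b, hb, rfl⟩
      refine Subtype.ext ?_
      show π a * π b = π b * π a
      rw [← map_mul, ← map_mul]
      refine QuotientGroup.eq.mpr ?_
      have h : ⁅(⟨b, hb⟩ : R)⁻¹, (⟨a, ha⟩ : R)⁻¹⁆ ∈ frattini R :=
        PGroupFrattini.commutator_le_frattini hR (commutator_mem_commutator (mem_top _) (mem_top _))
      show ((a : G) * b)⁻¹ * ((b : G) * a) ∈ Φ
      rw [show ((a : G) * b)⁻¹ * ((b : G) * a) =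
        ((⁅(⟨b, hb⟩ : R)⁻¹, (⟨a, ha⟩ : R)⁻¹⁆ : R) : G) by simp [commutatorElement_def, mul_assoc]]
      exact mem_map_of_mem R.subtype h }
  let φ : Nn →* MulAut Kb := (MulAut.conjNormal (H := Kb)).comp π
  letI : MulDistribMulAction Nn Kb := MulDistribMulAction.compHom Kb φ
  have hexp : ∀ w : Kb, w ^ r = 1 := by
    rintro ⟨_, a, ha, rfl⟩
    refine Subtype.ext ?_
    show π a ^ r = 1
    rw [← map_pow]
    exact (QuotientGroup.eq_one_iff _).mpr
      (mem_map_of_mem R.subtype (PGroupFrattini.pow_mem_frattini hR (⟨a, ha⟩ : R)))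
  have hfix : ∀ w : Kb, (⟨t, htR⟩ : Nn) • w = w → w = 1 := by
    rintro ⟨_, a, ha, rfl⟩ hw
    have h1 : π ⟨t, htR⟩ * π a * (π ⟨t, htR⟩)⁻¹ = π a := congrArg Subtype.val hw
    obtain ⟨c, hc, hca⟩ := Coprime.exists_centralizer_mem_coset (A := zpowers t) (N := Φ)
      (zpowers_le.mpr (FitHeight.normalizer_le_normalizer_map_frattini R htR))
      (by
        obtain ⟨j, hj⟩ := IsPGroup.iff_card.mp (hR.to_le hΦR)
        rw [Nat.card_zpowers, hj]
        exact (((Nat.coprime_primes hp.out hr.out).mpr (Ne.symm hrp)).coprime_dvd_left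
          (orderOf_dvd_of_pow_eq_one ht)).pow_right j)
      (Or.inl inferInstance) (k := (a : G)) (fun s hs => by
        obtain ⟨i, rfl⟩ := mem_zpowers_iff.mp hs
        have hct : Commute (π ⟨t, htR⟩) (π a) := by
          show π ⟨t, htR⟩ * π a = π a * π ⟨t, htR⟩
          exact mul_inv_eq_iff_eq_mul.mp h1
        have h7 : π (⟨t, htR⟩ ^ i * a * (⟨t, htR⟩ ^ i)⁻¹) = π a := by
          rw [map_mul, map_mul, map_inv, map_zpow, (hct.zpow_left i).eq, mul_inv_cancel_right]
        exact (QuotientGroup.eq (s := Φ.subgroupOf Nn)).mp h7.symm)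
    have hcR : c ∈ R := by
      have := R.mul_mem (show (a : G) ∈ R from ha) (hΦR hca)
      simpa using this
    have hc1 := hfree c hcR (mem_centralizer_iff.mp hc t (mem_zpowers t))
    refine Subtype.ext ?_
    show π a = 1
    refine (QuotientGroup.eq_one_iff _).mpr ?_
    show (a : G) ∈ Φ
    rw [hc1, mul_one] at hca
    exact inv_mem_iff.mp hca
  have htt : (⟨t, htR⟩ : Nn) ^ p = 1 := Subtype.ext ht
  have key := FitHeight.commute_of_cycProd_eq_one (l := r) (p := p) (q := q) hr.out hp.out hq.out hqp hrp hrq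
    (Or.inl hq2) (Γ := Nn) (V := Kb) (Q := U.subgroupOf Nn) hU.comap_subtype (f := ⟨t, htR⟩)
    (by rw [mem_normalizer_iff]; intro z; exact mem_normalizer_iff.mp htU (z : G)) htt ⊤
    (fun w _ => hexp w) (fun _ _ _ _ => mem_top _) (fun _ _ => mem_top _)
    (fun w _ => hfix _ (FitHeight.smul_cycProd htt w))
  have hle : ⁅U.subgroupOf Nn, zpowers (⟨t, htR⟩ : Nn)⁆ ≤ φ.ker := by
    rw [commutator_le]
    intro u hu s hs
    obtain ⟨i, rfl⟩ := mem_zpowers_iff.mp hs
    rw [MonoidHom.mem_ker, map_commutatorElement, map_zpow, commutatorElement_eq_one_iff_mul_comm]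
    have h1 : Commute (φ u) (φ ⟨t, htR⟩) := MulEquiv.ext fun w => (key u hu w (mem_top _)).symm
    exact (h1.zpow_right i).eq
  set D := ⁅U, zpowers t⁆
  have hDU : D ≤ U := Coprime.commutator_le_of_le_normalizer' (zpowers_le.mpr htU)
  refine Coprime.le_centralizer_of_frattini (hDU.trans hUR) ?_ fun d hd a ha => ?_
  · obtain ⟨i, hi⟩ := IsPGroup.iff_card.mp (hU.to_le hDU)
    obtain ⟨j, hj⟩ := IsPGroup.iff_card.mp (hR.to_subgroup (frattini R))
    rw [hi, hj]
    exact (((Nat.coprime_primes hq.out hr.out).mpr (Ne.symm hrq)).pow_left i).pow_right j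
  · have hd' : d ∈ (⁅U.subgroupOf Nn, zpowers (⟨t, htR⟩ : Nn)⁆).map Nn.subtype := by
      rw [map_commutator, map_subgroupOf_eq_of_le hUR, MonoidHom.map_zpowers]
      exact hd
    obtain ⟨e, he, rfl⟩ := hd'
    have h2 := congrArg Subtype.val (DFunLike.congr_fun (MonoidHom.mem_ker.mp (hle he))
      (⟨π ⟨a, le_normalizer ha⟩, mem_map_of_mem π (show (⟨a, le_normalizer ha⟩ : Nn) ∈ R.subgroupOf Nn from ha)⟩ : Kb))
    have h3 : π e * π ⟨a, le_normalizer ha⟩ * (π e)⁻¹ = π ⟨a, le_normalizer ha⟩ := h2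
    rw [← map_mul, ← map_inv, ← map_mul] at h3
    have h4 : a⁻¹ * ((e : G) * a * (e : G)⁻¹) ∈ Φ := (QuotientGroup.eq (s := Φ.subgroupOf Nn)).mp h3.symm
    have h5 := (mem_normalizer_iff.mp (FitHeight.normalizer_le_normalizer_map_frattini R (le_normalizer ha)) _).mp h4
    simpa [mul_assoc] using h5

/-- The same for a nilpotent group, here `M_σ`. -/
theorem commutator_le_centralizer_sigmaCore (hG : IsMinSimpleOddOrder G) {M U : Subgroup G} {t : G}
    [hp : Fact p.Prime] [hq : Fact q.Prime] (hqp : q ≠ p) (hq2 : q ≠ 2) (hpσ : p ∉ sigma M) (hqσ : q ∉ sigma M)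
    (hnil : Group.IsNilpotent (sigmaCore M)) (ht : t ^ p = 1) (htM : t ∈ M) (hUM : U ≤ M) (hU : IsPGroup q U)
    (htU : t ∈ normalizer (U : Set G)) (hfpf : FpfOn M t) :
    ⁅U, zpowers t⁆ ≤ centralizer (sigmaCore M : Set G) := by
  classical
  haveI := hnil
  have hK : M ≤ normalizer (sigmaCore M : Set G) := OddLocal.le_normalizer_piCoreOf _ M
  have hkey : ∀ r : ℕ, r.Prime → r ∣ Nat.card (sigmaCore M) →
      (pCore r ↥(sigmaCore M)).map (sigmaCore M).subtype ≤ centralizer ((⁅U, zpowers t⁆ : Subgroup G) : Set G) := by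
    intro r hr hrd
    haveI := Fact.mk hr
    have hrσ : r ∈ sigma M := OddLocal.piCoreOf_isPi (sigma M) M r hr hrd
    set R := (pCore r ↥(sigmaCore M)).map (sigmaCore M).subtype
    have hMR : M ≤ normalizer (R : Set G) :=
      hK.trans (PL.normalizer_le_normalizer_map_char _ _)
    refine le_centralizer_iff.mp (commutator_le_centralizer_pgroup (r := r) hqp (fun e => hpσ (e ▸ hrσ))
      (fun e => hqσ (e ▸ hrσ)) hq2 ((Hall.isPGroup_pCore r).map _) hU ht (hMR htM) htU (hUM.trans hMR) ?_)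
    exact fun c hc h => hfpf c (map_subtype_le _ hc) h
  refine le_centralizer_iff.mp ?_
  have hle : fittingSubgroup ↥(sigmaCore M) ≤
      (centralizer ((⁅U, zpowers t⁆ : Subgroup G) : Set G)).comap (sigmaCore M).subtype := by
    rw [Hall.fittingSubgroup_eq_iSup_pCore]
    refine iSup_le fun r => ?_
    rw [← map_le_iff_le_comap]
    rcases em (((r : ℕ)).Prime ∧ (r : ℕ) ∣ Nat.card (sigmaCore M)) with h | h
    · exact hkey r h.1 h.2
    · have hb : pCore (r : ℕ) ↥(sigmaCore M) = ⊥ := by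
        haveI := Fact.mk r.2
        exact Hall.pCore_eq_bot_of_not_dvd fun hd => h ⟨r.2, hd⟩
      rw [hb, Subgroup.map_bot]; exact bot_le
  rw [Hall.fittingSubgroup_eq_top] at hle
  intro c hc
  exact hle (mem_top (⟨c, hc⟩ : ↥(sigmaCore M)))

end Cfsg.Agent.Lib.Uniq
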