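import Cfsg.Agent.Lib.Uniq.KappaMain
import Cfsg.Agent.Lib.OddLocal.FreePart
import Cfsg.Agent.Lib.OddLocal.Fifteen
import Cfsg.Agent.Lib.OddLocal.CyclicSub
import Cfsg.Agent.S1399
import Cfsg.Agent.S1403
import Cfsg.Agent.S1404
import Cfsg.Agent.S1422
set_option autoImplicit false

/-! BG 15.7/15.8: the structure of `M_F` when it is not a TI-subset. -/

namespace Cfsg.Agent.Lib.Uniq.SupportCase

open Subgroup
open scoped Pointwise

universe u

variable {G : Type u} [Group G] [Finite G] {M : Subgroup G} {p : ℕ} {x : G}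

omit [Finite G] in
/-- An element `u` normalising a line `⟨z⟩` of order `q` has `u ^ (q - 1)` centralising `z`. -/
theorem pow_pred_commute {q : ℕ} (hq : q.Prime) {u z : G} (hz : orderOf z = q)
    (hu : u * z * u⁻¹ ∈ zpowers z) : Commute (u ^ (q - 1)) z := by
  haveI := Fact.mk hq
  have hzfin : IsOfFinOrder z := orderOf_pos_iff.mp (hz.symm ▸ hq.pos)
  obtain ⟨a, ha⟩ := (hzfin.mem_powers_iff_mem_zpowers).mpr hu
  have ha' : u * z * u⁻¹ = z ^ a := ha.symm
  have ha0 : ¬ q ∣ a := fun hd => by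
    rw [← hz, orderOf_dvd_iff_pow_eq_one] at hd
    rw [hd, conj_eq_one_iff] at ha'
    exact hq.ne_one (by rw [← hz, ha', orderOf_one])
  have hit : ∀ n : ℕ, u ^ n * z * (u ^ n)⁻¹ = z ^ (a ^ n) := by
    intro n
    induction n with
    | zero => simp
    | succ n ih =>
      rw [pow_succ', show u * u ^ n * z * (u * u ^ n)⁻¹ = u * (u ^ n * z * (u ^ n)⁻¹) * u⁻¹ by group, ih,
        ← conj_pow, ha', ← pow_mul, ← pow_succ']
  have h := hit (q - 1)
  have hm : a ^ (q - 1) ≡ 1 [MOD orderOf z] := by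
    rw [hz, ← Nat.totient_prime hq]
    exact Nat.ModEq.pow_totient (hq.coprime_iff_not_dvd.mpr ha0).symm
  rw [pow_eq_pow_iff_modEq.mpr hm, pow_one, mul_inv_eq_iff_eq_mul] at h
  exact h

omit [Finite G] in
/-- Adjoining a commuting element of order `p` to an elementary abelian `p`-subgroup. -/
theorem elem_sup_zpowers {A : Subgroup G} (hA : IsElementaryAbelian p A) {w : G} (hw : w ^ p = 1)
    (hc : ∀ a ∈ A, Commute w a) : IsElementaryAbelian p (A ⊔ zpowers w) := by
  have hwA : zpowers w ≤ centralizer (A : Set G) :=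
    zpowers_le.mpr (mem_centralizer_iff.mpr fun a ha => (hc a ha).eq.symm)
  have key : ∀ y ∈ A ⊔ zpowers w, ∃ a ∈ A, ∃ i : ℤ, y = w ^ i * a := by
    intro y hy
    rw [sup_comm] at hy
    obtain ⟨v, hv, a, ha, rfl⟩ :=
      (Coprime.mem_sup_of_le_normalizer (hwA.trans (centralizer_le_normalizer _))).mp hy
    obtain ⟨i, rfl⟩ := mem_zpowers_iff.mp hv
    exact ⟨a, ha, i, rfl⟩
  refine ⟨⟨⟨fun a b => Subtype.ext ?_⟩⟩, fun y hy => ?_⟩
  · obtain ⟨a', ha', i, hi⟩ := key a a.2
    obtain ⟨b', hb', j, hj⟩ := key b b.2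
    show (a : G) * b = b * a
    rw [hi, hj]
    exact (((Commute.refl w).zpow_zpow i j).mul_right ((hc b' hb').zpow_left i)).mul_left
      (((hc a' ha').zpow_left j).symm.mul_right (elem_comm hA ha' hb'))
  · obtain ⟨a, ha, i, rfl⟩ := key y hy
    rw [((hc a ha).zpow_left i).mul_pow, hA.2 a ha, mul_one, ← zpow_natCast, ← zpow_mul, mul_comm, zpow_mul,
      zpow_natCast, hw, one_zpow]

/-- A nilpotent group with abelian Sylow subgroups is abelian. -/
theorem comm_of_sylows {N : Subgroup G} (hN : Group.IsNilpotent N)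
    (h : ∀ (q : ℕ), q.Prime → ∀ Y : Subgroup G, Y ≤ N → IsPGroup q Y → IsMulCommutative Y) :
    IsMulCommutative N := by
  classical
  haveI := hN
  have htop : (⊤ : Subgroup ↥N) ≤ ⨆ r : Nat.Primes, pCore (r : ℕ) ↥N :=
    Hall.le_iSup_pCore (N := (⊤ : Subgroup ↥N)) inferInstance
  suffices h' : ∀ r : Nat.Primes, pCore (r : ℕ) ↥N ≤ center ↥N from
    ⟨⟨fun a b => mem_center_iff.mp ((htop.trans (iSup_le h')) (mem_top b)) a⟩⟩
  intro r
  haveI := Fact.mk r.2
  intro w hw
  refine mem_center_iff.mpr fun g => ?_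
  have hle : (⊤ : Subgroup ↥N) ≤ centralizer ({w} : Set N) := by
    refine htop.trans (iSup_le fun s => ?_)
    haveI := Fact.mk s.2
    intro y hy
    refine mem_centralizer_singleton_iff.mpr ?_
    by_cases hsr : s = r
    · subst hsr
      haveI := h s s.2 _ (map_subtype_le (pCore (s : ℕ) ↥N)) ((Hall.isPGroup_pCore (s : ℕ)).map N.subtype)
      refine Subtype.ext ?_
      have e := congrArg Subtype.val (mul_comm'
        (⟨(y : G), mem_map_of_mem _ hy⟩ : (pCore (s : ℕ) ↥N).map N.subtype) ⟨(w : G), mem_map_of_mem _ hw⟩)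
      exact e
    · exact (Hall.commute_pCore (fun e => hsr (Subtype.ext e)) hy hw).eq
  exact mem_centralizer_singleton_iff.mp (hle (mem_top g))

/-- An element `x` of prime order `p` of `M_F = M_σ` whose centraliser is not contained in `M`. -/
structure Data (M : Subgroup G) (p : ℕ) (x : G) : Prop where
  prime : p.Prime
  coatom : IsCoatom M
  core : fittingHallOf M = sigmaCore M
  mem : x ∈ sigmaCore M
  order : orderOf x = p
  out : ¬ centralizer ({x} : Set G) ≤ M

theorem exists_data (hG : IsMinSimpleOddOrder G) (hM : IsCoatom M) (hF : fittingHallOf M = sigmaCore M)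
    (hTI : ¬ IsTISubset (fittingHallOf M : Set G)) : ∃ p x, Data M p x := by
  simp only [IsTISubset, not_forall, exists_prop] at hTI
  obtain ⟨g, hg, w, hw, hgw, hw1⟩ := hTI
  rw [hF] at hg
  have hgM : g ∉ M := fun hm => hg (OddLocal.le_normalizer_piCoreOf (sigma M) M hm)
  have hw' : w ∈ sigmaCore M := hF ▸ hw
  have hgw' : g * w * g⁻¹ ∈ sigmaCore M := hF ▸ hgw
  obtain ⟨r, hr, hrd⟩ := Nat.exists_prime_and_dvd (mt orderOf_eq_one_iff.mp hw1)
  haveI := Fact.mk hr
  set x := w ^ (orderOf w / r) with hx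
  have hxo : orderOf x = r := orderOf_pow_orderOf_div (orderOf_pos w).ne' hrd
  have hxS : x ∈ sigmaCore M := pow_mem hw' _
  have hgx : g * x * g⁻¹ ∈ sigmaCore M := by rw [hx, ← conj_pow]; exact pow_mem hgw' _
  refine ⟨r, x, hr, hM, hF, hxS, hxo, fun hle => hgM ?_⟩
  have hrσ : r ∈ sigma M :=
    OddLocal.piCoreOf_isPi (sigma M) M r hr (hrd.trans (Subgroup.orderOf_dvd_natCard _ hw'))
  have hSM : sigmaCore M ≤ M := map_subtype_le _
  have hXp : IsPGroup r (zpowers x) := IsPGroup.of_card (n := 1) (by rw [Nat.card_zpowers, hxo, pow_one])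
  have hX1 : zpowers x ≠ ⊥ := fun e => hr.ne_one (by rw [← hxo, ← Nat.card_zpowers, e, card_bot])
  obtain ⟨m, hm, c, hc, rfl⟩ :=
    (S1404.result hG M hM r hrσ (zpowers x) hXp hX1 (zpowers_le.mpr (hSM hxS))).1 g (by
      rw [MonoidHom.map_zpowers, zpowers_le]
      exact hSM hgx)
  rw [centralizer_zpowers] at hc
  exact mul_mem hm (hle hc)

namespace Data

theorem ne_one (h : Data M p x) : x ≠ 1 := fun e =>
  h.prime.ne_one (by rw [← h.order, e, orderOf_one])

theorem mem_M (h : Data M p x) : x ∈ M :=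
  (show sigmaCore M ≤ M from map_subtype_le _) h.mem

theorem nil (h : Data M p x) : Group.IsNilpotent (sigmaCore M) := by
  haveI := (OddLocal.fittingHall_mem (↥M)).2.1
  rw [← h.core]
  exact Group.nilpotent_of_mulEquiv ((fittingHall ↥M).equivMapOfInjective _ M.subtype_injective)

/-- Nothing contained in a unique maximal subgroup centralises `x` inside `M`. -/
theorem no_unique (hG : IsMinSimpleOddOrder G) (h : Data M p x) {Y : Subgroup G} (hYM : Y ≤ M)
    (hYC : Y ≤ centralizer ({x} : Set G)) : ¬ InUniqueMaximal Y := fun hu =>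
  h.out (centralizer_elem_le hG hu h.coatom hYM h.ne_one hYC)

theorem abelian_of_le (hG : IsMinSimpleOddOrder G) (h : Data M p x) {q : ℕ} (hq : q.Prime) {Y : Subgroup G}
    (hY : IsPGroup q Y) (hYM : Y ≤ M) (hYC : Y ≤ centralizer ({x} : Set G)) : IsMulCommutative Y := by
  haveI := Fact.mk hq
  by_contra hna
  exact h.no_unique hG hYM hYC (S1422.result hG q Y hY hna)

theorem rank_two_of_le (hG : IsMinSimpleOddOrder G) (h : Data M p x) {Y : Subgroup G}
    (hYM : Y ≤ M) (hYC : Y ≤ centralizer ({x} : Set G)) : RankLE 2 Y := by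
  by_contra h2
  have h1 : ¬ RankLE 1 Y := fun h1 => h2 fun r hr A hA hAr =>
    (h1 r hr A hA hAr).trans (Nat.pow_le_pow_right hr.pos (by omega))
  exact h.no_unique hG hYM hYC (S1403.result hG Y (Uniq.ne_top_of_le h.coatom hYM) h1 (Or.inl h2))

/-- The Sylow `q`-subgroup of the nilpotent `M_σ`. -/
theorem mem_sylow (h : Data M p x) {q : ℕ} [hq : Fact q.Prime] (S : Sylow q ↥(sigmaCore M)) {y : G}
    (hy : y ∈ sigmaCore M) {j : ℕ} (hj : y ^ q ^ j = 1) :
    y ∈ (S : Subgroup ↥(sigmaCore M)).map (sigmaCore M).subtype := by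
  haveI := h.nil
  haveI : (S : Subgroup ↥(sigmaCore M)).Normal :=
    Sylow.normal_of_normalizerCondition Group.normalizerCondition_of_isNilpotent S
  refine ⟨⟨y, hy⟩, le_of_coprime_index (H := zpowers (⟨y, hy⟩ : sigmaCore M)) ?_ (mem_zpowers _), rfl⟩
  rw [Nat.card_zpowers]
  exact Nat.Coprime.coprime_dvd_left (orderOf_dvd_of_pow_eq_one (n := q ^ j) (Subtype.ext hj))
    (Nat.Coprime.pow_left j (hq.out.coprime_iff_not_dvd.mpr S.not_dvd_index))

theorem le_sylow (h : Data M p x) {q : ℕ} [Fact q.Prime] (S : Sylow q ↥(sigmaCore M)) {Y : Subgroup G}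
    (hY : IsPGroup q Y) (hYS : Y ≤ sigmaCore M) :
    Y ≤ (S : Subgroup ↥(sigmaCore M)).map (sigmaCore M).subtype := fun y hy => by
  obtain ⟨j, hj⟩ := hY ⟨y, hy⟩
  exact h.mem_sylow S (hYS hy) (congrArg Subtype.val hj)

theorem normal_sylow (h : Data M p x) {q : ℕ} [Fact q.Prime] (S : Sylow q ↥(sigmaCore M)) :
    M ≤ normalizer (((S : Subgroup ↥(sigmaCore M)).map (sigmaCore M).subtype : Subgroup G) : Set G) := by
  haveI := h.nil
  haveI hn : (S : Subgroup ↥(sigmaCore M)).Normal :=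
    Sylow.normal_of_normalizerCondition Group.normalizerCondition_of_isNilpotent S
  haveI : (S : Subgroup ↥(sigmaCore M)).Characteristic := S.characteristic_of_normal hn
  exact (OddLocal.le_normalizer_piCoreOf (sigma M) M).trans (PL.normalizer_le_normalizer_map_char (sigmaCore M) (S : Subgroup ↥(sigmaCore M)))

/-- `p`- and `q`-elements of `M_σ` commute. -/
theorem commute_of_ne (h : Data M p x) {q r : ℕ} (hq : q.Prime) (hr : r.Prime) (hqr : q ≠ r) {Y Z : Subgroup G}
    (hY : IsPGroup q Y) (hYS : Y ≤ sigmaCore M) (hZ : IsPGroup r Z) (hZS : Z ≤ sigmaCore M) :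
    Y ≤ centralizer (Z : Set G) := by
  haveI := Fact.mk hq
  haveI := Fact.mk hr
  intro y hy
  refine mem_centralizer_iff.mpr fun z hz => ?_
  obtain ⟨i, hi⟩ := IsPGroup.iff_orderOf.mp hY ⟨y, hy⟩
  obtain ⟨j, hj⟩ := IsPGroup.iff_orderOf.mp hZ ⟨z, hz⟩
  rw [orderOf_mk] at hi hj
  exact (congrArg Subtype.val (GS.commute_of_nilpotent h.nil (x := (⟨y, hYS hy⟩ : sigmaCore M)) (y := ⟨z, hZS hz⟩)
    (p := q) (q := r) (a := i) (b := j) hq hr hqr (by rw [orderOf_mk, hi]) (by rw [orderOf_mk, hj])).eq).symm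

theorem line_pgroup (h : Data M p x) : IsPGroup p (zpowers x) :=
  IsPGroup.of_card (n := 1) (by rw [Nat.card_zpowers, h.order, pow_one])

theorem sylow_le_centralizer (h : Data M p x) {q : ℕ} [hq : Fact q.Prime] (hqp : q ≠ p)
    (S : Sylow q ↥(sigmaCore M)) :
    (S : Subgroup ↥(sigmaCore M)).map (sigmaCore M).subtype ≤ centralizer ({x} : Set G) := by
  have := h.commute_of_ne hq.out h.prime hqp (S.2.map (sigmaCore M).subtype) (map_subtype_le _) h.line_pgroup
    (zpowers_le.mpr h.mem)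
  rwa [centralizer_zpowers] at this

/-- A Sylow subgroup of `M_σ` as a subgroup of `G`. -/
abbrev sylSub {q : ℕ} (S : Sylow q ↥(sigmaCore M)) : Subgroup G :=
  (S : Subgroup ↥(sigmaCore M)).map (sigmaCore M).subtype

section Sylow

variable [hp : Fact p.Prime] (S : Sylow p ↥(sigmaCore M))



theorem x_mem (h : Data M p x) : x ∈ (sylSub S) :=
  h.le_sylow S h.line_pgroup (zpowers_le.mpr h.mem) (mem_zpowers x)

theorem core_le_centralizer (h : Data M p x) (hP : (sylSub S) ≤ centralizer ({x} : Set G)) :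
    sigmaCore M ≤ centralizer ({x} : Set G) := by
  classical
  haveI := h.nil
  have hle : (⊤ : Subgroup ↥(sigmaCore M)) ≤ (centralizer ({x} : Set G)).comap (sigmaCore M).subtype := by
    refine (Hall.le_iSup_pCore (N := (⊤ : Subgroup ↥(sigmaCore M))) inferInstance).trans (iSup_le fun s => ?_)
    haveI := Fact.mk s.2
    rw [← map_le_iff_le_comap]
    by_cases hs : (s : ℕ) = p
    · have hP' : IsPGroup p ((pCore (s : ℕ) ↥(sigmaCore M)).map (sigmaCore M).subtype) :=
        hs ▸ (Hall.isPGroup_pCore (s : ℕ)).map _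
      exact (h.le_sylow S hP' (map_subtype_le _)).trans hP
    · obtain ⟨T⟩ : Nonempty (Sylow (s : ℕ) ↥(sigmaCore M)) := inferInstance
      exact (h.le_sylow T ((Hall.isPGroup_pCore (s : ℕ)).map _) (map_subtype_le _)).trans
        (h.sylow_le_centralizer hs T)
  exact fun y hy => hle (mem_top (⟨y, hy⟩ : sigmaCore M))

/-- The Sylow `p`-subgroup is abelian: `M_σ` is abelian of rank `2`. -/
theorem abelian_case (hG : IsMinSimpleOddOrder G) (h : Data M p x) (hP : IsMulCommutative (sylSub S)) :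
    IsMulCommutative (sigmaCore M) ∧ RankLE 2 (sigmaCore M) ∧ ¬ RankLE 1 (sigmaCore M) := by
  have hSM : sigmaCore M ≤ M := map_subtype_le _
  have hHC : sigmaCore M ≤ centralizer ({x} : Set G) :=
    h.core_le_centralizer S fun y hy => mem_centralizer_singleton_iff.mpr
      (congrArg Subtype.val (hP.is_comm.comm (⟨y, hy⟩ : (sylSub S)) ⟨x, h.x_mem S⟩))
  refine ⟨comm_of_sylows h.nil fun q hq Y hY hYq => h.abelian_of_le hG hq hYq (hY.trans hSM) (hY.trans hHC),
    h.rank_two_of_le hG hSM hHC, fun h1 => h.out ?_⟩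
  haveI := h.nil
  haveI : IsZGroup ↥(sigmaCore M) := isZGroup_of_rankLE_one (odd_card hG _) h1
  have hcyc : IsCyclic ↥(sigmaCore M) := inferInstance
  have hMn : M ≤ normalizer ((zpowers x : Subgroup G) : Set G) := fun g hg => by
    refine Coprime.mem_normalizer_of_conj_smul_eq ?_
    refine OddLocal.eq_of_card_eq_of_le_cyclic (W := sigmaCore M) ?_ (zpowers_le.mpr h.mem)
      (Coprime.card_conj_smul g (zpowers x))
    rintro _ ⟨y, hy, rfl⟩
    exact (mem_normalizer_iff.mp (OddLocal.le_normalizer_piCoreOf (sigma M) M hg) y).mp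
      ((zpowers_le.mpr h.mem) hy)
  rw [← normalizer_max hG h.coatom (zpowers_ne_bot.mpr h.ne_one) (zpowers_le.mpr h.mem_M) hMn,
    ← centralizer_zpowers]
  exact centralizer_le_normalizer _

theorem not_le_centralizer (hG : IsMinSimpleOddOrder G) (h : Data M p x) (hPna : ¬ IsMulCommutative (sylSub S)) :
    ¬ (sylSub S) ≤ centralizer ({x} : Set G) := fun hle =>
  hPna (h.abelian_of_le hG h.prime (S.2.map _) ((map_subtype_le _).trans (map_subtype_le _)) hle)

/-- The other Sylow subgroups of `M_σ` are cyclic. -/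
theorem cyclic_of_ne (hG : IsMinSimpleOddOrder G) (h : Data M p x) (hPna : ¬ IsMulCommutative (sylSub S)) {q : ℕ}
    [hq : Fact q.Prime] (hqp : q ≠ p) (T : Sylow q ↥(sigmaCore M)) :
    IsCyclic ↥((T : Subgroup ↥(sigmaCore M)).map (sigmaCore M).subtype) := by
  set Q := (T : Subgroup ↥(sigmaCore M)).map (sigmaCore M).subtype
  have hSM : sigmaCore M ≤ M := map_subtype_le _
  have hQq : IsPGroup q Q := T.2.map _
  have h1 : RankLE 1 Q := by
    by_contra h1
    refine h.no_unique hG ((map_subtype_le _).trans hSM) (h.sylow_le_centralizer hqp T) ?_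
    exact S1399.result hG (sylSub S) Q (S1422.result hG p (sylSub S) (S.2.map _) hPna)
      (h.commute_of_ne hq.out h.prime hqp hQq (map_subtype_le _) (S.2.map _) (map_subtype_le _)) h1
  haveI : IsZGroup ↥Q := isZGroup_of_rankLE_one (odd_card hG _) h1
  haveI := hQq.isNilpotent
  exact inferInstance

/-- `O_{p'}(M_σ)` is cyclic. -/
theorem core_cyclic (hG : IsMinSimpleOddOrder G) (h : Data M p x) (hPna : ¬ IsMulCommutative (sylSub S)) :
    IsCyclic (pPrimeCore p ↥(sigmaCore M)) := by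
  haveI := h.nil
  haveI : Group.IsNilpotent ↥(pPrimeCore p ↥(sigmaCore M)) := inferInstance
  haveI : IsZGroup ↥(pPrimeCore p ↥(sigmaCore M)) := ⟨fun q hq R => by
    haveI := Fact.mk hq
    rcases eq_or_ne (R : Subgroup ↥(pPrimeCore p ↥(sigmaCore M))) ⊥ with hR | hR
    · show IsCyclic ↥(R : Subgroup ↥(pPrimeCore p ↥(sigmaCore M)))
      rw [hR]; infer_instance
    have hqd : q ∣ Nat.card (pPrimeCore p ↥(sigmaCore M)) := by
      obtain ⟨k, hk⟩ := IsPGroup.iff_card.mp R.2
      have hk0 : k ≠ 0 := fun e => hR (card_eq_one.mp (by rw [hk, e, pow_zero]))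
      exact ((dvd_pow_self q hk0).trans hk.symm.dvd).trans (card_subgroup_dvd_card _)
    have hqp : q ≠ p := fun e => Hall.not_dvd_card_pPrimeCore h.prime (e ▸ hqd)
    obtain ⟨T⟩ : Nonempty (Sylow q ↥(sigmaCore M)) := inferInstance
    haveI := h.cyclic_of_ne S hG hPna hqp T
    let f : ↥(pPrimeCore p ↥(sigmaCore M)) →* G := (sigmaCore M).subtype.comp (Subgroup.subtype _)
    have hf : Function.Injective f := (sigmaCore M).subtype_injective.comp (Subgroup.subtype_injective _)
    have hle : (R : Subgroup _).map f ≤ (T : Subgroup ↥(sigmaCore M)).map (sigmaCore M).subtype :=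
      h.le_sylow T (R.2.map f) (by rintro _ ⟨r, -, rfl⟩; exact (r : sigmaCore M).2)
    haveI := Subgroup.isCyclic_of_le hle
    exact ((R : Subgroup _).equivMapOfInjective f hf).isCyclic.mpr inferInstance⟩
  infer_instance

/-- A central element of order `p` of the Sylow `p`-subgroup. -/
theorem exists_central (h : Data M p x) :
    ∃ z ∈ (sylSub S), orderOf z = p ∧ ∀ w ∈ (sylSub S), Commute w z := by
  have hPp : IsPGroup p (sylSub S) := S.2.map _
  haveI : Nontrivial ↥(sylSub S) :=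
    (nontrivial_iff_ne_bot _).mpr fun e => h.ne_one (mem_bot.mp (e ▸ h.x_mem S))
  haveI := hPp.center_nontrivial
  have hd : p ∣ Nat.card (center ↥(sylSub S)) := by
    obtain ⟨k, hk⟩ := IsPGroup.iff_card.mp (hPp.to_subgroup (center ↥(sylSub S)))
    refine hk ▸ dvd_pow_self p fun h0 => ?_
    rw [h0, pow_zero] at hk
    exact (Finite.one_lt_card (α := center ↥(sylSub S))).ne' hk
  obtain ⟨c, hc⟩ := exists_prime_orderOf_dvd_card' p hd
  refine ⟨((c : ↥(sylSub S)) : G), (c : ↥(sylSub S)).2, by rw [Subgroup.orderOf_coe, Subgroup.orderOf_coe, hc], fun w hw => ?_⟩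
  exact congrArg Subtype.val (mem_center_iff.mp c.2 ⟨w, hw⟩)

variable {z : G}

theorem pair_elem (h : Data M p x) (hzo : orderOf z = p) (hzc : ∀ w ∈ (sylSub S), Commute w z) :
    IsElementaryAbelian p (zpowers x ⊔ zpowers z) := by
  refine elem_sup_zpowers ⟨isMulCommutative_iff.mpr fun a b => ?_, ?_⟩ (hzo ▸ pow_orderOf_eq_one z) ?_
  · obtain ⟨i, hi⟩ := mem_zpowers_iff.mp a.2
    obtain ⟨j, hj⟩ := mem_zpowers_iff.mp b.2
    exact Subtype.ext (by show (a : G) * b = b * a; rw [← hi, ← hj]; exact ((Commute.refl x).zpow_zpow i j).eq)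
  · rintro a ⟨i, rfl⟩
    show (x ^ i) ^ p = 1
    rw [← zpow_natCast, ← zpow_mul, mul_comm, zpow_mul, zpow_natCast, ← h.order, pow_orderOf_eq_one, one_zpow]
  · rintro a ⟨i, rfl⟩
    exact ((hzc x (h.x_mem S)).symm).zpow_right i

/-- The elements of order `p` of `C_P(x)` lie in `⟨x, z⟩`. -/
theorem mem_pair (hG : IsMinSimpleOddOrder G) (h : Data M p x) (hPna : ¬ IsMulCommutative (sylSub S))
    (hzP : z ∈ (sylSub S)) (hzo : orderOf z = p) (hzc : ∀ w ∈ (sylSub S), Commute w z)
    {w : G} (hw : w ∈ (sylSub S)) (hwx : Commute w x) (hwp : w ^ p = 1) : w ∈ zpowers x ⊔ zpowers z := by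
  set A := zpowers x ⊔ zpowers z with hA
  have hAe := h.pair_elem S hzo hzc
  have hwA : ∀ a ∈ A, Commute w a := by
    intro a ha
    have hle : A ≤ centralizer ({w} : Set G) := sup_le
      (zpowers_le.mpr (mem_centralizer_singleton_iff.mpr hwx.eq.symm))
      (zpowers_le.mpr (mem_centralizer_singleton_iff.mpr (hzc w hw).eq.symm))
    exact (mem_centralizer_singleton_iff.mp (hle ha)).symm
  by_contra hne
  have hBe := elem_sup_zpowers hAe hwp hwA
  have hBle : A ⊔ zpowers w ≤ (sylSub S) ⊓ centralizer ({x} : Set G) := by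
    refine sup_le (sup_le (zpowers_le.mpr ⟨h.x_mem S, mem_centralizer_singleton_iff.mpr rfl⟩)
      (zpowers_le.mpr ⟨hzP, mem_centralizer_singleton_iff.mpr ?_⟩))
      (zpowers_le.mpr ⟨hw, mem_centralizer_singleton_iff.mpr hwx.eq⟩)
    exact (hzc x (h.x_mem S)).eq.symm
  have hzx : z ∉ zpowers x := fun hz => by
    refine h.not_le_centralizer S hG hPna fun y hy => ?_
    have he : zpowers z = zpowers x := eq_of_le_of_card_ge (zpowers_le.mpr hz)
      (by rw [Nat.card_zpowers, Nat.card_zpowers, hzo, h.order])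
    obtain ⟨i, hi⟩ := mem_zpowers_iff.mp (he ▸ mem_zpowers x : x ∈ zpowers z)
    refine mem_centralizer_singleton_iff.mpr ?_
    rw [← hi]
    exact ((hzc y hy).zpow_right i).eq
  have h1 : Nat.card (zpowers x) < Nat.card A := (Set.toFinite _).card_lt_card
    (SetLike.coe_ssubset_coe.2 (lt_of_le_of_ne le_sup_left fun e => hzx (e ▸ mem_sup_right (mem_zpowers z))))
  have h2 : Nat.card A < Nat.card ↥(A ⊔ zpowers w) := (Set.toFinite _).card_lt_card
    (SetLike.coe_ssubset_coe.2 (lt_of_le_of_ne le_sup_left fun e => hne (e ▸ mem_sup_right (mem_zpowers w))))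
  obtain ⟨i, hi⟩ := IsPGroup.iff_card.mp (elem_isPGroup hAe)
  have hi2 : p ^ 2 ≤ Nat.card A := by
    rw [hi] at h1 ⊢
    refine Nat.pow_le_pow_right h.prime.pos ?_
    rw [Nat.card_zpowers, h.order] at h1
    exact (Nat.pow_lt_pow_iff_right h.prime.one_lt).mp (by rwa [pow_one])
  refine not_pRankLE_of_elem hBle hBe (hi2.trans_lt h2) ?_
  exact h.rank_two_of_le hG (inf_le_left.trans ((map_subtype_le _).trans (map_subtype_le _)))
    inf_le_right p h.prime

/-- `z` spans the only central line of the Sylow `p`-subgroup. -/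
theorem central_unique (hG : IsMinSimpleOddOrder G) (h : Data M p x) (hPna : ¬ IsMulCommutative (sylSub S))
    (hzP : z ∈ (sylSub S)) (hzo : orderOf z = p) (hzc : ∀ w ∈ (sylSub S), Commute w z)
    {w : G} (hw : w ∈ (sylSub S)) (hwp : w ^ p = 1) (hwc : ∀ y ∈ (sylSub S), Commute y w) : w ∈ zpowers z := by
  have hmem := h.mem_pair S hG hPna hzP hzo hzc hw (hwc x (h.x_mem S)).symm hwp
  have hn : zpowers x ≤ normalizer ((zpowers z : Subgroup G) : Set G) := by
    refine (zpowers_le.mpr ?_).trans (centralizer_le_normalizer _)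
    rw [centralizer_zpowers, mem_centralizer_singleton_iff]
    exact (hzc x (h.x_mem S)).eq
  obtain ⟨a, ha, b, hb, rfl⟩ := (Coprime.mem_sup_of_le_normalizer hn).mp hmem
  suffices a = 1 by rw [this, one_mul]; exact hb
  obtain ⟨i, rfl⟩ := mem_zpowers_iff.mp ha
  obtain ⟨j, rfl⟩ := mem_zpowers_iff.mp hb
  by_contra hne
  refine h.not_le_centralizer S hG hPna fun y hy => mem_centralizer_singleton_iff.mpr ?_
  have hy' : Commute y (x ^ i) := by
    have := (hwc y hy).mul_right (((hzc y hy).zpow_right j).inv_right)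
    rwa [mul_inv_cancel_right] at this
  have he : zpowers (x ^ i) = zpowers x := by
    refine eq_of_le_of_card_ge (zpowers_le.mpr (zpow_mem (mem_zpowers x) i)) ?_
    rw [Nat.card_zpowers, Nat.card_zpowers, h.order, orderOf_eq_prime (p := p) (x := x ^ i) ?_ hne]
    rw [← zpow_natCast, ← zpow_mul, mul_comm, zpow_mul, zpow_natCast, ← h.order, pow_orderOf_eq_one, one_zpow]
  obtain ⟨k, hk⟩ := mem_zpowers_iff.mp (he ▸ mem_zpowers x : x ∈ zpowers (x ^ i))
  exact hk ▸ (hy'.zpow_right k).eq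

end Sylow

/-- For each prime `q` of `M_σ` a line of order `q` normal in `M`. -/
theorem exists_normal_line (hG : IsMinSimpleOddOrder G) (h : Data M p x) [Fact p.Prime]
    (S : Sylow p ↥(sigmaCore M))
    (hPna : ¬ IsMulCommutative ((S : Subgroup ↥(sigmaCore M)).map (sigmaCore M).subtype))
    {q : ℕ} [hq : Fact q.Prime] (hqd : q ∣ Nat.card (sigmaCore M)) :
    ∃ z ∈ sigmaCore M, orderOf z = q ∧ ∀ g ∈ M, g * z * g⁻¹ ∈ zpowers z := by
  by_cases hqp : q = p
  · subst hqp
    obtain ⟨z, hzP, hzo, hzc⟩ := h.exists_central S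
    refine ⟨z, map_subtype_le _ hzP, hzo, fun g hg => ?_⟩
    have hn := h.normal_sylow S hg
    refine h.central_unique S hG hPna hzP hzo hzc ((mem_normalizer_iff.mp hn z).mp hzP) ?_ fun y hy => ?_
    · rw [conj_pow, ← hzo, pow_orderOf_eq_one, mul_one, mul_inv_cancel]
    · have h1 := hzc (g⁻¹ * y * g) ((mem_normalizer_iff.mp hn (g⁻¹ * y * g)).mpr (by
        rwa [show g * (g⁻¹ * y * g) * g⁻¹ = y by group]))
      have h2 := h1.map (MulAut.conj g).toMonoidHom
      simpa [mul_assoc] using h2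
  · obtain ⟨T⟩ : Nonempty (Sylow q ↥(sigmaCore M)) := inferInstance
    haveI := h.cyclic_of_ne S hG hPna hqp T
    set Q := (T : Subgroup ↥(sigmaCore M)).map (sigmaCore M).subtype
    have hdQ : q ∣ Nat.card Q := by
      rw [card_map_of_injective (sigmaCore M).subtype_injective]
      exact T.dvd_card_of_dvd_card hqd
    obtain ⟨c, hc⟩ := exists_prime_orderOf_dvd_card' q hdQ
    refine ⟨c, map_subtype_le _ c.2, by rw [Subgroup.orderOf_coe, hc], fun g hg => ?_⟩
    have he : MulAut.conj g • zpowers (c : G) = zpowers (c : G) := by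
      refine OddLocal.eq_of_card_eq_of_le_cyclic (W := Q) ?_ (zpowers_le.mpr c.2) (Coprime.card_conj_smul _ _)
      rintro _ ⟨y, hy, rfl⟩
      exact (mem_normalizer_iff.mp (h.normal_sylow T hg) y).mp (zpowers_le.mpr c.2 hy)
    have h3 : g * (c : G) * g⁻¹ ∈ MulAut.conj g • zpowers (c : G) := ⟨c, mem_zpowers _, rfl⟩
    rwa [he] at h3

end Data

theorem exponent_dvd (hG : IsMinSimpleOddOrder G) (hM : IsCoatom M) (hκ : kappa M = ∅)
    (hF : fittingHallOf M = sigmaCore M) {q : ℕ} (hq : q.Prime) {z : G} (hz : z ∈ sigmaCore M)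
    (hzo : orderOf z = q) (hzn : ∀ g ∈ M, g * z * g⁻¹ ∈ zpowers z) :
    Monoid.exponent (M ⧸ fittingHall M) ∣ q - 1 := by
  obtain ⟨K, U, hKU⟩ := OddLocal.Fifteen.exists_decomp hG hM
  have hK : K = ⊥ := by
    by_contra hK
    obtain ⟨r, hr, hrd⟩ := Nat.exists_prime_and_dvd (fun e => hK (K.eq_bot_of_card_eq e))
    exact Set.notMem_empty r (hκ ▸ hKU.hall.2.1 r hr hrd)
  subst hK
  obtain ⟨U₀, hU₀, hexp, hfree⟩ := OddLocal.FreePart.exists_free hG hM hKU
  have hU : Monoid.exponent U ∣ q - 1 := by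
    rw [← hexp]
    refine Monoid.exponent_dvd_of_forall_pow_eq_one fun u => Subtype.ext ?_
    show (u : G) ^ (q - 1) = 1
    by_contra hne
    have hc := pow_pred_commute hq hzo (hzn u (hKU.compl.1 (hU₀ u.2)))
    exact hq.ne_one (by rw [← hzo, hfree _ (pow_mem u.2 _) hne z hz hc, orderOf_one])
  refine dvd_trans ?_ hU
  have hUM : U ≤ M := hKU.compl.1
  refine MonoidHom.exponent_dvd (f := (QuotientGroup.mk' (fittingHall ↥M)).comp (inclusion hUM)) ?_
  intro m
  obtain ⟨m, rfl⟩ := QuotientGroup.mk_surjective m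
  obtain ⟨a, ha, b, hb, he⟩ := hKU.compl.2.2.2 (m : G) m.2
  rw [bot_sup_eq, ← hF] at hb
  refine ⟨⟨a, ha⟩, QuotientGroup.eq.mpr ?_⟩
  obtain ⟨f, hf, hfb⟩ := hb
  have : (⟨a, hUM ha⟩ : M)⁻¹ * m = f := Subtype.ext (by
    show a⁻¹ * (m : G) = f
    rw [he, inv_mul_cancel_left]; exact hfb.symm)
  rw [show ((inclusion hUM) ⟨a, ha⟩)⁻¹ * m = f from this]
  exact hf

theorem core_eq_of_kappa (hG : IsMinSimpleOddOrder G) (hM : IsCoatom M) (hκ : kappa M = ∅) :
    fittingHallOf M = sigmaCore M := by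
  by_contra hne
  obtain ⟨K, U, hKU⟩ := OddLocal.Fifteen.exists_decomp hG hM
  obtain ⟨-, -, hK, -⟩ := OddLocal.Fcore.basic hG hM hKU hne
  obtain ⟨r, hr, hrd⟩ := Nat.exists_prime_and_dvd (fun e => hK (K.eq_bot_of_card_eq e))
  exact Set.notMem_empty r (hκ ▸ hKU.hall.2.1 r hr hrd)

/-- BG 15.7, `κ(M) = ∅`: a non-TI `M_F` is abelian of rank `2`, or `exp (M / M_F)` divides every `q - 1` and
some `O_{p'}(M_F)` is cyclic. -/
theorem trichotomy (hG : IsMinSimpleOddOrder G) (hM : IsCoatom M) (hκ : kappa M = ∅)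
    (hTI : ¬ IsTISubset (fittingHallOf M : Set G)) :
    (IsMulCommutative (fittingHallOf M) ∧ RankLE 2 (fittingHallOf M) ∧ ¬ RankLE 1 (fittingHallOf M)) ∨
      ((∀ q : ℕ, q.Prime → q ∣ Nat.card (fittingHallOf M) → Monoid.exponent (M ⧸ fittingHall M) ∣ q - 1) ∧
        ∃ p : ℕ, p.Prime ∧ p ∣ Nat.card (fittingHallOf M) ∧ IsCyclic (pPrimeCore p (fittingHallOf M))) := by
  have hF := core_eq_of_kappa hG hM hκ
  obtain ⟨p, x, h⟩ := exists_data hG hM hF hTI
  haveI := Fact.mk h.prime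
  obtain ⟨S⟩ : Nonempty (Sylow p ↥(sigmaCore M)) := inferInstance
  by_cases hP : IsMulCommutative ↥((S : Subgroup ↥(sigmaCore M)).map (sigmaCore M).subtype)
  · left; rw [hF]; exact h.abelian_case S hG hP
  right
  rw [hF]
  refine ⟨fun q hq hqd => ?_, p, h.prime, h.order ▸ Subgroup.orderOf_dvd_natCard _ h.mem, h.core_cyclic S hG hP⟩
  haveI := Fact.mk hq
  obtain ⟨z, hz, hzo, hzn⟩ := h.exists_normal_line hG S hP hqd
  exact exponent_dvd hG hM hκ hF hq hz hzo hzn

end Cfsg.Agent.Lib.Uniq.SupportCase
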