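import Cfsg.Agent.Lib.Uniq.TypeP2Main
import Cfsg.Agent.S1439
set_option autoImplicit false

/-! BG 14.12: the Fitting subgroup for type P₂. -/

namespace Cfsg.Agent.Lib.Uniq

open Subgroup
open scoped Pointwise commutatorElement

universe u

variable {G : Type u} [Group G] [Finite G] {M K U : Subgroup G}

/-- BG 14.12: `K` has prime order and `F(M)` is a TI-set containing `M_σ`. -/
theorem type_p2_fitting (hG : IsMinSimpleOddOrder G) (hM : IsCoatom M) (hKU : IsSigmaDecomposition M K U)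
    (hK1 : K ≠ ⊥) (hU1 : U ≠ ⊥) :
    (Nat.card K).Prime ∧ IsTISubset (fittingOf M : Set G) ∧ sigmaCore M ≤ fittingOf M := by
  obtain ⟨-, hfree⟩ := OddLocal.Decomposition.abelian_free hG hM hKU hK1
  have hUH := OddLocal.Decomposition.hall_U hG hM hKU
  obtain ⟨hKp, hnil⟩ := prime_of_regular hG hM hKU.hall hK1 hUH hKU.normal hfree hU1
  have hMn := OddLocal.le_normalizer_piCoreOf (sigma M) M
  have hSM : sigmaCore M ≤ M := map_subtype_le _
  have hSF := le_fittingOf_of_normal hSM hMn hnil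
  refine ⟨hKp, ?_, hSF⟩
  obtain ⟨-, hYτ, hFe⟩ := S1439.result hG M hM
  set F := fittingOf M with hF
  set Y := piCoreOf {q | q.Prime ∧ q ∉ sigma M} F with hY
  have hFM : M ≤ normalizer (F : Set G) := le_normalizer.trans (PL.normalizer_le_normalizer_map_char M _)
  have hYM : M ≤ normalizer (Y : Set G) := hFM.trans (OddLocal.normalizer_le_normalizer_piCoreOf _ F)
  have hYle : Y ≤ M := (map_subtype_le _).trans (map_subtype_le _)
  have hSY : sigmaCore M ⊓ Y = ⊥ := Coprime.inf_eq_bot_of_coprime (Nat.coprime_of_dvd fun p hp h1 h2 =>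
    (hYτ p hp h2).2.1 (OddLocal.piCoreOf_isPi (sigma M) M p hp h1))
  have hcomm : ∀ a ∈ sigmaCore M, ∀ y ∈ Y, Commute a y := fun a ha y hy => by
    have h1 : ⁅a, y⁆ ∈ sigmaCore M ⊓ Y := by
      refine ⟨?_, ?_⟩
      · rw [show ⁅a, y⁆ = a * (y * a⁻¹ * y⁻¹) by group]
        exact mul_mem ha ((mem_normalizer_iff.mp (hMn (hYle hy)) _).mp (inv_mem ha))
      · rw [commutatorElement_def]
        exact Y.mul_mem ((mem_normalizer_iff.mp (hYM (hSM ha)) y).mp hy) (Y.inv_mem hy)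
    rw [hSY, mem_bot] at h1
    exact commutatorElement_eq_one_iff_mul_comm.mp h1
  have hsplit : ∀ z ∈ F, ∃ a ∈ sigmaCore M, ∃ y ∈ Y, z = a * y := fun z hz => by
    have hz' : z ∈ sigmaCore M ⊔ Y := hFe.trans_le (sup_le_sup_right (map_subtype_le _) Y) hz
    obtain ⟨a, ha, y, hy, rfl⟩ := (Coprime.mem_sup_of_le_normalizer (hSM.trans hYM)).mp hz'
    exact ⟨a, ha, y, hy, rfl⟩
  intro g hg x hx hgx
  by_contra hx1
  have hgM : g ∉ M := fun h => hg (hFM h)
  obtain ⟨a, ha, y, hy, rfl⟩ := hsplit x hx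
  obtain ⟨a', ha', y', hy', he⟩ := hsplit _ hgx
  have hσ : ∀ {z : G}, z ∈ sigmaCore M → PiElem (sigma M) z := fun hz => PiElem.of_sigmaCore hz
  have hτ : ∀ {z : G}, z ∈ Y → PiElem (sigma M)ᶜ z := fun hz p hp hd h =>
    (hYτ p hp (hd.trans (Y.orderOf_dvd_natCard hz))).2.1 h
  have hc1 : Commute (g * a * g⁻¹) (g * y * g⁻¹) := by
    have := (hcomm a ha y hy).map (MulAut.conj g).toMonoidHom
    simpa using this
  obtain ⟨e1, e2⟩ := parts_eq hc1 (hcomm a' ha' y' hy') ((hσ ha).conj g) (hσ ha') ((hτ hy).conj g) (hτ hy')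
    (by rw [← he]; group)
  rcases eq_or_ne a 1 with rfl | ha1
  · rw [one_mul] at hx1
    have hy1 : y' ≠ 1 := fun e => hx1 (conj_eq_one_iff.mp (e2.trans e))
    obtain ⟨s, hs, hs1⟩ := (bot_or_exists_ne_one _).resolve_left (sigmaCore_ne_bot hG hM fun e => by
      rw [e, le_bot_iff] at hYle
      exact hx1 (mem_bot.mp (hYle ▸ hy)))
    have key : ∀ {z : G}, z ∈ Y → z ≠ 1 → centralizer ({z} : Set G) ≤ M ∧
        ∀ L : Subgroup G, IsCoatom L → centralizer ({z} : Set G) ≤ L → L = M := fun {z} hz hz1 =>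
      tau_two_element_unique hG hM (hYle hz) hz1 (fun r hr hd => hYτ r hr (hd.trans (Y.orderOf_dvd_natCard hz)))
        ⟨hYle hz, s, hs, hs1, (hcomm s hs z hz).symm⟩
    have hconj : MulAut.conj g • M = M := (key hy' hy1).2 _ (coatom_smul g hM) fun c hc => by
      rw [Coprime.mem_conj_smul]
      refine (key hy hx1).1 (mem_centralizer_singleton_iff.mpr ?_)
      have h2 : c * (g * y * g⁻¹) = g * y * g⁻¹ * c := by
        rw [e2]; exact mem_centralizer_singleton_iff.mp hc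
      calc g⁻¹ * c * g * y = g⁻¹ * (c * (g * y * g⁻¹)) * g := by group
        _ = y * (g⁻¹ * c * g) := by rw [h2]; group
    exact hgM (conj_eq_of_mem hG hM hs (core_centralizer_le hG hM hKU hK1 hU1 hs hs1)
      (hconj.symm ▸ hSM hs))
  · refine hgM ?_
    have h := conj_eq_of_mem hG hM ha (core_centralizer_le hG hM hKU hK1 hU1 ha ha1) (g := g⁻¹) (by
      rw [Coprime.mem_conj_smul, inv_inv, e1]
      exact hSM ha')
    simpa using M.inv_mem h

end Cfsg.Agent.Lib.Uniq
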