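import Cfsg.Agent.Lib.Uniq.Blocks
import Mathlib.FieldTheory.Finite.Basic
set_option autoImplicit false

/-! The two configurations excluded in the proof of BG 3.6. -/

namespace Cfsg.Agent.Lib.Uniq.Blocks

open Subgroup
open scoped Pointwise commutatorElement
open Cfsg.Agent.Lib.FitHeight (orbProd orbProd_mul orbProd_inv orbProd_of_fixed orbProd_smul_mem
  orbProd_smul_normalizer)

variable {Γ : Type*} [Group Γ] [Finite Γ] {V : Type*} [CommGroup V] [Finite V] [MulDistribMulAction Γ V]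
  {p q r : ℕ}

omit [MulDistribMulAction Γ V] in
lemma coprime_card_of_exponent (hp : p.Prime) (hVp : ∀ v : V, v ^ p = 1) (hq : q.Prime) (hpq : p ≠ q) :
    q.Coprime (Nat.card V) := by
  haveI := Fact.mk hp
  have hV : IsPGroup p V := fun v => ⟨1, by rw [pow_one, hVp]⟩
  obtain ⟨k, hk⟩ := IsPGroup.iff_card.mp hV
  rw [hk]
  exact Nat.Coprime.pow_right k ((Nat.coprime_primes hq hp).mpr (Ne.symm hpq))

omit [Finite V] [MulDistribMulAction Γ V] in
lemma scalar_exists {Q B : Subgroup Γ} (hc : ∀ a ∈ Q, ∀ b ∈ Q, a * b = b * a) (hB : IsHyper Q B) {g : Γ}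
    (hgQ : g ∈ normalizer (Q : Set Γ)) (hgB : MulAut.conj g • B = B) :
    ∃ i : ℤ, ∀ a ∈ Q, (a ^ i)⁻¹ * (g * a * g⁻¹) ∈ B := by
  obtain ⟨a₀, ha₀, ha₀B⟩ := SetLike.exists_of_lt (lt_of_le_of_ne hB.1 hB.2.1)
  have hQ := hB.2.2 a₀ ha₀ ha₀B
  have hn : B ≤ normalizer (zpowers a₀ : Set Γ) := fun b hb =>
    centralizer_le_normalizer _ (mem_centralizer_iff.mpr fun y hy => by
      obtain ⟨k, rfl⟩ := mem_zpowers_iff.mp hy
      exact hc _ (zpow_mem ha₀ k) b (hB.1 hb))
  obtain ⟨b₀, hb₀, y, hy, hby⟩ := (Coprime.mem_sup_of_le_normalizer hn).mp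
    (hQ.ge ((mem_normalizer_iff.mp hgQ a₀).mp ha₀))
  obtain ⟨i, rfl⟩ := mem_zpowers_iff.mp hy
  refine ⟨i, fun a ha => ?_⟩
  obtain ⟨b, hb, y, hy, rfl⟩ := (Coprime.mem_sup_of_le_normalizer hn).mp (hQ.ge ha)
  obtain ⟨k, rfl⟩ := mem_zpowers_iff.mp hy
  have hgb : g * b * g⁻¹ ∈ B := by
    have := Coprime.conj_mem_conj_smul (g := g) hb
    rwa [hgB] at this
  have cm : ∀ {x y : Γ}, x ∈ Q → y ∈ Q → Commute x y := fun hx hy => hc _ hx _ hy
  have hb₀Q := hB.1 hb₀
  have hbQ := hB.1 hb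
  have e1 : g * (b * a₀ ^ k) * g⁻¹ = g * b * g⁻¹ * (g * a₀ * g⁻¹) ^ k := by rw [conj_zpow]; group
  rw [e1, ← hby, (cm hb₀Q (zpow_mem ha₀ i)).mul_zpow, (cm hbQ (zpow_mem ha₀ k)).mul_zpow]
  have e2 : (b ^ i * (a₀ ^ k) ^ i)⁻¹ * (g * b * g⁻¹ * (b₀ ^ k * (a₀ ^ i) ^ k)) =
      (a₀ ^ (k * i))⁻¹ * ((b ^ i)⁻¹ * (g * b * g⁻¹) * b₀ ^ k) * a₀ ^ (k * i) := by
    rw [← zpow_mul, ← zpow_mul, mul_comm i k, mul_inv_rev]
    simp only [mul_assoc]
  rw [e2, mul_assoc (a₀ ^ (k * i))⁻¹, (cm (mul_mem (mul_mem (inv_mem (zpow_mem hbQ i)) (hB.1 hgb))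
    (zpow_mem hb₀Q k)) (zpow_mem ha₀ (k * i))).eq, ← mul_assoc, inv_mul_cancel, one_mul]
  exact mul_mem (mul_mem (inv_mem (zpow_mem hb i)) hgb) (zpow_mem hb₀ k)

omit [Finite V] [MulDistribMulAction Γ V] in
/-- Commutators of scalar actions are trivial. -/
lemma scalar_commutator {Q B : Subgroup Γ} (hc : ∀ a ∈ Q, ∀ b ∈ Q, a * b = b * a) (hB : IsHyper Q B) {g h : Γ}
    (hgQ : g ∈ normalizer (Q : Set Γ)) (hhQ : h ∈ normalizer (Q : Set Γ))
    (hgB : MulAut.conj g • B = B) (hhB : MulAut.conj h • B = B) {a : Γ} (ha : a ∈ Q) :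
    a⁻¹ * (⁅g, h⁆ * a * ⁅g, h⁆⁻¹) ∈ B := by
  obtain ⟨i, hi⟩ := scalar_exists hc hB hgQ hgB
  obtain ⟨j, hj⟩ := scalar_exists hc hB hhQ hhB
  have comp : ∀ {x y : Γ} {m n : ℤ}, x ∈ normalizer (Q : Set Γ) → y ∈ normalizer (Q : Set Γ) →
      (∀ a ∈ Q, (a ^ m)⁻¹ * (x * a * x⁻¹) ∈ B) → (∀ a ∈ Q, (a ^ n)⁻¹ * (y * a * y⁻¹) ∈ B) →
      ∀ a ∈ Q, (a ^ (n * m))⁻¹ * ((x * y) * a * (x * y)⁻¹) ∈ B := by
    intro x y m n hx hy hm hn a ha
    have hya := (mem_normalizer_iff.mp hy a).mp ha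
    have h1 := hm _ hya
    have h2 := B.zpow_mem (hn a ha) m
    have cc : Commute (a ^ n)⁻¹ (y * a * y⁻¹) := hc _ (inv_mem (zpow_mem ha n)) _ hya
    rw [cc.mul_zpow, inv_zpow, ← zpow_mul] at h2
    have h3 := mul_mem h2 h1
    have e : (x * y) * a * (x * y)⁻¹ = x * (y * a * y⁻¹) * x⁻¹ := by group
    rw [e]
    simpa [mul_assoc] using h3
  set a' := (h * g)⁻¹ * a * (h * g) with ha'
  have ha'Q : a' ∈ Q := (mem_normalizer_iff''.mp (mul_mem hhQ hgQ) a).mp ha
  have h1 := comp hgQ hhQ hi hj a' ha'Q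
  have h2 := comp hhQ hgQ hj hi a' ha'Q
  rw [show h * g * a' * (h * g)⁻¹ = a by rw [ha']; group, mul_comm i j] at h2
  rw [show g * h * a' * (g * h)⁻¹ = ⁅g, h⁆ * a * ⁅g, h⁆⁻¹ by
    rw [ha']; simp only [commutatorElement_def]; group] at h1
  have := mul_mem (inv_mem h2) h1
  simpa [mul_assoc] using this

/-- The abelian configuration. -/
theorem abelian_false (hp : p.Prime) (hq : q.Prime) (hr : r.Prime) (hpq : p ≠ q) (hrp : r ≠ p)
    (hp2 : p ≠ 2) (hr2 : r ≠ 2) (hVp : ∀ v : V, v ^ p = 1) {Q P : Subgroup Γ} {t : Γ} (ht : t ^ r = 1)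
    (hPp : IsPGroup p P) (hPQ : P ≤ normalizer (Q : Set Γ)) (htQ : t ∈ normalizer (Q : Set Γ))
    (htP : t ∈ normalizer (P : Set Γ)) (hc : ∀ a ∈ Q, ∀ b ∈ Q, a * b = b * a) (hQq : ∀ a ∈ Q, a ^ q = 1)
    (hQ1 : Q ≠ ⊥) (hV0 : ∀ v : V, (∀ a ∈ Q, a • v = v) → v = 1)
    (hfaith : ∀ a ∈ Q, (∀ v : V, a • v = v) → a = 1) (hQP : ⁅Q, P⁆ = Q)
    (hPfix : ∀ x ∈ P, t * x = x * t → x = 1)
    (hline : ∀ v w : V, t • v = v → t • w = w → v ≠ 1 → w ∈ zpowers v) : False := by
  classical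
  haveI := Fact.mk hp
  haveI := Fact.mk hq
  have hcop := coprime_card_of_exponent hp hVp hq hpq
  have hMA : ∀ a ∈ Q, ∀ v ∈ (⊤ : Subgroup V), a • v ∈ (⊤ : Subgroup V) := fun _ _ _ _ => mem_top _
  have h0 : FixFree Q (⊤ : Subgroup V) := fun v _ => hV0 v
  have hline' : ∀ v ∈ (⊤ : Subgroup V), ∀ w ∈ (⊤ : Subgroup V), t • v = v → t • w = w → v ≠ 1 → w ∈ zpowers v :=
    fun v _ w _ => hline v w
  have htM : ∀ v ∈ (⊤ : Subgroup V), t • v ∈ (⊤ : Subgroup V) := fun _ _ => mem_top _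
  obtain ⟨kP, hkP⟩ := IsPGroup.iff_card.mp hPp
  have hcomm : ∀ z ∈ P, ∃ x ∈ P, ⁅x, t⁆ = z := by
    have hmem : ∀ x : P, ⁅(x : Γ), t⁆ ∈ P := fun x => by
      rw [commutatorElement_def, mul_assoc, mul_assoc]
      exact mul_mem x.2 (by simpa [mul_assoc] using (mem_normalizer_iff.mp htP _).mp (inv_mem x.2))
    have hinj : Function.Injective fun x : P => (⟨⁅(x : Γ), t⁆, hmem x⟩ : P) := by
      intro x y h
      have h' : (x : Γ) * t * (x : Γ)⁻¹ = (y : Γ) * t * (y : Γ)⁻¹ := by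
        simpa [commutatorElement_def] using congrArg Subtype.val h
      have := hPfix _ (mul_mem (inv_mem y.2) x.2) (by
        calc t * ((y : Γ)⁻¹ * x) = (y : Γ)⁻¹ * ((y : Γ) * t * (y : Γ)⁻¹) * x := by group
          _ = (y : Γ)⁻¹ * x * t := by rw [← h']; group)
      exact Subtype.ext (inv_mul_eq_one.mp this).symm
    intro z hz
    obtain ⟨x, hx⟩ := (Finite.injective_iff_surjective.mp hinj) ⟨z, hz⟩
    exact ⟨x, x.2, congrArg Subtype.val hx⟩
  have huniq : ∀ B : Subgroup Γ, ∀ x ∈ P, MulAut.conj t • B = B →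
      MulAut.conj t • (MulAut.conj x • B) = MulAut.conj x • B → MulAut.conj x • B = B := by
    intro B x hx hB hxB
    set S := P ⊓ normalizer (B : Set Γ)
    have htS : t ∈ normalizer (S : Set Γ) := inf_normalizer_le_normalizer_inf
      ⟨htP, le_normalizer (Coprime.mem_normalizer_of_conj_smul_eq hB)⟩
    have hcop' : (Nat.card (zpowers t)).Coprime (Nat.card S) := by
      rw [Nat.card_zpowers]
      obtain ⟨i, hi⟩ := IsPGroup.iff_card.mp (hPp.to_le (inf_le_left : S ≤ P))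
      rw [hi]
      exact (((Nat.coprime_primes hr hp).mpr hrp).coprime_dvd_left (orderOf_dvd_of_pow_eq_one ht)).pow_right i
    obtain ⟨c, hc', hcS⟩ := Coprime.exists_centralizer_mem_coset (zpowers_le.mpr htS) hcop'
      (Or.inl (Group.isSolvable_of_comm fun a b => mul_comm' a b)) (k := x) (by
        intro a ha
        obtain ⟨i, rfl⟩ := mem_zpowers_iff.mp ha
        have haP : t ^ i ∈ normalizer (P : Set Γ) := zpow_mem htP i
        refine ⟨P.mul_mem (P.inv_mem hx) ((mem_normalizer_iff.mp haP x).mp hx),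
          Coprime.mem_normalizer_of_conj_smul_eq ?_⟩
        have h1 : MulAut.conj (t ^ i) • B = B := Coprime.conj_smul_eq_self
          (zpow_mem (Coprime.mem_normalizer_of_conj_smul_eq hB) i)
        have h2 : MulAut.conj (t ^ i) • MulAut.conj x • B = MulAut.conj x • B := Coprime.conj_smul_eq_self
          (zpow_mem (Coprime.mem_normalizer_of_conj_smul_eq hxB) i)
        rw [map_mul, map_mul, map_mul, map_inv, map_inv, mul_smul, mul_smul, mul_smul,
          inv_smul_eq_iff.mpr h1.symm, h2, inv_smul_smul])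
    have hcP : c ∈ P := by simpa using mul_mem hx hcS.1
    have hc1 := hPfix c hcP (mem_centralizer_iff.mp hc' t (mem_zpowers t))
    rw [hc1, mul_one] at hcS
    exact Coprime.conj_smul_eq_self (by simpa using (normalizer (B : Set Γ)).inv_mem hcS.2)
  -- `P` fixes every piece
  have hmovedfix : ∀ B, IsPiece Q (⊤ : Subgroup V) B → MulAut.conj t • B ≠ B →
      ∀ x ∈ P, MulAut.conj x • B = B := by
    intro B hB hBm x hx
    by_contra hxB
    letI : MulAction P (Subgroup Γ) := MulAction.compHom _ (MulAut.conj.comp P.subtype)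
    set O := MulAction.orbit P B with hO
    have hmemO : ∀ {C}, C ∈ O ↔ ∃ y ∈ P, MulAut.conj y • B = C := by
      intro C
      constructor
      · rintro ⟨y, rfl⟩; exact ⟨y, y.2, rfl⟩
      · rintro ⟨y, hy, rfl⟩; exact ⟨⟨y, hy⟩, rfl⟩
    let T : Γ → Prop := fun g => g ∈ normalizer (P : Set Γ) ∧ MulAut.conj g • B ∈ O
    have hTmul : ∀ g h, T g → T h → T (g * h) := by
      rintro g h ⟨hg, hgO⟩ ⟨hh, hhO⟩
      refine ⟨mul_mem hg hh, ?_⟩
      obtain ⟨y, hy, hy'⟩ := hmemO.mp hhO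
      obtain ⟨z, hz, hz'⟩ := hmemO.mp hgO
      refine hmemO.mpr ⟨g * y * g⁻¹ * z, mul_mem ((mem_normalizer_iff.mp hg y).mp hy) hz, ?_⟩
      rw [map_mul, mul_smul, hz', ← mul_smul, ← map_mul, inv_mul_cancel_right, map_mul, mul_smul, hy',
        map_mul, mul_smul]
    have hT1 : ∀ g m, T g → T (g ^ m) := by
      intro g m hg
      induction m with
      | zero => exact ⟨by simp [one_mem], hmemO.mpr ⟨1, one_mem P, by simp⟩⟩
      | succ m ih => rw [pow_succ]; exact hTmul _ _ ih hg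
    have hxp : IsPiece Q (⊤ : Subgroup V) (MulAut.conj x • B) := piece_conj (hPQ hx) (fun _ _ => mem_top _) hB
    have htO : T t := by
      by_cases hxm : MulAut.conj t • (MulAut.conj x • B) = MulAut.conj x • B
      · refine ⟨htP, hmemO.mpr ⟨t * x⁻¹ * t⁻¹ * x, mul_mem ((mem_normalizer_iff.mp htP _).mp (inv_mem hx)) hx, ?_⟩⟩
        rw [map_mul, mul_smul, ← hxm, ← mul_smul, ← map_mul, ← mul_smul, ← map_mul]
        congr 2
        group
      · obtain ⟨i, hi, hix⟩ := one_cycle hr ht htQ htM hc hMA h0 hline' hB hxp hBm hxm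
        have hi0 : i ≠ 0 := fun e => hxB (by simpa [e] using hix)
        obtain ⟨m, -, hm⟩ := Nat.exists_mul_mod_eq_one_of_coprime
          ((Nat.coprime_of_lt_prime hi0 hi hr).symm) hr.one_lt
        have := hT1 (t ^ i) m ⟨pow_mem htP i, hix ▸ hmemO.mpr ⟨x, hx, rfl⟩⟩
        rwa [← pow_mul, pow_eq_pow_mod _ ht, hm, pow_one] at this
    set cyc := Set.range fun i : Fin r => MulAut.conj (t ^ (i : ℕ)) • B
    have hcycO : cyc ⊆ O := by
      rintro _ ⟨i, rfl⟩
      exact (hT1 t i htO).2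
    have hF : (O \ cyc).Subsingleton := by
      have hfix : ∀ C ∈ O \ cyc, MulAut.conj t • C = C := by
        rintro C ⟨hC, hCc⟩
        by_contra hCm
        obtain ⟨y, hy, rfl⟩ := hmemO.mp hC
        obtain ⟨i, hi, hiC⟩ := one_cycle hr ht htQ htM hc hMA h0 hline' hB
          (piece_conj (hPQ hy) (fun _ _ => mem_top _) hB) hBm hCm
        exact hCc ⟨⟨i, hi⟩, hiC.symm⟩
      intro C hC D hD
      obtain ⟨y, hy, rfl⟩ := hmemO.mp hC.1
      obtain ⟨z, hz, rfl⟩ := hmemO.mp hD.1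
      have e : MulAut.conj (z * y⁻¹) • MulAut.conj y • B = MulAut.conj z • B := by
        rw [← mul_smul, ← map_mul, inv_mul_cancel_right]
      exact (huniq _ (z * y⁻¹) (mul_mem hz (inv_mem hy)) (hfix _ hC) (e ▸ hfix _ hD)).symm.trans e
    have hcard : O.ncard = r + (O \ cyc).ncard := by
      rw [← Set.ncard_diff_add_ncard_of_subset hcycO, add_comm,
        Set.ncard_range_of_injective (pow_conj_injective hr ht hBm), Nat.card_fin]
    have hdvd : O.ncard ∣ p ^ kP := by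
      rw [← hkP, hO, ← MulAction.index_stabilizer]
      exact (MulAction.stabilizer P B).index_dvd_card
    obtain ⟨j, -, hj⟩ := (Nat.dvd_prime_pow hp).mp hdvd
    rcases Nat.eq_zero_or_pos (O \ cyc).ncard with h | h
    · rw [h, add_zero] at hcard
      rw [hcard] at hj
      rcases Nat.eq_zero_or_pos j with hj0 | hj0
      · rw [hj0, pow_zero] at hj; exact hr.ne_one hj
      · exact hrp ((Nat.prime_dvd_prime_iff_eq hp hr).mp (hj ▸ dvd_pow_self p hj0.ne')).symm
    · have h1 : (O \ cyc).ncard = 1 := le_antisymm ((Set.ncard_le_one_iff_subsingleton).mpr hF) h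
      rw [h1] at hcard
      have ho : Odd (r + 1) := by rw [← hcard, hj]; exact (hp.odd_of_ne_two hp2).pow
      exact Nat.not_even_iff_odd.mpr ho (hr.odd_of_ne_two hr2).add_one
  have hallfix : ∀ B, IsPiece Q (⊤ : Subgroup V) B → ∀ x ∈ P, MulAut.conj x • B = B := by
    intro B hB x hx
    by_cases hBm : MulAut.conj t • B = B
    · refine huniq B x hx hBm ?_
      by_contra hm
      have h1 := hmovedfix _ (piece_conj (hPQ hx) (fun _ _ => mem_top _) hB) hm x⁻¹ (inv_mem hx)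
      rw [map_inv, inv_smul_smul] at h1
      rw [← h1] at hm
      exact hm hBm
    · exact hmovedfix B hB hBm x hx
  have hcent : ∀ B, IsPiece Q (⊤ : Subgroup V) B → ∀ x ∈ P, ∀ a ∈ Q, a⁻¹ * (x * a * x⁻¹) ∈ B := by
    intro B hB x hx a ha
    by_cases hBm : MulAut.conj t • B = B
    · obtain ⟨y, hy, rfl⟩ := hcomm x hx
      exact scalar_commutator hc hB.1 (hPQ hy) htQ (hallfix B hB y hy) hBm ha
    · obtain ⟨hBh, v, -, hv1, hvf⟩ := hB
      obtain ⟨a₀, ha₀, ha₀B⟩ := SetLike.exists_of_lt (lt_of_le_of_ne hBh.1 hBh.2.1)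
      have hav : a₀ • v ≠ v := fun e => hv1 (hV0 v fun c hc' =>
        MulAction.mem_stabilizer_iff.mp ((sup_le (fun b hb => MulAction.mem_stabilizer_iff.mpr (hvf b hb))
          (zpowers_le.mpr (MulAction.mem_stabilizer_iff.mpr e)) : B ⊔ zpowers a₀ ≤ MulAction.stabilizer Γ v)
          ((hBh.2.2 a₀ ha₀ ha₀B).ge hc')))
      obtain ⟨n, hn⟩ := mem_zpowers_iff.mp (moved_line hr ht htQ htM hc hMA h0 hline' hBh hBm
        (mem_top v) hv1 hvf (mem_top (a₀ • v)) (fun b hb => by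
          rw [smul_smul, hc b (hBh.1 hb) a₀ ha₀, mul_smul, hvf b hb]))
      have hvo : orderOf v = p := orderOf_eq_prime (hVp v) hv1
      have hzp : ∀ {k l : ℤ}, v ^ k = v ^ l → (k : ZMod p) = (l : ZMod p) := fun {k l} h => by
        rw [zpow_eq_zpow_iff_modEq, hvo] at h
        exact (ZMod.intCast_eq_intCast_iff k l p).mpr h
      have hnq : ∀ m : ℕ, a₀ ^ m • v = v ^ (n ^ m) := by
        intro m
        induction m with
        | zero => simp
        | succ m ih => rw [pow_succ', mul_smul, ih, smul_zpow', ← hn, ← zpow_mul, pow_succ', mul_comm]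
      have hqp : q < p := by
        have h1 := hnq q
        rw [hQq a₀ ha₀, one_smul] at h1
        have h2 : (n : ZMod p) ^ q = 1 := by
          have := hzp (h1.trans rfl |>.symm.trans (zpow_one v).symm)
          push_cast at this
          exact this
        have h3 : (n : ZMod p) ≠ 1 := by
          intro e
          refine hav ?_
          rw [← hn]
          nth_rewrite 2 [← zpow_one v]
          rw [zpow_eq_zpow_iff_modEq, hvo]
          exact (ZMod.intCast_eq_intCast_iff n 1 p).mp (by simpa using e)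
        have hn0 : (n : ZMod p) ≠ 0 := fun e => by rw [e, zero_pow hq.ne_zero] at h2; exact zero_ne_one h2
        have h4 := orderOf_dvd_of_pow_eq_one (ZMod.pow_card_sub_one_eq_one hn0)
        rw [orderOf_eq_prime h2 h3] at h4
        have := Nat.le_of_dvd (by have := hp.two_le; omega) h4
        omega
      obtain ⟨i, hi⟩ := scalar_exists hc hBh (hPQ hx) (hallfix B ⟨hBh, v, mem_top v, hv1, hvf⟩ x hx)
      have hconjB : ∀ b ∈ B, x * b * x⁻¹ ∈ B := fun b hb => by
        have := Coprime.conj_mem_conj_smul (g := x) hb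
        rwa [hallfix B ⟨hBh, v, mem_top v, hv1, hvf⟩ x hx] at this
      have hiter : ∀ m : ℕ, ∀ a ∈ Q, (a ^ (i ^ m))⁻¹ * (x ^ m * a * (x ^ m)⁻¹) ∈ B := by
        intro m
        induction m with
        | zero => intro a _; simp [one_mem]
        | succ m ih =>
          intro a ha
          have h2 := hconjB _ (ih a ha)
          have h3 : (a ^ (i ^ m) ^ (1 : ℕ)) ∈ Q ∧ a ^ (i ^ m) ∈ Q :=
            ⟨by simpa using zpow_mem ha (i ^ m), zpow_mem ha _⟩
          have h4 := mul_mem (hi _ h3.2) h2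
          rw [← zpow_mul, ← pow_succ] at h4
          simpa [pow_succ', mul_assoc] using h4
      have hq0 : (a₀ : Γ) ^ q = 1 := hQq a₀ ha₀
      have hiq : (i : ZMod q) = 1 := by
        have h1 := hiter (p ^ kP) a₀ ha₀
        have hxk : x ^ p ^ kP = 1 := by
          have := pow_card_eq_one' (G := P) (x := ⟨x, hx⟩)
          rw [hkP] at this
          exact congrArg Subtype.val this
        rw [hxk, one_mul, inv_one, mul_one] at h1
        have hord : orderOf a₀ = q := orderOf_eq_prime hq0 fun e => ha₀B (e ▸ one_mem B)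
        have h2 : ((i ^ p ^ kP : ℤ) : ZMod q) = 1 := by
          rw [← Int.cast_one, ZMod.intCast_eq_intCast_iff]
          by_contra hne
          refine ha₀B ?_
          have hmem : a₀ ^ (1 - i ^ p ^ kP) ∈ B := by
            rwa [sub_eq_neg_add, zpow_add, zpow_one, zpow_neg]
          have hgen : zpowers (a₀ ^ (1 - i ^ p ^ kP)) = zpowers a₀ := by
            refine eq_of_le_of_card_ge (zpowers_le.mpr (zpow_mem (mem_zpowers _) _)) ?_
            rw [Nat.card_zpowers, Nat.card_zpowers, hord, orderOf_eq_prime (p := q)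
              (by rw [← zpow_natCast, ← zpow_mul, mul_comm, zpow_mul, zpow_natCast, hq0, one_zpow])
              (fun e => hne (Int.modEq_iff_dvd.mpr (hord ▸ orderOf_dvd_iff_zpow_eq_one.mpr e)))]
          exact (hgen.symm.le.trans (zpowers_le.mpr hmem)) (mem_zpowers a₀)
        push_cast at h2
        have h3 : orderOf (i : ZMod q) ∣ p ^ kP := orderOf_dvd_of_pow_eq_one h2
        have hi0 : (i : ZMod q) ≠ 0 := fun e => by
          rw [e, zero_pow (pow_ne_zero _ hp.ne_zero)] at h2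
          exact zero_ne_one h2
        have h4 := orderOf_dvd_of_pow_eq_one (ZMod.pow_card_sub_one_eq_one hi0)
        refine orderOf_eq_one_iff.mp (Nat.eq_one_of_dvd_coprimes (Nat.Coprime.pow_left kP ?_) h3 h4)
        refine hp.coprime_iff_not_dvd.mpr fun hd => ?_
        have := Nat.le_of_dvd (by have := hq.two_le; omega) hd
        omega
      have h5 := hi a ha
      have e : a ^ i = a ^ (1 : ℤ) := by
        rw [zpow_eq_zpow_iff_modEq]
        refine Int.ModEq.of_dvd (Int.natCast_dvd_natCast.mpr (orderOf_dvd_of_pow_eq_one (hQq a ha))) ?_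
        exact (ZMod.intCast_eq_intCast_iff i 1 q).mp (by simpa using hiq)
      rwa [e, zpow_one] at h5
  refine hQ1 (le_bot_iff.mp ?_)
  rw [← hQP, commutator_le]
  intro a ha x hx
  have hmemQ : ⁅a, x⁆ ∈ Q := hQP.le (commutator_mem_commutator ha hx)
  refine mem_bot.mpr (hfaith _ hmemQ fun v => ?_)
  refine fixed_of_mem_pieces hq hcop hc hQq hMA h0 hmemQ (fun B hB => ?_) v (mem_top v)
  have := hcent B hB x hx a⁻¹ (inv_mem ha)
  rw [inv_inv] at this
  simpa [commutatorElement_def, mul_assoc] using this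

/-- The non-abelian configuration. -/
theorem nonabelian_false (hp : p.Prime) (hq : q.Prime) (hr : r.Prime) (hpq : p ≠ q) (hrq : r ≠ q)
    (hq2 : q ≠ 2) (hr2 : r ≠ 2) (hVp : ∀ v : V, v ^ p = 1) {Q : Subgroup Γ} {t : Γ} (ht : t ^ r = 1)
    (htQ : t ∈ normalizer (Q : Set Γ)) (hQq : ∀ a ∈ Q, a ^ q = 1)
    (hZc : ∀ z ∈ ⁅Q, Q⁆, ∀ a ∈ Q, a * z = z * a) (hne : ⁅Q, Q⁆ ≠ ⊥)
    {y : Γ} (huy : ∃ u ∈ Q, y * u ≠ u * y)
    (hfaith : ∀ a ∈ Q, (∀ v : V, a • v = v) → a = 1)
    (hline : ∀ v w : V, t • v = v → t • w = w → v ≠ 1 → w ∈ zpowers v)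
    (hQline : ∀ a ∈ Q, ∀ b ∈ Q, t * a = a * t → t * b = b * t → a ≠ 1 → b ∈ zpowers a)
    (hy : y ∈ Q) (hyt : t * y = y * t) (hyZ : y ∉ ⁅Q, Q⁆) : False := by
  classical
  haveI := Fact.mk hp
  haveI := Fact.mk hq
  have hcop := coprime_card_of_exponent hp hVp hq hpq
  set Z := ⁅Q, Q⁆
  have hZQ : Z ≤ Q := commutator_le.mpr fun a ha b hb => by
    rw [commutatorElement_def]
    exact mul_mem (mul_mem (mul_mem ha hb) (inv_mem ha)) (inv_mem hb)
  have hZcomm : ∀ a ∈ Z, ∀ b ∈ Z, a * b = b * a := fun a ha b hb => (hZc b hb a (hZQ ha))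
  have hQZ : Q ≤ normalizer (Z : Set Γ) := fun a ha =>
    centralizer_le_normalizer _ (mem_centralizer_iff.mpr fun z hz => (hZc z hz a ha).symm)
  have htZ : t ∈ normalizer (Z : Set Γ) := by
    refine Coprime.mem_normalizer_of_conj_smul_eq ?_
    show Subgroup.map (MulAut.conj t).toMonoidHom ⁅Q, Q⁆ = ⁅Q, Q⁆
    rw [map_commutator]
    exact congrArg₂ (fun a b => ⁅a, b⁆) (Coprime.conj_smul_eq_self htQ) (Coprime.conj_smul_eq_self htQ)
  have hy1 : y ≠ 1 := fun e => hyZ (e ▸ one_mem _)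
  have hZfix : ∀ z ∈ Z, t * z = z * t → z = 1 := fun z hz hzt => by
    by_contra hz1
    exact hyZ ((zpowers_le.mpr hz) (hQline z (hZQ hz) y hy hzt hyt hz1))
  let M : Subgroup V :=
    { carrier := {v | orbProd Z v = 1}
      one_mem' := by
        show orbProd Z (1 : V) = 1
        rw [orbProd_of_fixed _ fun e _ => smul_one e, one_pow]
      mul_mem' := fun {a b} (ha : orbProd Z a = 1) (hb : orbProd Z b = 1) => by
        show orbProd Z (a * b) = 1
        rw [orbProd_mul, ha, hb, one_mul]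
      inv_mem' := fun {a} (ha : orbProd Z a = 1) => by
        show orbProd Z a⁻¹ = 1
        rw [orbProd_inv, ha, inv_one] }
  have hMg : ∀ g ∈ normalizer (Z : Set Γ), ∀ v ∈ M, g • v ∈ M := fun g hg v (hv : orbProd Z v = 1) => by
    show orbProd Z (g • v) = 1
    rw [orbProd_smul_normalizer _ hg, hv, smul_one]
  have hMZ : ∀ a ∈ Z, ∀ v ∈ M, a • v ∈ M := fun a ha => hMg a (le_normalizer ha)
  have hcopZ : (Nat.card Z).Coprime (Nat.card V) := by
    have hZp : IsPGroup q Z := fun z => ⟨1, Subtype.ext (by simpa using hQq z (hZQ z.2))⟩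
    obtain ⟨k, hk⟩ := IsPGroup.iff_card.mp hZp
    rw [hk]; exact hcop.pow_left k
  have h0 : FixFree Z M := fun v (hv : orbProd Z v = 1) h =>
    FitHeight.pow_injective_of_coprime hcopZ (by rw [← orbProd_of_fixed Z h]; exact hv)
  have hdiff : ∀ z ∈ Z, ∀ v : V, z • v * v⁻¹ ∈ M := fun z hz v => by
    show orbProd Z (z • v * v⁻¹) = 1
    rw [orbProd_mul, orbProd_smul_mem _ hz, orbProd_inv, mul_inv_cancel]
  obtain ⟨z₁, hz₁, hz₁1⟩ := Z.bot_or_exists_ne_one.resolve_left hne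
  have hMne : M ≠ ⊥ := fun e => hz₁1 (hfaith z₁ (hZQ hz₁) fun v =>
    mul_inv_eq_one.mp (mem_bot.mp (e ▸ hdiff z₁ hz₁ v)))
  have htM : ∀ v ∈ M, t • v ∈ M := hMg t htZ
  have hline' : ∀ v ∈ M, ∀ w ∈ M, t • v = v → t • w = w → v ≠ 1 → w ∈ zpowers v := fun v _ w _ => hline v w
  -- every piece of `Z` is fixed by `t` and carries a fixed vector
  have hpiece : ∀ B, IsPiece Z M B → MulAut.conj t • B = B ∧
      ∃ w ∈ M, w ≠ 1 ∧ (∀ b ∈ B, b • w = w) ∧ t • w = w := by
    intro B hB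
    have hfixed : MulAut.conj t • B = B := by
      by_contra hBm
      obtain ⟨hBh, v, hv, hv1, hvf⟩ := hB
      have hsc : ∀ a ∈ Q, ∃ n : ℤ, v ^ n = a • v := fun a ha => mem_zpowers_iff.mp
        (moved_line hr ht htZ htM hZcomm hMZ h0 hline' hBh hBm hv hv1 hvf (hMg a (hQZ ha) v hv)
          (fun b hb => by rw [smul_smul, ← hZc b (hBh.1 hb) a ha, mul_smul, hvf b hb]))
      refine hv1 (h0 v hv fun z hz => MulAction.mem_stabilizer_iff.mp ?_)
      refine (commutator_le.mpr fun a ha b hb => MulAction.mem_stabilizer_iff.mpr ?_ :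
        ⁅Q, Q⁆ ≤ MulAction.stabilizer Γ v) hz
      obtain ⟨m, hm⟩ := hsc a ha
      obtain ⟨n, hn⟩ := hsc b hb
      obtain ⟨m', hm'⟩ := hsc a⁻¹ (inv_mem ha)
      obtain ⟨n', hn'⟩ := hsc b⁻¹ (inv_mem hb)
      have e1 : v ^ (m * m') = v := by rw [zpow_mul, hm, ← smul_zpow', hm', smul_inv_smul]
      have e2 : v ^ (n * n') = v := by rw [zpow_mul, hn, ← smul_zpow', hn', smul_inv_smul]
      rw [commutatorElement_def, mul_smul, mul_smul, mul_smul, ← hn', smul_zpow', ← hm', ← zpow_mul,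
        smul_zpow', ← hn, ← zpow_mul, smul_zpow', ← hm, ← zpow_mul,
        show m * (n * (m' * n')) = m * m' * (n * n') by ring, zpow_mul, e1, e2]
    refine ⟨hfixed, ?_⟩
    obtain ⟨hBh, v, hv, hv1, hvf⟩ := hB
    set W := M ⊓ fixOf B
    let S : Subgroup Γ :=
      { carrier := {g | ∀ w : V, g • w ∈ W ↔ w ∈ W}
        one_mem' := fun w => by rw [one_smul]
        mul_mem' := fun {a b} ha hb w => by rw [mul_smul, ha, hb]
        inv_mem' := fun {a} ha w => by rw [← ha (a⁻¹ • w), smul_inv_smul] }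
    have hmemS : ∀ g : Γ, (∀ w ∈ W, g • w ∈ W) → (∀ w ∈ W, g⁻¹ • w ∈ W) → g ∈ S := fun g h1 h2 w =>
      ⟨fun h => by simpa using h2 _ h, h1 w⟩
    have htW : ∀ g ∈ normalizer (Z : Set Γ), MulAut.conj g • B = B → ∀ w ∈ W, g • w ∈ W :=
      fun g hg hgB w hw => ⟨hMg g hg w hw.1, fun b hb => smul_fixed g hw.2 b (hgB.symm ▸ hb)⟩
    have hnB : ∀ g ∈ normalizer (Z : Set Γ), MulAut.conj g • B = B → g ∈ S := fun g hg hgB =>
      hmemS g (htW g hg hgB) (htW g⁻¹ (inv_mem hg) (by rw [map_inv, inv_smul_eq_iff, hgB]))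
    have htS : t ∈ S := hnB t htZ hfixed
    have hZS : Z ≤ S := fun z hz => hnB z (le_normalizer hz) (Coprime.conj_smul_eq_self
      (centralizer_le_normalizer _ (mem_centralizer_iff.mpr fun b hb => hZcomm b (hBh.1 hb) z hz)))
    letI : MulDistribMulAction S W :=
      { smul := fun g w => ⟨(g : Γ) • (w : V), (g.2 (w : V)).mpr w.2⟩
        one_smul := fun w => Subtype.ext (one_smul Γ (w : V))
        mul_smul := fun g h w => Subtype.ext (mul_smul (g : Γ) (h : Γ) (w : V))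
        smul_mul := fun g w w' => Subtype.ext (smul_mul' (g : Γ) (w : V) (w' : V))
        smul_one := fun g => Subtype.ext (smul_one (g : Γ)) }
    by_contra hno
    push Not at hno
    refine hv1 (h0 v hv fun z hz => congrArg Subtype.val (FitHeight.smul_eq_self_of_fpf (Q := Z.subgroupOf S)
      hr (t := ⟨t, htS⟩) (Subtype.ext ht) ?_ ?_ ?_ ?_ (y := ⟨z, hZS hz⟩) hz (⟨v, hv, hvf⟩ : W)))
    · rw [mem_normalizer_iff]
      intro x
      exact mem_normalizer_iff.mp htZ (x : Γ)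
    · intro x hx hxt
      exact Subtype.ext (hZfix x hx (congrArg Subtype.val hxt))
    · intro w hw
      by_contra hw1
      exact hno (w : V) w.2.1 (fun e => hw1 (Subtype.ext e)) w.2.2 (congrArg Subtype.val hw)
    · rw [Coprime.card_subgroupOf hZS]
      exact hcopZ.coprime_dvd_right W.card_subgroup_dvd_card
  have huniqB : ∀ B C, IsPiece Z M B → IsPiece Z M C → B = C := by
    intro B C hB hC
    by_contra hne'
    obtain ⟨-, v, hv, hv1, hvf, hvt⟩ := hpiece B hB
    obtain ⟨-, w, hw, hw1, hwf, hwt⟩ := hpiece C hC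
    refine two_families_false (t := t) hZcomm hMZ h0 hline'
      (fun x : Unit ⊕ Unit => Sum.elim (fun _ => B) (fun _ => C) x) ?_ ?_
      (fun x => Sum.elim (fun _ => v) (fun _ => w) x) ?_ ?_
      (by simpa using hvt) (by simpa using hwt) (i₀ := ()) (by simpa using hv1) (k₀ := ()) (by simpa using hw1)
    · rintro (i | i) (j | j) e
      exacts [rfl, absurd e hne', absurd e.symm hne', rfl]
    · rintro (i | i)
      exacts [hB.1, hC.1]
    · rintro (i | i)
      exacts [hv, hw]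
    · rintro (i | i)
      exacts [hvf, hwf]
  obtain ⟨B, hB⟩ := exists_piece hq hcop hZcomm (fun a ha => hQq a (hZQ ha)) hMZ h0 hMne
  have hBbot : B = ⊥ := by
    refine (eq_bot_iff_forall B).mpr fun b hb => hfaith b (hZQ (hB.1.1 hb)) fun v => ?_
    have hu := fixed_of_mem_pieces hq hcop hZcomm (fun a ha => hQq a (hZQ ha)) hMZ h0 (hB.1.1 hb)
      (fun C hC => huniqB B C hB hC ▸ hb) (b • v * v⁻¹) (hdiff b (hB.1.1 hb) v)
    set u := b • v * v⁻¹ with hu'
    have hk : ∀ k : ℕ, b ^ k • v = u ^ k * v := by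
      intro k
      induction k with
      | zero => simp
      | succ k ih =>
        rw [pow_succ', mul_smul, ih, smul_mul', smul_pow', hu, pow_succ, mul_assoc, hu',
          inv_mul_cancel_right]
    have := hk q
    rw [hQq b (hZQ (hB.1.1 hb)), one_smul, right_eq_mul] at this
    exact mul_inv_eq_one.mp (FitHeight.pow_injective_of_coprime hcop this)
  have hgenZ : ∀ z ∈ Z, z ≠ 1 → zpowers z = Z := fun z hz hz1 => by
    have := hB.1.2.2 z hz (by rw [hBbot, mem_bot]; exact hz1)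
    rwa [hBbot, bot_sup_eq] at this
  -- the rank two group `⟨y⟩ Z`
  set A := zpowers y ⊔ Z with hA
  have hAQ : A ≤ Q := sup_le (zpowers_le.mpr hy) hZQ
  have hAc : ∀ a ∈ A, ∀ b ∈ A, a * b = b * a := by
    have h1 : A ≤ centralizer (A : Set Γ) := by
      have hyA : A ≤ centralizer ({y} : Set Γ) := sup_le
        (zpowers_le.mpr (mem_centralizer_singleton_iff.mpr rfl))
        fun z hz => mem_centralizer_singleton_iff.mpr (hZc z hz y hy).symm
      have hZA : Z ≤ centralizer (A : Set Γ) := fun z hz => mem_centralizer_iff.mpr fun a ha =>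
        hZc z hz a (hAQ ha)
      refine sup_le (zpowers_le.mpr (mem_centralizer_iff.mpr fun a ha => ?_)) hZA
      exact mem_centralizer_singleton_iff.mp (hyA ha)
    exact fun a ha b hb => mem_centralizer_iff.mp (h1 hb) a ha
  have hAq : ∀ a ∈ A, a ^ q = 1 := fun a ha => hQq a (hAQ ha)
  have hMA : ∀ a ∈ A, ∀ v ∈ M, a • v ∈ M := fun a ha => hMg a (hQZ (hAQ ha))
  have h0A : FixFree A M := fun v hv h => h0 v hv fun z hz => h z (mem_sup_right hz)
  obtain ⟨L, hL⟩ := exists_piece hq hcop hAc hAq hMA h0A hMne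
  obtain ⟨hLh, v, hv, hv1, hvf⟩ := id hL
  have hLZ : ∀ z ∈ Z, z ∈ L → z = 1 := fun z hz hzL => by
    by_contra hz1
    refine hv1 (h0 v hv fun a ha => hvf a ?_)
    rw [← hgenZ z hz hz1] at ha
    exact zpowers_le.mpr hzL ha
  have hLn : L ≤ normalizer (Z : Set Γ) := (hLh.1.trans hAQ).trans hQZ
  have htop : L ⊔ Z = A := by
    refine le_antisymm (sup_le hLh.1 le_sup_right) ?_
    rw [← hLh.2.2 z₁ (mem_sup_right hz₁) fun h => hz₁1 (hLZ z₁ hz₁ h)]
    exact sup_le le_sup_left (zpowers_le.mpr (mem_sup_right hz₁))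
  obtain ⟨l, hl, z', hz', hlz⟩ := (Coprime.mem_sup_of_le_normalizer hLn).mp
    (htop.ge (mem_sup_left (mem_zpowers y)))
  have hly : A = zpowers l ⊔ Z := by
    refine le_antisymm (sup_le (zpowers_le.mpr ?_) le_sup_right) (sup_le (zpowers_le.mpr (hLh.1 hl)) le_sup_right)
    rw [← hlz]
    exact mul_mem (mem_sup_left (mem_zpowers l)) (mem_sup_right hz')
  have hLeq : L = zpowers l := by
    refine le_antisymm (fun x hx => ?_) (zpowers_le.mpr hl)
    obtain ⟨a, ha, b, hb, rfl⟩ := (Coprime.mem_sup_of_le_normalizer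
      ((zpowers_le.mpr hl).trans hLn)).mp (hly.le (hLh.1 hx))
    rw [hLZ b hb (by simpa using mul_mem (inv_mem (zpowers_le.mpr hl ha)) hx), mul_one]
    exact ha
  obtain ⟨u, hu, huy⟩ := huy
  set z := ⁅u, y⁆ with hzdef
  have hzZ : z ∈ Z := commutator_mem_commutator hu hy
  have hz1 : z ≠ 1 := fun e => huy (commutatorElement_eq_one_iff_mul_comm.mp e).symm
  have hconj : ∀ j : ℕ, u ^ j * l * (u ^ j)⁻¹ = z ^ j * l := by
    intro j
    induction j with
    | zero => simp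
    | succ j ih =>
      have e1 : u * z ^ j = z ^ j * u := hZc _ (pow_mem hzZ j) u hu
      have e2 : u * l * u⁻¹ = z * l := by
        have hl' : l = y * z'⁻¹ := by rw [← hlz]; group
        have e3 : z'⁻¹ * u⁻¹ = u⁻¹ * z'⁻¹ := (hZc _ (inv_mem hz') _ (inv_mem hu)).symm
        rw [hl', hzdef, commutatorElement_def]
        calc u * (y * z'⁻¹) * u⁻¹ = u * y * (z'⁻¹ * u⁻¹) := by group
          _ = _ := by rw [e3]; group
      calc u ^ (j + 1) * l * (u ^ (j + 1))⁻¹ = u * (u ^ j * l * (u ^ j)⁻¹) * u⁻¹ := by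
            rw [pow_succ']; group
        _ = (u * z ^ j) * l * u⁻¹ := by rw [ih]; group
        _ = z ^ j * (u * l * u⁻¹) := by rw [e1]; group
        _ = z ^ (j + 1) * l := by rw [e2, pow_succ]; group
  have hpieces : ∀ a ∈ Z, IsPiece A M (zpowers (y * a)) := by
    intro a ha
    obtain ⟨j, hj⟩ : ∃ j : ℕ, z ^ j = z' * a := by
      have hmem : z' * a ∈ zpowers z := by rw [hgenZ z hzZ hz1]; exact mul_mem hz' ha
      rw [← mem_powers_iff_mem_zpowers] at hmem
      exact hmem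
    have huA : u ^ j ∈ normalizer (A : Set Γ) := by
      refine pow_mem (Coprime.mem_normalizer_of_conj_smul_eq (eq_of_le_of_card_ge ?_
        (Coprime.card_conj_smul u A).ge)) j
      rw [hA, smul_sup, sup_le_iff]
      refine ⟨?_, (Coprime.conj_smul_eq_self (hQZ hu)).le.trans le_sup_right⟩
      rw [show MulAut.conj u • zpowers y = (zpowers y).map (MulAut.conj u).toMonoidHom from rfl,
        MonoidHom.map_zpowers, zpowers_le]
      have : (MulAut.conj u).toMonoidHom y = z * y := by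
        simp [hzdef, commutatorElement_def]
      rw [this]
      exact mul_mem (mem_sup_right hzZ) (mem_sup_left (mem_zpowers y))
    have h1 := piece_conj huA (hMg _ (pow_mem (hQZ hu) j)) hL
    rw [hLeq, show MulAut.conj (u ^ j) • zpowers l = (zpowers l).map (MulAut.conj (u ^ j)).toMonoidHom from rfl,
      MonoidHom.map_zpowers] at h1
    rwa [show (MulAut.conj (u ^ j)).toMonoidHom l = y * a by
      show u ^ j * l * (u ^ j)⁻¹ = y * a
      rw [hconj, hj, ← hlz, mul_assoc l, hZc _ (mul_mem hz' ha) l (hAQ (hLh.1 hl))]] at h1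
  have hinj : ∀ a ∈ Z, ∀ b ∈ Z, zpowers (y * a) = zpowers (y * b) → a = b := by
    intro a ha b hb e
    obtain ⟨k, hk⟩ := mem_zpowers_iff.mp (e.ge (mem_zpowers (y * b)))
    have hya : Commute y a := hZc a ha y hy
    rw [hya.mul_zpow] at hk
    have hy' : y ^ (k - 1) ∈ Z := by
      rw [show y ^ (k - 1) = b * (a ^ k)⁻¹ by
        calc y ^ (k - 1) = y⁻¹ * (y ^ k * a ^ k) * (a ^ k)⁻¹ := by group
          _ = b * (a ^ k)⁻¹ := by rw [hk]; group]
      exact mul_mem hb (inv_mem (zpow_mem ha k))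
    have hyo : orderOf y = q := orderOf_eq_prime (hQq y hy) hy1
    have hk1 : (q : ℤ) ∣ k - 1 := by
      by_contra hnd
      refine hyZ ?_
      have hgen : zpowers (y ^ (k - 1)) = zpowers y := by
        refine eq_of_le_of_card_ge (zpowers_le.mpr (zpow_mem (mem_zpowers y) _)) ?_
        rw [Nat.card_zpowers, Nat.card_zpowers, hyo, orderOf_eq_prime (p := q)
          (by rw [← zpow_natCast, ← zpow_mul, mul_comm, zpow_mul, zpow_natCast, hQq y hy, one_zpow])
          (fun h => hnd (hyo ▸ orderOf_dvd_iff_zpow_eq_one.mpr h))]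
      exact (hgen.symm.le.trans (zpowers_le.mpr hy')) (mem_zpowers y)
    obtain ⟨m, hm⟩ := hk1
    have e' : y ^ k * a ^ k = y * a := by
      rw [show k = (q : ℤ) * m + 1 by omega, zpow_add, zpow_add, zpow_mul, zpow_mul, zpow_natCast,
        zpow_natCast, hQq y hy, hQq a (hZQ ha), one_zpow, one_mul, zpow_one, one_mul, zpow_one]
    rw [e'] at hk
    exact mul_left_cancel hk
  have hconjy : ∀ a : Γ, ∀ i : ℕ, MulAut.conj (t ^ i) • zpowers (y * a) = zpowers (y * (t ^ i * a * (t ^ i)⁻¹)) := by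
    intro a i
    rw [show MulAut.conj (t ^ i) • zpowers (y * a) = (zpowers (y * a)).map (MulAut.conj (t ^ i)).toMonoidHom
      from rfl, MonoidHom.map_zpowers]
    congr 1
    show t ^ i * (y * a) * (t ^ i)⁻¹ = _
    rw [← mul_assoc, ((show Commute t y from hyt).pow_left i).eq]
    group
  have hmoved : ∀ a ∈ Z, a ≠ 1 → MulAut.conj t • zpowers (y * a) ≠ zpowers (y * a) := by
    intro a ha ha1 e
    have h1 := hconjy a 1
    rw [pow_one, e] at h1
    have h2 := hinj a ha _ ((mem_normalizer_iff.mp htZ a).mp ha) h1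
    exact ha1 (hZfix a ha (eq_mul_inv_iff_mul_eq.mp h2).symm)
  have htA : t ∈ normalizer (A : Set Γ) := by
    refine Coprime.mem_normalizer_of_conj_smul_eq ?_
    rw [hA, smul_sup, Coprime.conj_smul_eq_self htZ]
    congr 1
    have h := hconjy 1 1
    simpa using h
  obtain ⟨i, hi, hiz⟩ := one_cycle hr ht htA htM hAc hMA h0A hline' (hpieces z hzZ)
    (hpieces z⁻¹ (inv_mem hzZ)) (hmoved z hzZ hz1) (hmoved z⁻¹ (inv_mem hzZ) (inv_ne_one.mpr hz1))
  rw [hconjy] at hiz
  have heq := hinj _ (inv_mem hzZ) _ ((mem_normalizer_iff.mp (pow_mem htZ i) z).mp hzZ) hiz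
  rcases Nat.eq_zero_or_pos i with rfl | hi0
  · simp only [pow_zero, one_mul, inv_one, mul_one] at heq
    refine hz1 (orderOf_eq_one_iff.mp (Nat.eq_one_of_dvd_coprimes
      ((Nat.coprime_primes hq Nat.prime_two).mpr hq2) (orderOf_dvd_of_pow_eq_one (hQq z (hZQ hzZ)))
      (orderOf_dvd_of_pow_eq_one ?_)))
    rw [pow_two]
    exact mul_eq_one_iff_eq_inv.mpr heq.symm
  · have h2 : (t ^ i) ^ 2 * z = z * (t ^ i) ^ 2 := by
      have e3 : (t ^ i) ^ 2 * z * ((t ^ i) ^ 2)⁻¹ = z := by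
        calc (t ^ i) ^ 2 * z * ((t ^ i) ^ 2)⁻¹ = t ^ i * (t ^ i * z * (t ^ i)⁻¹) * (t ^ i)⁻¹ := by
              rw [pow_two]; group
          _ = (t ^ i * z * (t ^ i)⁻¹)⁻¹ := by
              conv_lhs => rw [← heq]
              group
          _ = z := by rw [← heq, inv_inv]
      exact mul_inv_eq_iff_eq_mul.mp e3
    have hcopi : (i * 2).Coprime r := by
      refine Nat.Coprime.mul_left ((Nat.coprime_of_lt_prime hi0.ne' hi hr).symm) ?_
      exact ((Nat.coprime_primes Nat.prime_two hr).mpr (Ne.symm hr2))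
    obtain ⟨m, -, hm⟩ := Nat.exists_mul_mod_eq_one_of_coprime hcopi hr.one_lt
    refine hz1 (hZfix z hzZ ?_)
    have h3 := ((show Commute ((t ^ i) ^ 2) z from h2).pow_left m).eq
    rwa [← pow_mul, ← pow_mul, ← mul_assoc, pow_eq_pow_mod _ ht, hm, pow_one] at h3

end Cfsg.Agent.Lib.Uniq.Blocks
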