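import Cfsg.Agent.Lib.FitHeight.Operators
import Cfsg.Agent.Lib.Coprime.Abelian
import Cfsg.Agent.Lib.Hall.Basic
set_option autoImplicit false

/-! Blocks of an elementary abelian group of operators on an abelian group, and their permutation
by a normalising element of prime order with at most a line of fixed vectors. -/

namespace Cfsg.Agent.Lib.Uniq.Blocks

open Subgroup
open scoped Pointwise commutatorElement
open Cfsg.Agent.Lib.FitHeight (cycProd smul_cycProd orbProd orbProd_mul orbProd_inv orbProd_of_fixed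
  orbProd_smul_mem orbProd_smul_normalizer)

variable {Γ : Type*} [Group Γ] {V : Type*} [CommGroup V] [MulDistribMulAction Γ V]

/-- `B` is maximal in the elementary abelian group `A`. -/
def IsHyper (A B : Subgroup Γ) : Prop := B ≤ A ∧ B ≠ A ∧ ∀ a ∈ A, a ∉ B → B ⊔ zpowers a = A

/-- `B` is a maximal subgroup of `A` fixing some nontrivial vector of `M`. -/
def IsPiece (A : Subgroup Γ) (M : Subgroup V) (B : Subgroup Γ) : Prop :=
  IsHyper A B ∧ ∃ v ∈ M, v ≠ 1 ∧ ∀ b ∈ B, b • v = v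

/-- `A` fixes no nontrivial vector of `M`. -/
def FixFree (A : Subgroup Γ) (M : Subgroup V) : Prop := ∀ v ∈ M, (∀ a ∈ A, a • v = v) → v = 1

/-- The vectors fixed by a subgroup. -/
def fixOf (B : Subgroup Γ) : Subgroup V where
  carrier := {v | ∀ b ∈ B, b • v = v}
  one_mem' := fun b _ => smul_one b
  mul_mem' := fun hu hv b hb => by rw [smul_mul', hu b hb, hv b hb]
  inv_mem' := fun hu b hb => by rw [smul_inv', hu b hb]

/-- The elements fixing a vector. -/
def fixStab (v : V) : Subgroup Γ := MulAction.stabilizer Γ v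

theorem hyper_sup {A B B' : Subgroup Γ} (hB : IsHyper A B) (hB' : IsHyper A B') (hne : B ≠ B') :
    B ⊔ B' = A := by
  refine le_antisymm (sup_le hB.1 hB'.1) ?_
  by_cases h : B' ≤ B
  · obtain ⟨a, ha, ha'⟩ := SetLike.exists_of_lt (lt_of_le_of_ne h (Ne.symm hne))
    refine absurd ?_ hB.2.1
    refine le_antisymm hB.1 ?_
    rw [← hB'.2.2 a (hB.1 ha) ha']
    exact sup_le h (zpowers_le.mpr ha)
  · obtain ⟨a, ha, ha'⟩ := SetLike.not_le_iff_exists.mp h
    rw [← hB.2.2 a (hB'.1 ha) ha']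
    exact sup_le le_sup_left (zpowers_le.mpr (mem_sup_right ha))

/-- Vectors fixed by different maximal subgroups are independent. -/
theorem indep {A : Subgroup Γ} {M : Subgroup V} (hc : ∀ a ∈ A, ∀ b ∈ A, a * b = b * a)
    (hMA : ∀ a ∈ A, ∀ v ∈ M, a • v ∈ M) (h0 : FixFree A M) {ι : Type*} (B : ι → Subgroup Γ) :
    ∀ (s : Finset ι) (f : ι → V), (∀ i ∈ s, IsHyper A (B i)) →
      (∀ i ∈ s, ∀ j ∈ s, i ≠ j → B i ≠ B j) → (∀ i ∈ s, f i ∈ M) →
      (∀ i ∈ s, ∀ b ∈ B i, b • f i = f i) → ∏ i ∈ s, f i = 1 → ∀ i ∈ s, f i = 1 := by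
  classical
  intro s
  induction s using Finset.induction with
  | empty => intro f _ _ _ _ _ i hi; exact absurd hi (Finset.notMem_empty i)
  | @insert i₁ s hi₁ ih =>
    intro f hh hd hm hf hp
    have hs : ∀ i ∈ s, i ∈ insert i₁ s := fun i hi => Finset.mem_insert_of_mem hi
    have h1 : i₁ ∈ insert i₁ s := Finset.mem_insert_self _ _
    rw [Finset.prod_insert hi₁] at hp
    have key : ∀ i ∈ s, f i = 1 := by
      intro i hi
      refine h0 _ (hm i (hs i hi)) ?_
      have hB1 : B i₁ ≤ fixStab (f i) := fun b hb => by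
        have hbA := (hh i₁ h1).1 hb
        have := ih (fun j => (b • f j) * (f j)⁻¹) (fun j hj => hh j (hs j hj))
          (fun j hj k hk => hd j (hs j hj) k (hs k hk))
          (fun j hj => mul_mem (hMA b hbA _ (hm j (hs j hj))) (inv_mem (hm j (hs j hj))))
          (fun j hj c hc' => by
            rw [smul_mul', smul_inv', smul_smul, hc c ((hh j (hs j hj)).1 hc') b hbA, mul_smul,
              hf j (hs j hj) c hc'])
          (by
            have e : b • (f i₁ * ∏ j ∈ s, f j) = 1 := by rw [hp, smul_one]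
            rw [smul_mul', hf i₁ h1 b hb, Finset.smul_prod'] at e
            rw [Finset.prod_mul_distrib, Finset.prod_inv_distrib, mul_inv_eq_one]
            exact mul_left_cancel (e.trans hp.symm)) i hi
        exact MulAction.mem_stabilizer_iff.mpr (mul_inv_eq_one.mp this)
      have hBi : B i ≤ fixStab (f i) := fun b hb => MulAction.mem_stabilizer_iff.mpr (hf i (hs i hi) b hb)
      intro a ha
      rw [← hyper_sup (hh i₁ h1) (hh i (hs i hi)) (hd i₁ h1 i (hs i hi) fun e => hi₁ (e ▸ hi))] at ha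
      exact MulAction.mem_stabilizer_iff.mp (sup_le hB1 hBi ha)
    intro i hi
    rcases Finset.mem_insert.mp hi with rfl | hi
    · rwa [Finset.prod_eq_one key, mul_one] at hp
    · exact key i hi

theorem mem_fixOf {B : Subgroup Γ} {v : V} : v ∈ fixOf B ↔ ∀ b ∈ B, b • v = v := Iff.rfl

theorem smul_fixed {B : Subgroup Γ} {v : V} (g : Γ) (hv : ∀ b ∈ B, b • v = v) :
    ∀ b ∈ MulAut.conj g • B, b • g • v = g • v := by
  intro b hb
  rw [Coprime.mem_conj_smul] at hb
  have h := hv _ hb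
  have := congrArg (g • ·) h
  simp only [smul_smul] at this ⊢
  rw [← this]
  congr 1
  group

theorem hyper_conj {A B : Subgroup Γ} {g : Γ} (hg : g ∈ normalizer (A : Set Γ)) (hB : IsHyper A B) :
    IsHyper A (MulAut.conj g • B) := by
  have hA := Coprime.conj_smul_eq_self hg
  refine ⟨hA ▸ pointwise_smul_le_pointwise_smul_iff.mpr hB.1, fun e => hB.2.1 ?_, fun a ha ha' => ?_⟩
  · exact MulAction.injective (MulAut.conj g) (e.trans hA.symm)
  · have h1 : g⁻¹ * a * g ∈ A := (mem_normalizer_iff''.mp hg a).mp ha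
    have h2 := congrArg (fun H : Subgroup Γ => MulAut.conj g • H)
      (hB.2.2 _ h1 fun h => ha' (Coprime.mem_conj_smul.mpr h))
    simp only [hA, smul_sup] at h2
    rwa [show MulAut.conj g • zpowers (g⁻¹ * a * g) = zpowers a by
      rw [show MulAut.conj g • zpowers (g⁻¹ * a * g) =
        (zpowers (g⁻¹ * a * g)).map (MulAut.conj g).toMonoidHom from rfl, MonoidHom.map_zpowers]
      congr 1
      simp [mul_assoc]] at h2

theorem piece_conj {A B : Subgroup Γ} {M : Subgroup V} {g : Γ} (hg : g ∈ normalizer (A : Set Γ))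
    (hgM : ∀ v ∈ M, g • v ∈ M) (hB : IsPiece A M B) : IsPiece A M (MulAut.conj g • B) := by
  obtain ⟨hh, v, hv, hv1, hfix⟩ := hB
  exact ⟨hyper_conj hg hh, g • v, hgM v hv, fun e => hv1 (by simpa using congrArg (g⁻¹ • ·) e), smul_fixed g hfix⟩

section Finite

variable [Finite Γ]

/-- Some maximal subgroup of `A` has a fixed vector in a nontrivial `A`-invariant group. -/
theorem exists_piece [Finite V] {q : ℕ} (hq : q.Prime) {A : Subgroup Γ} {M : Subgroup V}
    (hcop : q.Coprime (Nat.card V)) (hc : ∀ a ∈ A, ∀ b ∈ A, a * b = b * a) (hAq : ∀ a ∈ A, a ^ q = 1)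
    (hMA : ∀ a ∈ A, ∀ v ∈ M, a • v ∈ M) (h0 : FixFree A M) (hM : M ≠ ⊥) :
    ∃ B, IsPiece A M B := by
  classical
  haveI := Fact.mk hq
  obtain ⟨v₀, hv₀, hv₀1⟩ := M.bot_or_exists_ne_one.resolve_left hM
  obtain ⟨B, -, hB⟩ := Finite.exists_le_maximal
    (p := fun B : Subgroup Γ => B ≤ A ∧ ∃ v ∈ M, v ≠ 1 ∧ ∀ b ∈ B, b • v = v) (a := ⊥)
    ⟨bot_le, v₀, hv₀, hv₀1, fun b hb => by rw [mem_bot.mp hb, one_smul]⟩
  obtain ⟨hBA, v, hv, hv1, hfix⟩ := hB.prop
  have hne : B ≠ A := fun e => hv1 (h0 v hv (e ▸ hfix))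
  refine ⟨B, ⟨hBA, hne, fun a ha haB => ?_⟩, v, hv, hv1, hfix⟩
  by_contra hne'
  obtain ⟨c, hcA, hcB⟩ := SetLike.exists_of_lt (lt_of_le_of_ne (sup_le hBA (zpowers_le.mpr ha)) hne')
  have hpow : ∀ {x : Γ} {H : Subgroup Γ}, x ∈ A → ∀ i : ℤ, x ^ i ∈ H → x ^ i ≠ 1 → x ∈ H := by
    intro x H hx i hi hi1
    have hgen : zpowers (x ^ i) = zpowers x := by
      refine eq_of_le_of_card_ge (zpowers_le.mpr (zpow_mem (mem_zpowers x) i)) ?_
      rw [Nat.card_zpowers, Nat.card_zpowers, orderOf_eq_prime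
        (show (x ^ i) ^ q = 1 by rw [← zpow_natCast, ← zpow_mul, mul_comm, zpow_mul, zpow_natCast,
          hAq x hx, one_zpow]) hi1]
      exact orderOf_le_of_pow_eq_one hq.pos (hAq x hx)
    exact (hgen.symm.le.trans (zpowers_le.mpr hi)) (mem_zpowers x)
  have hac : zpowers a ≤ normalizer (zpowers c : Set Γ) :=
    (zpowers_le.mpr (mem_centralizer_singleton_iff.mpr (hc a ha c hcA))).trans
      (((le_centralizer_iff.mp (zpowers_le.mpr (mem_centralizer_iff.mpr fun y hy =>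
        mem_centralizer_singleton_iff.mp hy))) : centralizer ({c} : Set Γ) ≤ _).trans
        (centralizer_le_normalizer _))
  set A₂ := zpowers a ⊔ zpowers c with hA₂
  have hA₂A : A₂ ≤ A := sup_le (zpowers_le.mpr ha) (zpowers_le.mpr hcA)
  have hinf : zpowers a ⊓ zpowers c = ⊥ := by
    rw [eq_bot_iff]
    rintro x ⟨hxa, hxc⟩
    obtain ⟨j, rfl⟩ := mem_zpowers_iff.mp hxc
    rw [mem_bot]
    by_contra hj
    exact hcB (mem_sup_right (hpow hcA j hxa hj))
  have ha1 : a ≠ 1 := fun e => haB (e ▸ one_mem B)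
  have hc1 : c ≠ 1 := fun e => hcB (e ▸ one_mem _)
  have hcard : Nat.card A₂ = q ^ 2 := by
    rw [hA₂, FitHeight.card_sup_of_coprime_like hac hinf, Nat.card_zpowers, Nat.card_zpowers,
      orderOf_eq_prime (hAq a ha) ha1, orderOf_eq_prime (hAq c hcA) hc1, pow_two]
  set W := M ⊓ fixOf B
  have hWA : ∀ g ∈ A, ∀ w ∈ W, g • w ∈ W := fun g hg w hw => ⟨hMA g hg w hw.1, fun b hb => by
    rw [smul_smul, hc b (hBA hb) g hg, mul_smul, hw.2 b hb]⟩
  let φ : A₂ →* MulAut W :=
    { toFun := fun g =>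
        { toFun := fun w => ⟨(g : Γ) • (w : V), hWA g (hA₂A g.2) w w.2⟩
          invFun := fun w => ⟨(g : Γ)⁻¹ • (w : V), hWA _ (inv_mem (hA₂A g.2)) w w.2⟩
          left_inv := fun w => Subtype.ext (inv_smul_smul _ _)
          right_inv := fun w => Subtype.ext (smul_inv_smul _ _)
          map_mul' := fun w w' => Subtype.ext (smul_mul' _ _ _) }
      map_one' := MulEquiv.ext fun w => Subtype.ext (one_smul Γ (w : V))
      map_mul' := fun g h => MulEquiv.ext fun w => Subtype.ext (mul_smul (g : Γ) (h : Γ) (w : V)) }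
  haveI := Fintype.ofFinite A₂
  have hD : (⊥ : Subgroup W) = ⊤ := by
    refine Coprime.eq_top_of_fixed_mem φ hq (fun g => Subtype.ext (by simpa using hAq g (hA₂A g.2))) hcard
      (hcop.coprime_dvd_right W.card_subgroup_dvd_card) ⊥ fun g hg1 w hw => ?_
    rw [mem_bot]
    by_contra hw1
    have hgB : (g : Γ) ∈ B := by
      refine hB.le_of_ge ⟨sup_le hBA (zpowers_le.mpr (hA₂A g.2)), (w : V), w.2.1,
        fun e => hw1 (Subtype.ext e), ?_⟩ le_sup_left (mem_sup_right (mem_zpowers (g : Γ)))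
      have hle : B ⊔ zpowers (g : Γ) ≤ fixStab (w : V) := sup_le
        (fun b hb => MulAction.mem_stabilizer_iff.mpr (w.2.2 b hb))
        (zpowers_le.mpr (MulAction.mem_stabilizer_iff.mpr (congrArg Subtype.val hw)))
      exact fun b hb => MulAction.mem_stabilizer_iff.mp (hle hb)
    obtain ⟨x, hx, y, hy, hxy⟩ := (Coprime.mem_sup_of_le_normalizer hac).mp g.2
    obtain ⟨i, rfl⟩ := mem_zpowers_iff.mp hx
    obtain ⟨j, rfl⟩ := mem_zpowers_iff.mp hy
    have hcj : c ^ j = 1 := by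
      by_contra hj
      refine hcB (hpow hcA j ?_ hj)
      rw [show c ^ j = (a ^ i)⁻¹ * (g : Γ) by rw [← hxy]; group]
      exact mul_mem (inv_mem (mem_sup_right (zpow_mem (mem_zpowers a) i))) (mem_sup_left hgB)
    rw [hcj, mul_one] at hxy
    by_cases hai : a ^ i = 1
    · exact hg1 (Subtype.ext (hxy.symm.trans hai))
    · exact haB (hpow ha i (hxy ▸ hgB) hai)
  have : (⟨v, hv, hfix⟩ : W) ∈ (⊥ : Subgroup W) := hD ▸ mem_top _
  exact hv1 (congrArg Subtype.val (mem_bot.mp this))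

/-- An element lying in every piece acts trivially. -/
theorem fixed_of_mem_pieces [Finite V] {q : ℕ} (hq : q.Prime) {A : Subgroup Γ} {M : Subgroup V}
    (hcop : q.Coprime (Nat.card V)) (hc : ∀ a ∈ A, ∀ b ∈ A, a * b = b * a) (hAq : ∀ a ∈ A, a ^ q = 1)
    (hMA : ∀ a ∈ A, ∀ v ∈ M, a • v ∈ M) (h0 : FixFree A M) {y : Γ} (hy : y ∈ A)
    (hall : ∀ B, IsPiece A M B → y ∈ B) : ∀ v ∈ M, y • v = v := by
  let M' : Subgroup V :=
    { carrier := {v | v ∈ M ∧ orbProd (zpowers y) v = 1}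
      one_mem' := ⟨one_mem M, by rw [orbProd_of_fixed _ fun e _ => smul_one e, one_pow]⟩
      mul_mem' := fun hu hv => ⟨mul_mem hu.1 hv.1, by rw [orbProd_mul, hu.2, hv.2, one_mul]⟩
      inv_mem' := fun hu => ⟨inv_mem hu.1, by rw [orbProd_inv, hu.2, inv_one]⟩ }
  have hnorm : ∀ a ∈ A, a ∈ normalizer (zpowers y : Set Γ) := fun a ha =>
    centralizer_le_normalizer _ (mem_centralizer_iff.mpr fun z hz => by
      obtain ⟨i, rfl⟩ := mem_zpowers_iff.mp hz
      exact hc _ (zpow_mem hy i) a ha)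
  have hM'A : ∀ a ∈ A, ∀ v ∈ M', a • v ∈ M' := fun a ha v hv =>
    ⟨hMA a ha v hv.1, by rw [orbProd_smul_normalizer _ (hnorm a ha), hv.2, smul_one]⟩
  have hbot : M' = ⊥ := by
    by_contra hne
    obtain ⟨B, hB, v, hv, hv1, hfix⟩ := exists_piece hq hcop hc hAq hM'A
      (fun v hv h => h0 v hv.1 h) hne
    have hyB := hall B ⟨hB, v, hv.1, hv1, hfix⟩
    refine hv1 (FitHeight.pow_injective_of_coprime (n := Nat.card (zpowers y)) ?_ ?_)
    · rw [Nat.card_zpowers]
      exact hcop.coprime_dvd_left (orderOf_dvd_of_pow_eq_one (hAq y hy))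
    · rw [← orbProd_of_fixed _ fun e he => hfix e (zpowers_le.mpr hyB he)]
      exact hv.2
  intro v hv
  have hmem : y • v * v⁻¹ ∈ M' := ⟨mul_mem (hMA y hy v hv) (inv_mem hv), by
    rw [orbProd_mul, orbProd_smul_mem _ (mem_zpowers y), orbProd_inv, mul_inv_cancel]⟩
  rw [hbot, mem_bot, mul_inv_eq_one] at hmem
  exact hmem

end Finite

section Line

variable {A : Subgroup Γ} {M : Subgroup V}

/-- Two families of distinct blocks cannot both produce fixed vectors when these form a line. -/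
theorem two_families_false {t : Γ} (hc : ∀ a ∈ A, ∀ b ∈ A, a * b = b * a)
    (hMA : ∀ a ∈ A, ∀ v ∈ M, a • v ∈ M) (h0 : FixFree A M)
    (hline : ∀ v ∈ M, ∀ w ∈ M, t • v = v → t • w = w → v ≠ 1 → w ∈ zpowers v)
    {ι κ : Type*} [Fintype ι] [Fintype κ] (B : ι ⊕ κ → Subgroup Γ) (hB : Function.Injective B)
    (hh : ∀ i, IsHyper A (B i)) (f : ι ⊕ κ → V) (hfM : ∀ i, f i ∈ M)
    (hfB : ∀ i, ∀ b ∈ B i, b • f i = f i)
    (hl : t • ∏ i, f (Sum.inl i) = ∏ i, f (Sum.inl i)) (hr : t • ∏ k, f (Sum.inr k) = ∏ k, f (Sum.inr k))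
    {i₀ : ι} (hi₀ : f (Sum.inl i₀) ≠ 1) {k₀ : κ} (hk₀ : f (Sum.inr k₀) ≠ 1) : False := by
  classical
  set F := ∏ i, f (Sum.inl i)
  set F' := ∏ k, f (Sum.inr k)
  have hF : F ≠ 1 := fun e => hi₀ <| indep hc hMA h0 (B ∘ Sum.inl) Finset.univ (f ∘ Sum.inl)
    (fun i _ => hh _) (fun i _ j _ h e' => h (Sum.inl_injective (hB e'))) (fun i _ => hfM _)
    (fun i _ => hfB _) e i₀ (Finset.mem_univ _)
  have hFM : F ∈ M := Subgroup.prod_mem _ fun i _ => hfM _
  have hFM' : F' ∈ M := Subgroup.prod_mem _ fun i _ => hfM _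
  obtain ⟨n, hn⟩ := mem_zpowers_iff.mp (hline F hFM F' hFM' hl hr hF)
  let g : ι ⊕ κ → V := fun x => Sum.elim (fun i => f (Sum.inl i) ^ n) (fun k => (f (Sum.inr k))⁻¹) x
  refine hk₀ (inv_eq_one.mp (indep hc hMA h0 B Finset.univ g (fun i _ => hh _)
    (fun i _ j _ h e' => h (hB e')) (fun i _ => ?_) (fun i _ b hb => ?_) ?_ (Sum.inr k₀) (Finset.mem_univ _)))
  · cases i
    · exact zpow_mem (hfM _) n
    · exact inv_mem (hfM _)
  · cases i with
    | inl i => exact (fixOf (B (Sum.inl i))).zpow_mem (hfB _) n b hb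
    | inr k => exact (fixOf (B (Sum.inr k))).inv_mem (hfB _) b hb
  · simp only [Fintype.prod_sum_type, g, Sum.elim_inl, Sum.elim_inr, Finset.prod_zpow,
      Finset.prod_inv_distrib]
    exact mul_inv_eq_one.mpr hn

variable {t : Γ} {r : ℕ}

theorem pow_conj_injective (hr : r.Prime) (ht : t ^ r = 1) {B : Subgroup Γ}
    (hmov : MulAut.conj t • B ≠ B) : Function.Injective fun i : Fin r => MulAut.conj (t ^ (i : ℕ)) • B := by
  have key : ∀ i j : ℕ, i < j → j < r → MulAut.conj (t ^ i) • B ≠ MulAut.conj (t ^ j) • B := by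
    intro i j hij hj e
    have hd : MulAut.conj (t ^ (j - i)) • B = B := by
      refine MulAction.injective (MulAut.conj (t ^ i)) ?_
      show MulAut.conj (t ^ i) • MulAut.conj (t ^ (j - i)) • B = MulAut.conj (t ^ i) • B
      rw [← mul_smul, ← map_mul, ← pow_add, Nat.add_sub_cancel' hij.le, ← e]
    obtain ⟨m, -, hm⟩ := Nat.exists_mul_mod_eq_one_of_coprime
      ((Nat.coprime_of_lt_prime (Nat.sub_ne_zero_of_lt hij) (by omega : j - i < r) hr).symm) hr.one_lt
    have h2 : MulAut.conj ((t ^ (j - i)) ^ m) ∈ MulAction.stabilizer (MulAut Γ) B := by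
      rw [map_pow]
      exact pow_mem (MulAction.mem_stabilizer_iff.mpr hd) m
    rw [← pow_mul, pow_eq_pow_mod _ ht, hm, pow_one] at h2
    exact hmov (MulAction.mem_stabilizer_iff.mp h2)
  intro i j e
  rcases lt_trichotomy (i : ℕ) j with h | h | h
  · exact absurd e (key _ _ h j.2)
  · exact Fin.ext h
  · exact absurd e.symm (key _ _ h i.2)

theorem smul_prod_cycle (hr : t ^ r = 1) (v : V) :
    t • ∏ i : Fin r, t ^ (i : ℕ) • v = ∏ i : Fin r, t ^ (i : ℕ) • v := by
  have := smul_cycProd hr v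
  simpa [cycProd, Finset.prod_range] using this

variable (hr : r.Prime) (ht : t ^ r = 1) (htA : t ∈ normalizer (A : Set Γ))
  (htM : ∀ v ∈ M, t • v ∈ M) (hc : ∀ a ∈ A, ∀ b ∈ A, a * b = b * a)
  (hMA : ∀ a ∈ A, ∀ v ∈ M, a • v ∈ M) (h0 : FixFree A M)
  (hline : ∀ v ∈ M, ∀ w ∈ M, t • v = v → t • w = w → v ≠ 1 → w ∈ zpowers v)

include htM in
theorem pow_smul_mem (v : V) (hv : v ∈ M) (i : ℕ) : t ^ i • v ∈ M := by
  induction i with
  | zero => simpa using hv
  | succ i ih => rw [pow_succ', mul_smul]; exact htM _ ih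

include hr ht htA htM hc hMA h0 hline in
/-- All moved pieces lie in one cycle. -/
theorem one_cycle {B C : Subgroup Γ} (hB : IsPiece A M B) (hC : IsPiece A M C)
    (hBm : MulAut.conj t • B ≠ B) (hCm : MulAut.conj t • C ≠ C) :
    ∃ i : ℕ, i < r ∧ C = MulAut.conj (t ^ i) • B := by
  by_contra hno
  push Not at hno
  obtain ⟨hBh, v, hv, hv1, hvf⟩ := hB
  obtain ⟨hCh, w, hw, hw1, hwf⟩ := hC
  haveI : NeZero r := ⟨hr.ne_zero⟩
  refine two_families_false (t := t) hc hMA h0 hline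
    (fun x : Fin r ⊕ Fin r => Sum.elim (fun i : Fin r => MulAut.conj (t ^ (i : ℕ)) • B)
      (fun i : Fin r => MulAut.conj (t ^ (i : ℕ)) • C) x) ?_ ?_
    (fun x => Sum.elim (fun i : Fin r => t ^ (i : ℕ) • v) (fun i : Fin r => t ^ (i : ℕ) • w) x) ?_ ?_
    (smul_prod_cycle ht v) (smul_prod_cycle ht w) (i₀ := 0) (by simpa using hv1) (k₀ := 0) (by simpa using hw1)
  · have key : ∀ i j : Fin r, MulAut.conj (t ^ (i : ℕ)) • B ≠ MulAut.conj (t ^ (j : ℕ)) • C := fun i j e => by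
      refine hno ((i + (r - j)) % r : ℕ) (Nat.mod_lt _ hr.pos) ?_
      rw [← pow_eq_pow_mod _ ht, add_comm, pow_add, map_mul, mul_smul, e, ← mul_smul, ← map_mul, ← pow_add,
        Nat.sub_add_cancel j.2.le, ht, map_one, one_smul]
    rintro (i | i) (j | j) e
    · exact congrArg Sum.inl (pow_conj_injective hr ht hBm e)
    · exact absurd e (key i j)
    · exact absurd e.symm (key j i)
    · exact congrArg Sum.inr (pow_conj_injective hr ht hCm e)
  · rintro (i | i) <;> exact hyper_conj (pow_mem htA _) (by assumption)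
  · rintro (i | i) <;> exact pow_smul_mem htM _ (by assumption) _
  · rintro (i | i) <;> exact smul_fixed _ (by assumption)

include hr ht htA htM hc hMA h0 hline in
/-- A moved piece excludes fixed pieces with fixed vectors. -/
theorem moved_fixed_false {B C : Subgroup Γ} (hB : IsPiece A M B) (hC : IsHyper A C)
    (hBm : MulAut.conj t • B ≠ B) (hCf : MulAut.conj t • C = C) {w : V} (hw : w ∈ M) (hw1 : w ≠ 1)
    (hwf : ∀ c ∈ C, c • w = w) (hwt : t • w = w) : False := by
  obtain ⟨hBh, v, hv, hv1, hvf⟩ := hB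
  haveI : NeZero r := ⟨hr.ne_zero⟩
  refine two_families_false (t := t) hc hMA h0 hline
    (fun x : Fin r ⊕ Unit => Sum.elim (fun i : Fin r => MulAut.conj (t ^ (i : ℕ)) • B) (fun _ => C) x) ?_ ?_
    (fun x => Sum.elim (fun i : Fin r => t ^ (i : ℕ) • v) (fun _ => w) x) ?_ ?_
    (smul_prod_cycle ht v) (by simpa using hwt) (i₀ := 0) (by simpa using hv1) (k₀ := ()) (by simpa using hw1)
  · have key : ∀ i : Fin r, MulAut.conj (t ^ (i : ℕ)) • B ≠ C := fun i e => hBm (by
      refine MulAction.injective (MulAut.conj (t ^ (i : ℕ))) ?_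
      show MulAut.conj (t ^ (i : ℕ)) • MulAut.conj t • B = MulAut.conj (t ^ (i : ℕ)) • B
      rw [← mul_smul, ← map_mul, ← pow_succ, pow_succ', map_mul, mul_smul, e, hCf])
    rintro (i | i) (j | j) e
    · exact congrArg Sum.inl (pow_conj_injective hr ht hBm e)
    · exact absurd e (key i)
    · exact absurd e.symm (key j)
    · rfl
  · rintro (i | i)
    exacts [hyper_conj (pow_mem htA _) hBh, hC]
  · rintro (i | i)
    exacts [pow_smul_mem htM _ hv _, hw]
  · rintro (i | i)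
    exacts [smul_fixed _ hvf, hwf]

include hr ht htA htM hc hMA h0 hline in
/-- A moved piece carries only a line of vectors. -/
theorem moved_line {B : Subgroup Γ} (hB : IsHyper A B) (hBm : MulAut.conj t • B ≠ B) {v w : V}
    (hv : v ∈ M) (hv1 : v ≠ 1) (hvf : ∀ b ∈ B, b • v = v) (hw : w ∈ M) (hwf : ∀ b ∈ B, b • w = w) :
    w ∈ zpowers v := by
  classical
  haveI : NeZero r := ⟨hr.ne_zero⟩
  have hsum : ∀ u ∈ M, (∀ b ∈ B, b • u = u) → ∏ i : Fin r, t ^ (i : ℕ) • u = 1 → u = 1 := by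
    intro u hu huf hp
    have := indep hc hMA h0 (fun i : Fin r => MulAut.conj (t ^ (i : ℕ)) • B) Finset.univ
      (fun i : Fin r => t ^ (i : ℕ) • u) (fun i _ => hyper_conj (pow_mem htA _) hB)
      (fun i _ j _ h e => h (pow_conj_injective hr ht hBm e)) (fun i _ => pow_smul_mem htM u hu _)
      (fun i _ => smul_fixed _ huf) hp 0 (Finset.mem_univ _)
    simpa using this
  have hNM : ∀ u ∈ M, ∏ i : Fin r, t ^ (i : ℕ) • u ∈ M := fun u hu =>
    Subgroup.prod_mem _ fun i _ => pow_smul_mem htM u hu _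
  obtain ⟨n, hn⟩ := mem_zpowers_iff.mp (hline _ (hNM v hv) _ (hNM w hw) (smul_prod_cycle ht v)
    (smul_prod_cycle ht w) fun e => hv1 (hsum v hv hvf e))
  refine mem_zpowers_iff.mpr ⟨n, ?_⟩
  refine mul_inv_eq_one.mp (hsum (v ^ n * w⁻¹) (mul_mem (zpow_mem hv n) (inv_mem hw))
    (fun b hb => ((fixOf B).mul_mem ((fixOf B).zpow_mem hvf n) ((fixOf B).inv_mem hwf)) b hb) ?_)
  simp only [smul_mul', smul_inv', smul_zpow', Finset.prod_mul_distrib, Finset.prod_inv_distrib,
    Finset.prod_zpow, hn, mul_inv_cancel]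

end Line

end Cfsg.Agent.Lib.Uniq.Blocks
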