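import Cfsg.Agent.Lib.Uniq.FrobeniusTypeMain
import Cfsg.Agent.Lib.Uniq.SigmaStructure
import Cfsg.Agent.S1409
set_option autoImplicit false

/-! BG 13.3: cyclic Sylow subgroups of `E` have prime action on `M_σ`. -/

namespace Cfsg.Agent.Lib.Uniq

open Subgroup
open scoped Pointwise commutatorElement

universe u

variable {G : Type u} [Group G] [Finite G] {M H E : Subgroup G}

/-- A prime of `σ(M) ∩ σ(H)` with `H_σ` nilpotent makes `M` and `H` conjugate. -/
theorem conj_of_sigma_nilpotent (hG : IsMinSimpleOddOrder G) (hM : IsCoatom M) (hH : IsCoatom H)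
    (hnil : Group.IsNilpotent (sigmaCore H)) {r : ℕ} [Fact r.Prime] (hrM : r ∈ sigma M) (hrH : r ∈ sigma H) :
    ∃ g : G, H = MulAut.conj g • M := by
  obtain ⟨Q, hQH, -⟩ := exists_sigma_sylow hrH
  obtain ⟨Q₁, hQ₁M, -⟩ := exists_sigma_sylow hrM
  obtain ⟨g, hg⟩ := MulAction.exists_smul_eq G Q₁ Q
  have hQ : (Q : Subgroup G) = MulAut.conj g • (Q₁ : Subgroup G) := by rw [← hg]; rfl
  have hN : normalizer ((Q : Subgroup G) : Set G) ≤ MulAut.conj g • M := by
    intro z hz
    refine mem_pointwise_smul_iff_inv_smul_mem.mpr (sylow_normalizer_le hG hM hrM Q₁ hQ₁M ?_)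
    refine Coprime.mem_normalizer_of_conj_smul_eq ?_
    rw [show (MulAut.conj g)⁻¹ • z = g⁻¹ * z * g by simp [MulAut.smul_def],
      map_mul, map_mul, mul_smul, mul_smul, ← hQ, Coprime.conj_smul_eq_self hz, hQ, map_inv, inv_smul_smul]
  have hle : H ≤ MulAut.conj g • M := (le_normalizer_sylow_nilpotent hG hH hrH hnil Q hQH).trans hN
  exact ⟨g, ((hH.le_iff.mp hle).resolve_left (coatom_smul g hM).1).symm⟩

variable {p : ℕ} [hp : Fact p.Prime]

omit hp in
/-- Primes of `σ(M)` avoid `β(H)` when `H` is not conjugate to `M`. -/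
theorem not_beta_of_not_conj (hG : IsMinSimpleOddOrder G) (hM : IsCoatom M) (hH : IsCoatom H)
    (hnc : ∀ g : G, H ≠ MulAut.conj g • M) {q : ℕ} (hqM : q ∈ sigma M) : q ∉ beta H := fun hβ => by
  haveI := Fact.mk hqM.1
  obtain ⟨g, hg⟩ := conj_of_alpha_sigma hG hH hM hβ.1 hqM
  exact hnc g⁻¹ (by rw [hg, map_inv, inv_smul_smul])

/-- An element of order `p²` whose `p`-th power has its normaliser in `H` centralises every `σ(M)`-subgroup of
prime power order of `H` it normalises, for `H` not conjugate to `M`. -/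
theorem centralizes_of_line_normalizer (hG : IsMinSimpleOddOrder G) (hM : IsCoatom M) (hH : IsCoatom H)
    (hnc : ∀ g : G, H ≠ MulAut.conj g • M) {S : Subgroup G} (hS : IsPGroup p S) (hSH : S ≤ H) {u : G} (hu : u ∈ S)
    (huo : orderOf u = p ^ 2) (hN : normalizer ((zpowers (u ^ p) : Subgroup G) : Set G) ≤ H) {q : ℕ} [hq : Fact q.Prime]
    (hqp : q ≠ p) (hqM : q ∈ sigma M) {Q : Subgroup G} (hQ : IsPGroup q Q) (hQH : Q ≤ H)
    (hSQ : S ≤ normalizer (Q : Set G)) : S ≤ centralizer (Q : Set G) := by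
  classical
  have hqβ := not_beta_of_not_conj hG hM hH hnc hqM
  by_cases hpH : p ∈ sigma H
  · exact centralizes_of_sigma hG hH hqp hpH hS hSH hqβ hQ hQH hSQ
  set x := u ^ p with hx
  have hxo : orderOf x = p := by
    rw [hx, orderOf_pow, huo, Nat.gcd_eq_right (dvd_pow_self p two_ne_zero), sq,
      Nat.mul_div_cancel_left _ hp.out.pos]
  obtain ⟨⟨hr2, hr1⟩, -, -⟩ := S1409.result hG H hH p hpH (zpowers x) (by rw [Nat.card_zpowers, hxo]) hN
  have hpτ : p ∈ tau2 H := ⟨hp.out, hpH, hr2, hr1⟩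
  obtain ⟨B, hBH, hB, hBc⟩ := elem_of_not_pRankLE hr1
  obtain ⟨XB, hXB⟩ := exists_exc hG hH hpH hBH hB hBc
  have hqH : q ∉ sigma H := fun hqH => by
    obtain ⟨g, hg⟩ := conj_of_sigma_nilpotent hG hM hH (hXB.sigmaCore_nilpotent hG) hqM hqH
    exact hnc g hg
  -- move `S Q` into a complement of `H_σ`
  obtain ⟨EH, hEH, -⟩ := exists_compl_ge hG hH hpH (IsPGroup.of_bot (p := p)) bot_le
  obtain ⟨m, hm, hmY⟩ := exists_conj_le_compl' hG hH hEH (Y := S ⊔ Q) (fun r hr hd => by
      have hd' : r ∣ Nat.card S * Nat.card Q := by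
        rw [← Coprime.card_sup_mul_card_inf_of_le_normalizer hSQ]; exact dvd_mul_of_dvd_left hd _
      rcases hr.dvd_mul.mp hd' with h | h
      · exact isPGroup_ne_dvd hS hr h ▸ hpH
      · exact isPGroup_ne_dvd hQ hr h ▸ hqH) (sup_le hSH hQH)
  set f := (MulAut.conj m).toMonoidHom with hf
  set S' := S.map f with hS'
  set Q' := Q.map f with hQ'
  have hS'E : S' ≤ EH := (map_mono le_sup_left).trans hmY
  have hQ'E : Q' ≤ EH := (map_mono le_sup_right).trans hmY
  obtain ⟨A, hAE, hA, hAc⟩ := exists_elem_compl hG hH hEH hpτ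
  by_cases hab : ∀ T : Sylow p G, IsMulCommutative (T : Subgroup G)
  · obtain ⟨T, -, hTE, hET, -, -, -, -⟩ := exists_normal_sylow hG hH hEH hpH hab hA hAE hAc
    have hS'T : S' ≤ (T : Subgroup G) := fun z hz => by
      obtain ⟨k, hk⟩ := IsPGroup.iff_orderOf.mp (hS.map f) ⟨z, hz⟩
      rw [Subgroup.orderOf_mk] at hk
      exact mem_sylow_of_normal T hTE hET (hS'E hz) (hk ▸ pow_orderOf_eq_one z)
    have hS'Q : S' ≤ normalizer (Q' : Set G) := (map_mono hSQ).trans (le_normalizer_map f)
    have hbot : ⁅Q', S'⁆ = ⊥ := le_bot_iff.mp ((le_inf (Coprime.commutator_le_of_le_normalizer' hS'Q)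
      (commutator_comm Q' S' ▸ (commutator_mono hS'T le_rfl).trans
        (Coprime.commutator_le_of_le_normalizer' (hQ'E.trans hET)))).trans
      (Coprime.inf_eq_bot_of_coprime (coprime_pgroups (Ne.symm hqp) (hQ.map f) T.2)).le)
    have hbot' : ⁅Q, S⁆ = ⊥ := by
      rw [hQ', hS', ← map_commutator] at hbot
      exact (map_eq_bot_iff_of_injective _ (MulAut.conj m).injective).mp hbot
    rw [commutator_comm] at hbot'
    exact commutator_eq_bot_iff_le_centralizer.mp hbot'
  · -- the exceptional line has no roots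
    exfalso
    have hS0 := sylow_comm_dichotomy hab
    obtain ⟨-, -, hline⟩ := tau_two_nonabelian hG hH hEH hpH hS0 hA hAE hAc
    have huE : f u ∈ EH := hS'E (mem_map_of_mem f hu)
    have hxo' : orderOf (f x) = p := by
      rw [orderOf_injective f (MulAut.conj m).injective, hxo]
    have hX : zpowers (f x) = A ⊓ centralizer (sigmaCore H : Set G) := by
      by_contra hne
      refine (hline _ (zpowers_le.mpr (by rw [hx, map_pow]; exact pow_mem huE p))
        (by rw [Nat.card_zpowers, hxo']) hne).2 fun z hz => ?_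
      have h1 : m⁻¹ * z * m ∈ centralizer ((zpowers x : Subgroup G) : Set G) := by
        rw [centralizer_zpowers, mem_centralizer_singleton_iff]
        have h0 := mem_centralizer_singleton_iff.mp ((centralizer_zpowers (f x)).le hz)
        have h2 : f x = m * x * m⁻¹ := rfl
        rw [h2] at h0
        calc m⁻¹ * z * m * x = m⁻¹ * (z * (m * x * m⁻¹)) * m := by group
          _ = x * (m⁻¹ * z * m) := by rw [h0]; group
      have h3 := H.mul_mem (H.mul_mem hm (hN (centralizer_le_normalizer _ h1))) (H.inv_mem hm)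
      simpa [mul_assoc] using h3
    refine pow_not_mem_exc hG hH hEH hpH hS0 hA hAE hAc huE (k := 2)
      (by rw [← map_pow, ← huo, pow_orderOf_eq_one, map_one]) (fun e => ?_)
      (hX.le (by rw [← map_pow, ← hx]; exact mem_zpowers _))
    rw [← map_pow, ← hx] at e
    rw [e, orderOf_one] at hxo'
    exact hp.out.ne_one hxo'.symm

/-- BG 13.3: a cyclic Sylow subgroup of `E` has prime action on `M_σ`. -/
theorem cyclic_sylow_prime_action (hG : IsMinSimpleOddOrder G) (hM : IsCoatom M)
    (hE : IsComplIn E (sigmaCore M) M) (S₀ : Sylow p E) (hSc : IsCyclic (S₀ : Subgroup E)) {x : G}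
    (hx : x ∈ (S₀ : Subgroup E).map E.subtype) (hx1 : x ≠ 1) :
    sigmaCore M ⊓ centralizer ({x} : Set G) =
      sigmaCore M ⊓ centralizer (((S₀ : Subgroup E).map E.subtype : Subgroup G) : Set G) := by
  classical
  set K := sigmaCore M with hK
  set S := (S₀ : Subgroup E).map E.subtype with hS
  haveI hScy : IsCyclic S := ((S₀ : Subgroup E).equivMapOfInjective _ E.subtype_injective).isCyclic.mp hSc
  have hSp : IsPGroup p S := S₀.2.map _
  have hSE : S ≤ E := map_subtype_le _
  have hSM : S ≤ M := hSE.trans hE.1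
  refine le_antisymm ?_ (inf_le_inf_left _ (centralizer_le (Set.singleton_subset_iff.mpr hx)))
  -- reduce to the element of order `p`
  obtain ⟨k, hk⟩ := IsPGroup.iff_orderOf.mp hSp ⟨x, hx⟩
  rw [Subgroup.orderOf_mk] at hk
  have hk0 : k ≠ 0 := fun e => hx1 (orderOf_eq_one_iff.mp (by rw [hk, e, pow_zero]))
  set y := x ^ p ^ (k - 1) with hy
  have hyS : y ∈ S := pow_mem hx _
  have hyo : orderOf y = p := by
    rw [hy, orderOf_pow, hk, Nat.gcd_eq_right (pow_dvd_pow p (by omega)), Nat.pow_div (by omega) hp.out.pos,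
      show k - (k - 1) = 1 by omega, pow_one]
  refine le_trans (inf_le_inf_left _ fun z hz => mem_centralizer_singleton_iff.mpr ?_) ?_
    (b := K ⊓ centralizer ({y} : Set G))
  · exact ((show Commute z x from mem_centralizer_singleton_iff.mp hz).pow_right _).eq
  set C := K ⊓ centralizer ({y} : Set G) with hC
  by_cases hexp : ∀ s ∈ S, s ^ p = 1
  · -- `S` has order `p`
    have hyS' : zpowers y = S := by
      refine eq_of_le_of_card_ge (zpowers_le.mpr hyS) ?_
      rw [Nat.card_zpowers, hyo, ← IsCyclic.exponent_eq_card]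
      exact Nat.le_of_dvd hp.out.pos (Monoid.exponent_dvd.mpr fun s =>
        orderOf_dvd_of_pow_eq_one (Subtype.ext (hexp s s.2)))
    rw [← hyS', centralizer_zpowers]
  push Not at hexp
  obtain ⟨s, hs, hsp⟩ := hexp
  obtain ⟨j, hj⟩ := IsPGroup.iff_orderOf.mp hSp ⟨s, hs⟩
  rw [Subgroup.orderOf_mk] at hj
  have hj2 : 2 ≤ j := by
    by_contra hlt
    exact hsp (orderOf_dvd_iff_pow_eq_one.mp (hj ▸ (pow_dvd_pow p (show j ≤ 1 by omega)).trans (pow_one p).dvd))
  set u := s ^ p ^ (j - 2) with hu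
  have huS : u ∈ S := pow_mem hs _
  have huo : orderOf u = p ^ 2 := by
    rw [hu, orderOf_pow, hj, Nat.gcd_eq_right (pow_dvd_pow p (by omega)), Nat.pow_div (by omega) hp.out.pos,
      show j - (j - 2) = 2 by omega]
  have hupo : orderOf (u ^ p) = p := by
    rw [orderOf_pow, huo, Nat.gcd_eq_right (dvd_pow_self p two_ne_zero), sq,
      Nat.mul_div_cancel_left _ hp.out.pos]
  have huy : zpowers (u ^ p) = zpowers y := OddLocal.eq_of_card_eq_of_le_cyclic (W := S)
    (zpowers_le.mpr (pow_mem huS p)) (zpowers_le.mpr hyS) (by rw [Nat.card_zpowers, Nat.card_zpowers, hupo, hyo])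
  -- `S` is a Sylow subgroup of `M`
  have hpE : p ∣ Nat.card E := by
    have h := Subgroup.orderOf_dvd_natCard E (hSE hyS)
    rwa [hyo] at h
  have hpσ : p ∉ sigma M := compl_not_sigma hG hM hE hpE
  have hidx : ¬ p ∣ (S.subgroupOf M).index := by
    intro hd
    rw [← relIndex, ← relIndex_mul_relIndex S E M hSE hE.1] at hd
    rcases hp.out.dvd_mul.mp hd with h | h
    · rw [hS, relIndex, subgroupOf, comap_map_eq_self_of_injective E.subtype_injective] at h
      exact S₀.not_dvd_index h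
    · have hc := (compl_card hE).1
      rw [← card_mul_index (E.subgroupOf M), Coprime.card_subgroupOf hE.1] at hc
      rw [relIndex, ← mul_left_cancel₀ Nat.card_pos.ne' hc] at h
      exact hpσ (OddLocal.piCoreOf_isPi (sigma M) M p hp.out h)
  let SM : Sylow p ↥M := (hSp.comap_subtype (K := M)).toSylow hidx
  have hSMe : (SM : Subgroup ↥M).map M.subtype = S := by
    rw [show (SM : Subgroup ↥M) = S.subgroupOf M from rfl, map_subgroupOf_eq_of_le hSM]
  -- the maximal subgroup containing `N(⟨y⟩)`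
  set X := zpowers y with hX
  have hXc : Nat.card X = p := by rw [Nat.card_zpowers, hyo]
  have hSN : normalizer (S : Set G) ≤ normalizer (X : Set G) := fun z hz => by
    refine Coprime.mem_normalizer_of_conj_smul_eq (OddLocal.eq_of_card_eq_of_le_cyclic (W := S) ?_
      (zpowers_le.mpr hyS) (Coprime.card_conj_smul _ _))
    rintro w ⟨v, hv, rfl⟩
    exact (mem_normalizer_iff.mp hz v).mp (zpowers_le.mpr hyS hv)
  have hNM : ¬ normalizer (X : Set G) ≤ M := fun hle =>
    hpσ ⟨hp.out, hpE.trans (card_dvd_of_le hE.1), SM, by rw [hSMe]; exact hSN.trans hle⟩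
  have hX1 : X ≠ ⊥ := fun e => by rw [e, card_bot] at hXc; exact hp.out.ne_one hXc.symm
  have hNne : normalizer (X : Set G) ≠ ⊤ := fun e => by
    rcases hG.2.1.eq_bot_or_eq_top_of_normal X (normalizer_eq_top_iff.mp e) with h1 | h1
    · exact hX1 h1
    · exact hM.1 (top_le_iff.mp (h1.ge.trans (zpowers_le.mpr (hSM hyS))))
  obtain ⟨H, hH, hNH⟩ := exists_coatom_ge hNne
  have hne : H ≠ M := fun e => hNM (e ▸ hNH)
  have hnc : ∀ g : G, H ≠ MulAut.conj g • M := by
    intro g hg
    set Y := MulAut.conj g⁻¹ • X with hY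
    have hYM : Y ≤ M := by
      rw [hY, map_inv, pointwise_smul_subset_iff, inv_inv, ← hg]
      exact le_normalizer.trans hNH
    have hYp : IsPGroup p Y := IsPGroup.of_card (n := 1) (by rw [hY, Coprime.card_conj_smul, hXc, pow_one])
    obtain ⟨S₁, hS₁⟩ := (hYp.comap_subtype (K := M)).exists_le_sylow
    obtain ⟨n, hn⟩ := MulAction.exists_smul_eq ↥M S₁ SM
    have hXeq : MulAut.conj ((n : G) * g⁻¹) • X = X := by
      refine OddLocal.eq_of_card_eq_of_le_cyclic (W := S) ?_ (zpowers_le.mpr hyS) (Coprime.card_conj_smul _ _)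
      rw [map_mul, mul_smul, ← hY, ← hSMe]
      rintro w ⟨v, hv, rfl⟩
      refine ⟨n * ⟨v, hYM hv⟩ * n⁻¹, ?_, rfl⟩
      rw [← hn, Sylow.coe_subgroup_smul]
      exact Coprime.conj_mem_conj_smul (hS₁ hv)
    have h1 : (n : G) * g⁻¹ ∈ MulAut.conj g • M := hg ▸ hNH (Coprime.mem_normalizer_of_conj_smul_eq hXeq)
    rw [Coprime.mem_conj_smul, show g⁻¹ * ((n : G) * g⁻¹) * g = g⁻¹ * n by group] at h1
    have hgM : g ∈ M := by
      have := M.mul_mem n.2 (M.inv_mem h1)
      simpa using this
    exact hne (hg.trans (Coprime.conj_smul_eq_self (le_normalizer hgM)))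
  -- `S` centralises an invariant Sylow subgroup of `C` for every prime
  have hSH : S ≤ H := (le_normalizer.trans hSN).trans hNH
  have hCH : C ≤ H := fun z hz => hNH (centralizer_le_normalizer _ ((centralizer_zpowers y).ge hz.2))
  have hSC : S ≤ normalizer (C : Set G) := by
    refine fun z hz => inf_normalizer_le_normalizer_inf
      ⟨(hSM.trans (OddLocal.le_normalizer_piCoreOf (sigma M) M)) hz, ?_⟩
    have hzy : z ∈ centralizer ({y} : Set G) := mem_centralizer_singleton_iff.mpr
      (congrArg Subtype.val ((IsCyclic.commGroup (α := S)).mul_comm ⟨z, hz⟩ ⟨y, hyS⟩))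
    exact le_normalizer hzy
  have hcop : (Nat.card S).Coprime (Nat.card C) := Nat.Coprime.coprime_dvd_right (card_dvd_of_le inf_le_left)
    (Nat.Coprime.coprime_dvd_left (card_dvd_of_le hSE) (coprime_sigmaCore_compl hG hM hE))
  haveI := solvable_of_ne_top hG (ne_top_of_le hM hSM)
  refine le_inf inf_le_left ?_
  set D := C ⊓ centralizer (S : Set G) with hD
  have hCD : Nat.card C ∣ Nat.card D := by
    refine (Nat.dvd_iff_prime_pow_dvd_dvd _ _).mpr fun q i hq hqi => ?_
    haveI := Fact.mk hq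
    obtain ⟨Q, hQ⟩ := Coprime.exists_invariant_sylow hSC hcop (Or.inl inferInstance) q
    rcases Nat.eq_zero_or_pos i with rfl | hi
    · rw [pow_zero]; exact one_dvd _
    have hqσ : q ∈ sigma M := OddLocal.piCoreOf_isPi (sigma M) M q hq
      (((dvd_pow_self q hi.ne').trans hqi).trans (card_dvd_of_le inf_le_left))
    have hqp : q ≠ p := fun e => hpσ (e ▸ hqσ)
    have hcent := centralizes_of_line_normalizer hG hM hH hnc hSp hSH huS huo (huy ▸ hNH) hqp hqσ
      (Q.2.map C.subtype) ((map_subtype_le _).trans hCH) hQ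
    refine dvd_trans ?_ (card_dvd_of_le (le_inf (map_subtype_le _) (le_centralizer_iff.mp hcent) :
      (Q : Subgroup C).map C.subtype ≤ D))
    rw [card_map_of_injective C.subtype_injective]
    exact Q.pow_dvd_card_of_pow_dvd_card hqi
  have heq : D = C := eq_of_le_of_card_ge inf_le_left (Nat.le_of_dvd Nat.card_pos hCD)
  exact heq.ge.trans inf_le_right

end Cfsg.Agent.Lib.Uniq
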