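import Cfsg.Agent.Lib.Uniq.SigmaTools
import Cfsg.Agent.Lib.FPF.FrobeniusKernel
set_option autoImplicit false

/-! Exceptional maximal subgroups (BG 11): `p ∉ σ(M)`, `A ∈ E²_p(M)`, and `N_G(X) ≤ M` for some line `X` of `A`. -/

namespace Cfsg.Agent.Lib.Uniq

open Subgroup
open scoped Pointwise commutatorElement

universe u

/-- The exceptional situation. -/
structure Exc {G : Type u} [Group G] (M A X : Subgroup G) (p : ℕ) : Prop where
  coatom : IsCoatom M
  notSigma : p ∉ sigma M
  le : A ≤ M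
  elem : IsElementaryAbelian p A
  card : Nat.card A = p ^ 2
  line_le : X ≤ A
  line_card : Nat.card X = p
  line_norm : normalizer (X : Set G) ≤ M

/-- `t` acts on `M_σ` without fixed points. -/
def FpfOn {G : Type u} [Group G] (M : Subgroup G) (t : G) : Prop :=
  ∀ c ∈ sigmaCore M, t * c = c * t → c = 1

variable {G : Type u} [Group G] [Finite G] {M A X : Subgroup G} {p : ℕ} [hp : Fact p.Prime]

namespace Exc

theorem hmax (E : Exc M A X p) (hG : IsMinSimpleOddOrder G) :
    ∀ B : Subgroup G, IsElementaryAbelian p B → A ≤ B → B = A := fun _ hB hAB =>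
  elem_two_maximal hG E.coatom (rank_two_of_not_sigma hG E.coatom hp.out E.notSigma) E.le E.elem E.card hB hAB

theorem centralizer_le (E : Exc M A X p) : centralizer (A : Set G) ≤ M :=
  ((Subgroup.centralizer_le E.line_le).trans (centralizer_le_normalizer _)).trans E.line_norm

theorem centralizer_line_ne_top (E : Exc M A X p) : centralizer (X : Set G) ≠ ⊤ :=
  ne_top_of_le E.coatom ((centralizer_le_normalizer _).trans E.line_norm)

theorem le_centralizer_line (E : Exc M A X p) : A ≤ centralizer (X : Set G) :=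
  (comm_le_centralizer E.elem.1).trans (Subgroup.centralizer_le E.line_le)

variable {q : ℕ} [hq : Fact q.Prime]

omit [Finite G] hq in
theorem ne_of_sigma (E : Exc M A X p) (hσ : q ∈ sigma M) : q ≠ p := fun e => E.notSigma (e ▸ hσ)

/-- An invariant Sylow subgroup meeting `C(X)` lies in `M`. -/
theorem invariant_sylow_le (E : Exc M A X p) (hG : IsMinSimpleOddOrder G) (hσ : q ∈ sigma M) (R : Sylow q G)
    (hR : A ≤ normalizer ((R : Subgroup G) : Set G)) (hX : centralizer (X : Set G) ⊓ (R : Subgroup G) ≠ ⊥) :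
    (R : Subgroup G) ≤ M := by
  set Y := centralizer (X : Set G) ⊓ (R : Subgroup G)
  have hAY : A ≤ normalizer (Y : Set G) :=
    (le_inf (E.le_centralizer_line.trans le_normalizer) hR).trans inf_normalizer_le_normalizer_inf
  obtain ⟨Q, hQM, hYQ, hAQ⟩ := exists_invariant_sylow_sigma hG E.coatom hσ E.notSigma (elem_isPGroup E.elem) E.le
    (R.2.to_le inf_le_right) (inf_le_left.trans ((centralizer_le_normalizer _).trans E.line_norm)) hAY
  obtain ⟨k, hk, e⟩ := invariant_sylow_conj hG (E.ne_of_sigma hσ) E.elem E.card (E.hmax hG) hAQ hR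
    E.centralizer_line_ne_top E.le_centralizer_line
    (ne_bot_of_le_ne_bot hX (le_inf inf_le_left hYQ)) hX
  rw [e]
  exact (pointwise_smul_le_pointwise_smul_iff.mpr hQM).trans
    (Coprime.conj_smul_eq_self (le_normalizer (E.centralizer_le hk))).le

/-- The basic dichotomy for a conjugate invariant Sylow subgroup outside `M`. -/
theorem conj_inf_centralizer (E : Exc M A X p) (hG : IsMinSimpleOddOrder G) (hσ : q ∈ sigma M) {Q : Sylow q G}
    (hQM : (Q : Subgroup G) ≤ M) {g : G} (hg : g ∉ M)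
    (hR : A ≤ normalizer ((MulAut.conj g • (Q : Subgroup G) : Subgroup G) : Set G)) :
    centralizer (X : Set G) ⊓ MulAut.conj g • (Q : Subgroup G) = ⊥ := by
  by_contra h
  have hle := E.invariant_sylow_le hG hσ (g • Q) hR h
  obtain ⟨m, hm, hmQ⟩ := exists_conj_sylow hQM hle
  refine hg ?_
  have h1 : g⁻¹ * m ∈ normalizer ((Q : Subgroup G) : Set G) := Coprime.mem_normalizer_of_conj_smul_eq (by
    rw [map_mul, mul_smul, hmQ, Sylow.coe_subgroup_smul, map_inv, inv_smul_smul])
  have h2 := M.mul_mem hm (M.inv_mem (sylow_normalizer_le hG E.coatom hσ Q hQM h1))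
  simpa [mul_assoc] using h2

/-- Both sides meeting a common proper subgroup forces membership in `M`. -/
theorem conj_not_both (E : Exc M A X p) (hG : IsMinSimpleOddOrder G) (hσ : q ∈ sigma M) {Q : Sylow q G}
    (hQM : (Q : Subgroup G) ≤ M) (hAQ : A ≤ normalizer ((Q : Subgroup G) : Set G)) {g : G} (hg : g ∉ M)
    (hR : A ≤ normalizer ((MulAut.conj g • (Q : Subgroup G) : Subgroup G) : Set G))
    {L : Subgroup G} (hL : L ≠ ⊤) (hAL : A ≤ L) (hLQ : L ⊓ (Q : Subgroup G) ≠ ⊥) :
    L ⊓ MulAut.conj g • (Q : Subgroup G) = ⊥ := by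
  by_contra h
  obtain ⟨k, hk, e⟩ := invariant_sylow_conj hG (E.ne_of_sigma hσ) E.elem E.card (E.hmax hG) hAQ
    (R₂ := g • Q) hR hL hAL hLQ h
  rw [Sylow.coe_subgroup_smul] at e
  refine hg ?_
  have h1 : k⁻¹ * g ∈ normalizer ((Q : Subgroup G) : Set G) := Coprime.mem_normalizer_of_conj_smul_eq (by
    rw [map_mul, mul_smul, e, map_inv, inv_smul_smul])
  have h2 := M.mul_mem (E.centralizer_le hk) (sylow_normalizer_le hG E.coatom hσ Q hQM h1)
  simpa using h2

variable {P : Subgroup G}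

/-- Elements of order `p` commuting with `A` lie in `A`. -/
theorem mem_of_commute (E : Exc M A X p) (hG : IsMinSimpleOddOrder G) {x : G} (hx : x ^ p = 1)
    (hc : ∀ a ∈ A, a * x = x * a) : x ∈ A :=
  mem_of_commute_maximal E.elem (E.hmax hG) hx hc

/-- The normaliser of a Sylow subgroup of `M` is not in `M`. -/
theorem normalizer_sylow_not_le (E : Exc M A X p) (S : Sylow p M) :
    ¬ normalizer (((S : Subgroup M).map M.subtype : Subgroup G) : Set G) ≤ M := fun h =>
  E.notSigma ⟨hp.out, ((Dvd.intro p (pow_two p).symm).trans (E.card ▸ card_dvd_of_le E.le)), S, h⟩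

/-- `A` is central in every Sylow subgroup of `M` containing it. -/
theorem le_centralizer_sylow (E : Exc M A X p) (hG : IsMinSimpleOddOrder G) (S : Sylow p M)
    (hAP : A ≤ (S : Subgroup M).map M.subtype) :
    A ≤ centralizer (((S : Subgroup M).map M.subtype : Subgroup G) : Set G) := by
  classical
  set P := (S : Subgroup M).map M.subtype with hP
  have hPp : IsPGroup p P := S.2.map _
  have hPM : P ≤ M := map_subtype_le _
  by_contra hAc
  set Z := A ⊓ centralizer (P : Set G) with hZ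
  have hP1 : P ≠ ⊥ := fun e => hAc fun x _ => mem_centralizer_iff.mpr fun y hy => by
    rw [SetLike.mem_coe, e, mem_bot] at hy
    rw [hy, one_mul, mul_one]
  obtain ⟨z, hzt, hzc, hzo⟩ : ∃ z : ↥P, z ∈ (⊤ : Subgroup ↥P) ∧ z ∈ center ↥P ∧ orderOf z = p := by
    haveI : Nontrivial ↥P := (nontrivial_iff_ne_bot P).mpr hP1
    exact Thompson.exists_central_order_p hPp top_ne_bot
  have hzP : (z : G) ∈ centralizer (P : Set G) := mem_centralizer_iff.mpr fun y hy =>
    congrArg Subtype.val (mem_center_iff.mp hzc ⟨y, hy⟩)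
  have hzA : (z : G) ∈ A := by
    refine E.mem_of_commute hG ?_ fun a ha => mem_centralizer_iff.mp hzP a (hAP ha)
    rw [← hzo, ← orderOf_coe]; exact pow_orderOf_eq_one _
  have hz1 : (z : G) ≠ 1 := fun e => hp.out.ne_one (by rw [← hzo, ← orderOf_coe, e, orderOf_one])
  have hZp : Nat.card Z = p := by
    obtain ⟨i, hi, hie⟩ := (Nat.dvd_prime_pow hp.out).mp (E.card ▸ card_dvd_of_le (inf_le_left : Z ≤ A))
    have h0 : i ≠ 0 := fun e => hz1 (by
      have : (z : G) ∈ Z := ⟨hzA, hzP⟩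
      rwa [card_eq_one.mp (show Nat.card Z = 1 by rw [hie, e, pow_zero]), mem_bot] at this)
    have h2 : i ≠ 2 := fun e => hAc ((eq_of_le_of_card_ge (inf_le_left : Z ≤ A) (by rw [hie, e, E.card])).ge.trans inf_le_right)
    rw [hie, show i = 1 by omega, pow_one]
  have hZn : normalizer (P : Set G) ≤ normalizer (Z : Set G) := by
    intro g hg
    refine Coprime.mem_normalizer_of_conj_smul_eq (eq_of_le_of_card_ge ?_ (Coprime.card_conj_smul g Z).ge)
    rintro y hy
    obtain ⟨w, hw, rfl⟩ := hy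
    have h1 : g * w * g⁻¹ ∈ centralizer (P : Set G) := mem_centralizer_iff.mpr fun v hv => by
      have h2 := mem_centralizer_iff.mp hw.2 _ ((mem_normalizer_iff''.mp hg v).mp hv)
      calc v * (g * w * g⁻¹) = g * ((g⁻¹ * v * g) * w) * g⁻¹ := by group
        _ = g * (w * (g⁻¹ * v * g)) * g⁻¹ := by rw [h2]
        _ = g * w * g⁻¹ * v := by group
    refine ⟨E.mem_of_commute hG ?_ fun a ha => mem_centralizer_iff.mp h1 a (hAP ha), h1⟩
    show (g * w * g⁻¹) ^ p = 1
    rw [conj_pow, E.elem.2 w hw.1]; group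
  obtain ⟨g, hgN, hgM⟩ := SetLike.not_le_iff_exists.mp (E.normalizer_sylow_not_le S)
  -- lines other than `Z` are permuted transitively
  set D := P ⊓ centralizer (A : Set G) with hD
  have hDP : D < P := lt_of_le_of_ne inf_le_left fun e => hAc (le_centralizer_iff.mp (e.ge.trans inf_le_right))
  obtain ⟨u, ⟨huP, huN⟩, huD⟩ := SetLike.exists_of_lt (Transfer.lt_inf_normalizer hPp hDP)
  have huC : u ∉ centralizer (A : Set G) := fun h => huD ⟨huP, h⟩
  have huA : ∀ a ∈ A, u * a * u⁻¹ ∈ A := fun a ha => by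
    have hAD : A ≤ D := le_inf hAP (comm_le_centralizer E.elem.1)
    have h1 := (mem_normalizer_iff.mp huN a).mp (hAD ha)
    refine E.mem_of_commute hG (by rw [conj_pow, E.elem.2 a ha]; group) fun b hb => ?_
    exact mem_centralizer_iff.mp h1.2 b hb
  obtain ⟨x, hxX, hx1⟩ := X.bot_or_exists_ne_one.resolve_left fun e => by
    have := E.line_card
    rw [e, card_bot] at this
    exact hp.out.ne_one this.symm
  have hXx : zpowers x = X := eq_of_le_of_card_ge (zpowers_le.mpr hxX) (by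
    rw [E.line_card, Nat.card_zpowers, orderOf_eq_prime (p := p) (E.elem.2 x (E.line_le hxX)) hx1])
  have hxA := E.line_le hxX
  have hXZ : X ≠ Z := fun e => hgM (E.line_norm (e ▸ hZn hgN))
  have hxZ : x ∉ Z := fun h => hXZ (eq_of_le_of_card_ge (hXx ▸ zpowers_le.mpr h) (by rw [hZp, E.line_card]))
  have hA2 : A = zpowers x ⊔ Z := by
    refine (eq_of_le_of_card_ge (sup_le (zpowers_le.mpr hxA) inf_le_left) ?_).symm
    have hlt : Z < zpowers x ⊔ Z := lt_of_le_of_ne le_sup_right fun e => hxZ (e ▸ mem_sup_left (mem_zpowers x))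
    have hd : Nat.card Z ∣ Nat.card ↥(zpowers x ⊔ Z) := card_dvd_of_le hlt.le
    obtain ⟨i, hi, hie⟩ := (Nat.dvd_prime_pow hp.out).mp
      (E.card ▸ card_dvd_of_le (sup_le (zpowers_le.mpr hxA) inf_le_left : zpowers x ⊔ Z ≤ A))
    have hlt' : Nat.card Z < Nat.card ↥(zpowers x ⊔ Z) :=
      (Set.toFinite _).card_lt_card (SetLike.coe_ssubset_coe.2 hlt)
    rw [hZp, hie] at hlt'
    rw [hie, E.card]
    refine Nat.pow_le_pow_right hp.out.pos ?_
    by_contra hi2
    have : p ^ i ≤ p ^ 1 := Nat.pow_le_pow_right hp.out.pos (by omega)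
    rw [pow_one] at this
    omega
  have hdec : ∀ a ∈ A, ∃ i : ℤ, ∃ w ∈ Z, x ^ i * w = a := fun a ha => by
    have hn : zpowers x ≤ normalizer (Z : Set G) := (zpowers_le.mpr (hAP hxA)).trans (le_normalizer.trans hZn)
    obtain ⟨b, hb, w, hw, e⟩ := (Coprime.mem_sup_of_le_normalizer hn).mp (hA2.le ha)
    obtain ⟨i, rfl⟩ := mem_zpowers_iff.mp hb
    exact ⟨i, w, hw, e⟩
  obtain ⟨k, w, hw, hkw⟩ := hdec _ (huA x hxA)
  have huw : ∀ v ∈ Z, u * v * u⁻¹ = v := fun v hv => by
    rw [mem_centralizer_iff.mp hv.2 u huP, mul_inv_cancel_right]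
  have hiter : ∀ n : ℕ, ∃ v ∈ Z, u ^ n * x * (u ^ n)⁻¹ = x ^ (k ^ n) * v := by
    intro n
    induction n with
    | zero => exact ⟨1, one_mem _, by simp⟩
    | succ n ih =>
      obtain ⟨v, hv, e⟩ := ih
      refine ⟨w ^ (k ^ n) * v, mul_mem (zpow_mem hw _) hv, ?_⟩
      have hc : Commute (x ^ k) w := Commute.zpow_left (elem_comm E.elem hxA hw.1) k
      calc u ^ (n + 1) * x * (u ^ (n + 1))⁻¹ = u * (u ^ n * x * (u ^ n)⁻¹) * u⁻¹ := by rw [pow_succ']; group
        _ = (u * x * u⁻¹) ^ (k ^ n) * (u * v * u⁻¹) := by rw [e, conj_zpow]; group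
        _ = x ^ (k ^ (n + 1)) * (w ^ (k ^ n) * v) := by
          rw [← hkw, hc.mul_zpow, ← zpow_mul, huw v hv, pow_succ', mul_assoc]
  have hk1 : (x : G) ^ k = x := by
    obtain ⟨e, he⟩ := hPp ⟨u, huP⟩
    have he' : u ^ p ^ e = 1 := congrArg Subtype.val he
    obtain ⟨v, hv, h⟩ := hiter (p ^ e)
    rw [he', one_mul, inv_one, mul_one] at h
    have hmem : x ^ (1 - k ^ p ^ e) ∈ Z := by
      rw [zpow_sub, zpow_one]
      have : v = x * (x ^ (k ^ p ^ e))⁻¹ := by
        calc v = (x ^ (k ^ p ^ e))⁻¹ * (x ^ (k ^ p ^ e) * v) := by group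
          _ = _ := by rw [← h]; group
      rw [← this]; exact hv
    have hd : (p : ℤ) ∣ 1 - k ^ p ^ e := by
      by_contra hnd
      refine hxZ ?_
      have hgen : zpowers (x ^ (1 - k ^ p ^ e)) = X := eq_of_le_of_card_ge
        (zpowers_le.mpr (zpow_mem hxX _)) (by
          rw [E.line_card, Nat.card_zpowers, orderOf_eq_prime (p := p)
            (by rw [← zpow_natCast, ← zpow_mul, mul_comm, zpow_mul, zpow_natCast, E.elem.2 x hxA, one_zpow])
            (fun h1 => hnd (by
              have h' := orderOf_dvd_iff_zpow_eq_one.mpr h1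
              rwa [orderOf_eq_prime (p := p) (E.elem.2 x hxA) hx1] at h'))])
      exact zpowers_le.mpr hmem (hgen ▸ hxX)
    have hk : (p : ℤ) ∣ k - 1 := by
      rw [← ZMod.intCast_zmod_eq_zero_iff_dvd] at hd ⊢
      push_cast at hd ⊢
      rw [ZMod.pow_card_pow] at hd
      linear_combination -hd
    obtain ⟨d, hd'⟩ := hk
    rw [show k = (p : ℤ) * d + 1 by omega, zpow_add, zpow_mul, zpow_natCast, E.elem.2 x hxA, one_zpow,
      one_mul, zpow_one]
  rw [hk1] at hkw
  have hw1 : w ≠ 1 := fun e => huC (mem_centralizer_iff.mpr fun a ha => by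
    obtain ⟨i, v, hv, rfl⟩ := hdec a ha
    have hcx : Commute u x := mul_inv_eq_iff_eq_mul.mp (hkw.symm.trans (by rw [e, mul_one]))
    exact ((hcx.zpow_right i).mul_right (show Commute u v from mem_centralizer_iff.mp hv.2 u huP)).eq.symm)
  -- the contradiction
  obtain ⟨q, hq, hσ⟩ := sigma_nonempty hG E.coatom (fun e => hP1 (le_bot_iff.mp (e ▸ hPM)))
  haveI := Fact.mk hq
  obtain ⟨Q, hQM, -, hPQ⟩ := exists_invariant_sylow_sigma hG E.coatom hσ E.notSigma hPp hPM
    (IsPGroup.of_bot (p := q)) bot_le (by rw [normalizer_eq_top (⊥ : Subgroup G)]; exact le_top)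
  set R := MulAut.conj g • (Q : Subgroup G)
  have hPR : P ≤ normalizer (R : Set G) := fun y hy => by
    refine Coprime.mem_normalizer_of_conj_smul_eq ?_
    have hy' := hPQ ((mem_normalizer_iff''.mp hgN y).mp hy)
    rw [← mul_smul, ← map_mul, show y * g = g * (g⁻¹ * y * g) by group, map_mul, mul_smul,
      Coprime.conj_smul_eq_self hy']
  have hRX := E.conj_inf_centralizer hG hσ hQM hgM (hAP.trans hPR)
  have hRZ : centralizer (Z : Set G) ⊓ R = ⊥ := by
    by_contra h
    have hL : centralizer (Z : Set G) ≠ ⊤ := fun e => by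
      have hn : normalizer (Z : Set G) = ⊤ := top_le_iff.mp (e.ge.trans (centralizer_le_normalizer _))
      rcases hG.2.1.eq_bot_or_eq_top_of_normal Z (normalizer_eq_top_iff.mp hn) with h1 | h1
      · rw [h1, card_bot] at hZp; exact hp.out.ne_one hZp.symm
      · exact ne_top_of_le E.coatom (inf_le_left.trans E.le) h1
    have hAL : A ≤ centralizer (Z : Set G) :=
      (comm_le_centralizer E.elem.1).trans (Subgroup.centralizer_le inf_le_left)
    refine h (E.conj_not_both hG hσ hQM (hAP.trans hPQ) hgM (hAP.trans hPR) hL hAL fun h1 => h ?_)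
    rw [eq_bot_iff]
    rintro c ⟨hc1, hc2⟩
    have hq' : g⁻¹ * c * g ∈ (Q : Subgroup G) := Coprime.mem_conj_smul.mp hc2
    have hc3 : g⁻¹ * c * g ∈ centralizer (Z : Set G) := mem_centralizer_iff.mpr fun v hv => by
      have h2 := mem_centralizer_iff.mp hc1 _ ((mem_normalizer_iff.mp (hZn hgN) v).mp hv)
      calc v * (g⁻¹ * c * g) = g⁻¹ * ((g * v * g⁻¹) * c) * g := by group
        _ = _ := by rw [h2]; group
    have h3 : g⁻¹ * c * g = 1 := mem_bot.mp (h1 ▸ (⟨hc3, hq'⟩ : g⁻¹ * c * g ∈ centralizer (Z : Set G) ⊓ (Q : Subgroup G)))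
    refine mem_bot.mpr ?_
    calc c = g * (g⁻¹ * c * g) * g⁻¹ := by group
      _ = 1 := by rw [h3]; group
  have hall : ∀ a ∈ A, a ≠ 1 → ∀ c ∈ R, a * c = c * a → c = 1 := by
    intro a ha ha1 c hc hac
    have hpo : orderOf a = p := orderOf_eq_prime (E.elem.2 a ha) ha1
    obtain ⟨i, v, hv, rfl⟩ := hdec a ha
    by_cases hi : (p : ℤ) ∣ i
    · obtain ⟨d, rfl⟩ := hi
      rw [zpow_mul, zpow_natCast, E.elem.2 x hxA, one_zpow, one_mul] at ha1 hac
      have hgen : zpowers v = Z := eq_of_le_of_card_ge (zpowers_le.mpr hv) (by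
        rw [hZp, Nat.card_zpowers, orderOf_eq_prime (p := p) (E.elem.2 v hv.1) ha1])
      refine mem_bot.mp (hRZ ▸ (⟨?_, hc⟩ : c ∈ centralizer (Z : Set G) ⊓ R))
      rw [← hgen, centralizer_zpowers]
      exact mem_centralizer_singleton_iff.mpr hac.symm
    · -- a power of `a` is a conjugate of `x`
      obtain ⟨j, hj⟩ : ∃ j : ℤ, (x ^ i) ^ j = x := by
        refine mem_zpowers_iff.mp ?_
        have hgen' : zpowers (x ^ i) = X := eq_of_le_of_card_ge (zpowers_le.mpr (zpow_mem hxX _)) (by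
          rw [E.line_card, Nat.card_zpowers, orderOf_eq_prime (p := p)
            (by rw [← zpow_natCast, ← zpow_mul, mul_comm, zpow_mul, zpow_natCast, E.elem.2 x hxA, one_zpow])
            (fun h1 => hi (by
              have h' := orderOf_dvd_iff_zpow_eq_one.mpr h1
              rwa [orderOf_eq_prime (p := p) (E.elem.2 x hxA) hx1] at h'))])
        rw [hgen']; exact hxX
      have haj : (x ^ i * v) ^ j = x * v ^ j := by
        rw [(show Commute (x ^ i) v from Commute.zpow_left (elem_comm E.elem hxA hv.1) i).mul_zpow, hj]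
      obtain ⟨n, hn⟩ : ∃ n : ℕ, w ^ n = v ^ j := by
        have hgw : zpowers w = Z := eq_of_le_of_card_ge (zpowers_le.mpr hw) (by
          rw [hZp, Nat.card_zpowers, orderOf_eq_prime (p := p) (E.elem.2 w hw.1) hw1])
        have hmem : v ^ j ∈ zpowers w := by rw [hgw]; exact zpow_mem hv j
        rw [← mem_powers_iff_mem_zpowers] at hmem
        exact hmem
      have hun : ∀ m : ℕ, u ^ m * x * (u ^ m)⁻¹ = x * w ^ m := by
        intro m
        induction m with
        | zero => simp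
        | succ m ih =>
          calc u ^ (m + 1) * x * (u ^ (m + 1))⁻¹ = u * (u ^ m * x * (u ^ m)⁻¹) * u⁻¹ := by rw [pow_succ']; group
            _ = (u * x * u⁻¹) * (u * w ^ m * u⁻¹) := by rw [ih]; group
            _ = x * w ^ (m + 1) := by rw [huw _ (pow_mem hw m), ← hkw, pow_succ', mul_assoc]
      have hc' : x * v ^ j * c = c * (x * v ^ j) := haj ▸ ((show Commute _ c from hac).zpow_left j).eq
      rw [← hn, ← hun n] at hc'
      have hr : (u ^ n)⁻¹ * c * u ^ n ∈ centralizer (X : Set G) ⊓ R := by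
        refine ⟨?_, (mem_normalizer_iff''.mp (hPR (pow_mem huP n)) c).mp hc⟩
        rw [← hXx, centralizer_zpowers]
        refine mem_centralizer_singleton_iff.mpr ?_
        calc (u ^ n)⁻¹ * c * u ^ n * x = (u ^ n)⁻¹ * (c * (u ^ n * x * (u ^ n)⁻¹)) * u ^ n := by group
          _ = x * ((u ^ n)⁻¹ * c * u ^ n) := by rw [← hc']; group
      rw [hRX, mem_bot] at hr
      calc c = u ^ n * ((u ^ n)⁻¹ * c * u ^ n) * (u ^ n)⁻¹ := by group
        _ = 1 := by rw [hr]; group
  have hcopR : (Nat.card A).Coprime (Nat.card R) :=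
    coprime_pgroups (E.ne_of_sigma hσ) (elem_isPGroup E.elem) (Coprime.isPGroup_conj_smul Q.2 g)
  have hfix := Coprime.fixGen_eq_of_elementary hp.out (fun a ha b hb => elem_comm E.elem ha hb) E.elem.2 E.card
    (hAP.trans hPR) hcopR
  have hR1 : R = ⊥ := by
    refine le_bot_iff.mp (hfix.ge.trans (iSup₂_le fun a ha => fun c hc => mem_bot.mpr ?_))
    exact hall a ha.1 ha.2 c hc.1 (mem_centralizer_singleton_iff.mp hc.2).symm
  have hq1 : q ∣ Nat.card (Q : Subgroup G) := by
    refine Q.dvd_card_of_dvd_card (hσ.2.1.trans M.card_subgroup_dvd_card)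
  rw [← Coprime.card_conj_smul g, show MulAut.conj g • (Q : Subgroup G) = R from rfl, hR1, card_bot] at hq1
  exact hq.not_dvd_one hq1

/-- `A` is exactly the set of elements of order dividing `p` of such a Sylow subgroup. -/
theorem mem_iff_pow_eq_one (E : Exc M A X p) (hG : IsMinSimpleOddOrder G) (S : Sylow p M)
    (hAP : A ≤ (S : Subgroup M).map M.subtype) {y : G} (hy : y ∈ (S : Subgroup M).map M.subtype) :
    y ^ p = 1 ↔ y ∈ A :=
  ⟨fun h => E.mem_of_commute hG h fun a ha => (mem_centralizer_iff.mp (E.le_centralizer_sylow hG S hAP ha) y hy).symm,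
    fun h => E.elem.2 y h⟩

omit [Finite G] in
theorem exists_sylow_ge [Finite G] (E : Exc M A X p) : ∃ S : Sylow p M, A ≤ (S : Subgroup M).map M.subtype := by
  obtain ⟨S, hS⟩ := ((elem_isPGroup E.elem).comap_subtype (K := M)).exists_le_sylow
  exact ⟨S, fun a ha => ⟨⟨a, E.le ha⟩, hS ha, rfl⟩⟩

/-- Two lines of `A` acting without fixed points on `M_σ`, and an element of `N(A)` outside `M`. -/
theorem exists_fpf (E : Exc M A X p) (hG : IsMinSimpleOddOrder G) :
    (∃ g ∈ normalizer (A : Set G), g ∉ M) ∧ ∃ t₁ t₂ : G, t₁ ∈ A ∧ t₂ ∈ A ∧ t₁ ≠ 1 ∧ t₂ ≠ 1 ∧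
      zpowers t₁ ⊔ zpowers t₂ = A ∧ FpfOn M t₁ ∧ FpfOn M t₂ := by
  classical
  obtain ⟨S, hAP⟩ := E.exists_sylow_ge
  set P := (S : Subgroup M).map M.subtype with hP
  obtain ⟨g, hgN, hgM⟩ := SetLike.not_le_iff_exists.mp (E.normalizer_sylow_not_le S)
  have hNA : normalizer (P : Set G) ≤ normalizer (A : Set G) := fun h hh => by
    refine Coprime.mem_normalizer_of_conj_smul_eq (eq_of_le_of_card_ge ?_ (Coprime.card_conj_smul h A).ge)
    intro y hy
    obtain ⟨w, hw, rfl⟩ := hy
    refine (E.mem_iff_pow_eq_one hG S hAP ((mem_normalizer_iff.mp hh w).mp (hAP hw))).mp ?_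
    rw [conj_pow, E.elem.2 w hw]; group
  refine ⟨⟨g, hNA hgN, hgM⟩, ?_⟩
  have hg2 : g ^ 2 ∉ M := fun h => hgM (by
    obtain ⟨i, hi⟩ := exists_pow_eq_self_of_coprime (x := g) (n := 2)
      ((Nat.Prime.coprime_iff_not_dvd Nat.prime_two).mpr
        fun h => hG.1.not_two_dvd_nat (h.trans (_root_.orderOf_dvd_natCard g)))
    rw [← hi]
    exact pow_mem h i)
  obtain ⟨x, hxX, hx1⟩ := X.bot_or_exists_ne_one.resolve_left fun e => by
    have := E.line_card
    rw [e, card_bot] at this
    exact hp.out.ne_one this.symm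
  have hXx : zpowers x = X := eq_of_le_of_card_ge (zpowers_le.mpr hxX) (by
    rw [E.line_card, Nat.card_zpowers, orderOf_eq_prime (p := p) (E.elem.2 x (E.line_le hxX)) hx1])
  have hfpf : ∀ h ∈ normalizer (A : Set G), h ∉ M → FpfOn M (h⁻¹ * x * h) := by
    intro h hh hhM c hc hcomm
    set t := h⁻¹ * x * h
    have htA : t ∈ A := (mem_normalizer_iff''.mp hh x).mp (E.line_le hxX)
    by_contra hc1
    set C := sigmaCore M ⊓ centralizer ({t} : Set G) with hC
    have hcC : c ∈ C := ⟨hc, mem_centralizer_singleton_iff.mpr hcomm.symm⟩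
    have hne : Nat.card C ≠ 1 := fun e => hc1 (mem_bot.mp (card_eq_one.mp e ▸ hcC))
    obtain ⟨q, hq, hqC⟩ := Nat.exists_prime_and_dvd hne
    haveI := Fact.mk hq
    have hσ : q ∈ sigma M := OddLocal.piCoreOf_isPi (sigma M) M q hq (hqC.trans (card_dvd_of_le inf_le_left))
    have hAC : A ≤ normalizer (C : Set G) := (le_inf (E.le.trans (OddLocal.le_normalizer_piCoreOf _ M))
      (((comm_le_centralizer E.elem.1).trans (Subgroup.centralizer_le (Set.singleton_subset_iff.mpr htA))).trans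
        le_normalizer)).trans inf_normalizer_le_normalizer_inf
    have hcop : (Nat.card A).Coprime (Nat.card C) := Nat.coprime_of_dvd fun r hr h1 h2 =>
      E.notSigma (isPGroup_ne_dvd (elem_isPGroup E.elem) hr h1 ▸
        OddLocal.piCoreOf_isPi (sigma M) M r hr (h2.trans (card_dvd_of_le inf_le_left)))
    haveI := solvable_of_ne_top hG (pgroup_ne_top hG (elem_isPGroup E.elem))
    obtain ⟨T, hT⟩ := Coprime.exists_invariant_sylow hAC hcop (Or.inl inferInstance) q
    set Y := (T : Subgroup C).map C.subtype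
    obtain ⟨Q, hQM, hYQ, hAQ⟩ := exists_invariant_sylow_sigma hG E.coatom hσ E.notSigma (elem_isPGroup E.elem)
      E.le (T.2.map C.subtype) ((map_subtype_le _).trans (inf_le_left.trans (OddLocal.piCoreOf_le _ M))) hT
    have hR : A ≤ normalizer ((MulAut.conj h • (Q : Subgroup G) : Subgroup G) : Set G) := fun a ha => by
      refine Coprime.mem_normalizer_of_conj_smul_eq ?_
      have ha' := hAQ ((mem_normalizer_iff''.mp hh a).mp ha)
      rw [← mul_smul, ← map_mul, show a * h = h * (h⁻¹ * a * h) by group, map_mul, mul_smul,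
        Coprime.conj_smul_eq_self ha']
    have hbot := E.conj_inf_centralizer hG hσ hQM hhM hR
    refine T.ne_bot_of_dvd_card hqC ((Subgroup.map_eq_bot_iff_of_injective _ C.subtype_injective).mp ?_)
    rw [eq_bot_iff]
    intro y hy
    have h1 : h * y * h⁻¹ ∈ centralizer (X : Set G) ⊓ MulAut.conj h • (Q : Subgroup G) := by
      refine ⟨?_, Coprime.conj_mem_conj_smul (hYQ hy)⟩
      rw [← hXx, centralizer_zpowers]
      refine mem_centralizer_singleton_iff.mpr ?_
      have h2 : y * t = t * y := mem_centralizer_singleton_iff.mp (map_subtype_le _ hy).2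
      calc h * y * h⁻¹ * x = h * (y * t) * h⁻¹ := by simp only [t]; group
        _ = x * (h * y * h⁻¹) := by rw [h2]; simp only [t]; group
    rw [hbot, mem_bot] at h1
    exact mem_bot.mpr (conj_eq_one_iff.mp h1)
  have hgA := hNA hgN
  refine ⟨g⁻¹ * x * g, (g ^ 2)⁻¹ * x * g ^ 2, (mem_normalizer_iff''.mp hgA x).mp (E.line_le hxX),
    (mem_normalizer_iff''.mp (pow_mem hgA 2) x).mp (E.line_le hxX), ?_, ?_, ?_, hfpf g hgA hgM,
    hfpf (g ^ 2) (pow_mem hgA 2) hg2⟩
  · intro e
    refine hx1 ?_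
    have := congrArg (fun v => g * v * g⁻¹) e
    simpa [mul_assoc] using this
  · intro e
    refine hx1 ?_
    have := congrArg (fun v => g ^ 2 * v * (g ^ 2)⁻¹) e
    simpa [mul_assoc] using this
  · set t₁ := g⁻¹ * x * g
    set t₂ := (g ^ 2)⁻¹ * x * g ^ 2
    have h1 : t₁ ∈ A := (mem_normalizer_iff''.mp hgA x).mp (E.line_le hxX)
    have h2 : t₂ ∈ A := (mem_normalizer_iff''.mp (pow_mem hgA 2) x).mp (E.line_le hxX)
    have hle : zpowers t₁ ⊔ zpowers t₂ ≤ A := sup_le (zpowers_le.mpr h1) (zpowers_le.mpr h2)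
    have hone : ∀ t : G, t ∈ A → t ≠ 1 → Nat.card (zpowers t) = p := fun t ht ht1 => by
      rw [Nat.card_zpowers, orderOf_eq_prime (p := p) (E.elem.2 t ht) ht1]
    have ht1 : t₁ ≠ 1 := fun e => hx1 (by
      have h := congrArg (fun v => g * v * g⁻¹) e
      simpa [t₁, mul_assoc] using h)
    obtain ⟨i, hi, hie⟩ := (Nat.dvd_prime_pow hp.out).mp (E.card ▸ card_dvd_of_le hle)
    refine eq_of_le_of_card_ge hle ?_
    rw [hie, E.card]
    refine Nat.pow_le_pow_right hp.out.pos ?_
    by_contra hi2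
    have hle1 : Nat.card ↥(zpowers t₁ ⊔ zpowers t₂) ≤ Nat.card (zpowers t₁) := by
      rw [hie, hone t₁ h1 ht1]
      exact le_trans (Nat.pow_le_pow_right hp.out.pos (by omega : i ≤ 1)) (pow_one p).le
    have heq := eq_of_le_of_card_ge (le_sup_left : zpowers t₁ ≤ zpowers t₁ ⊔ zpowers t₂) hle1
    have hmem : t₂ ∈ zpowers t₁ := heq ▸ mem_sup_right (mem_zpowers t₂)
    -- conjugating by `g` gives `g ∈ N(X)`
    obtain ⟨j, hj⟩ := mem_zpowers_iff.mp hmem
    refine hgM (E.line_norm ?_)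
    have h3 : g⁻¹ * x * g = x ^ j := by
      have h4 := congrArg (fun v => g * v * g⁻¹) hj
      simp only [t₁, t₂] at h4
      rw [show g⁻¹ * x * g = g⁻¹ * x * (g⁻¹)⁻¹ by group, conj_zpow] at h4
      have h5 : x ^ j = g⁻¹ * x * g := by
        simpa [pow_two, mul_assoc] using h4
      exact h5.symm
    have h6 : g⁻¹ ∈ normalizer (X : Set G) := by
      refine Coprime.mem_normalizer_of_conj_smul_eq (eq_of_le_of_card_ge ?_ (Coprime.card_conj_smul _ X).ge)
      rw [← hXx, show MulAut.conj g⁻¹ • zpowers x = (zpowers x).map (MulAut.conj g⁻¹).toMonoidHom from rfl,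
        MonoidHom.map_zpowers, zpowers_le]
      show g⁻¹ * x * (g⁻¹)⁻¹ ∈ zpowers x
      rw [inv_inv, h3]
      exact zpow_mem (mem_zpowers x) j
    simpa using inv_mem h6

/-- `M_σ` is nilpotent. -/
theorem sigmaCore_nilpotent (E : Exc M A X p) (hG : IsMinSimpleOddOrder G) : Group.IsNilpotent (sigmaCore M) := by
  obtain ⟨-, t, -, ht, -, -, -, -, hf, -⟩ := E.exists_fpf hG
  have h : Group.IsNilpotent ↥(piCore (sigma M) ↥M) := by
    refine FPF.isNilpotent_of_prime_element (h := (⟨t, E.le ht⟩ : ↥M)) (r := p) hp.out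
      (Subtype.ext (E.elem.2 t ht)) fun n hn hc => Subtype.ext ?_
    exact hf n (mem_map_of_mem _ hn) (congrArg Subtype.val hc)
  haveI := h
  exact Group.nilpotent_of_mulEquiv ((piCore (sigma M) ↥M).equivMapOfInjective M.subtype M.subtype_injective)

theorem inf_centralizer_eq_bot (E : Exc M A X p) (hG : IsMinSimpleOddOrder G) :
    sigmaCore M ⊓ centralizer (A : Set G) = ⊥ := by
  obtain ⟨-, t, -, ht, -, -, -, -, hf, -⟩ := E.exists_fpf hG
  exact eq_bot_iff.mpr fun c hc => mem_bot.mpr (hf c hc.1 (mem_centralizer_iff.mp hc.2 t ht))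

end Exc

end Cfsg.Agent.Lib.Uniq
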