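import Cfsg.Agent.Lib.Uniq.RegularPart
import Cfsg.Agent.Lib.Hall.Gaschutz
set_option autoImplicit false

/-! BG 12.16: the criterion for `M` to be of Frobenius type. -/

namespace Cfsg.Agent.Lib.Uniq

open Subgroup
open scoped Pointwise commutatorElement

universe u

variable {G : Type u} [Group G] [Finite G] {M A E : Subgroup G} {p : ℕ}

omit [Finite G] in
theorem inf_centralizer_ne_bot {x e : G} (hx : x ∈ sigmaCore M) (hx1 : x ≠ 1) (he : Commute e x) :
    sigmaCore M ⊓ centralizer ({e} : Set G) ≠ ⊥ := fun hbot =>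
  hx1 (mem_bot.mp (hbot ▸ (⟨hx, mem_centralizer_singleton_iff.mpr he.symm.eq⟩ :
    x ∈ sigmaCore M ⊓ centralizer ({e} : Set G))))

/-- A group of elements of prime power order with enough elements in a subgroup has the same exponent as that
subgroup. -/
theorem exponent_eq_of_parts {E₀ : Subgroup G} (hle : E₀ ≤ E)
    (h : ∀ y ∈ E, ∀ q k : ℕ, q.Prime → k ≠ 0 → orderOf y = q ^ k → ∃ z ∈ E₀, q ^ k ∣ orderOf z) :
    Monoid.exponent E₀ = Monoid.exponent E := by
  refine Nat.dvd_antisymm (Monoid.exponent_dvd.mpr fun z => ?_) (Monoid.exponent_dvd.mpr fun z => ?_)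
  · rw [← orderOf_injective (inclusion hle) (inclusion_injective hle)]
    exact Monoid.order_dvd_exponent _
  · rw [← orderOf_coe]
    refine (Nat.dvd_iff_prime_pow_dvd_dvd _ _).mpr fun q k hq hqk => ?_
    rcases Nat.eq_zero_or_pos k with rfl | hk
    · rw [pow_zero]; exact one_dvd _
    obtain ⟨w, hw, hwd⟩ := h _ (pow_mem z.2 (orderOf (z : G) / q ^ k)) q k hq hk.ne'
      (orderOf_pow_orderOf_div (orderOf_pos _).ne' hqk)
    exact hwd.trans (orderOf_coe (⟨w, hw⟩ : E₀) ▸ Monoid.order_dvd_exponent _)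

variable [hp : Fact p.Prime]

/-- No element of order `p²` has its `p`-th power in the exceptional line. -/
theorem pow_not_mem_exc (hG : IsMinSimpleOddOrder G) (hM : IsCoatom M) (hE : IsComplIn E (sigmaCore M) M)
    (hpσ : p ∉ sigma M) (hS : ∀ S : Sylow p G, ¬ IsMulCommutative (S : Subgroup G))
    (hA : IsElementaryAbelian p A) (hAE : A ≤ E) (hAc : Nat.card A = p ^ 2) {u : G} (hu : u ∈ E) {k : ℕ}
    (huk : u ^ p ^ k = 1) (hu1 : u ^ p ≠ 1) : u ^ p ∉ A ⊓ centralizer (sigmaCore M : Set G) := by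
  classical
  intro hmem
  have hAM := hAE.trans hE.1
  obtain ⟨-, ⟨hX₀c, -⟩, -⟩ := tau_two_nonabelian hG hM hE hpσ hS hA hAE hAc
  obtain ⟨X, hX⟩ := exists_exc hG hM hpσ hAM hA hAc
  have hp2 : p ≠ 2 := fun e => hG.1.not_two_dvd_nat (e ▸
    (dvd_pow_self p two_ne_zero).trans (hAc.symm.dvd.trans A.card_subgroup_dvd_card))
  have hEA := (le_normalizer_compl hG hM hE hpσ hAE hA hAc).1
  -- a Sylow subgroup of `M` containing `A` and `u`
  have hUp : IsPGroup p ↥(A ⊔ zpowers u) := by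
    have hz : IsPGroup p (zpowers u) := fun ⟨z, hz⟩ => by
      obtain ⟨i, rfl⟩ := mem_zpowers_iff.mp hz
      exact ⟨k, Subtype.ext (by
        show (u ^ i) ^ p ^ k = 1
        rw [← zpow_natCast, ← _root_.zpow_mul, mul_comm, _root_.zpow_mul, zpow_natCast, huk, one_zpow])⟩
    exact IsPGroup.to_sup_of_normal_left' (elem_isPGroup hA) hz (zpowers_le.mpr (hEA hu))
  have hUM : A ⊔ zpowers u ≤ M := sup_le hAM (zpowers_le.mpr (hE.1 hu))
  obtain ⟨S, hUS⟩ := (hUp.comap_subtype (K := M)).exists_le_sylow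
  set R := (S : Subgroup M).map M.subtype with hR
  have hUR : A ⊔ zpowers u ≤ R := fun z hz => ⟨⟨z, hUM hz⟩, hUS hz, rfl⟩
  obtain ⟨h, hhR, hhM⟩ := SetLike.not_le_iff_exists.mp (hX.normalizer_sylow_not_le S)
  have hRC : R ≤ centralizer (A : Set G) := le_centralizer_iff.mp (hX.le_centralizer_sylow hG S (le_sup_left.trans hUR))
  obtain ⟨T, hRT⟩ := (S.2.map M.subtype).exists_le_sylow
  have huR : u ∈ R := hUR (le_sup_right (a := A) (mem_zpowers u))
  have hhu : h * u * h⁻¹ ∈ R := (mem_normalizer_iff.mp hhR u).mp huR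
  have hup : (u ^ p) ^ p = 1 := hA.2 _ hmem.1
  have hline := pow_line_unique hG hp2 T hA hAc (hX.hmax hG) ((le_sup_left.trans hUR).trans hRT) (hS T)
    (x := u) (y := h * u * h⁻¹) ⟨hRT huR, hRC huR⟩ ⟨hRT hhu, hRC hhu⟩ hup
    (by rw [conj_pow, conj_pow, hup]; group) hu1
  have hzX : zpowers (u ^ p) = A ⊓ centralizer (sigmaCore M : Set G) := eq_of_le_of_card_ge (zpowers_le.mpr hmem)
    (by rw [hX₀c, Nat.card_zpowers, orderOf_eq_prime hup hu1])
  have hhN : h ∈ normalizer ((zpowers (u ^ p) : Subgroup G) : Set G) := by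
    refine Coprime.mem_normalizer_of_conj_smul_eq (eq_of_le_of_card_ge ?_ (Coprime.card_conj_smul _ _).ge)
    rw [show MulAut.conj h • zpowers (u ^ p) = (zpowers (u ^ p)).map (MulAut.conj h).toMonoidHom from rfl,
      MonoidHom.map_zpowers, zpowers_le]
    show h * u ^ p * h⁻¹ ∈ zpowers (u ^ p)
    rwa [← conj_pow]
  have hbot := good_of_normalized hG hM hpσ hAM hA hAc (hzX.le.trans inf_le_left)
    (fun e => hu1 (zpowers_eq_bot.mp e)) hhN hhM
  rw [hzX] at hbot
  have hle : sigmaCore M ≤ centralizer ((A ⊓ centralizer (sigmaCore M : Set G) : Subgroup G) : Set G) :=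
    le_centralizer_iff.mp inf_le_right
  rw [inf_eq_left.mpr hle] at hbot
  exact sigmaCore_ne_bot hG hM (fun e => hu1 (by
    have h0 := hE.1 hu
    rw [e, mem_bot] at h0
    rw [h0, one_pow])) hbot

end Cfsg.Agent.Lib.Uniq
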