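import Cfsg.Agent.Lib.Uniq.SigmaPart
set_option autoImplicit false

/-! Conjugation of the groups `R(x)` and disjointness of the sets `M̃` (BG 14.5). -/

namespace Cfsg.Agent.Lib.Uniq

open Subgroup
open scoped Pointwise commutatorElement

universe u

variable {G : Type u} [Group G] [Finite G] {M N : Subgroup G}

omit [Finite G] in
theorem conj_smul_centralizer_singleton (g x : G) :
    MulAut.conj g • centralizer ({x} : Set G) = centralizer ({g * x * g⁻¹} : Set G) := by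
  ext c
  rw [Coprime.mem_conj_smul, mem_centralizer_singleton_iff, mem_centralizer_singleton_iff]
  constructor <;> intro h
  · calc c * (g * x * g⁻¹) = g * (g⁻¹ * c * g * x) * g⁻¹ := by group
      _ = g * (x * (g⁻¹ * c * g)) * g⁻¹ := by rw [h]
      _ = _ := by group
  · calc g⁻¹ * c * g * x = g⁻¹ * (c * (g * x * g⁻¹)) * g := by group
      _ = g⁻¹ * (g * x * g⁻¹ * c) * g := by rw [h]
      _ = _ := by group

/-- BG 14.3 in the shape used by BG 14.5. -/
theorem h32 (hG : IsMinSimpleOddOrder G) : ∀ A : Subgroup G, IsCoatom A → ∀ a : G, a ∈ sigmaCore A → a ≠ 1 → ∀ b : G,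
    b ∈ A ⊓ centralizer ({a} : Set G) → b ≠ 1 → (∀ p : ℕ, p.Prime → p ∣ orderOf b → p ∉ sigma A) →
    (∀ p : ℕ, p.Prime → p ∣ orderOf b → p ∈ tau2 A) ∧ centralizer ({b} : Set G) ≤ A ∨
      centralizer ({a} : Set G) ≤ A := fun A hA a ha ha1 b hb hb1 hσ => by
  rcases OddLocal.SigmaPrimeElem.sigma_prime_element hG hA (h30 hG A hA) ha ha1 hb hb1 hσ with h | h
  · exact Or.inr h.2
  · exact Or.inl ⟨h.1, h.2.2.1⟩

/-- `R(x)` is equivariant. -/
theorem conj_mem_supportR (hG : IsMinSimpleOddOrder G) (hM : IsCoatom M) {x : G} (hx : x ∈ sigmaCore M) (hx1 : x ≠ 1)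
    {r : G} (hr : r ∈ supportR M x) (g : G) :
    g * r * g⁻¹ ∈ supportR (MulAut.conj g • M) (g * x * g⁻¹) := by
  classical
  rcases OddLocal.Signalizer.supportR_cases M x with h | ⟨L, hL, hne, hCL, hle⟩
  · rw [h, mem_bot] at hr
    subst hr
    simpa using (supportR (MulAut.conj g • M) (g * x * g⁻¹)).one_mem
  obtain ⟨L', ⟨hL', hCL'⟩, huniq, -, hLF, -, -, -, -⟩ :=
    OddLocal.Support.support_data hG (hdisj hG) (h30 hG) hM hx hx1 hne
  obtain rfl := huniq L hL hCL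
  have hrL : r ∈ sigmaCore L := hLF ▸ (hle hr).1
  have hC : centralizer ({g * x * g⁻¹} : Set G) ≤ MulAut.conj g • L := by
    rw [← conj_smul_centralizer_singleton]
    exact pointwise_smul_le_pointwise_smul_iff.mpr hCL
  have hne' : ¬ centralizer ({g * x * g⁻¹} : Set G) ≤ MulAut.conj g • M := fun h => hne (by
    rw [← conj_smul_centralizer_singleton] at h
    exact pointwise_smul_le_pointwise_smul_iff.mp h)
  obtain ⟨L₁, ⟨hL₁, hCL₁⟩, huniq₁, -, hLF₁, -, -, -, -⟩ := OddLocal.Support.support_data hG (hdisj hG) (h30 hG)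
    (coatom_smul g hM) (conj_mem_sigmaCore hG hM hx g) (fun h => hx1 (conj_eq_one_iff.mp h)) hne'
  have hex : ¬ centralizer ({g * x * g⁻¹} : Set G) ≤ MulAut.conj g • M ∧
      ∃! L : Subgroup G, IsCoatom L ∧ centralizer ({g * x * g⁻¹} : Set G) ≤ L :=
    ⟨hne', L₁, ⟨hL₁, hCL₁⟩, fun L' hL' => huniq₁ L' hL'.1 hL'.2⟩
  rw [supportR, dif_pos hex]
  obtain ⟨h1, h2⟩ := Classical.choose_spec hex.2.exists
  rw [huniq₁ _ h1 h2, ← hLF₁, ← huniq₁ _ (coatom_smul g hL) hC]
  refine ⟨conj_mem_sigmaCore hG hL hrL g, ?_⟩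
  show g * r * g⁻¹ ∈ centralizer ({g * x * g⁻¹} : Set G)
  rw [← conj_smul_centralizer_singleton, Coprime.mem_conj_smul]
  simpa [mul_assoc] using (hle hr).2

/-- Elements of `x R(x)`: a commuting product of the `σ(M)`-part `x` and a `σ(M)'`-element. -/
theorem supportR_spec (hG : IsMinSimpleOddOrder G) (hM : IsCoatom M) {x : G} (hx : x ∈ sigmaCore M) {r : G}
    (hr : r ∈ supportR M x) : Commute x r ∧ PiElem (sigma M)ᶜ r ∧ (centralizer ({x} : Set G) ≤ M → r = 1) := by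
  rcases OddLocal.Signalizer.supportR_cases M x with h | ⟨L, hL, hne, hCL, hle⟩
  · rw [h, mem_bot] at hr
    subst hr
    exact ⟨Commute.one_right x, PiElem.one, fun _ => rfl⟩
  refine ⟨(mem_centralizer_singleton_iff.mp (hle hr).2).symm, fun p hp hd hσ => ?_, fun h => absurd h hne⟩
  obtain ⟨g, hg⟩ := conj_of_sigma_sigma hG hM hL hσ
    (PiElem.of_sigmaCore (OddLocal.Signalizer.fittingHallOf_le_sigmaCore hG hL (hle hr).1) p hp hd)
  exact OddLocal.Signalizer.not_conj hG hM hx hne hCL g hg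

/-- The sets `M̃` and `Ñ` of non-conjugate maximal subgroups are disjoint. -/
theorem tilde_disjoint (hG : IsMinSimpleOddOrder G) (hM : IsCoatom M) (hN : IsCoatom N)
    (hnc : ∀ g : G, N ≠ MulAut.conj g • M) :
    Disjoint (tildeOf M ((sigmaCore M : Set G) \ {1})) (tildeOf N ((sigmaCore N : Set G) \ {1})) := by
  rw [Set.disjoint_left]
  rintro z ⟨x, ⟨hx, hx1⟩, r, hr, a, rfl⟩ ⟨y, ⟨hy, hy1⟩, s, hs, b, hb⟩
  rw [Set.mem_singleton_iff] at hx1 hy1
  set g := a⁻¹ * b with hg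
  have he : x * r = g * y * g⁻¹ * (g * s * g⁻¹) := by
    have h := congrArg (fun t => a⁻¹ * t * a) hb
    calc x * r = a⁻¹ * (a * (x * r) * a⁻¹) * a := by group
      _ = a⁻¹ * (b * (y * s) * b⁻¹) * a := h
      _ = _ := by rw [hg]; group
  refine OddLocal.Signalizer.coset_disjoint hG (hdisj hG) (h32 hG) hM (coatom_smul g hN) hx
    (conj_mem_sigmaCore hG hN hy g) hx1 (fun h => hy1 (conj_eq_one_iff.mp h)) ?_ r hr _
    (conj_mem_supportR hG hN hy hy1 hs g) he
  intro hxy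
  obtain ⟨p, hp, hd⟩ := Nat.exists_prime_and_dvd (fun e => hx1 (orderOf_eq_one_iff.mp e))
  obtain ⟨c, hc⟩ := conj_of_sigma_sigma hG hM hN (PiElem.of_sigmaCore hx p hp hd)
    ((sigma_conj_iff hG hN g).mp (PiElem.of_sigmaCore (hxy ▸ conj_mem_sigmaCore hG hN hy g) p hp hd))
  exact hnc c hc

end Cfsg.Agent.Lib.Uniq
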