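import Cfsg.Agent.Lib.Uniq.KappaPartner
import Cfsg.Agent.Lib.Uniq.SupportConj
set_option autoImplicit false

/-! BG 14.7: the maximal subgroups sharing `Z = K K*`, and the counting argument. -/

namespace Cfsg.Agent.Lib.Uniq

open Subgroup
open scoped Pointwise commutatorElement

universe u

variable {G : Type u} [Group G] [Finite G] {M N K Z L : Subgroup G}

/-- `L` is a maximal subgroup with a Hall `κ(L)`-subgroup `J` with `Z = J ⊔ J*`. -/
def IsZMember (Z L : Subgroup G) : Prop :=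
  IsCoatom L ∧ ∃ J : Subgroup G, IsPiHallOf (kappa L) J L ∧ J ≠ ⊥ ∧
    J ⊔ (sigmaCore L ⊓ centralizer (J : Set G)) = Z

/-- Every prime of `Z` lies in `σ` of a member. -/
def IsZCovered (Z : Subgroup G) : Prop :=
  ∀ p : ℕ, p.Prime → p ∣ Nat.card Z → ∃ L : Subgroup G, IsZMember Z L ∧ p ∈ sigma L

theorem IsZMember.le (h : IsZMember Z L) : Z ≤ L := by
  obtain ⟨-, J, hJ, -, hZ⟩ := h
  exact hZ ▸ sup_le hJ.1 (inf_le_left.trans (map_subtype_le _))

theorem IsZMember.core_inf {J : Subgroup G} (hJ : IsPiHallOf (kappa L) J L)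
    (hZ : J ⊔ (sigmaCore L ⊓ centralizer (J : Set G)) = Z) :
    sigmaCore L ⊓ Z = sigmaCore L ⊓ centralizer (J : Set G) := by
  refine le_antisymm (fun z hz => ?_) (le_inf inf_le_left (hZ ▸ le_sup_right))
  exact mem_right_of_join (π := kappa L) (le_centralizer_iff.mp inf_le_right) hJ.2.1
    (fun p hp hd h => h.2.2.1 (OddLocal.piCoreOf_isPi (sigma L) L p hp (hd.trans (card_dvd_of_le inf_le_left))))
    (hZ.ge hz.2) (fun p hp hd h => h.2.2.1 (PiElem.of_sigmaCore hz.1 p hp hd))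

theorem IsZMember.core_mem (hG : IsMinSimpleOddOrder G) (h : IsZMember Z L) {z : G} (hz : z ∈ Z)
    (hπ : PiElem (sigma L) z) : z ∈ sigmaCore L :=
  le_sigmaCore hG h.1 (Y := zpowers z) (zpowers_le.mpr (h.le hz))
    (fun p hp hd => hπ p hp (Nat.card_zpowers z ▸ hd)) (mem_zpowers z)

theorem IsZMember.centralizer_le (hG : IsMinSimpleOddOrder G) (h : IsZMember Z L) {z : G} (hz : z ∈ Z)
    (hzσ : z ∈ sigmaCore L) (hz1 : z ≠ 1) : centralizer ({z} : Set G) ≤ L := by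
  obtain ⟨hL, J, hJ, hJ1, hZ⟩ := h
  exact star_centralizer_le hG hL hJ hJ1 ((IsZMember.core_inf hJ hZ).le ⟨hzσ, hz⟩) hz1

/-- Members are pairwise non-conjugate. -/
theorem IsZMember.eq_of_conj (hG : IsMinSimpleOddOrder G) (h : IsZMember Z L) (h' : IsZMember Z N) {g : G}
    (hg : N = MulAut.conj g • L) : N = L := by
  obtain ⟨hL, J, hJ, hJ1, hZ⟩ := h
  obtain ⟨x, hx, hx1⟩ := (bot_or_exists_ne_one _).resolve_left (star_ne_bot hG hL hJ hJ1)
  have hgL : g ∈ L := conj_eq_of_mem hG hL hx.1 (star_centralizer_le hG hL hJ hJ1 hx hx1)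
    (hg ▸ h'.le (hZ.le (mem_sup_right hx)))
  rw [hg, Coprime.conj_smul_eq_self (le_normalizer hgL)]

theorem IsZMember.not_conj (hG : IsMinSimpleOddOrder G) (h : IsZMember Z L) (h' : IsZMember Z N) (hne : N ≠ L) :
    ∀ g : G, N ≠ MulAut.conj g • L := fun _ hg => hne (h.eq_of_conj hG h' hg)

/-- The elements of `Z` outside all `L_σ`. -/
def zHat (Z : Subgroup G) : Set G :=
  {z : G | z ∈ Z ∧ ∀ L : Subgroup G, IsZMember Z L → z ∉ sigmaCore L}

/-- `Ẑ` is a TI-set with normaliser `Z`. -/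
theorem mem_of_conj_zHat (hG : IsMinSimpleOddOrder G) (hcov : IsZCovered Z) (hex : ∃ L, IsZMember Z L)
    {z : G} (hz : z ∈ zHat Z) {g : G} (hg : g * z * g⁻¹ ∈ Z) : g ∈ Z := by
  obtain ⟨hzZ, hzσ⟩ := hz
  have hz1 : z ≠ 1 := fun e => by obtain ⟨L, hL⟩ := hex; exact hzσ L hL (e ▸ one_mem _)
  obtain ⟨t, ht, htd⟩ := Nat.exists_prime_and_dvd (fun e => hz1 (orderOf_eq_one_iff.mp e))
  obtain ⟨L, hL, htL⟩ := hcov t ht (htd.trans (Z.orderOf_dvd_natCard hzZ))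
  obtain ⟨t', ht', htd', htL'⟩ : ∃ t' : ℕ, t'.Prime ∧ t' ∣ orderOf z ∧ t' ∉ sigma L := by
    by_contra h
    push Not at h
    exact hzσ L hL (hL.core_mem hG hzZ h)
  set y := z ^ (orderOf z / t) with hy
  set y' := z ^ (orderOf z / t') with hy'
  have hyo : orderOf y = t := orderOf_pow_orderOf_div (orderOf_pos z).ne' htd
  have hyo' : orderOf y' = t' := orderOf_pow_orderOf_div (orderOf_pos z).ne' htd'
  have hconj : ∀ n : ℕ, g * z ^ n * g⁻¹ ∈ Z := fun n => by rw [← conj_pow]; exact Z.pow_mem hg n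
  have hy1 : y ≠ 1 := fun e => ht.ne_one (by rw [← hyo, e, orderOf_one])
  have hyσ : y ∈ sigmaCore L := hL.core_mem hG (Z.pow_mem hzZ _) fun p hp hd =>
    (Nat.prime_dvd_prime_iff_eq hp ht).mp (hyo ▸ hd) ▸ htL
  have hgL : g ∈ L := by
    obtain ⟨m, hm, c, hc, rfl⟩ := OddLocal.SigmaPrimeElem.exists_mul_centralizer hG hL.1 hyσ (hL.le (hconj _))
    exact L.mul_mem hm (hL.centralizer_le hG (Z.pow_mem hzZ _) hyσ hy1 hc)
  obtain ⟨hLc, J, hJ, hJ1, hZ⟩ := hL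
  haveI := Fact.mk ht'
  have hmemJ : ∀ w ∈ Z, orderOf w = t' → w ∈ J := fun w hw hwo =>
    mem_left_of_join (π := (sigma L)ᶜ) (le_centralizer_iff.mp inf_le_right)
      (fun p hp hd => (hJ.2.1 p hp hd).2.2.1)
      (fun p hp hd h => h (OddLocal.piCoreOf_isPi (sigma L) L p hp (hd.trans (card_dvd_of_le inf_le_left))))
      (hZ.ge hw) fun p hp hd => (Nat.prime_dvd_prime_iff_eq hp ht').mp (hwo ▸ hd) ▸ htL'
  have hoc : orderOf (g * y' * g⁻¹) = t' := by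
    rw [show g * y' * g⁻¹ = MulAut.conj g y' from rfl, MulEquiv.orderOf_eq, hyo']
  have hcard : Nat.card (zpowers y') = t' := by rw [Nat.card_zpowers, hyo']
  have hX : zpowers y' ≤ J := zpowers_le.mpr (hmemJ y' (Z.pow_mem hzZ _) hyo')
  obtain ⟨j, hj, hje⟩ := OddLocal.KappaStar.conj_lines hJ hX (zpowers_le.mpr (hmemJ _ (hconj _) hoc)) hcard
    (by rw [Nat.card_zpowers, hoc])
  obtain ⟨-, -, hlines⟩ := kappa_structure hG hLc hJ hJ1
  have hw : j⁻¹ * g ∈ normalizer ((zpowers y' : Subgroup G) : Set G) := by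
    refine Coprime.mem_normalizer_of_conj_smul_eq ?_
    rw [map_mul, mul_smul, map_inv, inv_smul_eq_iff, hje]
    exact MonoidHom.map_zpowers (MulAut.conj g).toMonoidHom y'
  have hwZ : j⁻¹ * g ∈ Z := by
    rw [← hZ, ← (hlines _ hX (hcard ▸ ht')).1]
    exact ⟨L.mul_mem (L.inv_mem (hJ.1 hj)) hgL, hw⟩
  simpa using Z.mul_mem (hZ.le (mem_sup_left hj)) hwZ

/-- The conjugates of an invariant subset with trivial fusion. -/
theorem ncard_conj_mul {W : Set G} (hW : W ⊆ Z) (hinv : ∀ g ∈ Z, ∀ z ∈ W, g * z * g⁻¹ ∈ W)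
    (hTI : ∀ z ∈ W, ∀ g : G, g * z * g⁻¹ ∈ Z → g ∈ Z) :
    Set.ncard {a : G | ∃ g : G, ∃ z ∈ W, a = g * z * g⁻¹} * Nat.card Z = W.ncard * Nat.card G := by
  classical
  set C := {a : G | ∃ g : G, ∃ z ∈ W, a = g * z * g⁻¹}
  have hC : ∀ a : C, ∃ g : G, g⁻¹ * (a : G) * g ∈ W := fun ⟨a, g, z, hz, he⟩ => ⟨g, by
    show g⁻¹ * a * g ∈ W
    rw [he]; simpa [mul_assoc] using hz⟩
  choose f hf using hC
  rw [← Nat.card_coe_set_eq, ← Nat.card_prod, ← Nat.card_coe_set_eq, ← Nat.card_prod]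
  refine Nat.card_congr (Equiv.ofBijective (fun au : C × Z => ((⟨(au.2 : G)⁻¹ * ((f au.1)⁻¹ * (au.1 : G) * f au.1) *
    (au.2 : G), by simpa using hinv _ (Z.inv_mem au.2.2) _ (hf au.1)⟩ : W), f au.1 * (au.2 : G))) ⟨?_, ?_⟩)
  · rintro ⟨a, u⟩ ⟨a', u'⟩ h
    simp only [Prod.mk.injEq, Subtype.mk.injEq] at h
    obtain ⟨h1, h2⟩ := h
    have ha : a = a' := Subtype.ext (by
      calc (a : G) = f a * (u : G) * ((u : G)⁻¹ * ((f a)⁻¹ * (a : G) * f a) * u) * (f a * (u : G))⁻¹ := by group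
        _ = f a' * (u' : G) * ((u' : G)⁻¹ * ((f a')⁻¹ * (a' : G) * f a') * u') * (f a' * (u' : G))⁻¹ := by rw [h1, h2]
        _ = _ := by group)
    subst ha
    exact Prod.ext rfl (Subtype.ext (mul_left_cancel h2))
  · rintro ⟨⟨z, hz⟩, g⟩
    set a : C := ⟨g * z * g⁻¹, g, z, hz, rfl⟩ with ha
    have hu : (f a)⁻¹ * g ∈ Z := hTI z hz _ (by
      have h := hW (hf a)
      simpa [ha, mul_assoc] using h)
    refine ⟨(a, ⟨_, hu⟩), Prod.ext (Subtype.ext ?_) (by simp)⟩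
    simp [ha, mul_assoc]

end Cfsg.Agent.Lib.Uniq
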