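import Cfsg.Agent.Lib.Uniq.TauOneAction
import Cfsg.Agent.S1417
import Cfsg.Agent.Lib.Uniq.CentralizerSigma
set_option autoImplicit false

/-! Fixed points of `τ₁`-lines (BG 13.6). -/

namespace Cfsg.Agent.Lib.Uniq

open Subgroup
open scoped Pointwise commutatorElement

universe u

variable {G : Type u} [Group G] [Finite G] {M E : Subgroup G} {p q : ℕ}

theorem derived_le (M : Subgroup G) : ⁅M, M⁆ ≤ M := commutator_le_self M

/-- A Hall subgroup above a given subgroup. -/
theorem exists_hall_ge (hG : IsMinSimpleOddOrder G) {X Y : Subgroup G} (hX : X ≠ ⊤) (hYX : Y ≤ X) (π : Set ℕ)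
    (hY : ∀ r : ℕ, r.Prime → r ∣ Nat.card Y → r ∈ π) :
    ∃ H : Subgroup G, IsPiHallOf π H X ∧ Y ≤ H := by
  haveI := solvable_of_ne_top hG hX
  obtain ⟨H, hH1, hH2⟩ := Hall.exists_piHall (G := ↥X) π
  have hco : (Nat.card H).Coprime H.index :=
    Nat.coprime_of_dvd fun r hr h1 h2 => hH2 r hr (hH1 r hr h1) h2
  obtain ⟨g, hg⟩ := Hall.exists_le_conj hco (K := Y.subgroupOf X) (by
    rw [Coprime.card_subgroupOf hYX]
    exact Nat.coprime_of_dvd fun r hr h1 h2 => hH2 r hr (hY r hr h1) h2)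
  refine ⟨(MulAut.conj g • H).map X.subtype, ⟨map_subtype_le _, fun r hr hd => hH1 r hr ?_, fun r hr hπ => ?_⟩,
    fun y hy => ⟨⟨y, hYX hy⟩, hg (show (⟨y, hYX hy⟩ : X) ∈ Y.subgroupOf X from hy), rfl⟩⟩
  · rwa [card_map_of_injective X.subtype_injective, Coprime.card_conj_smul] at hd
  · rw [relIndex, ← comap_subtype, comap_map_eq_self_of_injective X.subtype_injective]
    have : (MulAut.conj g • H).index = H.index := index_map_equiv H (MulAut.conj g)
    rw [this]
    exact hH2 r hr hπ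

theorem not_sigma_of_prime_group (hp : p.Prime) {P : Subgroup G} (hP : Nat.card P = p) (h : p ∉ sigma M) :
    ∀ r : ℕ, r.Prime → r ∣ Nat.card P → r ∉ sigma M := fun r hr hd => by
  rw [hP] at hd
  exact (Nat.prime_dvd_prime_iff_eq hr hp).mp hd ▸ h

/-- The fixed points of a `τ₁`-line are centralised by the commuting elements from cyclic Sylow subgroups. -/
theorem centralizes_of_commute (hG : IsMinSimpleOddOrder G) (hM : IsCoatom M)
    (hE : IsComplIn E (sigmaCore M) M) [hp : Fact p.Prime] (hpτ : p ∈ tau1 M) {P : Subgroup G} (hPE : P ≤ E)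
    (hP : Nat.card P = p) [hq : Fact q.Prime] (hq1 : PRankLE q 1 M) {y : G} (hyE : y ∈ E)
    (hyP : ∀ a ∈ P, Commute y a) {k : ℕ} (hy : y ^ q ^ k = 1) :
    sigmaCore M ⊓ centralizer (P : Set G) ≤ centralizer ({y} : Set G) := by
  classical
  intro v hv
  refine mem_centralizer_singleton_iff.mpr ?_
  by_cases hy1 : y = 1
  · rw [hy1, one_mul, mul_one]
  obtain ⟨j, -, hj⟩ := (Nat.dvd_prime_pow hq.out).mp (orderOf_dvd_of_pow_eq_one hy)
  have hj0 : j ≠ 0 := fun e => hy1 (orderOf_eq_one_iff.mp (by rw [hj, e, pow_zero]))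
  set a := y ^ q ^ (j - 1) with ha
  have hao : orderOf a = q := by
    rw [ha, orderOf_pow_of_dvd (pow_ne_zero _ hq.out.ne_zero) (hj ▸ pow_dvd_pow q (Nat.sub_le j 1)), hj,
      Nat.pow_div (Nat.sub_le j 1) hq.out.pos, Nat.sub_sub_self (Nat.one_le_iff_ne_zero.mpr hj0), pow_one]
  have ha1 : a ≠ 1 := fun e => hq.out.ne_one (by rw [← hao, e, orderOf_one])
  have hRP : zpowers a ≤ E ⊓ centralizer (P : Set G) := zpowers_le.mpr ⟨E.pow_mem hyE _,
    mem_centralizer_iff.mpr fun b hb => ((hyP b hb).pow_left _).eq.symm⟩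
  have h1 := tau_one_prime_action hG hM hE hpτ hPE hP (r := q) hRP (by rw [Nat.card_zpowers, hao]) hv
  obtain ⟨S, hS⟩ := (IsPGroup.of_card (n := j) (by rw [Nat.card_zpowers, Subgroup.orderOf_mk, hj]) :
    IsPGroup q (zpowers (⟨y, hyE⟩ : E))).exists_le_sylow
  have hSc : IsCyclic (S : Subgroup E) := by
    haveI : IsZGroup ↥((S : Subgroup E).map E.subtype) := rank_one_zgroup hG ((map_subtype_le _).trans hE.1)
      fun r hr hd => isPGroup_ne_dvd (S.2.map E.subtype) hr hd ▸ hq1
    haveI := (S.2.map E.subtype).isNilpotent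
    haveI : IsCyclic ↥((S : Subgroup E).map E.subtype) := inferInstance
    exact isCyclic_of_surjective _ ((S : Subgroup E).equivMapOfInjective E.subtype E.subtype_injective).symm.surjective
  have hyS : y ∈ (S : Subgroup E).map E.subtype := ⟨⟨y, hyE⟩, hS (mem_zpowers _), rfl⟩
  have h2 := cyclic_sylow_prime_action hG hM hE S hSc (pow_mem hyS (q ^ (j - 1))) ha1
  have h3 : v ∈ sigmaCore M ⊓ centralizer ({a} : Set G) := ⟨hv.1, mem_centralizer_singleton_iff.mpr
    (mem_centralizer_iff.mp h1 a (mem_zpowers a)).symm⟩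
  rw [h2] at h3
  exact (mem_centralizer_iff.mp h3.2 y hyS).symm

/-- A fixed point of a `τ₁`-line of order prime to `β(M)` lies in `M_σ'`. -/
theorem mem_derived_of_fixed (hG : IsMinSimpleOddOrder G) (hM : IsCoatom M) (hE : IsComplIn E (sigmaCore M) M)
    [hp : Fact p.Prime] (hpτ : p ∈ tau1 M) {P : Subgroup G} (hPE : P ≤ E) (hP : Nat.card P = p) [hq : Fact q.Prime]
    {x : G} (hx : x ∈ sigmaCore M) (hxP : x ∈ centralizer (P : Set G)) (hxo : orderOf x = q) (hβ : q ∉ beta M) :
    x ∈ ⁅sigmaCore M, sigmaCore M⁆ := by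
  classical
  set K := sigmaCore M with hK
  have hKM : K ≤ M := hE.2.1
  have hEM := hE.1
  have hMK : M ≤ normalizer (K : Set G) := OddLocal.le_normalizer_piCoreOf (sigma M) M
  have hqK : q ∣ Nat.card K := hxo ▸ Subgroup.orderOf_dvd_natCard K hx
  have hqσ : q ∈ sigma M := OddLocal.piCoreOf_isPi (sigma M) M q hq.out hqK
  have hqM : q ∣ Nat.card M := hqK.trans (card_dvd_of_le hKM)
  have hqE : ¬ q ∣ Nat.card E := fun h => compl_not_sigma hG hM hE h hqσ
  set D := ⁅M, M⁆ with hD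
  have hDM : D ≤ M := derived_le M
  set K₀ := opc q D
  set N := opc q K
  have hMD : M ≤ normalizer (D : Set G) := Coprime.left_le_normalizer_commutator M M
  have hMK₀ : M ≤ normalizer (K₀ : Set G) := hMD.trans (OddLocal.normalizer_le_normalizer_piCoreOf _ D)
  have hMN : M ≤ normalizer (N : Set G) := hMK.trans (OddLocal.normalizer_le_normalizer_piCoreOf _ K)
  -- `q'`-elements of `M'` lie in `K₀`
  have hK₀ : ∀ e ∈ D, (orderOf e).Coprime q → e ∈ K₀ := by
    intro e he hc
    have hnpc := normalPComplement_derived hG hM hqM hβ (X := D) le_rfl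
    haveI : (pResidual q ↥D).Normal := by
      haveI := Transfer.pResidual_characteristic (G := ↥D) (p := q)
      infer_instance
    show e ∈ opc q D
    rw [opc_eq hq.out]
    exact ⟨⟨e, he⟩, Hall.le_pPrimeCore (N := pResidual q ↥D)
      ((hq.out.coprime_iff_not_dvd.mpr (Transfer.hasNormalPComplement_iff.mp hnpc)).symm)
      (Transfer.mem_pResidual (by rwa [Subgroup.orderOf_mk])), rfl⟩
  have hint : K₀ ⊓ K ≤ N := le_opc hq.out inf_le_right
    (fun z hz => inf_normalizer_le_normalizer_inf ⟨hMK₀ (hKM hz), le_normalizer hz⟩)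
    ((coprime_opc q D).coprime_dvd_left (card_dvd_of_le inf_le_left))
  let Z : Subgroup G :=
    { carrier := {e | e ∈ E ∧ x⁻¹ * (e * x * e⁻¹) ∈ N}
      one_mem' := ⟨E.one_mem, by simp⟩
      mul_mem' := fun {a b} ha hb => ⟨E.mul_mem ha.1 hb.1, by
        have h := N.mul_mem ha.2 ((mem_normalizer_iff.mp (hMN (hEM ha.1)) _).mp hb.2)
        convert h using 1; group⟩
      inv_mem' := fun {a} ha => ⟨E.inv_mem ha.1, by
        have h := (mem_normalizer_iff.mp (hMN (M.inv_mem (hEM ha.1))) _).mp (N.inv_mem ha.2)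
        convert h using 1; group⟩ }
  -- `E ∩ M'` lies in `Z`
  have hZD : E ⊓ D ≤ Z := by
    rintro e ⟨heE, heD⟩
    refine ⟨heE, hint ⟨?_, ?_⟩⟩
    · have he := hK₀ e heD (Nat.Coprime.symm (hq.out.coprime_iff_not_dvd.mpr fun h =>
        hqE (h.trans (Subgroup.orderOf_dvd_natCard E heE))))
      have h1 := (mem_normalizer_iff.mp (hMK₀ (M.inv_mem (hKM hx))) _).mp he
      have h2 := K₀.mul_mem h1 (K₀.inv_mem he)
      simpa [mul_assoc] using h2
    · exact K.mul_mem (K.inv_mem hx) ((mem_normalizer_iff.mp (hMK (hEM heE)) x).mp hx)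
  obtain ⟨E₁, hE₁, hPE₁⟩ := exists_hall_ge hG (ne_top_of_le hM hEM) hPE (tau1 M) (fun r hr hd => by
    rw [hP] at hd
    exact (Nat.prime_dvd_prime_iff_eq hr hp.out).mp hd ▸ hpτ)
  haveI : IsCyclic E₁ := tau1_cyclic hG hE hE₁
  -- no prime of `τ₂(M)`
  have hno2 : ∀ t ∈ tau2 M, False := by
    intro t ht
    haveI := Fact.mk ht.1
    obtain ⟨A, hAE, hA, hAc⟩ := exists_elem_compl hG hM hE ht
    obtain ⟨hnil, -, -, hCA, -, -⟩ := S1417.result hG M hM t ht A ⟨hAE.trans hEM, hA, hAc⟩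
    have hEA := (le_normalizer_compl hG hM hE ht.2.1 hAE hA hAc).1
    have htp : t ≠ p := fun e => ht.2.2.2 (e ▸ hpτ.2.2.2.2)
    have hcopA : (Nat.card P).Coprime (Nat.card A) := by
      rw [hP, hAc]
      exact ((Nat.coprime_primes hp.out ht.1).mpr (Ne.symm htp)).pow_right 2
    haveI := hA.1
    have hsup := Coprime.sup_commutator_eq (V := A) (hPE.trans hEA) hcopA
    have hA' : ⁅A, P⁆ ≤ D := commutator_mono (hAE.trans hEM) (hPE.trans hEM)
    have htq : t ≠ q := fun e => ht.2.1 (e ▸ hqσ)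
    have hAx : A ≤ centralizer ({x} : Set G) := by
      rw [← hsup]
      refine sup_le (fun a ha => ?_) ?_
      · refine mem_centralizer_singleton_iff.mpr ?_
        by_cases ha1 : a = 1
        · rw [ha1, one_mul, mul_one]
        have hao : orderOf a = t := orderOf_eq_prime (hA.2 a ha.1) ha1
        have h := tau_one_prime_action hG hM hE hpτ hPE hP (r := t) (R := zpowers a)
          (zpowers_le.mpr ⟨hAE ha.1, ha.2⟩) (by rw [Nat.card_zpowers, hao]) ⟨hx, hxP⟩
        exact mem_centralizer_iff.mp h a (mem_zpowers a)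
      · haveI : Group.IsNilpotent ↥K := hnil
        set Y := (pCore q ↥K).map K.subtype
        have hxY : x ∈ Y := by
          obtain ⟨S, hS⟩ := (IsPGroup.of_card (n := 1) (by rw [Nat.card_zpowers, Subgroup.orderOf_mk, hxo, pow_one]) :
            IsPGroup q (zpowers (⟨x, hx⟩ : K))).exists_le_sylow
          haveI : (S : Subgroup ↥K).Normal :=
            Sylow.normal_of_normalizerCondition Group.normalizerCondition_of_isNilpotent S
          exact ⟨⟨x, hx⟩, Hall.le_pCore S.2 (hS (mem_zpowers _)), rfl⟩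
        have hAY : ⁅A, P⁆ ≤ normalizer (Y : Set G) :=
          (hA'.trans hDM).trans (hMK.trans (PL.normalizer_le_normalizer_map_char K (pCore q ↥K)))
        have h := centralizes_of_derived hG hM (Ne.symm htq)
          ((elem_isPGroup hA).to_le (Coprime.commutator_le_of_le_normalizer' (hPE.trans hEA))) hA' hβ
          ((Hall.isPGroup_pCore q).map K.subtype) ((map_subtype_le _).trans hKM) hAY
        exact h.trans (centralizer_le (Set.singleton_subset_iff.mpr hxY))
    have hx1 : x ∈ sigmaCore M ⊓ centralizer (A : Set G) :=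
      ⟨hx, mem_centralizer_iff.mpr fun a ha => mem_centralizer_singleton_iff.mp (hAx ha)⟩
    rw [hCA, mem_bot] at hx1
    exact hq.out.ne_one (by rw [← hxo, hx1, orderOf_one])
  have hEZ : E ≤ Z := by
    intro e he
    refine abelian_of_prime_pow_parts fun r k hr hrk => ?_
    haveI := Fact.mk hr
    set y := e ^ (orderOf e / r ^ k) with hy
    have hyE : y ∈ E := E.pow_mem he _
    have hyo : orderOf y = r ^ k := orderOf_pow_orderOf_div (orderOf_pos e).ne' hrk
    rcases Nat.eq_zero_or_pos k with hk | hk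
    · rw [orderOf_eq_one_iff.mp (by rw [hyo, hk, pow_zero] : orderOf y = 1)]
      exact Z.one_mem
    have hrE : r ∣ Nat.card E :=
      ((dvd_pow_self r hk.ne').trans hyo.symm.dvd).trans (Subgroup.orderOf_dvd_natCard E hyE)
    rcases tau_cases hG hM hE hr hrE with h2 | h1 | h3
    · exact (hno2 r h2).elim
    · -- a conjugate lies in the Hall subgroup above `P`
      haveI := solvable_of_ne_top hG (ne_top_of_le hM hEM)
      obtain ⟨hE₁E, hE₁p, hE₁i⟩ := hE₁
      have hco : (Nat.card (E₁.subgroupOf E)).Coprime (E₁.subgroupOf E).index := by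
        rw [Coprime.card_subgroupOf hE₁E]
        exact Nat.coprime_of_dvd fun s hs hs1 hs2 => hE₁i s hs (hE₁p s hs hs1) hs2
      obtain ⟨g, hg⟩ := Hall.exists_le_conj hco (K := zpowers (⟨y, hyE⟩ : E)) (by
        rw [Nat.card_zpowers, Subgroup.orderOf_mk, hyo]
        exact Nat.Coprime.pow_left k (hr.coprime_iff_not_dvd.mpr (hE₁i r hr h1)))
      obtain ⟨w, hw, hwy⟩ := hg (mem_zpowers _)
      have hwy' : (g : G) * (w : G) * (g : G)⁻¹ = y := congrArg Subtype.val hwy
      have hwP : ∀ a ∈ P, Commute (w : G) a := fun a ha =>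
        congrArg Subtype.val ((IsCyclic.commGroup (α := E₁)).mul_comm (⟨(w : G), hw⟩ : E₁) ⟨a, hPE₁ ha⟩)
      have hwo : (w : G) ^ r ^ k = 1 := by
        have h := pow_orderOf_eq_one y
        rw [hyo, ← hwy', conj_pow] at h
        exact mul_left_cancel (a := (g : G)) (by
          rw [← mul_inv_eq_one] ; rw [mul_one]; exact h)
      have hwx := mem_centralizer_singleton_iff.mp (centralizes_of_commute hG hM hE hpτ hPE hP h1.2.2.2.2 w.2 hwP hwo
        (⟨hx, hxP⟩ : x ∈ sigmaCore M ⊓ centralizer (P : Set G)))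
      have hwZ : (w : G) ∈ Z := ⟨w.2, by rw [← hwx]; simp⟩
      have hc : ⁅(g : G), (w : G)⁆ ∈ Z := hZD ⟨E.mul_mem (E.mul_mem (E.mul_mem g.2 w.2) (E.inv_mem g.2))
        (E.inv_mem w.2), commutator_mem_commutator (hEM g.2) (hEM w.2)⟩
      rw [← hwy']
      convert Z.mul_mem hc hwZ using 1
      group
    · obtain ⟨E₃, hE₃, hyE₃⟩ := exists_hall_ge hG (ne_top_of_le hM hEM) (zpowers_le.mpr hyE) (tau3 M)
        (fun s hs hd => by
          rw [Nat.card_zpowers, hyo] at hd
          exact (Nat.prime_dvd_prime_iff_eq hs hr).mp (hs.dvd_of_dvd_pow hd) ▸ h3)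
      exact hZD ⟨hyE, ((tau3_struct hG hM hE hE₃).2.1.trans (commutator_mono hEM hEM)) (hyE₃ (mem_zpowers y))⟩
  have hNK : N ≤ K := opc_le q K
  haveI := solvable_of_ne_top hG (ne_top_of_le hM hKM)
  obtain ⟨c, hc, hcn⟩ := Coprime.exists_centralizer_mem_coset (A := E) (N := N) (k := x) (hEM.trans hMN)
    ((coprime_sigmaCore_compl hG hM hE).coprime_dvd_right (card_dvd_of_le hNK))
    (Or.inr (Coprime.isSolvable_of_le hNK inferInstance)) (fun a ha => (hEZ ha).2)
  have hcK : c ∈ K := by simpa using K.mul_mem hx (hNK hcn)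
  have hc' := inf_centralizer_compl_le_derived hG hM hE ⟨hcK, hc⟩
  rw [← map_subtype_commutator] at hc' ⊢
  obtain ⟨c', hc'', rfl⟩ := hc'
  set π := QuotientGroup.mk' (commutator ↥K)
  refine ⟨⟨x, hx⟩, (QuotientGroup.eq_one_iff _).mp (orderOf_eq_one_iff.mp (Nat.eq_one_of_dvd_coprimes
    (show q.Coprime (Nat.card N) from (coprime_opc q K).symm) ?_ ?_)), rfl⟩
  · exact ((orderOf_map_dvd π _).trans (Subgroup.orderOf_mk x hx).dvd).trans hxo.dvd
  · set n : K := ⟨x, hx⟩⁻¹ * c'
    have he : π ⟨x, hx⟩ = (π n)⁻¹ := by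
      rw [map_mul, map_inv, show π c' = 1 from (QuotientGroup.eq_one_iff c').mpr hc'', mul_one, inv_inv]
    show orderOf (π ⟨x, hx⟩) ∣ _
    rw [he, orderOf_inv]
    exact (orderOf_map_dvd π n).trans ((Subgroup.orderOf_coe n).symm.dvd.trans (Subgroup.orderOf_dvd_natCard N hcn))

/-- BG 13.6: elements fixed by a `τ₁`-line have `M` as the unique maximal subgroup over their centraliser. -/
theorem tau_one_fixed_unique (hG : IsMinSimpleOddOrder G) (hM : IsCoatom M) [hp : Fact p.Prime] (hpτ : p ∈ tau1 M)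
    {P : Subgroup G} (hPM : P ≤ M) (hP : Nat.card P = p) [hq : Fact q.Prime] {x : G} (hx : x ∈ sigmaCore M)
    (hxP : x ∈ centralizer (P : Set G)) (hxo : orderOf x = q) :
    normalizer ((zpowers x : Subgroup G) : Set G) ≤ M ∧ centralizer ({x} : Set G) ≤ M ∧
      ∀ L : Subgroup G, IsCoatom L → centralizer ({x} : Set G) ≤ L → L = M := by
  obtain ⟨E, hE, hPE⟩ := exists_compl_ge hG hM hpτ.2.1 (IsPGroup.of_card (n := 1) (by rw [hP, pow_one])) hPM
  have hqσ : q ∈ sigma M :=
    OddLocal.piCoreOf_isPi (sigma M) M q hq.out (hxo ▸ Subgroup.orderOf_dvd_natCard (sigmaCore M) hx)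
  obtain ⟨S⟩ : Nonempty (Sylow q ↥(sigmaCore M)) := inferInstance
  have hXc : Nat.card (zpowers x) = q := by rw [Nat.card_zpowers, hxo]
  have hXM : zpowers x ≤ M := zpowers_le.mpr (hE.2.1 hx)
  obtain ⟨⟨h1, h2⟩, -⟩ := centralizer_sigma_unique hG hM hqσ hXM hXc S (or_iff_not_imp_left.mpr fun hβ =>
    zpowers_le.mpr (mem_derived_of_fixed hG hM hE hpτ hPE hP hx hxP hxo hβ))
  rw [centralizer_zpowers] at h1 h2
  refine ⟨?_, h1, h2⟩
  rw [(S1404.result hG M hM q hqσ (zpowers x) (IsPGroup.of_card (n := 1) (by rw [hXc, pow_one]))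
    (fun e => hq.out.ne_one (by rw [← hXc, e, card_bot])) hXM).2, centralizer_zpowers]
  exact sup_le inf_le_left h1

end Cfsg.Agent.Lib.Uniq
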