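import Cfsg.Agent.Lib.Uniq.TauThree
import Cfsg.Agent.Lib.Uniq.TauOneFixed
import Cfsg.Agent.Lib.OddLocal.SigmaPrimeElem
import Cfsg.Agent.S1420
set_option autoImplicit false

/-! Lines for the primes of `κ(M)` (BG 13.10–13.12). -/

namespace Cfsg.Agent.Lib.Uniq

open Subgroup
open scoped Pointwise commutatorElement

universe u

variable {G : Type u} [Group G] [Finite G] {M H E R P T : Subgroup G} {p q r : ℕ}

/-- A line for a prime of `κ(M)` has rank-one prime and nontrivial fixed points. -/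
theorem kappa_line (hG : IsMinSimpleOddOrder G) (hM : IsCoatom M) (hE : IsComplIn E (sigmaCore M) M)
    [hp : Fact p.Prime] (hκ : p ∈ kappa M) :
    p ∈ tau1 M ∪ tau3 M ∧ ∀ P : Subgroup G, P ≤ E → Nat.card P = p →
      sigmaCore M ⊓ centralizer (P : Set G) ≠ ⊥ := by
  obtain ⟨-, hpM, hpσ, hS⟩ := hκ
  have hr1 : PRankLE p 1 M := by
    intro A _ hAx
    have hAp : IsPGroup p A := fun a => ⟨1, Subtype.ext (by simpa using hAx a a.2)⟩
    obtain ⟨S, hS'⟩ := hAp.exists_le_sylow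
    haveI := (hS S).1
    haveI : IsCyclic A := isCyclic_of_le hS'
    obtain ⟨a, ha⟩ := IsCyclic.exists_ofOrder_eq_natCard (α := A)
    rw [pow_one, ← ha]
    exact Nat.le_of_dvd hp.out.pos (orderOf_dvd_of_pow_eq_one (Subtype.ext (by simpa using hAx a a.2)))
  refine ⟨?_, fun P hPE hP hbot => ?_⟩
  · by_cases hd : p ∣ Nat.card ↥⁅M, M⁆
    · exact Or.inr ⟨hp.out, hpσ, hd, hr1⟩
    · exact Or.inl ⟨hp.out, hpσ, hpM, hd, hr1⟩
  obtain ⟨S, hPS⟩ := ((IsPGroup.of_card (n := 1) (by rw [hP, pow_one]) : IsPGroup p P).comap_subtype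
    (K := M)).exists_le_sylow
  obtain ⟨hSc, x, hx, hx1, y, hy, hy1, hxy⟩ := hS S
  haveI : IsCyclic ↥((S : Subgroup M).map M.subtype) := isCyclic_of_surjective _
    ((S : Subgroup M).equivMapOfInjective M.subtype M.subtype_injective).surjective
  obtain ⟨j, hj⟩ := IsPGroup.iff_card.mp S.2
  obtain ⟨i, -, hi⟩ := (Nat.dvd_prime_pow hp.out).mp (hj ▸ Subgroup.orderOf_dvd_natCard _ hx)
  rw [← Subgroup.orderOf_coe] at hi
  have hi0 : i ≠ 0 := fun e => hx1 (Subtype.ext (orderOf_eq_one_iff.mp (by rw [hi, e, pow_zero])))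
  set a := (x : G) ^ (orderOf (x : G) / p) with ha
  have hao : orderOf a = p :=
    orderOf_pow_orderOf_div (orderOf_pos (x : G)).ne' (hi ▸ dvd_pow_self p hi0)
  have haS : a ∈ (S : Subgroup M).map M.subtype := pow_mem (mem_map_of_mem M.subtype hx) _
  have hPS' : P ≤ (S : Subgroup M).map M.subtype := fun z hz => ⟨⟨z, hE.1 (hPE hz)⟩, hPS hz, rfl⟩
  have hPa : P = zpowers a := OddLocal.eq_of_card_eq_of_le_cyclic hPS' (zpowers_le.mpr haS)
    (by rw [hP, Nat.card_zpowers, hao])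
  refine hy1 (mem_bot.mp (hbot ▸ (⟨hy, ?_⟩ : y ∈ sigmaCore M ⊓ centralizer (P : Set G))))
  rw [hPa, centralizer_zpowers]
  exact mem_centralizer_singleton_iff.mpr ((Commute.pow_left hxy _).eq).symm

/-- A rank-one line with nontrivial fixed points gives a prime of `κ(M)`. -/
theorem kappa_of_line (hG : IsMinSimpleOddOrder G) (hM : IsCoatom M) [hp : Fact p.Prime] (hpσ : p ∉ sigma M)
    (hr1 : PRankLE p 1 M) (hPM : P ≤ M) (hP : Nat.card P = p)
    (hne : sigmaCore M ⊓ centralizer (P : Set G) ≠ ⊥) : p ∈ kappa M := by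
  obtain ⟨x, hx, hx1⟩ := (bot_or_exists_ne_one _).resolve_left hne
  obtain ⟨e, he, he1⟩ := P.bot_or_exists_ne_one.resolve_left fun h => hp.out.ne_one (by rw [← hP, h, card_bot])
  have heo : orderOf e = p := ((Nat.dvd_prime hp.out).mp (hP ▸ Subgroup.orderOf_dvd_natCard P he)).resolve_left
    fun h => he1 (orderOf_eq_one_iff.mp h)
  exact (OddLocal.SigmaPrimeElem.kappa_or_tau2 hG hM hpσ (hPM he) heo hx.1 hx1
    (mem_centralizer_iff.mp hx.2 e he)).resolve_right fun h => h.2.2.2 hr1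

/-- A prime of a complement to `M_σ` has a line in it. -/
theorem exists_line [hp : Fact p.Prime] (hd : p ∣ Nat.card E) :
    ∃ P : Subgroup G, P ≤ E ∧ Nat.card P = p := by
  obtain ⟨x, hx⟩ := exists_prime_orderOf_dvd_card' p hd
  exact ⟨zpowers (x : G), zpowers_le.mpr x.2, by rw [Nat.card_zpowers, Subgroup.orderOf_coe, hx]⟩

/-- A prime of `M` outside `σ(M)` divides the complement. -/
theorem dvd_compl (hE : IsComplIn E (sigmaCore M) M) (hp : p.Prime) (hd : p ∣ Nat.card M) (hpσ : p ∉ sigma M) :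
    p ∣ Nat.card E := by
  rw [← (compl_card hE).1] at hd
  exact (hp.dvd_mul.mp hd).resolve_right fun h => hpσ (OddLocal.piCoreOf_isPi (sigma M) M p hp h)

/-- Commuting `τ₁`-lines have the same fixed points. -/
theorem tau_one_fixed_eq (hG : IsMinSimpleOddOrder G) (hM : IsCoatom M) (hE : IsComplIn E (sigmaCore M) M)
    [hp : Fact p.Prime] [hq : Fact q.Prime] (hpτ : p ∈ tau1 M) (hqτ : q ∈ tau1 M) (hPE : P ≤ E)
    (hP : Nat.card P = p) (hTE : T ≤ E) (hT : Nat.card T = q) (hc : P ≤ centralizer (T : Set G)) :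
    sigmaCore M ⊓ centralizer (P : Set G) = sigmaCore M ⊓ centralizer (T : Set G) :=
  le_antisymm (le_inf inf_le_left (tau_one_prime_action hG hM hE hpτ hPE hP (le_inf hTE (le_centralizer_iff.mp hc)) hT))
    (le_inf inf_le_left (tau_one_prime_action hG hM hE hqτ hTE hT (le_inf hPE hc) hP))

/-- A `τ₁`-line with fixed points centralises no `τ₂`-line with common fixed point. -/
theorem tau_two_not_fixed (hG : IsMinSimpleOddOrder G) (hM : IsCoatom M) [hp : Fact p.Prime] [hr : Fact r.Prime]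
    (hpτ : p ∈ tau1 M) (hr2 : r ∈ tau2 M) (hPM : P ≤ M) (hP : Nat.card P = p) (hRM : R ≤ M)
    (hR : Nat.card R = r) (hRP : R ≤ centralizer (P : Set G)) {x : G} (hx : x ∈ sigmaCore M) (hx1 : x ≠ 1)
    (hxP : x ∈ centralizer (P : Set G)) (hxR : x ∈ centralizer (R : Set G)) : False := by
  obtain ⟨E, hE, hRE⟩ := exists_compl_ge hG hM hr2.2.1 (IsPGroup.of_card (n := 1) (by rw [hR, pow_one])) hRM
  obtain ⟨z, hz, hz1⟩ := R.bot_or_exists_ne_one.resolve_left fun h => hr.out.ne_one (by rw [← hR, h, card_bot])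
  have hzo : orderOf z = r := ((Nat.dvd_prime hr.out).mp (hR ▸ Subgroup.orderOf_dvd_natCard R hz)).resolve_left
    fun h => hz1 (orderOf_eq_one_iff.mp h)
  have hRz : zpowers z = R := eq_of_le_of_card_ge (zpowers_le.mpr hz) (by rw [Nat.card_zpowers, hzo, hR])
  obtain ⟨-, -, -, hu⟩ := S1420.result hG M hM E hE
  obtain ⟨hCM, huM⟩ := hu z (hRM hz) hz1 (fun t ht hd => by
      rw [hzo] at hd
      exact (Nat.prime_dvd_prime_iff_eq ht hr.out).mp hd ▸ hr2)
    ⟨hRM hz, x, hx, hx1, mem_centralizer_iff.mp hxR z hz⟩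
  rw [← centralizer_zpowers, hRz] at hCM huM
  have hP1 : P ≠ ⊥ := fun h => hp.out.ne_one (by rw [← hP, h, card_bot])
  obtain ⟨H, hH, hNH⟩ := exists_coatom_ge (normalizer_line_ne_top hG (IsPGroup.of_card (n := 1) (by rw [hP, pow_one])) hP1)
  obtain ⟨hpH, hPσ⟩ := tau_one_sigma hG hM hpτ hP hPM
    (fun h => hx1 (mem_bot.mp (h ▸ (⟨hx, hxP⟩ : x ∈ sigmaCore M ⊓ centralizer (P : Set G))))) hH hNH
  have hne : M ≠ H := fun e => hpτ.2.1 (e ▸ hpH)
  have hCPH : centralizer (P : Set G) ≤ H := (centralizer_le_normalizer _).trans hNH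
  have hRH : R ≤ H := hRP.trans hCPH
  have hRp : IsPGroup r R := IsPGroup.of_card (n := 1) (by rw [hR, pow_one])
  have hR1 : R ≠ ⊥ := fun h => hr.out.ne_one (by rw [← hR, h, card_bot])
  obtain ⟨J, hJ, hNJ⟩ := exists_coatom_ge (normalizer_line_ne_top hG hRp hR1)
  obtain rfl : J = M := huM J hJ ((centralizer_le_normalizer _).trans hNJ)
  by_cases hrH : r ∈ sigma H
  · obtain ⟨S, K, -, -, -, -, -, -, hcase⟩ := exists_factor_of_normalizer hG hH hrH hRp hR1 hRH hJ hne hNJ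
    rcases hcase with ⟨h, -⟩ | ⟨-, -, hbot⟩
    · exact hr2.2.1 h
    · exact hx1 (mem_bot.mp (hbot ▸ (⟨hx, hCPH hxP⟩ : x ∈ sigmaCore J ⊓ H)))
  have hPR : P ≤ centralizer (R : Set G) := le_centralizer_iff.mp hRP
  obtain ⟨a, ha, ha1⟩ := P.bot_or_exists_ne_one.resolve_left hP1
  have hne' : sigmaCore H ⊓ centralizer (R : Set G) ≠ ⊥ := fun h =>
    ha1 (mem_bot.mp (h ▸ (⟨hPσ ha, hPR ha⟩ : a ∈ sigmaCore H ⊓ centralizer (R : Set G))))
  by_cases hr1 : PRankLE r 1 H
  · by_cases hd : r ∣ Nat.card ↥⁅H, H⁆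
    · obtain ⟨F, hF, hRF⟩ := exists_compl_ge hG hH hrH hRp hRH
      exact hr2.2.1 (tau_three_sigma hG hH hF ⟨hr.out, hrH, hd, hr1⟩ hRF hR hne' hJ hNJ).1
    · exact hr2.2.1 (tau_one_sigma hG hH ⟨hr.out, hrH, hR ▸ card_dvd_of_le hRH, hd, hr1⟩ hR hRH hne' hJ hNJ).1
  · obtain ⟨F, hF, hRF⟩ := exists_compl_ge hG hH hrH hRp hRH
    obtain ⟨-, -, -, hu'⟩ := S1420.result hG H hH F hF
    obtain ⟨hCH, -⟩ := hu' z (hRH hz) hz1 (fun t ht hd => by
        rw [hzo] at hd
        exact (Nat.prime_dvd_prime_iff_eq ht hr.out).mp hd ▸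
          ⟨hr.out, hrH, rank_two_of_not_sigma hG hH hr.out hrH, hr1⟩)
      ⟨hRH hz, a, hPσ ha, ha1, mem_centralizer_iff.mp (hPR ha) z hz⟩
    rw [← centralizer_zpowers, hRz] at hCH
    exact hne (huM H hH hCH).symm

/-- BG 13.11: one nonregular `τ₃`-line forces all lines of the complement to have the same fixed points. -/
theorem tau_three_fixed_all (hG : IsMinSimpleOddOrder G) (hM : IsCoatom M) (hE : IsComplIn E (sigmaCore M) M)
    [hr : Fact r.Prime] (hr3 : r ∈ tau3 M) (hRE : R ≤ E) (hR : Nat.card R = r)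
    (hX : sigmaCore M ⊓ centralizer (R : Set G) ≠ ⊥) [hq : Fact q.Prime] (hPE : P ≤ E) (hP : Nat.card P = q) :
    (q ∈ tau1 M → P ≤ centralizer (R : Set G)) ∧
      (q ∈ tau1 M ∪ tau3 M →
        sigmaCore M ⊓ centralizer (P : Set G) = sigmaCore M ⊓ centralizer (R : Set G)) := by
  have key : ∀ (r : ℕ) (R : Subgroup G) [Fact r.Prime], r ∈ tau3 M → R ≤ E → Nat.card R = r →
      sigmaCore M ⊓ centralizer (R : Set G) ≠ ⊥ → ∀ (t : ℕ) (P : Subgroup G) [Fact t.Prime], t ∈ tau1 M →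
      P ≤ E → Nat.card P = t → P ≤ centralizer (R : Set G) ∧
        sigmaCore M ⊓ centralizer (P : Set G) = sigmaCore M ⊓ centralizer (R : Set G) := by
    intro r R _ hr3 hRE hR hX t P _ ht hPE hP
    have hrp : Nat.Prime r := Fact.out
    have hR1 : R ≠ ⊥ := fun h => hrp.ne_one (by rw [← hR, h, card_bot])
    obtain ⟨H, hH, hNH⟩ := exists_coatom_ge
      (normalizer_line_ne_top hG (IsPGroup.of_card (n := 1) (by rw [hR, pow_one])) hR1)
    obtain ⟨s, A, hs, hs1, -, hAE, hA, -, hPA, hAX⟩ := tau_three_structure hG hM hE hr3 hRE hR hX hH hNH hPE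
      (fun u hu hd => by rw [hP] at hd; exact (Nat.prime_dvd_prime_iff_eq hu Fact.out).mp hd ▸ ht)
    haveI := Fact.mk hs
    have heq := tau_one_fixed_eq hG hM hE ht hs1 hPE hP hAE hA hPA
    rw [hAX] at heq
    refine ⟨?_, heq⟩
    by_contra hnot
    obtain ⟨x, hx, -, hxP, hxR⟩ := exists_beta_fixed hG hM hE hr3 hRE hR (hPE.trans hE.1) hP ht.2.1
      (hPE.trans (tau_three_setup hG hM hE hr3 hRE hR hX hH hNH).1) hnot
    refine hxR (heq.le ⟨?_, hxP⟩).2
    exact le_sigmaCore hG hM (OddLocal.piCoreOf_le _ M)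
      (fun u hu hd => alpha_subset_sigma hG hM (OddLocal.piCoreOf_isPi (beta M) M u hu hd).1) hx
  refine ⟨fun ht => (key r R hr3 hRE hR hX q P ht hPE hP).1, ?_⟩
  rintro (ht | ht)
  · exact (key r R hr3 hRE hR hX q P ht hPE hP).2
  have hR1 : R ≠ ⊥ := fun h => hr.out.ne_one (by rw [← hR, h, card_bot])
  obtain ⟨H, hH, hNH⟩ := exists_coatom_ge
    (normalizer_line_ne_top hG (IsPGroup.of_card (n := 1) (by rw [hR, pow_one])) hR1)
  obtain ⟨s, A, hs, hs1, hsH, hAE, hA, hAR, -, hAX⟩ := tau_three_structure hG hM hE hr3 hRE hR hX hH hNH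
    (Y := ⊥) bot_le (fun u hu hd => absurd (card_bot (G := G) ▸ hd) hu.not_dvd_one)
  haveI := Fact.mk hs
  obtain ⟨hEN, -, hncσ, -⟩ := tau_three_setup hG hM hE hr3 hRE hR hX hH hNH
  have hEH : E ≤ H := hEN.trans hNH
  obtain ⟨y, hy, hy1⟩ := P.bot_or_exists_ne_one.resolve_left fun h => hq.out.ne_one (by rw [← hP, h, card_bot])
  have hyo : orderOf y = q := ((Nat.dvd_prime hq.out).mp (hP ▸ Subgroup.orderOf_dvd_natCard P hy)).resolve_left
    fun h => hy1 (orderOf_eq_one_iff.mp h)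
  have hyP : zpowers y = P := eq_of_le_of_card_ge (zpowers_le.mpr hy) (by rw [Nat.card_zpowers, hyo, hP])
  have hEP : E ≤ normalizer (P : Set G) := hyP ▸ le_normalizer_tau_three_line hG hM hE ht (hPE hy) hyo
  have hXP : sigmaCore M ⊓ centralizer (R : Set G) ≤ centralizer (P : Set G) := by
    by_cases hAP : A ≤ centralizer (P : Set G)
    · rw [← hAX]
      exact tau_one_prime_action hG hM hE hs1 hAE hA (le_inf hPE (le_centralizer_iff.mp hAP)) hP
    have hAσ : A ≤ sigmaCore H := pgroup_le_sigmaCore hG hH hsH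
      (IsPGroup.of_card (n := 1) (by rw [hA, pow_one])) (hAE.trans hEH)
    have hPA : ⁅P, A⁆ = P := by
      have hle := Coprime.commutator_le_of_le_normalizer' (hAE.trans hEP)
      refine eq_of_le_of_card_ge hle ?_
      rcases (Nat.dvd_prime hq.out).mp (hP ▸ card_dvd_of_le hle) with h1 | h1
      · exact absurd (le_centralizer_iff.mp (commutator_eq_bot_iff_le_centralizer.mp (card_eq_one.mp h1))) hAP
      · rw [h1, hP]
    have hPσ : P ≤ sigmaCore H := by
      rw [← hPA, commutator_le]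
      intro u hu v hv
      rw [commutatorElement_def]
      exact mul_mem ((mem_normalizer_iff.mp (OddLocal.le_normalizer_piCoreOf (sigma H) H (hEH (hPE hu))) v).mp
        (hAσ hv)) (inv_mem (hAσ hv))
    have hXH : sigmaCore M ⊓ centralizer (R : Set G) ≤ H :=
      inf_le_right.trans ((centralizer_le_normalizer _).trans hNH)
    obtain ⟨hσ, -⟩ := tau_three_sigma hG hM hE hr3 hRE hR hX hH hNH
    exact fun v hv => mem_centralizer_iff.mpr fun u hu =>
      ((commute_cores hG hM hH (fun g => hncσ g hσ) hv.1 (hXH hv) (hPσ hu) (hE.1 (hPE hu))).eq).symm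
  have hne : sigmaCore M ⊓ centralizer (P : Set G) ≠ ⊥ := fun h =>
    hX (le_bot_iff.mp ((le_inf inf_le_left hXP).trans h.le))
  rw [← hAX]
  exact ((key q P ht hPE hP hne s A hs1 hAE hA).2).symm

end Cfsg.Agent.Lib.Uniq
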