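import Cfsg.Agent.Lib.Uniq.KappaCount
set_option autoImplicit false

/-! BG 14.7: the partner `M*`, given the size of the sets `M̃` (BG 14.5). -/

namespace Cfsg.Agent.Lib.Uniq

open Subgroup
open scoped Pointwise commutatorElement

universe u

variable {G : Type u} [Group G] [Finite G] {M N K Z L : Subgroup G}

/-- All primes of `L` lie in `σ(L) ∪ κ(L)` (type P₁). -/
def IsP1 (L : Subgroup G) : Prop :=
  ∀ q : ℕ, q.Prime → q ∣ Nat.card L → q ∉ sigma L → q ∈ kappa L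

/-- For a type P₁ subgroup, `|L| = |J| |L_σ|`. -/
theorem card_of_isP1 (hG : IsMinSimpleOddOrder G) (hL : IsCoatom L) {J : Subgroup G}
    (hJ : IsPiHallOf (kappa L) J L) (hP1 : IsP1 L) : Nat.card J * Nat.card (sigmaCore L) = Nat.card L := by
  obtain ⟨E₀, hE₀⟩ := OddLocal.UPart.exists_compl hG hL
  obtain ⟨E, hE, hJE⟩ := exists_compl_ge_pi hG hL hE₀ (Y := J) (fun t ht hd => (hJ.2.1 t ht hd).2.2.1) hJ.1
  have hEJ : E = J := by
    refine le_antisymm (relIndex_eq_one.mp (Nat.eq_one_iff_not_exists_prime_dvd.mpr fun t ht hd => ?_)) hJE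
    haveI := Fact.mk ht
    have hdE : t ∣ Nat.card E := hd.trans (relIndex_dvd_card J E)
    exact hJ.2.2 t ht (hP1 t ht (hdE.trans (card_dvd_of_le hE.1)) (compl_not_sigma hG hL hE hdE))
      (hd.trans ⟨_, (relIndex_mul_relIndex _ _ _ hJE hE.1).symm⟩)
  exact hEJ ▸ (compl_card hE).1

/-- A subgroup which is not of type P₁ has its Hall `κ`-subgroup of prime order. -/
theorem prime_of_not_isP1 (hG : IsMinSimpleOddOrder G) (hL : IsCoatom L) {J : Subgroup G}
    (hJ : IsPiHallOf (kappa L) J L) (hJ1 : J ≠ ⊥) (hP1 : ¬ IsP1 L) : (Nat.card J).Prime := by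
  obtain ⟨-, ⟨U, -, hU, hJU, hfree⟩, -⟩ := kappa_structure hG hL hJ hJ1
  refine (prime_of_regular hG hL hJ hJ1 hU hJU hfree fun hU1 => hP1 fun q hq hd hσ => ?_).1
  by_contra hκ
  refine hU.2.2 q hq ⟨hq, hκ, hσ⟩ ?_
  rwa [hU1, relIndex_bot_left]

/-- `|Z| = |J| |J*|`. -/
theorem card_join {J : Subgroup G} (hJ : IsPiHallOf (kappa L) J L) :
    Nat.card ↥(J ⊔ (sigmaCore L ⊓ centralizer (J : Set G))) =
      Nat.card J * Nat.card ↥(sigmaCore L ⊓ centralizer (J : Set G)) := by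
  have hbot : J ⊓ (sigmaCore L ⊓ centralizer (J : Set G)) = ⊥ := by
    refine Coprime.inf_eq_bot_of_coprime (Nat.coprime_of_dvd fun p hp h1 h2 => ?_)
    exact (hJ.2.1 p hp h1).2.2.1 (OddLocal.piCoreOf_isPi (sigma L) L p hp (h2.trans (card_dvd_of_le inf_le_left)))
  have h := Coprime.card_sup_mul_card_inf_of_le_normalizer
    ((le_centralizer_iff.mp inf_le_right).trans (centralizer_le_normalizer _) :
      J ≤ normalizer ((sigmaCore L ⊓ centralizer (J : Set G) : Subgroup G) : Set G))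
  rwa [hbot, card_bot, mul_one] at h

/-- `K*` is a proper subgroup of `M_σ`. -/
theorem three_mul_star_le (hG : IsMinSimpleOddOrder G) (hM : IsCoatom M) (hK : IsPiHallOf (kappa M) K M)
    (hK1 : K ≠ ⊥) :
    3 * Nat.card ↥(sigmaCore M ⊓ centralizer (K : Set G)) ≤ Nat.card (sigmaCore M) := by
  obtain ⟨-, hU, hX⟩ := kappa_structure hG hM hK hK1
  obtain ⟨-, -, hS, -⟩ := OddLocal.KappaStar.star_props hG hM hK hK1 hU hX
  obtain ⟨p, hp, hd⟩ := Nat.exists_prime_and_dvd (mt card_eq_one.mp (star_ne_bot hG hM hK hK1))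
  haveI := Fact.mk hp
  obtain ⟨S⟩ : Nonempty (Sylow p ↥(sigmaCore M)) := inferInstance
  obtain ⟨-, -, hS'⟩ := hS p hp hd S
  set T := sigmaCore M ⊓ centralizer (K : Set G)
  have hne : T.relIndex (sigmaCore M) ≠ 1 := fun h => hS' ((map_subtype_le _).trans (relIndex_eq_one.mp h))
  have h := relIndex_mul_relIndex ⊥ T (sigmaCore M) bot_le inf_le_left
  rw [relIndex_bot_left, relIndex_bot_left] at h
  have hodd : Odd (T.relIndex (sigmaCore M)) :=
    Odd.of_dvd_nat (odd_card hG (sigmaCore M)) (relIndex_dvd_card _ _)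
  obtain ⟨j, hj⟩ := hodd
  rw [← h, mul_comm 3]
  refine Nat.mul_le_mul_left _ ?_
  rw [hj] at hne ⊢
  omega

/-- `Ẑ` meets no `L̃`. -/
theorem zHat_disjoint_tilde (hG : IsMinSimpleOddOrder G) (hcov : IsZCovered Z) (hL : IsCoatom L) {z : G}
    (hz : z ∈ zHat Z) (g : G) : g * z * g⁻¹ ∉ tildeOf L ((sigmaCore L : Set G) \ {1}) := by
  rintro ⟨x, ⟨hx, hx1⟩, r, hr, y, he⟩
  rw [Set.mem_singleton_iff] at hx1
  obtain ⟨hc, hrσ, hr1⟩ := supportR_spec hG hL hx hr
  obtain ⟨hzZ, hzσ⟩ := hz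
  set c := g⁻¹ * y with hcdef
  have hzc : z = c * (x * r) * c⁻¹ := by
    calc z = g⁻¹ * (g * z * g⁻¹) * g := by group
      _ = g⁻¹ * (y * (x * r) * y⁻¹) * g := by rw [he]
      _ = _ := by rw [hcdef]; group
  obtain ⟨n, hn, -⟩ := part_pow hc hc (PiElem.of_sigmaCore hx) (PiElem.of_sigmaCore hx) hrσ hrσ
  have hx' : c * x * c⁻¹ ∈ Z := by
    have h := Z.pow_mem hzZ n
    rwa [hzc, conj_pow, hn] at h
  obtain ⟨t, ht, htd⟩ := Nat.exists_prime_and_dvd (fun e => hx1 (orderOf_eq_one_iff.mp e))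
  obtain ⟨N, hN, htN⟩ := hcov t ht (by
    refine htd.trans ?_
    rw [show orderOf x = orderOf (c * x * c⁻¹) from (MulEquiv.orderOf_eq (MulAut.conj c) x).symm]
    exact Z.orderOf_dvd_natCard hx')
  obtain ⟨a, ha⟩ := conj_of_sigma_sigma hG hN.1 hL htN (PiElem.of_sigmaCore hx t ht htd)
  have hx'N : c * x * c⁻¹ ∈ sigmaCore N := hN.core_mem hG hx' fun p hp hd =>
    (sigma_conj_iff hG hN.1 a).mp (ha ▸ (PiElem.of_sigmaCore hx).conj c p hp hd)
  have hCx' : centralizer ({c * x * c⁻¹} : Set G) ≤ N :=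
    hN.centralizer_le hG hx' hx'N fun h => hx1 (conj_eq_one_iff.mp h)
  have hC : centralizer ({x} : Set G) ≤ MulAut.conj c⁻¹ • N := by
    have h := pointwise_smul_le_pointwise_smul_iff (a := MulAut.conj c⁻¹).mpr hCx'
    rwa [conj_smul_centralizer_singleton, show c⁻¹ * (c * x * c⁻¹) * c⁻¹⁻¹ = x by group] at h
  have hxc : x ∈ sigmaCore (MulAut.conj c⁻¹ • N) := by
    have h := conj_mem_sigmaCore hG hN.1 hx'N c⁻¹
    rwa [show c⁻¹ * (c * x * c⁻¹) * c⁻¹⁻¹ = x by group] at h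
  have hLe : L = MulAut.conj c⁻¹ • N := by
    have h2 : L = MulAut.conj (a * c) • MulAut.conj c⁻¹ • N := by
      rw [ha, ← mul_smul, ← map_mul, mul_inv_cancel_right]
    rw [h2]
    exact Coprime.conj_smul_eq_self (le_normalizer (conj_eq_of_mem hG (coatom_smul _ hN.1) hxc hC
      (h2 ▸ (map_subtype_le _ : sigmaCore L ≤ L) hx)))
  refine hzσ N hN ?_
  rw [hzc, hr1 (hLe ▸ hC), mul_one]
  exact hx'N

/-- A line of `K` gives a member. -/
theorem exists_member_of_line (hG : IsMinSimpleOddOrder G) (hM : IsCoatom M) (hK : IsPiHallOf (kappa M) K M)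
    (hK1 : K ≠ ⊥) {X : Subgroup G} (hXK : X ≤ K) (hX : (Nat.card X).Prime) :
    ∃ N : Subgroup G, IsZMember (K ⊔ (sigmaCore M ⊓ centralizer (K : Set G))) N ∧ Nat.card X ∈ sigma N ∧
      normalizer (X : Set G) ≤ N := by
  haveI := Fact.mk hX
  obtain ⟨N, hN, hNX⟩ := exists_coatom_ge (normalizer_line_ne_top hG
    (IsPGroup.of_card (n := 1) (pow_one _).symm : IsPGroup (Nat.card X) X) fun e => hX.ne_one (by rw [e, card_bot]))
  obtain ⟨J, hJ, hJ1, -, -, hXT, hZ⟩ := partner_step hG hM hK hK1 hXK hX hN hNX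
  exact ⟨N, ⟨hN, J, hJ, hJ1, hZ⟩,
    OddLocal.piCoreOf_isPi (sigma N) N _ hX (card_dvd_of_le (hXT.trans inf_le_left)), hNX⟩

theorem isZCovered (hG : IsMinSimpleOddOrder G) (hM : IsCoatom M) (hK : IsPiHallOf (kappa M) K M) (hK1 : K ≠ ⊥) :
    IsZCovered (K ⊔ (sigmaCore M ⊓ centralizer (K : Set G))) := by
  intro p hp hd
  haveI := Fact.mk hp
  rw [card_join hK] at hd
  rcases hp.dvd_mul.mp hd with h | h
  · obtain ⟨X, hXK, hX⟩ := exists_line (E := K) h
    obtain ⟨N, hN, hσ, -⟩ := exists_member_of_line hG hM hK hK1 hXK (hX ▸ hp)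
    exact ⟨N, hN, hX ▸ hσ⟩
  · exact ⟨M, ⟨hM, K, hK, hK1, rfl⟩,
      OddLocal.piCoreOf_isPi (sigma M) M p hp (h.trans (card_dvd_of_le inf_le_left))⟩

/-- BG 14.7: not all members are of type P₁. -/
theorem exists_member_not_isP1 (hG : IsMinSimpleOddOrder G)
    (h77 : ∀ L : Subgroup G, IsCoatom L →
      Set.ncard (tildeOf L ((sigmaCore L : Set G) \ {1})) = (Nat.card (sigmaCore L) - 1) * L.index)
    (hM : IsCoatom M) (hK : IsPiHallOf (kappa M) K M) (hK1 : K ≠ ⊥) :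
    ∃ L : Subgroup G, IsZMember (K ⊔ (sigmaCore M ⊓ centralizer (K : Set G))) L ∧ ¬ IsP1 L := by
  classical
  by_contra hall
  push Not at hall
  set Z := K ⊔ (sigmaCore M ⊓ centralizer (K : Set G)) with hZdef
  have hcov : IsZCovered Z := isZCovered hG hM hK hK1
  have hMmem : IsZMember Z M := ⟨hM, K, hK, hK1, rfl⟩
  haveI : Fintype G := Fintype.ofFinite G
  haveI : Fintype (Subgroup G) := Fintype.ofFinite _
  set S : Finset (Subgroup G) := Finset.univ.filter (IsZMember Z) with hS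
  have hmem : ∀ L, L ∈ S ↔ IsZMember Z L := fun L => by simp [hS]
  -- at least two members
  obtain ⟨A, hAK, hA, -⟩ := exists_tau_one_line hG hM hK hK1
  obtain ⟨N, hN, hAN, -⟩ := exists_member_of_line hG hM hK hK1 hAK hA
  have hNM : N ≠ M := fun e => (hK.2.1 _ hA (card_dvd_of_le hAK)).2.2.1 (e ▸ hAN)
  have hn : 2 ≤ S.card := by
    have hsub : ({M, N} : Finset (Subgroup G)) ⊆ S := by
      intro L hL
      rcases Finset.mem_insert.mp hL with rfl | h
      · exact (hmem _).mpr hMmem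
      · exact (hmem _).mpr (Finset.mem_singleton.mp h ▸ hN)
    exact (Finset.card_pair hNM.symm).symm.le.trans (Finset.card_le_card hsub)
  -- the numbers for a member
  have hnum : ∀ L ∈ S, ∃ z k : ℕ, Nat.card ↥(sigmaCore L ⊓ Z) = z ∧ Nat.card Z = z * k ∧
      3 * z ≤ Nat.card (sigmaCore L) ∧ k * Nat.card (sigmaCore L) * L.index = Nat.card G := by
    intro L hL
    obtain ⟨hLc, J, hJ, hJ1, hZ⟩ := (hmem L).mp hL
    refine ⟨_, Nat.card J, rfl, ?_, ?_, ?_⟩
    · rw [IsZMember.core_inf hJ hZ, mul_comm, ← hZ, card_join hJ]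
    · rw [IsZMember.core_inf hJ hZ]
      exact three_mul_star_le hG hLc hJ hJ1
    · rw [card_of_isP1 hG hLc hJ (hall L ((hmem L).mp hL)), L.card_mul_index]
  choose! z k hz hk h3 hind using hnum
  -- the set `Ẑ`
  set W := zHat Z with hW
  have hWinv : ∀ g ∈ Z, ∀ w ∈ W, g * w * g⁻¹ ∈ W := fun g hg w hw =>
    ⟨Z.mul_mem (Z.mul_mem hg hw.1) (Z.inv_mem hg), fun L hL h => hw.2 L hL
      ((mem_normalizer_iff.mp (OddLocal.le_normalizer_piCoreOf (sigma L) L (hL.le hg)) w).mpr h)⟩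
  have hWTI : ∀ w ∈ W, ∀ g : G, g * w * g⁻¹ ∈ Z → g ∈ Z := fun w hw g hg =>
    mem_of_conj_zHat hG hcov ⟨M, hMmem⟩ hw hg
  have hWC := ncard_conj_mul (Z := Z) (fun w hw => hw.1) hWinv hWTI
  set C := {a : G | ∃ g : G, ∃ w ∈ W, a = g * w * g⁻¹} with hC
  set T : Subgroup G → Set G := fun L => tildeOf L ((sigmaCore L : Set G) \ {1}) with hT
  -- counting `Ẑ`
  have hWcard : Nat.card Z ≤ W.ncard + 1 + ∑ L ∈ S, (z L - 1) := by
    have hsub : (Z : Set G) ⊆ (W ∪ {1}) ∪ ⋃ L ∈ S, (((sigmaCore L ⊓ Z : Subgroup G) : Set G) \ {1}) := by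
      intro w hw
      by_cases h1 : w = 1
      · exact Or.inl (Or.inr h1)
      by_cases hwW : w ∈ W
      · exact Or.inl (Or.inl hwW)
      obtain ⟨L, hL, hwL⟩ : ∃ L, IsZMember Z L ∧ w ∈ sigmaCore L := by
        by_contra h
        push Not at h
        exact hwW ⟨hw, h⟩
      exact Or.inr (Set.mem_biUnion ((hmem L).mpr hL) ⟨⟨hwL, hw⟩, h1⟩)
    calc Nat.card Z = (Z : Set G).ncard := Nat.card_coe_set_eq _
      _ ≤ _ := Set.ncard_le_ncard hsub
      _ ≤ (W ∪ {1}).ncard + _ := Set.ncard_union_le _ _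
      _ ≤ _ := by
        refine Nat.add_le_add ((Set.ncard_union_le _ _).trans_eq (by rw [Set.ncard_singleton])) ?_
        refine (Finset.set_ncard_biUnion_le S _).trans (Finset.sum_le_sum fun L hL => ?_)
        rw [Set.ncard_diff_singleton_of_mem (one_mem _), ← Nat.card_coe_set_eq]
        exact Nat.sub_le_sub_right (hz L hL).le 1
  -- disjointness
  have hbound : C.ncard + ∑ L ∈ S, (T L).ncard < Nat.card G := by
    have hdisjC : ∀ L ∈ S, Disjoint C (T L) := fun L hL => by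
      rw [Set.disjoint_left]
      rintro _ ⟨g, w, hw, rfl⟩
      exact zHat_disjoint_tilde hG hcov ((hmem L).mp hL).1 hw g
    have hpair : ∀ L ∈ S, ∀ L' ∈ S, L ≠ L' → Disjoint (T L) (T L') := fun L hL L' hL' hne =>
      tilde_disjoint hG ((hmem L).mp hL).1 ((hmem L').mp hL').1
        (((hmem L).mp hL).not_conj hG ((hmem L').mp hL') hne.symm)
    have h1 : (1 : G) ∉ C ∪ ⋃ L ∈ S, T L := by
      rintro (⟨g, w, hw, h⟩ | h)
      · exact hw.2 M hMmem (by rw [(conj_eq_one_iff.mp h.symm : w = 1)]; exact one_mem _)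
      · simp only [Set.mem_iUnion] at h
        obtain ⟨L, hL, x, ⟨hx, hx1⟩, r, hr, y, he⟩ := h
        obtain ⟨hc, hrσ, -⟩ := supportR_spec hG ((hmem L).mp hL).1 hx hr
        exact hx1 (parts_eq hc (Commute.one_right 1) (PiElem.of_sigmaCore hx) PiElem.one hrσ PiElem.one
          (by rw [one_mul]; exact conj_eq_one_iff.mp he.symm)).1
    have hu : (C ∪ ⋃ L ∈ S, T L).ncard = C.ncard + ∑ L ∈ S, (T L).ncard := by
      rw [Set.ncard_union_eq (by simpa [Set.disjoint_iUnion_right] using hdisjC)]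
      congr 1
      rw [Set.ncard_eq_toFinset_card', ← Finset.sum_congr rfl fun L _ => (Set.ncard_eq_toFinset_card' (T L)).symm,
        ← Finset.card_biUnion fun L hL L' hL' hne => Set.disjoint_toFinset.mpr (hpair L hL L' hL' hne)]
      congr 1
      ext a
      simp
    rw [← hu, ← Set.ncard_univ]
    exact Set.ncard_lt_ncard ((Set.ssubset_iff_of_subset (Set.subset_univ _)).mpr ⟨1, trivial, h1⟩)
  -- arithmetic
  have hterm : ∀ L ∈ S, Nat.card Z * (T L).ncard + L.index * Nat.card Z = Nat.card G * z L ∧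
      3 * (L.index * Nat.card Z) ≤ Nat.card G := by
    intro L hL
    have h1 : 1 ≤ Nat.card (sigmaCore L) := Nat.card_pos
    obtain ⟨m, hm⟩ := Nat.exists_eq_add_of_le h1
    have hT' : (T L).ncard = m * L.index := by rw [hT]; simp only; rw [h77 L ((hmem L).mp hL).1, hm, Nat.add_sub_cancel_left]
    constructor
    · rw [hT', ← hind L hL, hk L hL, hm]
      ring
    · rw [← hind L hL, hk L hL]
      calc 3 * (L.index * (z L * k L)) = (3 * z L) * (k L * L.index) := by ring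
        _ ≤ Nat.card (sigmaCore L) * (k L * L.index) := Nat.mul_le_mul_right _ (h3 L hL)
        _ = _ := by ring
  have hzpos : ∀ L ∈ S, 1 ≤ z L := fun L hL => (hz L hL) ▸ Nat.card_pos
  have hsum1 : Nat.card Z * ∑ L ∈ S, (T L).ncard + ∑ L ∈ S, L.index * Nat.card Z =
      Nat.card G * ∑ L ∈ S, (z L - 1) + Nat.card G * S.card := by
    rw [Finset.mul_sum, ← Finset.sum_add_distrib, Finset.sum_congr rfl fun L hL => (hterm L hL).1,
      Finset.card_eq_sum_ones, Finset.mul_sum, Finset.mul_sum, ← Finset.sum_add_distrib]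
    refine Finset.sum_congr rfl fun L hL => ?_
    rw [← Nat.mul_add, Nat.sub_add_cancel (hzpos L hL)]
  have hsum2 : 3 * ∑ L ∈ S, L.index * Nat.card Z ≤ Nat.card G * S.card := by
    rw [Finset.mul_sum, Finset.card_eq_sum_ones, Finset.mul_sum, mul_one]
    exact Finset.sum_le_sum fun L hL => (hterm L hL).2
  have h5 : Nat.card G * Nat.card Z ≤ Nat.card G * (W.ncard + 1 + ∑ L ∈ S, (z L - 1)) :=
    Nat.mul_le_mul_left _ hWcard
  have h6 : Nat.card Z * (C.ncard + ∑ L ∈ S, (T L).ncard) + Nat.card Z ≤ Nat.card Z * Nat.card G := by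
    have h := Nat.mul_le_mul_left (Nat.card Z) hbound
    rwa [Nat.mul_succ] at h
  have h7 : Nat.card G * 2 ≤ Nat.card G * S.card := Nat.mul_le_mul_left _ hn
  have hpos : 0 < Nat.card Z := Nat.card_pos
  rw [mul_comm C.ncard] at hWC
  rw [Nat.mul_add, mul_comm W.ncard] at *
  nlinarith

/-- BG 14.7: the partner of `M`. -/
theorem exists_partner (hG : IsMinSimpleOddOrder G)
    (h77 : ∀ L : Subgroup G, IsCoatom L →
      Set.ncard (tildeOf L ((sigmaCore L : Set G) \ {1})) = (Nat.card (sigmaCore L) - 1) * L.index)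
    (hM : IsCoatom M) (hK : IsPiHallOf (kappa M) K M) (hK1 : K ≠ ⊥) :
    ∃ N : Subgroup G, IsCoatom N ∧ IsPiHallOf (kappa N) (sigmaCore M ⊓ centralizer (K : Set G)) N ∧
      sigmaCore N ⊓ centralizer ((sigmaCore M ⊓ centralizer (K : Set G) : Subgroup G) : Set G) = K ∧
      ((Nat.card K).Prime ∧ Group.IsNilpotent (sigmaCore M) ∨
        (Nat.card ↥(sigmaCore M ⊓ centralizer (K : Set G))).Prime ∧ Group.IsNilpotent (sigmaCore N)) := by
  have hreg : ∀ (L J : Subgroup G), IsCoatom L → IsPiHallOf (kappa L) J L → J ≠ ⊥ → ¬ IsP1 L →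
      (Nat.card J).Prime ∧ Group.IsNilpotent (sigmaCore L) := by
    intro L J hL hJ hJ1 hP1
    obtain ⟨-, ⟨U, -, hU, hJU, hfree⟩, -⟩ := kappa_structure hG hL hJ hJ1
    refine prime_of_regular hG hL hJ hJ1 hU hJU hfree fun hU1 => hP1 fun q hq hd hσ => ?_
    by_contra hκ
    refine hU.2.2 q hq ⟨hq, hκ, hσ⟩ ?_
    rwa [hU1, relIndex_bot_left]
  by_cases hP1 : IsP1 M
  swap
  · have h := hreg M K hM hK hK1 hP1
    haveI := Fact.mk h.1
    obtain ⟨N, hN, hNK⟩ := exists_coatom_ge (normalizer_line_ne_top hG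
      (IsPGroup.of_card (n := 1) (pow_one _).symm : IsPGroup (Nat.card K) K) hK1)
    obtain ⟨h1, h2⟩ := partner_of_prime hG hM hK hK1 h.1 hN hNK
    exact ⟨N, hN, h1, h2, Or.inl h⟩
  obtain ⟨N, hNmem, hNP⟩ := exists_member_not_isP1 hG h77 hM hK hK1
  have hne : M ≠ N := fun e => hNP (e ▸ hP1)
  have hnc := IsZMember.not_conj hG (L := M) (Z := K ⊔ (sigmaCore M ⊓ centralizer (K : Set G)))
    ⟨hM, K, hK, hK1, rfl⟩ hNmem hne.symm
  have hdis : ∀ p : ℕ, p ∈ sigma M → p ∉ sigma N := fun p h1 h2 => by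
    obtain ⟨g, hg⟩ := conj_of_sigma_sigma hG hM hNmem.1 h1 h2
    exact hnc g hg
  obtain ⟨hN, J, hJ, hJ1, hZ⟩ := hNmem
  obtain ⟨hJp, hnil⟩ := hreg N J hN hJ hJ1 hNP
  set S := sigmaCore M ⊓ centralizer (K : Set G) with hS
  set T := sigmaCore N ⊓ centralizer (J : Set G) with hT
  have hTσ : ∀ p : ℕ, p.Prime → p ∣ Nat.card T → p ∈ sigma N := fun p hp hd =>
    OddLocal.piCoreOf_isPi (sigma N) N p hp (hd.trans (card_dvd_of_le inf_le_left))
  have hSσ : ∀ p : ℕ, p.Prime → p ∣ Nat.card S → p ∈ sigma M := fun p hp hd =>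
    OddLocal.piCoreOf_isPi (sigma M) M p hp (hd.trans (card_dvd_of_le inf_le_left))
  have hSJ : S ≤ J := fun s hs => mem_left_of_join (π := (sigma N)ᶜ) (le_centralizer_iff.mp inf_le_right)
    (fun p hp hd => (hJ.2.1 p hp hd).2.2.1) (fun p hp hd h => h (hTσ p hp hd)) (hZ.ge (mem_sup_right hs))
    fun p hp hd => hdis p (hSσ p hp (hd.trans (S.orderOf_dvd_natCard hs)))
  have hSeq : S = J := by
    refine eq_of_le_of_card_ge hSJ ?_
    rcases (Nat.dvd_prime hJp).mp (card_dvd_of_le hSJ) with h | h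
    · exact absurd (card_eq_one.mp h) (star_ne_bot hG hM hK hK1)
    · exact h.ge
  have hTK : T = K := by
    refine le_antisymm (fun t ht => ?_) fun x hx => ?_
    · exact mem_left_of_join (π := (sigma M)ᶜ) (le_centralizer_iff.mp inf_le_right)
        (fun p hp hd => (hK.2.1 p hp hd).2.2.1) (fun p hp hd h => h (hSσ p hp hd)) (hZ.le (mem_sup_right ht))
        fun p hp hd h => hdis p h (hTσ p hp (hd.trans (T.orderOf_dvd_natCard ht)))
    · refine mem_right_of_join (π := sigma M) (A := J) (le_centralizer_iff.mp inf_le_right) ?_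
        (fun p hp hd h => hdis p h (hTσ p hp hd)) (hZ.ge (mem_sup_left hx))
        fun p hp hd => (hK.2.1 p hp (hd.trans (K.orderOf_dvd_natCard hx))).2.2.1
      intro p hp hd
      exact hSσ p hp (hSeq ▸ hd)
  refine ⟨N, hN, hSeq ▸ hJ, ?_, Or.inr ⟨hSeq ▸ hJp, hnil⟩⟩
  rw [hSeq]; exact hTK

end Cfsg.Agent.Lib.Uniq
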