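import Cfsg.Agent.Lib.Uniq.KappaPair
set_option autoImplicit false

/-! BG 14.7: properties of a pair `M`, `M*`. -/

namespace Cfsg.Agent.Lib.Uniq

open Subgroup
open scoped Pointwise commutatorElement

universe u

variable {G : Type u} [Group G] [Finite G] {M N K : Subgroup G}

/-- The data of BG 14.7. -/
structure IsKappaPair (M K N : Subgroup G) : Prop where
  coatomM : IsCoatom M
  hallM : IsPiHallOf (kappa M) K M
  K_ne : K ≠ ⊥
  coatomN : IsCoatom N
  hallN : IsPiHallOf (kappa N) (sigmaCore M ⊓ centralizer (K : Set G)) N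
  fixed : sigmaCore N ⊓ centralizer ((sigmaCore M ⊓ centralizer (K : Set G) : Subgroup G) : Set G) = K

namespace IsKappaPair

theorem symm (hG : IsMinSimpleOddOrder G) (h : IsKappaPair M K N) :
    IsKappaPair N (sigmaCore M ⊓ centralizer (K : Set G)) M :=
  ⟨h.coatomN, h.hallN, star_ne_bot hG h.coatomM h.hallM h.K_ne, h.coatomM, by rw [h.fixed]; exact h.hallM,
    by rw [h.fixed]⟩

theorem memberM (h : IsKappaPair M K N) : IsZMember (K ⊔ (sigmaCore M ⊓ centralizer (K : Set G))) M :=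
  ⟨h.coatomM, K, h.hallM, h.K_ne, rfl⟩

theorem memberN (hG : IsMinSimpleOddOrder G) (h : IsKappaPair M K N) :
    IsZMember (K ⊔ (sigmaCore M ⊓ centralizer (K : Set G))) N :=
  ⟨h.coatomN, _, h.hallN, star_ne_bot hG h.coatomM h.hallM h.K_ne, by rw [h.fixed, sup_comm]⟩

theorem K_le_coreN (h : IsKappaPair M K N) : K ≤ sigmaCore N := fun _ hx => (h.fixed.ge hx).1

theorem disjoint_sigma (hG : IsMinSimpleOddOrder G) (h : IsKappaPair M K N) :
    ∀ p : ℕ, p ∈ sigma M → p ∉ sigma N := by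
  intro p h1 h2
  obtain ⟨g, hg⟩ := conj_of_sigma_sigma hG h.coatomM h.coatomN h1 h2
  obtain ⟨k, hk, hk1⟩ := K.bot_or_exists_ne_one.resolve_left h.K_ne
  obtain ⟨t, ht, htd⟩ := Nat.exists_prime_and_dvd (fun e => hk1 (orderOf_eq_one_iff.mp e))
  exact (h.hallM.2.1 t ht (htd.trans (K.orderOf_dvd_natCard hk))).2.2.1
    ((sigma_conj_iff hG h.coatomM g).mp (hg ▸ PiElem.of_sigmaCore (h.K_le_coreN hk) t ht htd))

theorem not_conj (hG : IsMinSimpleOddOrder G) (h : IsKappaPair M K N) : ∀ g : G, N ≠ MulAut.conj g • M := by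
  intro g hg
  obtain ⟨k, hk, hk1⟩ := K.bot_or_exists_ne_one.resolve_left h.K_ne
  obtain ⟨t, ht, htd⟩ := Nat.exists_prime_and_dvd (fun e => hk1 (orderOf_eq_one_iff.mp e))
  exact (h.hallM.2.1 t ht (htd.trans (K.orderOf_dvd_natCard hk))).2.2.1
    ((sigma_conj_iff hG h.coatomM g).mp (hg ▸ PiElem.of_sigmaCore (h.K_le_coreN hk) t ht htd))

theorem covered (h : IsKappaPair M K N) (p : ℕ) (hp : p.Prime)
    (hd : p ∣ Nat.card ↥(K ⊔ (sigmaCore M ⊓ centralizer (K : Set G)))) : p ∈ sigma M ∨ p ∈ sigma N := by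
  rw [card_join h.hallM] at hd
  rcases hp.dvd_mul.mp hd with hd | hd
  · exact Or.inr (OddLocal.piCoreOf_isPi (sigma N) N p hp (hd.trans (card_dvd_of_le h.K_le_coreN)))
  · exact Or.inl (OddLocal.piCoreOf_isPi (sigma M) M p hp (hd.trans (card_dvd_of_le inf_le_left)))

theorem member_cases (hG : IsMinSimpleOddOrder G) (h : IsKappaPair M K N) {L : Subgroup G}
    (hL : IsZMember (K ⊔ (sigmaCore M ⊓ centralizer (K : Set G))) L) : L = M ∨ L = N := by
  obtain ⟨hLc, J, hJ, hJ1, hZ⟩ := id hL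
  obtain ⟨p, hp, hd⟩ := Nat.exists_prime_and_dvd (mt card_eq_one.mp (star_ne_bot hG hLc hJ hJ1))
  have hpL : p ∈ sigma L := OddLocal.piCoreOf_isPi (sigma L) L p hp (hd.trans (card_dvd_of_le inf_le_left))
  rcases h.covered p hp (hd.trans (card_dvd_of_le (hZ ▸ le_sup_right))) with h' | h'
  · obtain ⟨g, hg⟩ := conj_of_sigma_sigma hG h.coatomM hLc h' hpL
    exact Or.inl (h.memberM.eq_of_conj hG hL hg)
  · obtain ⟨g, hg⟩ := conj_of_sigma_sigma hG h.coatomN hLc h' hpL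
    exact Or.inr ((h.memberN hG).eq_of_conj hG hL hg)

theorem not_both_isP1 (hG : IsMinSimpleOddOrder G)
    (h77 : ∀ L : Subgroup G, IsCoatom L →
      Set.ncard (tildeOf L ((sigmaCore L : Set G) \ {1})) = (Nat.card (sigmaCore L) - 1) * L.index)
    (h : IsKappaPair M K N) : ¬ IsP1 M ∨ ¬ IsP1 N := by
  obtain ⟨L, hL, hP⟩ := exists_member_not_isP1 hG h77 h.coatomM h.hallM h.K_ne
  rcases h.member_cases hG hL with rfl | rfl
  · exact Or.inl hP
  · exact Or.inr hP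

/-- `κ(M) ∩ τ₃(M) = ∅`. -/
theorem kappa_not_tau_three (hG : IsMinSimpleOddOrder G)
    (h77 : ∀ L : Subgroup G, IsCoatom L →
      Set.ncard (tildeOf L ((sigmaCore L : Set G) \ {1})) = (Nat.card (sigmaCore L) - 1) * L.index)
    (h : IsKappaPair M K N) : ∀ t ∈ kappa M, t ∉ tau3 M := by
  intro t hκ h3
  haveI := Fact.mk h3.1
  obtain ⟨E₀, hE₀⟩ := OddLocal.UPart.exists_compl hG h.coatomM
  obtain ⟨E, hE, hKE⟩ := exists_compl_ge_pi hG h.coatomM hE₀ (Y := K)
    (fun s hs hd => (h.hallM.2.1 s hs hd).2.2.1) h.hallM.1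
  obtain ⟨rfl, -, -, -⟩ := kappa_case_tau_three hG h.coatomM hE h.hallM hKE hκ h3
  have hP1 : IsP1 M := fun q hq hd hσ => h.hallM.2.1 q hq (dvd_compl hE hq hd hσ)
  have hN : ¬ IsP1 N := (h.not_both_isP1 hG h77).resolve_left fun h' => h' hP1
  obtain ⟨-, ⟨U, -, hU, hSU, hfree⟩, -⟩ := kappa_structure hG h.coatomN h.hallN
    (star_ne_bot hG h.coatomM h.hallM h.K_ne)
  obtain ⟨-, hnil⟩ := prime_of_regular hG h.coatomN h.hallN (star_ne_bot hG h.coatomM h.hallM h.K_ne) hU hSU hfree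
    fun hU1 => hN fun q hq hd hσ => by
      by_contra hκ'
      refine hU.2.2 q hq ⟨hq, hκ', hσ⟩ ?_
      rwa [hU1, relIndex_bot_left]
  haveI : Group.IsNilpotent E := by
    haveI := hnil
    exact Group.nilpotent_of_mulEquiv (subgroupOfEquivOfLe h.K_le_coreN)
  haveI : IsZGroup ↥E := rank_one_zgroup hG hE.1 fun s hs hd => by
    haveI := Fact.mk hs
    rcases (kappa_line hG h.coatomM hE (h.hallM.2.1 s hs hd)).1 with h' | h'
    · exact h'.2.2.2.2
    · exact h'.2.2.2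
  haveI : IsCyclic ↥E := inferInstance
  obtain ⟨R, hRE, hR⟩ := exists_line (E := E) (dvd_compl hE h3.1 hκ.2.1 h3.2.1)
  exact not_le_centralizer_tau_three_line hG h.coatomM hE h3 hRE hR fun e he => mem_centralizer_iff.mpr fun a ha =>
    congrArg Subtype.val ((IsCyclic.commGroup (α := E)).mul_comm (⟨a, hRE ha⟩ : E) ⟨e, he⟩)

/-- `K` is cyclic and `κ(M) = τ₁(M)`. -/
theorem cyclic_and_tau_one (hG : IsMinSimpleOddOrder G)
    (h77 : ∀ L : Subgroup G, IsCoatom L →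
      Set.ncard (tildeOf L ((sigmaCore L : Set G) \ {1})) = (Nat.card (sigmaCore L) - 1) * L.index)
    (h : IsKappaPair M K N) : IsCyclic K ∧ kappa M = tau1 M := by
  have h3 := h.kappa_not_tau_three hG h77
  obtain ⟨E₀, hE₀⟩ := OddLocal.UPart.exists_compl hG h.coatomM
  obtain ⟨E, hE, hKE⟩ := exists_compl_ge_pi hG h.coatomM hE₀ (Y := K)
    (fun s hs hd => (h.hallM.2.1 s hs hd).2.2.1) h.hallM.1
  obtain ⟨hKc, -, -, U, hUc, hU, hKU, hfree⟩ := kappa_case_tau_one hG h.coatomM hE h.hallM hKE h.K_ne h3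
  refine ⟨hKc, Set.ext fun t => ⟨fun hκ => ?_, fun hτ => ?_⟩⟩
  · haveI := Fact.mk hκ.1
    exact (kappa_line hG h.coatomM hE hκ).1.resolve_right (h3 t hκ)
  · by_contra hκ
    obtain ⟨k, hk, hk1⟩ := K.bot_or_exists_ne_one.resolve_left h.K_ne
    have hUD : U ≤ ⁅M, M⁆ := (OddLocal.KappaStar.le_commutator_of_free hk hUc hKU (hfree k hk hk1)).trans
      (commutator_mono (sup_le h.hallM.1 hU.1) (sup_le h.hallM.1 hU.1))
    refine hτ.2.2.2.1 (Dvd.dvd.trans ?_ (card_dvd_of_le hUD))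
    have h1 := relIndex_mul_relIndex ⊥ U M bot_le hU.1
    rw [relIndex_bot_left, relIndex_bot_left] at h1
    exact (hτ.1.dvd_mul.mp (h1 ▸ hτ.2.2.1)).resolve_right (hU.2.2 t hτ.1 ⟨hτ.1, hκ, hτ.2.1⟩)

/-- `Z = K K*` is cyclic. -/
theorem cyclic_join (hG : IsMinSimpleOddOrder G)
    (h77 : ∀ L : Subgroup G, IsCoatom L →
      Set.ncard (tildeOf L ((sigmaCore L : Set G) \ {1})) = (Nat.card (sigmaCore L) - 1) * L.index)
    (h : IsKappaPair M K N) : IsCyclic ↥(K ⊔ (sigmaCore M ⊓ centralizer (K : Set G))) := by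
  set S := sigmaCore M ⊓ centralizer (K : Set G) with hS
  haveI := (h.cyclic_and_tau_one hG h77).1
  haveI : IsCyclic S := ((h.symm hG).cyclic_and_tau_one hG h77).1
  obtain ⟨⟨k, hk⟩, hkg⟩ := IsCyclic.exists_generator (α := K)
  obtain ⟨⟨s, hs⟩, hsg⟩ := IsCyclic.exists_generator (α := S)
  have hks : Commute k s := (show k * s = s * k from mem_centralizer_iff.mp hs.2 k hk)
  have hkπ : PiElem (kappa M) k := PiElem.of_mem h.hallM.2.1 hk
  have hsπ : PiElem (kappa M)ᶜ s := fun p hp hd hκ => hκ.2.2.1 (PiElem.of_sigmaCore hs.1 p hp hd)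
  obtain ⟨n, hn, -⟩ := part_pow hks hks hkπ hkπ hsπ hsπ
  have hkz : k ∈ zpowers (k * s) := by
    have := pow_mem (mem_zpowers (k * s)) n
    rwa [hn] at this
  have hsz : s ∈ zpowers (k * s) := by
    have := mul_mem (inv_mem hkz) (mem_zpowers (k * s))
    simpa using this
  refine (Subgroup.isCyclic_iff_exists_zpowers_eq_top _).mpr ⟨k * s, le_antisymm (zpowers_le.mpr
    (mul_mem (mem_sup_left hk) (mem_sup_right hs))) (sup_le (fun x hx => ?_) fun x hx => ?_)⟩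
  · obtain ⟨i, hi⟩ := mem_zpowers_iff.mp (hkg ⟨x, hx⟩)
    rw [show x = k ^ i from (congrArg Subtype.val hi).symm]
    exact zpow_mem hkz i
  · obtain ⟨i, hi⟩ := mem_zpowers_iff.mp (hsg ⟨x, hx⟩)
    rw [show x = s ^ i from (congrArg Subtype.val hi).symm]
    exact zpow_mem hsz i

/-- `M_σ ∩ M* = K*`. -/
theorem core_inf (hG : IsMinSimpleOddOrder G) (h : IsKappaPair M K N) :
    sigmaCore M ⊓ N = sigmaCore M ⊓ centralizer (K : Set G) := by
  refine le_antisymm (fun d hd => ⟨hd.1, mem_centralizer_iff.mpr fun k hk => ?_⟩)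
    (le_inf inf_le_left h.hallN.1)
  have h1 : ⁅k, d⁆ ∈ sigmaCore M ⊓ sigmaCore N := by
    rw [commutatorElement_def]
    refine ⟨mul_mem ((mem_normalizer_iff.mp (OddLocal.le_normalizer_piCoreOf (sigma M) M (h.hallM.1 hk)) d).mp hd.1)
      ((sigmaCore M).inv_mem hd.1), ?_⟩
    rw [show k * d * k⁻¹ * d⁻¹ = k * (d * k⁻¹ * d⁻¹) by group]
    exact mul_mem (h.K_le_coreN hk)
      ((mem_normalizer_iff.mp (OddLocal.le_normalizer_piCoreOf (sigma N) N hd.2) _).mp (inv_mem (h.K_le_coreN hk)))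
  have hbot : sigmaCore M ⊓ sigmaCore N = ⊥ := Coprime.inf_eq_bot_of_coprime (Nat.coprime_of_dvd fun p hp h1 h2 =>
    h.disjoint_sigma hG p (OddLocal.piCoreOf_isPi (sigma M) M p hp h1)
      (OddLocal.piCoreOf_isPi (sigma N) N p hp h2))
  rw [hbot, mem_bot, commutatorElement_eq_one_iff_mul_comm] at h1
  exact h1

/-- `M ∩ M* = K K*`. -/
theorem inter (hG : IsMinSimpleOddOrder G) (h : IsKappaPair M K N) :
    M ⊓ N = K ⊔ (sigmaCore M ⊓ centralizer (K : Set G)) := by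
  refine le_antisymm (fun g hg => ?_) (le_inf h.memberM.le (h.memberN hG).le)
  obtain ⟨-, -, hlines⟩ := kappa_structure hG h.coatomN h.hallN (star_ne_bot hG h.coatomM h.hallM h.K_ne)
  obtain ⟨A, hA, hAp, -⟩ := exists_tau_one_line hG h.coatomN h.hallN (star_ne_bot hG h.coatomM h.hallM h.K_ne)
  have hg' : g ∈ N ⊓ normalizer ((sigmaCore M ⊓ centralizer (K : Set G) : Subgroup G) : Set G) := by
    refine ⟨hg.2, ?_⟩
    rw [← h.core_inf hG]
    exact inf_normalizer_le_normalizer_inf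
      ⟨OddLocal.le_normalizer_piCoreOf (sigma M) M hg.1, le_normalizer hg.2⟩
  rw [(hlines A hA hAp).2.1, h.fixed, sup_comm] at hg'
  exact hg'

/-- `K*` is a Hall `σ(M)`-subgroup of `M*`. -/
theorem hall_sigma (hG : IsMinSimpleOddOrder G) (h : IsKappaPair M K N) :
    IsPiHallOf (sigma M) (sigmaCore M ⊓ centralizer (K : Set G)) N := by
  set S := sigmaCore M ⊓ centralizer (K : Set G) with hS
  have hSσ : ∀ p : ℕ, p.Prime → p ∣ Nat.card S → p ∈ sigma M := fun p hp hd =>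
    OddLocal.piCoreOf_isPi (sigma M) M p hp (hd.trans (card_dvd_of_le inf_le_left))
  obtain ⟨H, hH, hSH⟩ := exists_hall_ge hG h.coatomN.1 h.hallN.1 (sigma M) hSσ
  obtain ⟨-, hU, hX⟩ := kappa_structure hG h.coatomM h.hallM h.K_ne
  obtain ⟨-, -, -, hY⟩ := OddLocal.KappaStar.star_props hG h.coatomM h.hallM h.K_ne hU hX
  have hHσ := hY H hH.2.1 fun e => star_ne_bot hG h.coatomM h.hallM h.K_ne
    (le_bot_iff.mp ((le_inf hSH le_rfl).trans e.le))
  have hHS : H = S := le_antisymm ((le_inf hHσ hH.1).trans (h.core_inf hG).le) hSH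
  exact hHS ▸ hH

/-- The three centralisers of BG 14.7 (c). -/
theorem centralizers (hG : IsMinSimpleOddOrder G)
    (h77 : ∀ L : Subgroup G, IsCoatom L →
      Set.ncard (tildeOf L ((sigmaCore L : Set G) \ {1})) = (Nat.card (sigmaCore L) - 1) * L.index)
    (h : IsKappaPair M K N) {x y : G} (hx : x ∈ K) (hx1 : x ≠ 1)
    (hy : y ∈ sigmaCore M ⊓ centralizer (K : Set G)) (hy1 : y ≠ 1) :
    M ⊓ centralizer ({x} : Set G) = K ⊔ (sigmaCore M ⊓ centralizer (K : Set G)) ∧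
      N ⊓ centralizer ({y} : Set G) = K ⊔ (sigmaCore M ⊓ centralizer (K : Set G)) ∧
      centralizer ({x * y} : Set G) = K ⊔ (sigmaCore M ⊓ centralizer (K : Set G)) := by
  set Z := K ⊔ (sigmaCore M ⊓ centralizer (K : Set G)) with hZ
  haveI := h.cyclic_join hG h77
  have hZc : ∀ w ∈ Z, Z ≤ centralizer ({w} : Set G) := fun w hw v hv => mem_centralizer_singleton_iff.mpr
    (congrArg Subtype.val ((IsCyclic.commGroup (α := Z)).mul_comm (⟨v, hv⟩ : Z) ⟨w, hw⟩))
  have side : ∀ (L J : Subgroup G), IsCoatom L → IsPiHallOf (kappa L) J L → J ≠ ⊥ →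
      J ⊔ (sigmaCore L ⊓ centralizer (J : Set G)) = Z → ∀ w ∈ J, w ≠ 1 →
      L ⊓ centralizer ({w} : Set G) = Z := by
    intro L J hL hJ hJ1 hJZ w hw hw1
    refine le_antisymm ?_ (le_inf (IsZMember.le (L := L) ⟨hL, J, hJ, hJ1, hJZ⟩) (hZc w (hJZ.le (mem_sup_left hw))))
    obtain ⟨t, ht, htd⟩ := Nat.exists_prime_and_dvd (fun e => hw1 (orderOf_eq_one_iff.mp e))
    obtain ⟨-, -, hlines⟩ := kappa_structure hG hL hJ hJ1
    rw [← hJZ, ← (hlines (zpowers (w ^ (orderOf w / t))) (zpowers_le.mpr (J.pow_mem hw _))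
      (by rw [Nat.card_zpowers, orderOf_pow_orderOf_div (orderOf_pos w).ne' htd]; exact ht)).1]
    refine inf_le_inf_left _ (le_trans (fun c hc => ?_) (centralizer_le_normalizer _))
    rw [centralizer_zpowers]
    exact mem_centralizer_singleton_iff.mpr (Commute.pow_right (mem_centralizer_singleton_iff.mp hc) _).eq
  have hM' := side M K h.coatomM h.hallM h.K_ne rfl x hx hx1
  have hN' := side N _ h.coatomN h.hallN (star_ne_bot hG h.coatomM h.hallM h.K_ne)
    (by rw [h.fixed, sup_comm]) y hy hy1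
  refine ⟨hM', hN', le_antisymm (fun c hc => ?_) (hZc _ (mul_mem (mem_sup_left hx) (mem_sup_right hy)))⟩
  have hxy : Commute x y := (show x * y = y * x from mem_centralizer_iff.mp hy.2 x hx)
  have hxπ : PiElem (kappa M) x := PiElem.of_mem h.hallM.2.1 hx
  have hyπ : PiElem (kappa M)ᶜ y := fun p hp hd hκ => hκ.2.2.1 (PiElem.of_sigmaCore hy.1 p hp hd)
  obtain ⟨n, hn, -⟩ := part_pow hxy hxy hxπ hxπ hyπ hyπ
  have hcx : Commute c x := by
    have := Commute.pow_right (mem_centralizer_singleton_iff.mp hc) n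
    rwa [hn] at this
  have hcy : Commute c y := by
    have := (hcx.inv_right).mul_right (show Commute c (x * y) from mem_centralizer_singleton_iff.mp hc)
    simpa using this
  exact hM'.le ⟨star_centralizer_le hG h.coatomM h.hallM h.K_ne hy hy1 (mem_centralizer_singleton_iff.mpr hcy.eq),
    mem_centralizer_singleton_iff.mpr hcx.eq⟩

/-- `Ẑ` for a pair. -/
theorem zHat_eq (hG : IsMinSimpleOddOrder G) (h : IsKappaPair M K N) :
    zHat (K ⊔ (sigmaCore M ⊓ centralizer (K : Set G))) =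
      (↑(K ⊔ (sigmaCore M ⊓ centralizer (K : Set G))) : Set G) \
        ((K : Set G) ∪ ↑(sigmaCore M ⊓ centralizer (K : Set G))) := by
  ext z
  constructor
  · rintro ⟨hz, hzσ⟩
    exact ⟨hz, fun h' => h'.elim (fun h' => hzσ N (h.memberN hG) (h.K_le_coreN h'))
      fun h' => hzσ M h.memberM h'.1⟩
  · rintro ⟨hz, hzn⟩
    refine ⟨hz, fun L hL hzL => hzn ?_⟩
    rcases h.member_cases hG hL with rfl | rfl
    · exact Or.inr ((IsZMember.core_inf h.hallM rfl).le ⟨hzL, hz⟩)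
    · exact Or.inl (((IsZMember.core_inf h.hallN (by rw [h.fixed, sup_comm])).trans h.fixed).le ⟨hzL, hz⟩)

theorem zCovered (hG : IsMinSimpleOddOrder G) (h : IsKappaPair M K N) :
    IsZCovered (K ⊔ (sigmaCore M ⊓ centralizer (K : Set G))) := fun p hp hd =>
  (h.covered p hp hd).elim (fun h' => ⟨M, h.memberM, h'⟩) fun h' => ⟨N, h.memberN hG, h'⟩

/-- The fusion in `Ẑ` is trivial. -/
theorem mem_of_conj (hG : IsMinSimpleOddOrder G) (h : IsKappaPair M K N) {z : G}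
    (hz : z ∈ (↑(K ⊔ (sigmaCore M ⊓ centralizer (K : Set G))) : Set G) \
      ((K : Set G) ∪ ↑(sigmaCore M ⊓ centralizer (K : Set G)))) {g : G}
    (hg : g * z * g⁻¹ ∈ K ⊔ (sigmaCore M ⊓ centralizer (K : Set G))) :
    g ∈ K ⊔ (sigmaCore M ⊓ centralizer (K : Set G)) :=
  mem_of_conj_zHat hG (h.zCovered hG) ⟨M, h.memberM⟩ ((h.zHat_eq hG).ge hz) hg

/-- Decomposition of an element of `Ẑ`. -/
theorem split (h : IsKappaPair M K N) {z : G}
    (hz : z ∈ (↑(K ⊔ (sigmaCore M ⊓ centralizer (K : Set G))) : Set G) \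
      ((K : Set G) ∪ ↑(sigmaCore M ⊓ centralizer (K : Set G)))) :
    ∃ k ∈ K, k ≠ 1 ∧ ∃ s ∈ sigmaCore M ⊓ centralizer (K : Set G), s ≠ 1 ∧ z = k * s ∧
      ∃ n : ℕ, z ^ n = k ∧ (z ^ n)⁻¹ * z = s := by
  obtain ⟨hzZ, hzn⟩ := hz
  obtain ⟨k, hk, s, hs, rfl⟩ := (Coprime.mem_sup_of_le_normalizer
    ((le_centralizer_iff.mp inf_le_right).trans (centralizer_le_normalizer _))).mp (SetLike.mem_coe.mp hzZ)
  have hk1 : k ≠ 1 := fun e => hzn (Or.inr (by rw [e, one_mul]; exact hs))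
  have hs1 : s ≠ 1 := fun e => hzn (Or.inl (by rw [e, mul_one]; exact hk))
  have hks : Commute k s := (show k * s = s * k from mem_centralizer_iff.mp hs.2 k hk)
  have hkπ : PiElem (kappa M) k := PiElem.of_mem h.hallM.2.1 hk
  have hsπ : PiElem (kappa M)ᶜ s := fun p hp hd hκ => hκ.2.2.1 (PiElem.of_sigmaCore hs.1 p hp hd)
  obtain ⟨n, hn, -⟩ := part_pow hks hks hkπ hkπ hsπ hsπ
  exact ⟨k, hk, hk1, s, hs, hs1, rfl, n, hn, by rw [hn, inv_mul_cancel_left]⟩

/-- `Ẑ` avoids the other conjugates of `M`. -/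
theorem not_mem_conj (hG : IsMinSimpleOddOrder G) (h : IsKappaPair M K N) {g : G} (hg : g ∉ M) {z : G}
    (hz : z ∈ (↑(K ⊔ (sigmaCore M ⊓ centralizer (K : Set G))) : Set G) \
      ((K : Set G) ∪ ↑(sigmaCore M ⊓ centralizer (K : Set G)))) :
    z ∉ M.map (MulAut.conj g).toMonoidHom := fun hzg => by
  obtain ⟨k, -, -, s, hs, hs1, -, n, -, he⟩ := h.split hz
  refine hg (conj_eq_of_mem hG h.coatomM hs.1 (star_centralizer_le hG h.coatomM h.hallM h.K_ne hs hs1) ?_)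
  show s ∈ M.map (MulAut.conj g).toMonoidHom
  rw [← he]
  exact mul_mem (inv_mem (pow_mem hzg n)) hzg

/-- The number of conjugates of elements of `Ẑ`. -/
theorem count (hG : IsMinSimpleOddOrder G) (h : IsKappaPair M K N) :
    Nat.card K * Nat.card ↥(sigmaCore M ⊓ centralizer (K : Set G)) *
        Set.ncard {a : G | ∃ g : G, ∃ z ∈ ((↑(K ⊔ (sigmaCore M ⊓ centralizer (K : Set G))) : Set G) \
          ((K : Set G) ∪ ↑(sigmaCore M ⊓ centralizer (K : Set G)))), a = g * z * g⁻¹} =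
      (Nat.card K * Nat.card ↥(sigmaCore M ⊓ centralizer (K : Set G)) - Nat.card K -
          Nat.card ↥(sigmaCore M ⊓ centralizer (K : Set G)) + 1) * Nat.card G ∧
    Nat.card G < 2 * Set.ncard {a : G | ∃ g : G, ∃ z ∈ ((↑(K ⊔ (sigmaCore M ⊓ centralizer (K : Set G))) : Set G) \
          ((K : Set G) ∪ ↑(sigmaCore M ⊓ centralizer (K : Set G)))), a = g * z * g⁻¹} := by
  set S := sigmaCore M ⊓ centralizer (K : Set G) with hS
  set W : Set G := (↑(K ⊔ S) : Set G) \ ((K : Set G) ∪ ↑S) with hW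
  have hinv : ∀ g ∈ K ⊔ S, ∀ w ∈ W, g * w * g⁻¹ ∈ W := by
    rw [hW, ← h.zHat_eq hG]
    exact fun g hg w hw => ⟨(K ⊔ S).mul_mem ((K ⊔ S).mul_mem hg hw.1) ((K ⊔ S).inv_mem hg), fun L hL h' => hw.2 L hL
      ((mem_normalizer_iff.mp (OddLocal.le_normalizer_piCoreOf (sigma L) L (hL.le hg)) w).mpr h')⟩
  have hC := ncard_conj_mul (Z := K ⊔ S) (W := W) (fun w hw => hw.1) hinv fun w hw g hg => h.mem_of_conj hG hw hg
  rw [card_join h.hallM] at hC
  have hks : (Nat.card K).Coprime (Nat.card S) := Nat.coprime_of_dvd fun p hp h1 h2 =>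
    (h.hallM.2.1 p hp h1).2.2.1 (OddLocal.piCoreOf_isPi (sigma M) M p hp (h2.trans (card_dvd_of_le inf_le_left)))
  have hinter : ((K : Set G) ∩ ↑S).ncard = 1 := by
    rw [← coe_inf, Coprime.inf_eq_bot_of_coprime hks, coe_bot, Set.ncard_singleton]
  have hu := Set.ncard_union_add_ncard_inter (K : Set G) (S : Set G)
  rw [hinter, ← Nat.card_coe_set_eq (K : Set G), ← Nat.card_coe_set_eq (S : Set G)] at hu
  have hsub : (K : Set G) ∪ ↑S ⊆ (↑(K ⊔ S) : Set G) :=
    Set.union_subset (fun x hx => (le_sup_left : K ≤ K ⊔ S) hx) fun x hx => (le_sup_right : S ≤ K ⊔ S) hx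
  have hd := Set.ncard_diff_add_ncard_of_subset hsub
  rw [← hW, ← Nat.card_coe_set_eq (↑(K ⊔ S) : Set G)] at hd
  change W.ncard + _ = Nat.card ↥(K ⊔ S) at hd
  rw [card_join h.hallM, ← hS] at hd
  change _ + 1 = Nat.card K + Nat.card S at hu
  have hK3 : 3 ≤ Nat.card K := by
    obtain ⟨j, hj⟩ := odd_card hG K
    have : Nat.card K ≠ 1 := fun e => h.K_ne (card_eq_one.mp e)
    omega
  have hS3 : 3 ≤ Nat.card S := by
    obtain ⟨j, hj⟩ := odd_card hG S
    have : Nat.card S ≠ 1 := fun e => star_ne_bot hG h.coatomM h.hallM h.K_ne (card_eq_one.mp e)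
    omega
  have hne : Nat.card K ≠ Nat.card S := fun e => by
    rw [e, Nat.coprime_self] at hks
    omega
  obtain ⟨a, ha⟩ := odd_card hG K
  obtain ⟨b, hb⟩ := odd_card hG S
  have hWk : W.ncard + Nat.card K + Nat.card S = Nat.card K * Nat.card S + 1 := by omega
  have hW' : Nat.card K * Nat.card S - Nat.card K - Nat.card S + 1 = W.ncard := by
    have : Nat.card K + Nat.card S ≤ Nat.card K * Nat.card S := by nlinarith
    omega
  refine ⟨by rw [hW']; linarith, ?_⟩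
  have hpos : 0 < Nat.card G := Nat.card_pos
  have hbig : Nat.card K * Nat.card S < 2 * W.ncard := by
    rcases Nat.lt_or_gt_of_ne hne with hlt | hlt
    · have h5 : 5 ≤ Nat.card S := by omega
      nlinarith
    · have h5 : 5 ≤ Nat.card K := by omega
      nlinarith
  by_contra hcon
  push Not at hcon
  nlinarith

end IsKappaPair

/-- BG 14.7: every Hall `κ(M)`-subgroup belongs to a pair. -/
theorem exists_kappa_pair (hG : IsMinSimpleOddOrder G)
    (h77 : ∀ L : Subgroup G, IsCoatom L →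
      Set.ncard (tildeOf L ((sigmaCore L : Set G) \ {1})) = (Nat.card (sigmaCore L) - 1) * L.index)
    (hM : IsCoatom M) (hK : IsPiHallOf (kappa M) K M) (hK1 : K ≠ ⊥) : ∃ N : Subgroup G, IsKappaPair M K N := by
  obtain ⟨N, hN, h1, h2, -⟩ := exists_partner hG h77 hM hK hK1
  exact ⟨N, hM, hK, hK1, hN, h1, h2⟩

/-- BG 14.7 (f): two pairs meet in a conjugate. -/
theorem IsKappaPair.exists_conj (hG : IsMinSimpleOddOrder G) (h : IsKappaPair M K N) {H J L : Subgroup G}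
    (h' : IsKappaPair H J L) : ∃ g : G, H = MulAut.conj g • M ∨ H = MulAut.conj g • N := by
  classical
  set C : Set G := {a : G | ∃ g : G, ∃ z ∈ ((↑(K ⊔ (sigmaCore M ⊓ centralizer (K : Set G))) : Set G) \
    ((K : Set G) ∪ ↑(sigmaCore M ⊓ centralizer (K : Set G)))), a = g * z * g⁻¹}
  set C' : Set G := {a : G | ∃ g : G, ∃ z ∈ ((↑(J ⊔ (sigmaCore H ⊓ centralizer (J : Set G))) : Set G) \
    ((J : Set G) ∪ ↑(sigmaCore H ⊓ centralizer (J : Set G)))), a = g * z * g⁻¹}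
  obtain ⟨a, ⟨g, z, hz, rfl⟩, g', z', hz', he⟩ : (C ∩ C').Nonempty := by
    rw [Set.nonempty_iff_ne_empty]
    intro he
    have h1 : Set.ncard C + Set.ncard C' ≤ Nat.card G := by
      rw [← Set.ncard_univ, ← Set.ncard_union_eq (Set.disjoint_iff_inter_eq_empty.mpr he)]
      exact Set.ncard_le_ncard (Set.subset_univ _)
    have hc1 : Nat.card G < 2 * C.ncard := (h.count hG).2
    have hc2 : Nat.card G < 2 * C'.ncard := (h'.count hG).2
    omega
  set c := g'⁻¹ * g with hc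
  have hz'e : c * z * c⁻¹ = z' := by
    rw [show c * z * c⁻¹ = g'⁻¹ * (g * z * g⁻¹) * g' by rw [hc]; group, he]; group
  obtain ⟨k, hk, hk1, s, hs, hs1, -, n, hn, hn'⟩ := h.split hz
  have hmem : ∀ m : ℕ, c * z ^ m * c⁻¹ ∈ J ⊔ (sigmaCore H ⊓ centralizer (J : Set G)) := fun m => by
    rw [← conj_pow, hz'e]; exact pow_mem hz'.1 m
  have key : ∀ w : G, w ≠ 1 → c * w * c⁻¹ ∈ J ⊔ (sigmaCore H ⊓ centralizer (J : Set G)) →
      ∀ P : Subgroup G, IsCoatom P → w ∈ sigmaCore P →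
        (∃ a : G, H = MulAut.conj a • P) ∨ (∃ a : G, L = MulAut.conj a • P) := by
    intro w hw1 hwmem P hP hwP
    obtain ⟨t, ht, htd⟩ := Nat.exists_prime_and_dvd (fun e => hw1 (orderOf_eq_one_iff.mp e))
    have htP := PiElem.of_sigmaCore hwP t ht htd
    rcases h'.covered t ht (by
      refine htd.trans ?_
      rw [show orderOf w = orderOf (c * w * c⁻¹) from (MulEquiv.orderOf_eq (MulAut.conj c) w).symm]
      exact Subgroup.orderOf_dvd_natCard _ hwmem) with ht' | ht'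
    · exact Or.inl (conj_of_sigma_sigma hG hP h'.coatomM htP ht')
    · exact Or.inr (conj_of_sigma_sigma hG hP h'.coatomN htP ht')
  have hks := key k hk1 (hn ▸ hmem n) N h.coatomN (h.K_le_coreN hk)
  have hss := key s hs1 (by
    rw [← hn', show c * ((z ^ n)⁻¹ * z) * c⁻¹ = (c * z ^ n * c⁻¹)⁻¹ * (c * z * c⁻¹) by group]
    exact mul_mem (inv_mem (hmem n)) (by simpa using hmem 1)) M h.coatomM hs.1
  rcases hss with ⟨a, ha⟩ | ⟨a, ha⟩
  · exact ⟨a, Or.inl ha⟩
  rcases hks with ⟨b, hb⟩ | ⟨b, hb⟩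
  · exact ⟨b, Or.inr hb⟩
  · exfalso
    refine h.not_conj hG (b⁻¹ * a) ?_
    rw [map_mul, mul_smul, ← ha, hb, map_inv, inv_smul_smul]

end Cfsg.Agent.Lib.Uniq
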