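import Cfsg.Agent.Lib.Uniq.SigmaPart
set_option autoImplicit false

/-! BG 14.7, first part: the maximal subgroup over the normaliser of a line of the Hall `κ(M)`-subgroup. -/

namespace Cfsg.Agent.Lib.Uniq

open Subgroup
open scoped Pointwise commutatorElement

universe u

variable {G : Type u} [Group G] [Finite G] {M N K X J : Subgroup G}

/-- A Hall `κ(M)`-subgroup has a nontrivial fixed group. -/
theorem star_ne_bot (hG : IsMinSimpleOddOrder G) (hM : IsCoatom M) (hK : IsPiHallOf (kappa M) K M)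
    (hK1 : K ≠ ⊥) : sigmaCore M ⊓ centralizer (K : Set G) ≠ ⊥ := by
  obtain ⟨hact, -, -⟩ := kappa_structure hG hM hK hK1
  obtain ⟨k, hk, hk1⟩ := K.bot_or_exists_ne_one.resolve_left hK1
  obtain ⟨p, hp, hpd⟩ := Nat.exists_prime_and_dvd (fun e => hk1 (orderOf_eq_one_iff.mp e))
  haveI := Fact.mk hp
  obtain ⟨P, hPK, hP⟩ := exists_line (E := K) (hpd.trans (K.orderOf_dvd_natCard hk))
  have hκ := hK.2.1 p hp (hP ▸ card_dvd_of_le hPK)
  obtain ⟨E, hE, hPE⟩ := exists_compl_ge hG hM hκ.2.2.1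
    (IsPGroup.of_card (n := 1) (by rw [hP, pow_one]) : IsPGroup p P) (hPK.trans hK.1)
  obtain ⟨a, ha, ha1⟩ := P.bot_or_exists_ne_one.resolve_left fun h => hp.ne_one (by rw [← hP, h, card_bot])
  intro h
  refine (kappa_line hG hM hE hκ).2 P hPE hP (le_bot_iff.mp ?_)
  rw [← h, ← hact a (hPK ha) ha1]
  exact inf_le_inf_left _ (centralizer_le (Set.singleton_subset_iff.mpr ha))

/-- Prime action, for lines. -/
theorem fixed_line (hG : IsMinSimpleOddOrder G) (hM : IsCoatom M) (hK : IsPiHallOf (kappa M) K M) (hK1 : K ≠ ⊥)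
    (hXK : X ≤ K) (hX : X ≠ ⊥) :
    sigmaCore M ⊓ centralizer (X : Set G) = sigmaCore M ⊓ centralizer (K : Set G) := by
  obtain ⟨hact, -, -⟩ := kappa_structure hG hM hK hK1
  obtain ⟨a, ha, ha1⟩ := X.bot_or_exists_ne_one.resolve_left hX
  refine le_antisymm ?_ (inf_le_inf_left _ (centralizer_le hXK))
  rw [← hact a (hXK ha) ha1]
  exact inf_le_inf_left _ (centralizer_le (Set.singleton_subset_iff.mpr ha))

/-- A Hall `κ(M)`-subgroup has a line for a prime of `τ₁(M)`. -/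
theorem exists_tau_one_line (hG : IsMinSimpleOddOrder G) (hM : IsCoatom M) (hK : IsPiHallOf (kappa M) K M)
    (hK1 : K ≠ ⊥) : ∃ A : Subgroup G, A ≤ K ∧ (Nat.card A).Prime ∧ Nat.card A ∈ tau1 M := by
  obtain ⟨k, hk, hk1⟩ := K.bot_or_exists_ne_one.resolve_left hK1
  obtain ⟨p, hp, hpd⟩ := Nat.exists_prime_and_dvd (fun e => hk1 (orderOf_eq_one_iff.mp e))
  haveI := Fact.mk hp
  obtain ⟨P, hPK, hP⟩ := exists_line (E := K) (hpd.trans (K.orderOf_dvd_natCard hk))
  have hκ := hK.2.1 p hp (hP ▸ card_dvd_of_le hPK)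
  obtain ⟨E₀, hE₀, -⟩ := exists_compl_ge hG hM hκ.2.2.1
    (IsPGroup.of_card (n := 1) (by rw [hP, pow_one]) : IsPGroup p P) (hPK.trans hK.1)
  obtain ⟨E, hE, hKE⟩ := exists_compl_ge_pi hG hM hE₀ (Y := K) (fun t ht hd => (hK.2.1 t ht hd).2.2.1) hK.1
  obtain ⟨hτ, hne⟩ := kappa_line hG hM hE hκ
  rcases hτ with h | h
  · exact ⟨P, hPK, hP ▸ hp, hP ▸ h⟩
  obtain ⟨hEK, -, -, -⟩ := kappa_case_tau_three hG hM hE hK hKE hκ h
  obtain ⟨H, hH, hNH⟩ := exists_coatom_ge (normalizer_line_ne_top hG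
    (IsPGroup.of_card (n := 1) (by rw [hP, pow_one]) : IsPGroup p P) fun e => hp.ne_one (by rw [← hP, e, card_bot]))
  obtain ⟨s, A, hs, hs1, -, hAE, hA, -, -, -⟩ := tau_three_structure hG hM hE h (hPK.trans hKE) hP
    (hne P (hPK.trans hKE) hP) hH hNH (Y := ⊥) bot_le (fun u hu hd => absurd (card_bot (G := G) ▸ hd) hu.not_dvd_one)
  exact ⟨A, hEK ▸ hAE, hA ▸ hs, hA ▸ hs1⟩

/-- BG 13.6 for the fixed group `K*`: an element of prime order in it determines `M`. -/
theorem star_line_unique (hG : IsMinSimpleOddOrder G) (hM : IsCoatom M) (hK : IsPiHallOf (kappa M) K M)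
    (hK1 : K ≠ ⊥) {y : G} (hy : y ∈ sigmaCore M ⊓ centralizer (K : Set G)) (hyo : (orderOf y).Prime) :
    normalizer ((zpowers y : Subgroup G) : Set G) ≤ M ∧ centralizer ({y} : Set G) ≤ M ∧
      ∀ L : Subgroup G, IsCoatom L → centralizer ({y} : Set G) ≤ L → L = M := by
  obtain ⟨A, hAK, hA, hAτ⟩ := exists_tau_one_line hG hM hK hK1
  haveI := Fact.mk hA
  haveI := Fact.mk hyo
  exact tau_one_fixed_unique hG hM hAτ (hAK.trans hK.1) rfl hy.1 (centralizer_le hAK hy.2) rfl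

/-- A nontrivial element of `K*` has its centraliser in `M`. -/
theorem star_centralizer_le (hG : IsMinSimpleOddOrder G) (hM : IsCoatom M) (hK : IsPiHallOf (kappa M) K M)
    (hK1 : K ≠ ⊥) {y : G} (hy : y ∈ sigmaCore M ⊓ centralizer (K : Set G)) (hy1 : y ≠ 1) :
    centralizer ({y} : Set G) ≤ M := by
  obtain ⟨p, hp, hpd⟩ := Nat.exists_prime_and_dvd (fun e => hy1 (orderOf_eq_one_iff.mp e))
  refine le_trans (fun c hc => ?_) (star_line_unique hG hM hK hK1 (pow_mem hy (orderOf y / p))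
    (by rw [orderOf_pow_orderOf_div (orderOf_pos y).ne' hpd]; exact hp)).2.1
  exact mem_centralizer_singleton_iff.mpr (Commute.pow_right (mem_centralizer_singleton_iff.mp hc) _).eq

/-- The primes of `K*` lie in `κ` of the maximal subgroup over the normaliser of a line of `K`. -/
theorem star_kappa (hG : IsMinSimpleOddOrder G) (hM : IsCoatom M) (hK : IsPiHallOf (kappa M) K M) (hK1 : K ≠ ⊥)
    (hXK : X ≤ K) (hX : (Nat.card X).Prime) (hN : IsCoatom N) (hNX : normalizer (X : Set G) ≤ N) :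
    (∀ p : ℕ, p.Prime → p ∈ sigma M → p ∉ sigma N) ∧ X ≤ sigmaCore N ∧
      ∀ q : ℕ, q.Prime → q ∣ Nat.card ↥(sigmaCore M ⊓ centralizer (K : Set G)) → q ∈ kappa N := by
  obtain ⟨-, -, hlines⟩ := kappa_structure hG hM hK hK1
  have hXσ := (hlines X hXK hX).2.2 N hN hNX
  set p := Nat.card X with hp
  have hpN : p ∈ sigma N := OddLocal.piCoreOf_isPi (sigma N) N p hX (card_dvd_of_le hXσ)
  have hpM : p ∉ sigma M := (hK.2.1 p hX (card_dvd_of_le hXK)).2.2.1
  have hne : M ≠ N := fun e => hpM (e ▸ hpN)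
  have hdis : ∀ t : ℕ, t.Prime → t ∈ sigma M → t ∉ sigma N := fun t _ h1 h2 => by
    obtain ⟨g, hg⟩ := conj_of_sigma_sigma hG hM hN h1 h2
    exact hpM ((sigma_conj_iff hG hM g).mp (hg ▸ hpN))
  refine ⟨hdis, hXσ, fun q hq hqd => ?_⟩
  haveI := Fact.mk hq
  obtain ⟨y₀, hy₀⟩ := exists_prime_orderOf_dvd_card' q hqd
  set y := (y₀ : G) with hy
  have hyo : orderOf y = q := by rw [hy, Subgroup.orderOf_coe, hy₀]
  have hyS : y ∈ sigmaCore M ⊓ centralizer (K : Set G) := y₀.2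
  obtain ⟨a, ha, ha1⟩ := X.bot_or_exists_ne_one.resolve_left fun h => hX.ne_one (by rw [hp, h, card_bot])
  have hyN : y ∈ N := hNX (centralizer_le_normalizer _ (centralizer_le hXK hyS.2))
  have hqσ : q ∉ sigma N := hdis q hq (PiElem.of_sigmaCore hyS.1 q hq (hyo ▸ dvd_rfl))
  have hc : y * a = a * y := (mem_centralizer_iff.mp hyS.2 a (hXK ha)).symm
  refine (OddLocal.SigmaPrimeElem.kappa_or_tau2 hG hN hqσ hyN hyo (hXσ ha) ha1 hc).resolve_right fun h2 => ?_
  obtain ⟨-, hu⟩ := tau_two_element_unique hG hN hyN (fun e => hq.ne_one (by rw [← hyo, e, orderOf_one]))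
    (fun r hr hd => (Nat.prime_dvd_prime_iff_eq hr hq).mp (hyo ▸ hd) ▸ h2) ⟨hyN, a, hXσ ha, ha1, hc⟩
  exact hne (hu M hM (star_line_unique hG hM hK hK1 hyS (hyo ▸ hq)).2.1)

/-- BG 14.7: the maximal subgroup over the normaliser of a line of `K` has a Hall `κ`-subgroup `J ≥ K*` with
the same product `Z`. -/
theorem partner_step (hG : IsMinSimpleOddOrder G) (hM : IsCoatom M) (hK : IsPiHallOf (kappa M) K M) (hK1 : K ≠ ⊥)
    (hXK : X ≤ K) (hX : (Nat.card X).Prime) (hN : IsCoatom N) (hNX : normalizer (X : Set G) ≤ N) :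
    ∃ J : Subgroup G, IsPiHallOf (kappa N) J N ∧ J ≠ ⊥ ∧ sigmaCore M ⊓ centralizer (K : Set G) ≤ J ∧
      sigmaCore N ⊓ centralizer (J : Set G) ≤ K ∧ X ≤ sigmaCore N ⊓ centralizer (J : Set G) ∧
      J ⊔ (sigmaCore N ⊓ centralizer (J : Set G)) = K ⊔ (sigmaCore M ⊓ centralizer (K : Set G)) := by
  obtain ⟨-, -, hlines⟩ := kappa_structure hG hM hK hK1
  obtain ⟨-, hXσ, hκ⟩ := star_kappa hG hM hK hK1 hXK hX hN hNX
  set S := sigmaCore M ⊓ centralizer (K : Set G) with hS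
  have hSK : S ≤ centralizer (K : Set G) := inf_le_right
  have hSN : S ≤ N := (hSK.trans (centralizer_le hXK)).trans ((centralizer_le_normalizer _).trans hNX)
  obtain ⟨J, hJ, hSJ⟩ := exists_hall_ge hG hN.1 hSN (kappa N) hκ
  have hS1 : S ≠ ⊥ := star_ne_bot hG hM hK hK1
  have hJ1 : J ≠ ⊥ := fun h => hS1 (le_bot_iff.mp (h ▸ hSJ))
  obtain ⟨hactN, -, hlinesN⟩ := kappa_structure hG hN hJ hJ1
  set T := sigmaCore N ⊓ centralizer (J : Set G) with hT
  obtain ⟨q, hq, hqd⟩ := Nat.exists_prime_and_dvd (mt card_eq_one.mp hS1)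
  haveI := Fact.mk hq
  obtain ⟨y₀, hy₀⟩ := exists_prime_orderOf_dvd_card' q hqd
  set y := (y₀ : G) with hy
  have hyo : orderOf y = q := by rw [hy, Subgroup.orderOf_coe, hy₀]
  have hyS : y ∈ S := y₀.2
  have hy1 : y ≠ 1 := fun e => hq.ne_one (by rw [← hyo, e, orderOf_one])
  have hXy : X ≤ centralizer ({y} : Set G) := fun z hz =>
    mem_centralizer_singleton_iff.mpr (mem_centralizer_iff.mp hyS.2 z (hXK hz))
  have hXT : X ≤ T := by
    exact (le_inf hXσ hXy).trans (hactN y (hSJ hyS) hy1).le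
  obtain ⟨hNy, -, -⟩ := star_line_unique hG hM hK hK1 hyS (hyo ▸ hq)
  have hyJ : zpowers y ≤ J := zpowers_le.mpr (hSJ hyS)
  have hyc : (Nat.card (zpowers y)).Prime := by rw [Nat.card_zpowers, hyo]; exact hq
  have hNy' := (hlinesN _ hyJ hyc).1
  have hJT : J ⊔ T ≤ M := (hNy'.symm.le.trans inf_le_right).trans hNy
  -- `J ≤ K ⊔ K*`
  have hJZ : J ≤ K ⊔ S := by
    rw [← (hlines X hXK hX).1]
    exact le_inf (le_sup_left.trans hJT) ((le_centralizer_iff.mp (hXT.trans inf_le_right)).trans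
      (centralizer_le_normalizer _))
  -- `T ≤ K`
  have hTK : T ≤ K := by
    obtain ⟨-, -, hκM⟩ := star_kappa hG hN hJ hJ1 hyJ hyc hM hNy
    have hTM : T ≤ M := le_sup_right.trans hJT
    obtain ⟨K', hK', hTK'⟩ := exists_hall_ge hG hM.1 hTM (kappa M) hκM
    have hXK' : X ≤ K' := hXT.trans hTK'
    have hK'1 : K' ≠ ⊥ := fun h => by
      have : X = ⊥ := le_bot_iff.mp (h ▸ hXK')
      exact hX.ne_one (by rw [this, card_bot])
    obtain ⟨-, -, hlines'⟩ := kappa_structure hG hM hK' hK'1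
    refine hTK'.trans fun z hz => ?_
    refine mem_left_of_join (π := kappa M) (A := K) (B := S) (le_centralizer_iff.mp hSK) hK.2.1
      (fun p hp hd h => h.2.2.1 (OddLocal.piCoreOf_isPi (sigma M) M p hp (hd.trans (card_dvd_of_le inf_le_left))))
      ?_ (PiElem.of_mem hK'.2.1 hz)
    rw [← (hlines X hXK hX).1, (hlines' X hXK' hX).1]
    exact mem_sup_left hz
  refine ⟨J, hJ, hJ1, hSJ, hTK, hXT, le_antisymm (sup_le hJZ (hTK.trans le_sup_left)) (sup_le ?_ (hSJ.trans le_sup_left))⟩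
  rw [← hNy']
  refine le_inf ?_ ?_
  · exact ((hlines X hXK hX).1.symm.le.trans inf_le_right).trans hNX |> le_sup_left.trans
  · refine le_trans ?_ (centralizer_le_normalizer _)
    rw [centralizer_zpowers]
    exact fun k hk => mem_centralizer_singleton_iff.mpr (mem_centralizer_iff.mp hyS.2 k hk)

/-- BG 14.7: a Hall `κ`-subgroup of prime order has a unique partner. -/
theorem partner_of_prime (hG : IsMinSimpleOddOrder G) (hM : IsCoatom M) (hK : IsPiHallOf (kappa M) K M)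
    (hK1 : K ≠ ⊥) (hKp : (Nat.card K).Prime) (hN : IsCoatom N) (hNK : normalizer (K : Set G) ≤ N) :
    IsPiHallOf (kappa N) (sigmaCore M ⊓ centralizer (K : Set G)) N ∧
      sigmaCore N ⊓ centralizer ((sigmaCore M ⊓ centralizer (K : Set G) : Subgroup G) : Set G) = K := by
  obtain ⟨J, hJ, -, hSJ, hTK, hKT, hZ⟩ := partner_step hG hM hK hK1 le_rfl hKp hN hNK
  have hTeq : sigmaCore N ⊓ centralizer (J : Set G) = K := le_antisymm hTK hKT
  have hJS : J = sigmaCore M ⊓ centralizer (K : Set G) := by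
    refine le_antisymm (fun z hz => ?_) hSJ
    refine mem_right_of_join (π := kappa M) (A := K) (le_centralizer_iff.mp inf_le_right) hK.2.1
      (fun p hp hd h => h.2.2.1 (OddLocal.piCoreOf_isPi (sigma M) M p hp (hd.trans (card_dvd_of_le inf_le_left))))
      (hZ.le (mem_sup_left hz)) (fun p hp hd hκ => ?_)
    -- primes of `J` are outside `σ(N)`, hence not `|K|`
    have hpM : p ∣ Nat.card M := by
      refine hd.trans (M.orderOf_dvd_natCard ?_)
      exact sup_le hK.1 (inf_le_left.trans (map_subtype_le _)) (hZ.le (mem_sup_left hz))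
    have hpK : p ∣ Nat.card K := by
      have h := relIndex_mul_relIndex ⊥ K M bot_le hK.1
      rw [relIndex_bot_left, relIndex_bot_left] at h
      exact (hp.dvd_mul.mp (h ▸ hpM)).resolve_right (hK.2.2 p hp hκ)
    exact (hJ.2.1 p hp (hd.trans (J.orderOf_dvd_natCard hz))).2.2.1
      (OddLocal.piCoreOf_isPi (sigma N) N p hp (hpK.trans (card_dvd_of_le (hKT.trans inf_le_left))))
  subst hJS
  exact ⟨hJ, hTeq⟩

end Cfsg.Agent.Lib.Uniq
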