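import Cfsg.Agent.Lib.Uniq.TransHyp
set_option autoImplicit false

/-! Factorisations of proper subgroups and invariant `p'`-subgroups. -/

namespace Cfsg.Agent.Lib.Uniq

open Subgroup
open scoped Pointwise commutatorElement
open Cfsg.Agent.Lib.OddLocal

variable {G : Type*} [Group G] [Finite G] {p : ℕ} [hp : Fact p.Prime]

/-- `Z(L(S))` for the Puig subgroup. -/
def puigZ (S : Subgroup G) : Subgroup G := relUpper S ⊓ centralizer (relUpper S : Set G)

omit [Finite G] hp in
lemma puigZ_le (S : Subgroup G) : puigZ S ≤ S := inf_le_left.trans (relUpper_le S)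

lemma puigZ_ne_bot {S : Subgroup G} (hS : IsPGroup p S) (h : S ≠ ⊥) : puigZ S ≠ ⊥ := by
  intro hz
  have hU : relUpper S ≠ ⊥ := by
    intro hu
    have hl : relLower S = ⊥ := le_bot_iff.mp (hu ▸ relLower_le_relUpper S)
    have h1 := inf_centralizer_relLower_le hS
    rw [hl] at h1
    refine h (le_bot_iff.mp (le_trans (le_inf le_rfl fun x _ => ?_) h1))
    exact mem_centralizer_iff.mpr fun y hy => by simp [mem_bot.mp hy]
  haveI : Nontrivial (relUpper S) := (nontrivial_iff_ne_bot _).mpr hU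
  obtain ⟨z, -, hz1, hzc⟩ := exists_central_mem (hS.to_le (relUpper_le S)) (⊤ : Subgroup (relUpper S))
    top_ne_bot
  have hmem : (z : G) ∈ puigZ S := ⟨z.2, mem_centralizer_iff.mpr fun y hy =>
    congrArg Subtype.val (mem_center_iff.mp hzc ⟨y, hy⟩)⟩
  rw [hz, mem_bot] at hmem
  exact hz1 (Subtype.ext hmem)

omit hp in
lemma map_puigZ {G' : Type*} [Group G'] [Finite G'] (f : G →* G') (hf : Function.Injective f)
    (S : Subgroup G) : (puigZ S).map f = puigZ (S.map f) := by
  rw [puigZ, puigZ, ← map_relUpper f hf.injOn]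
  apply le_antisymm
  · rintro _ ⟨z, hz, rfl⟩
    refine ⟨mem_map_of_mem f hz.1, mem_centralizer_iff.mpr ?_⟩
    rintro _ ⟨y, hy, rfl⟩
    rw [← map_mul, ← map_mul, mem_centralizer_iff.mp hz.2 y hy]
  · rintro _ ⟨⟨z, hz, rfl⟩, hc⟩
    refine ⟨z, ⟨hz, mem_centralizer_iff.mpr fun y hy => hf ?_⟩, rfl⟩
    rw [map_mul, map_mul]
    exact mem_centralizer_iff.mp hc _ (mem_map_of_mem f hy)

omit hp in
lemma normalizer_le_normalizer_puigZ (S : Subgroup G) :
    normalizer (S : Set G) ≤ normalizer (puigZ S : Set G) := by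
  intro g hg
  refine Coprime.mem_normalizer_of_conj_smul_eq ?_
  show (puigZ S).map (MulAut.conj g).toMonoidHom = _
  rw [map_puigZ _ (MulAut.conj g).injective]
  exact congrArg puigZ (Coprime.conj_smul_eq_self hg)

omit hp [Finite G] in
/-- A `p`-subgroup not maximal in `H` grows inside its normalizer. -/
lemma exists_normalizer_gt [Finite G] [Fact p.Prime] {R R' : Subgroup G} (hR' : IsPGroup p R')
    (h : R < R') : R < R' ⊓ normalizer (R : Set G) := by
  refine lt_of_le_of_ne (le_inf h.le le_normalizer) fun he => ?_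
  haveI := hR'.isNilpotent
  have hlt : R.subgroupOf R' < ⊤ :=
    lt_of_le_of_ne le_top fun e => h.not_ge (subgroupOf_eq_top.1 e)
  obtain ⟨y, hy, hyR⟩ := SetLike.exists_of_lt (Group.normalizerCondition_of_isNilpotent _ hlt)
  refine hyR (mem_subgroupOf.mpr (he.ge ⟨y.2, mem_normalizer_iff.mpr fun v => ?_⟩))
  constructor
  · intro hv; exact (mem_normalizer_iff.1 hy ⟨v, h.le hv⟩).1 hv
  · intro hv
    have hvR : v ∈ R' := by
      simpa [mul_assoc] using R'.mul_mem (R'.mul_mem (R'.inv_mem y.2) (h.le hv)) y.2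
    exact (mem_normalizer_iff.1 hy ⟨v, hvR⟩).2 hv

/-- `S` is a maximal `p`-subgroup of `X`. -/
def SylIn (p : ℕ) (S X : Subgroup G) : Prop :=
  IsPGroup p S ∧ S ≤ X ∧ ∀ S' : Subgroup G, IsPGroup p S' → S ≤ S' → S' ≤ X → S' = S

lemma SylIn.exists_sylow {S X : Subgroup G} (h : SylIn p S X) :
    ∃ T : Sylow p X, (T : Subgroup X).map X.subtype = S := by
  obtain ⟨T, hT⟩ := (h.1.of_equiv (subgroupOfEquivOfLe h.2.1).symm).exists_le_sylow
  refine ⟨T, h.2.2 _ (T.2.map _) ?_ (map_subtype_le _)⟩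
  rw [← map_subgroupOf_eq_of_le h.2.1]
  exact map_mono hT

lemma sylIn_map {X : Subgroup G} (T : Sylow p X) : SylIn p ((T : Subgroup X).map X.subtype) X := by
  refine ⟨T.2.map _, map_subtype_le _, fun S' hS' h h' => ?_⟩
  have h2 : (T : Subgroup X) = S'.subgroupOf X :=
    (T.3 (hS'.of_equiv (subgroupOfEquivOfLe h').symm) (fun x hx => h (mem_map_of_mem _ hx))).symm
  rw [h2, map_subgroupOf_eq_of_le h']

lemma sylIn_ge {R X : Subgroup G} (hR : IsPGroup p R) (hRX : R ≤ X) :
    ∃ S, SylIn p S X ∧ R ≤ S := by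
  obtain ⟨T, hT⟩ := (hR.of_equiv (subgroupOfEquivOfLe hRX).symm).exists_le_sylow
  refine ⟨_, sylIn_map T, ?_⟩
  rw [← map_subgroupOf_eq_of_le hRX]
  exact map_mono hT

omit hp [Finite G] in
lemma le_of_map_sup_top {X : Subgroup G} {A B : Subgroup X} (h : A ⊔ B = ⊤) {Y : Subgroup G}
    (hB : B.map X.subtype ≤ Y) : X ≤ A.map X.subtype ⊔ (X ⊓ Y) := by
  calc X = (⊤ : Subgroup X).map X.subtype := by rw [← MonoidHom.range_eq_map, range_subtype]
    _ = A.map X.subtype ⊔ B.map X.subtype := by rw [← Subgroup.map_sup, h]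
    _ ≤ _ := sup_le_sup_left (le_inf (map_subtype_le _) hB) _

omit hp [Finite G] in
lemma map_normalizer_subtype {X : Subgroup G} (B : Subgroup X) :
    (normalizer (B : Set X)).map X.subtype ≤ normalizer ((B.map X.subtype : Subgroup G) : Set G) :=
  le_normalizer_map _

/-- Glauberman's factorisation in a proper subgroup. -/
theorem le_opc_sup_puigZ (hG : IsMinSimpleOddOrder G) (hp2 : p ≠ 2) {X S : Subgroup G} (hX : X ≠ ⊤)
    (hS : SylIn p S X) : X ≤ opc p X ⊔ (X ⊓ normalizer (puigZ S : Set G)) := by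
  obtain ⟨T, hT⟩ := hS.exists_sylow
  haveI := solvable_of_ne_top hG hX
  have h := pPrimeCore_sup_normalizer_puig p hp2 (odd_card hG X) T
  rw [opc_eq hp.out]
  refine le_of_map_sup_top h ?_
  refine (map_normalizer_subtype _).trans (le_of_eq ?_)
  show normalizer (((puigZ (T : Subgroup X)).map X.subtype : Subgroup G) : Set G) = _
  rw [map_puigZ _ X.subtype_injective, hT]

/-- In a proper subgroup, `p'`-subgroups normalised by a Sylow `p`-subgroup lie in `O_{p'}`. -/
theorem pPrime_le_opc (hG : IsMinSimpleOddOrder G) {X S Y : Subgroup G} (hX : X ≠ ⊤)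
    (hS : SylIn p S X) (hYX : Y ≤ X) (hY : (Nat.card Y).Coprime p)
    (hSY : S ≤ normalizer (Y : Set G)) : Y ≤ opc p X := by
  obtain ⟨T, hT⟩ := hS.exists_sylow
  haveI := solvable_of_ne_top hG hX
  let N := pPrimeCore p X
  let π := QuotientGroup.mk' N
  haveI : Group.IsSolvable (X ⧸ N) := Group.isSolvable_of_surjective (QuotientGroup.mk'_surjective N)
  have hO : pCore p (X ⧸ N) ≤ (T : Subgroup X).map π :=
    Hall.pCore_le_sylow (T.mapSurjective (QuotientGroup.mk'_surjective N))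
  have hYc := coprime_image_of_pPrime π (L := Y.subgroupOf X) (by rwa [Coprime.card_subgroupOf hYX])
  have hTn : (T : Subgroup X).map π ≤ normalizer ((Y.subgroupOf X).map π : Set (X ⧸ N)) := by
    refine (map_mono ?_).trans (le_normalizer_map π)
    refine le_trans ?_ (le_normalizer_comap X.subtype)
    exact fun x hx => hSY (hT ▸ mem_map_of_mem _ hx)
  have hdis := Components.inf_eq_bot_of_pGroup_coprime (Hall.isPGroup_pCore (G := X ⧸ N) p) hYc
  have hcen : (Y.subgroupOf X).map π ≤ centralizer (pCore p (X ⧸ N) : Set (X ⧸ N)) := by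
    rw [← commutator_eq_bot_iff_le_centralizer, eq_bot_iff, ← hdis]
    exact le_inf (commutator_mono le_top le_rfl |>.trans (commutator_le_right ⊤ _))
      (Coprime.commutator_le_of_le_normalizer' (hO.trans hTn))
  have hY1 : (Y.subgroupOf X).map π = ⊥ := by
    rw [← le_bot_iff, ← hdis]
    exact le_inf (hcen.trans (Hall.centralizer_pCore_le p (pPrimeCore_quotient_eq_bot p))) le_rfl
  rw [opc_eq hp.out, ← map_subgroupOf_eq_of_le hYX]
  refine map_mono ?_
  rwa [Subgroup.map_eq_bot_iff, QuotientGroup.ker_mk'] at hY1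

/-- A `p`-stable factorisation: `A` abelian normal in a Sylow subgroup `S` of `X` lies in some
`R ≤ S`, normal in `S`, with `X = O_{p'}(X) N_X(R)`. -/
theorem exists_stable_factor (hG : IsMinSimpleOddOrder G) (hp2 : p ≠ 2) {X S A : Subgroup G}
    (hX : X ≠ ⊤) (hS : SylIn p S X) (hAS : A ≤ S) (hAc : IsMulCommutative A)
    (hn : S ≤ normalizer (A : Set G)) :
    ∃ R : Subgroup G, A ≤ R ∧ R ≤ S ∧ S ≤ normalizer (R : Set G) ∧
      X ≤ opc p X ⊔ (X ⊓ normalizer (R : Set G)) := by
  obtain ⟨T, hT⟩ := hS.exists_sylow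
  haveI := solvable_of_ne_top hG hX
  set D := pPrimePCore p X with hD
  haveI : D.Normal := by rw [hD, pPrimePCore]; infer_instance
  have hAX : A ≤ X := hAS.trans hS.2.1
  have hAT : A.subgroupOf X ≤ (T : Subgroup X) := fun x hx => by
    obtain ⟨y, hy, he⟩ := hT.ge (hAS (mem_subgroupOf.mp hx))
    exact Subtype.ext he ▸ hy
  have hAD : A.subgroupOf X ≤ D := by
    haveI : Group.IsSolvable (X ⧸ pPrimeCore p X) :=
      Group.isSolvable_of_surjective (QuotientGroup.mk'_surjective _)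
    let π := QuotientGroup.mk' (pPrimeCore p X)
    have hTn : (T : Subgroup X) ≤ normalizer (A.subgroupOf X : Set X) := by
      refine le_trans ?_ (le_normalizer_comap X.subtype)
      exact fun x hx => hn (hT ▸ mem_map_of_mem _ hx)
    haveI : IsMulCommutative (A.subgroupOf X) :=
      ⟨⟨fun a b => Subtype.ext (Subtype.ext (by
        simpa using congrArg Subtype.val
          (hAc.is_comm.comm (⟨((a : X) : G), mem_subgroupOf.mp a.2⟩ : A)
            ⟨((b : X) : G), mem_subgroupOf.mp b.2⟩)))⟩⟩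
    have hmem : (A.subgroupOf X).map π ≤ pCore p (X ⧸ pPrimeCore p X) :=
      le_pCore_of_abelian_normalized p hp2 ((odd_card hG X).of_dvd_nat (card_quotient_dvd_card _))
        (Hall.isPGroup_pCore p) (pPrimeCore_quotient_eq_bot p) inf_le_left
        (map_isMulCommutative _ π)
        ((Hall.pCore_le_sylow (T.mapSurjective (QuotientGroup.mk'_surjective _))).trans
          ((map_mono hTn).trans (le_normalizer_map π)))
    exact fun a ha => hmem ⟨a, ha, rfl⟩
  obtain ⟨Q, hQ⟩ := Transfer.exists_sylow_inf T D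
  have htop := Sylow.normalizer_sup_eq_top (N := D) Q
  rw [hQ, subgroupOf_map_subtype] at htop
  refine ⟨((T : Subgroup X) ⊓ D).map X.subtype, ?_, (map_mono inf_le_left).trans hT.le, ?_, ?_⟩
  · rw [← map_subgroupOf_eq_of_le hAX]
    exact map_mono (le_inf hAT hAD)
  · rw [← hT]
    refine (map_mono ?_).trans (le_normalizer_map _)
    refine le_trans (le_inf le_normalizer ?_) inf_normalizer_le_normalizer_inf
    rw [normalizer_eq_top]; exact le_top
  · rw [opc_eq hp.out]
    refine le_of_map_sup_top (A := pPrimeCore p X) ?_ (map_normalizer_subtype _)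
    rw [eq_top_iff, ← htop]
    refine sup_le le_sup_right ?_
    intro x hx
    let π := QuotientGroup.mk' (pPrimeCore p X)
    obtain ⟨t, ht, hte⟩ := Hall.pCore_le_sylow (T.mapSurjective (QuotientGroup.mk'_surjective _))
      (show π x ∈ pCore p (X ⧸ pPrimeCore p X) from hx)
    have hxt : x * t⁻¹ ∈ pPrimeCore p X := by
      rw [← QuotientGroup.eq_one_iff (N := pPrimeCore p X), QuotientGroup.mk_mul, QuotientGroup.mk_inv]
      exact mul_inv_eq_one.mpr hte.symm
    have htD : t ∈ D := by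
      show π t ∈ pCore p (X ⧸ pPrimeCore p X)
      rw [show π t = π x from hte]
      exact hx
    rw [show x = x * t⁻¹ * t by group]
    exact mul_mem_sup hxt (le_normalizer ⟨ht, htD⟩)

/-- The variant for `p`-length one. -/
theorem le_opc_sup_normalizer (hG : IsMinSimpleOddOrder G) {X S : Subgroup G}
    (hS : SylIn p S X) (hl : PLengthLE p 1 X) :
    X ≤ opc p X ⊔ (X ⊓ normalizer (S : Set G)) := by
  obtain ⟨T, hT⟩ := hS.exists_sylow
  rw [opc_eq hp.out]
  refine le_of_map_sup_top (pPrimeCore_sup_normalizer_eq_top p hl T) ?_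
  exact (map_normalizer_subtype _).trans (le_of_eq (by rw [hT]))

/-- An `A`-invariant `p'`-group is generated by its invariant Sylow subgroups. -/
theorem le_of_invariant_sylows {A Y K : Subgroup G} (hA : IsPGroup p A) (hY : (Nat.card Y).Coprime p)
    (hAY : A ≤ normalizer (Y : Set G))
    (h : ∀ (q : ℕ) [Fact q.Prime], q ≠ p → ∀ Q : Subgroup G, IsPGroup q Q → A ≤ normalizer (Q : Set G) →
      Q ≤ Y → Q ≤ K) : Y ≤ K := by
  refine subgroupOf_eq_top.mp (index_eq_one.mp
    (Nat.eq_one_iff_not_exists_prime_dvd.mpr fun q hq hdvd => ?_))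
  haveI : Fact q.Prime := ⟨hq⟩
  obtain ⟨k, hk⟩ := IsPGroup.iff_card.mp hA
  obtain ⟨T, hT⟩ := Coprime.exists_invariant_sylow hAY (hk ▸ hY.symm.pow_left k)
    (Or.inl (haveI := hA.isNilpotent; inferInstance)) q
  have hqY : q ∣ Nat.card Y := hdvd.trans (Subgroup.index_dvd_card _)
  have hqp : q ≠ p := by
    rintro rfl
    exact hq.coprime_iff_not_dvd.mp hY.symm hqY
  have hle := h q hqp _ (T.2.map _) hT (map_subtype_le _)
  exact T.not_dvd_index (hdvd.trans (index_dvd_of_le (map_le_iff_le_comap.mp hle)))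

/-- With a self-centralising normal subgroup `A` of rank 3 in the background, the `A`-invariant
`p'`-subgroups lie wherever the `P`-invariant ones do. -/
theorem invariant_le_of_rank_three (hG : IsMinSimpleOddOrder G) {A P K : Subgroup G}
    (hA : TransitivityHypothesis A) (hAp : IsPGroup p A) (hAc : IsMulCommutative A)
    (hr : ¬ PRankLE p 2 A) (hP : IsPGroup p P) (hAP : A ≤ P) (hn : P ≤ normalizer (A : Set G))
    (hK : ∀ Y : Subgroup G, (Nat.card Y).Coprime p → P ≤ normalizer (Y : Set G) → Y ≤ K)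
    {Y : Subgroup G} (hY : (Nat.card Y).Coprime p) (hAY : A ≤ normalizer (Y : Set G)) : Y ≤ K := by
  have hpi : primesNotDvd (Nat.card A) = primesNotDvd p := primesNotDvd_card hAp hA.1
  refine le_of_invariant_sylows hAp hY hAY fun q _ hqp Q hQ hAQ _ => ?_
  have hqA : ¬ q ∣ Nat.card A := fun h => by
    obtain ⟨k, hk⟩ := IsPGroup.iff_card.mp hAp
    exact hqp ((Nat.prime_dvd_prime_iff_eq Fact.out hp.out).mp
      ((Fact.out : q.Prime).dvd_of_dvd_pow (hk ▸ h)))
  have hZ : ¬ RankLE 2 ↥(A ⊓ centralizer (A : Set G)) := by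
    rw [inf_eq_left.mpr (comm_le_centralizer hAc)]
    exact fun h => hr (h p hp.out)
  have htr : ∀ Q₁ ∈ maxInvSubgroups ⊤ A {q}, ∀ Q₂ ∈ maxInvSubgroups ⊤ A {q},
      ∃ k ∈ piCoreOf (primesNotDvd (Nat.card A)) (centralizer (A : Set G)), MulAut.conj k • Q₁ = Q₂ :=
    fun Q₁ h₁ Q₂ h₂ => transitivity_rank_three hG hA hqA hZ h₁ h₂
  obtain ⟨k', hk'⟩ := IsPGroup.iff_card.mp hP
  have hgood := transGood_of_subnormal hG hA hqA (P := P) (fun r hr' hd => by
      obtain rfl := (Nat.prime_dvd_prime_iff_eq hr' hp.out).mp (hr'.dvd_of_dvd_pow (hk' ▸ hd))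
      obtain ⟨j, hj⟩ := IsPGroup.iff_card.mp hAp
      refine hj ▸ dvd_pow_self _ fun h0 => hA.1 (card_eq_one.mp (by rw [hj, h0, pow_zero])))
    hAP ((normal_subgroupOf_iff_le_normalizer hAP).mpr hn).isSubnormal htr
  obtain ⟨⟨Q₀, hQ₀, hPQ₀⟩, -⟩ := hgood
  have hQ₀K : Q₀ ≤ K := hK Q₀ (coprime_of_pi (fun r hr' hd => by
    obtain rfl : r = q := hQ₀.1.2.1 r hr' hd
    exact ⟨hr', fun h => hqp ((Nat.prime_dvd_prime_iff_eq hr' hp.out).mp h)⟩)) hPQ₀
  obtain ⟨Q₁, hQ₁, hQQ₁⟩ := exists_max_invariant hQ hAQ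
  obtain ⟨k, hk, hkQ⟩ := htr Q₀ hQ₀ Q₁ hQ₁
  rw [hpi] at hk
  have hkK : k ∈ K := hK _ (coprime_opc p _) ((hn.trans (Coprime.normalizer_le_normalizer_centralizer A)).trans
    (normalizer_le_normalizer_piCoreOf _ _)) hk
  calc Q ≤ Q₁ := hQQ₁
    _ = MulAut.conj k • Q₀ := hkQ.symm
    _ ≤ MulAut.conj k • K := pointwise_smul_le_pointwise_smul_iff.mpr hQ₀K
    _ = K := Coprime.conj_smul_eq_self (le_normalizer hkK)

end Cfsg.Agent.Lib.Uniq
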