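import Cfsg.Agent.Lib.Uniq.Local
import Cfsg.Agent.Lib.LocalFusion.Functor
import Cfsg.Agent.Lib.Components.Signalizer
set_option autoImplicit false

/-! `N(Z(L(P)))` controls transfer in a minimal simple group of odd order. -/

namespace Cfsg.Agent.Lib.Uniq

open Subgroup
open scoped Pointwise commutatorElement
open Cfsg.Agent.Lib.OddLocal

variable {G : Type*} [Group G] [Finite G] {p : ℕ} [hp : Fact p.Prime]

/-- Transfer through a factorisation `X = O_{p'}(X) U`. -/
theorem inf_commutator_factor {X U H : Subgroup G} (hH : IsPGroup p H) (hHU : H ≤ U) (hUX : U ≤ X)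
    (hf : X ≤ opc p X ⊔ U) : H ⊓ ⁅X, X⁆ = H ⊓ ⁅U, U⁆ := by
  refine le_antisymm ?_ (inf_le_inf_left H (commutator_mono hUX hUX))
  haveI : ((opc p X).subgroupOf X).Normal :=
    (normal_subgroupOf_iff_le_normalizer (opc_le p X)).mpr (le_normalizer_piCoreOf _ X)
  have htop : (opc p X).subgroupOf X ⊔ U.subgroupOf X = ⊤ := by
    rw [← subgroupOf_sup (opc_le p X) hUX, subgroupOf_eq_top]
    exact hf
  obtain ⟨k, hk⟩ := IsPGroup.iff_card.mp hH
  have h := inf_commutator_eq_of_sup_eq_top htop (H := H.subgroupOf X) (comap_mono hHU) (by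
    rw [Coprime.card_subgroupOf (hHU.trans hUX), Coprime.card_subgroupOf (opc_le p X), hk]
    exact (coprime_opc p X).symm.pow_left k)
  rintro x ⟨hxH, hx⟩
  rw [← map_subtype_commutator] at hx
  obtain ⟨y, hy, rfl⟩ := hx
  have hy' : y ∈ ⁅U.subgroupOf X, U.subgroupOf X⁆ := (h.le ⟨hxH, hy⟩).2
  have h2 := mem_map_of_mem X.subtype hy'
  rw [map_commutator, map_subgroupOf_eq_of_le hUX] at h2
  exact ⟨hxH, h2⟩

lemma puigZ_isConjugacyFunctor : IsConjugacyFunctor p (puigZ : Subgroup G → Subgroup G) := fun P hP =>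
  ⟨puigZ_le P, puigZ_ne_bot hP, fun g => (map_puigZ _ (MulAut.conj g).injective P).symm⟩

/-- Glauberman's transfer theorem in a minimal simple group of odd order. -/
theorem inf_commutator_puigZ (hG : IsMinSimpleOddOrder G) (hp2 : p ≠ 2) (S : Sylow p G) :
    (S : Subgroup G) ≤ ⁅normalizer (puigZ (S : Subgroup G) : Set G),
      normalizer (puigZ (S : Subgroup G) : Set G)⁆ := by
  have hloc : ∀ U ∈ {T : Subgroup G | Cfsg.IsWellPlaced p puigZ (S : Subgroup G) T}, U ≠ ⊥ →
      ¬ p ∣ ((S : Subgroup G) ⊓ normalizer (U : Set G)).relIndex (normalizer (U : Set G)) →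
      FamilyControlsTransferIn p {puigZ} (normalizer (U : Set G)) := by
    intro U hU hU1 hidx
    set H := normalizer (U : Set G)
    set T := (S : Subgroup G) ⊓ H with hT
    have hH : H ≠ ⊤ := minSimple_normalizer_ne_top hG hU1
      (pgroup_ne_top hG (S.2.to_le hU.1))
    have hTp : IsPGroup p T := S.2.to_le inf_le_left
    have hsyl : SylIn p T H := by
      refine ⟨hTp, inf_le_right, fun S' hS' hle hS'H => (eq_of_le_of_card_ge hle ?_).symm⟩
      obtain ⟨a, ha⟩ := IsPGroup.iff_card.mp hS'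
      rw [ha]
      refine Nat.le_of_dvd Nat.card_pos ?_
      have e := Components.Sig.card_mul_relIndex (H := T) (K := H) inf_le_right
      refine (Nat.Coprime.dvd_of_dvd_mul_right ((hp.out.coprime_iff_not_dvd.mpr hidx).pow_left a) ?_)
      rw [e, ← ha]
      exact card_dvd_of_le hS'H
    refine ⟨T, inf_le_right, hTp, hidx, ?_⟩
    simp only [Set.mem_singleton_iff, iSup_iSup_eq_left]
    exact inf_commutator_factor hTp
      (le_inf inf_le_right (le_normalizer.trans (normalizer_le_normalizer_puigZ T))) inf_le_left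
      (le_opc_sup_puigZ hG hp2 hH hsyl)
  obtain ⟨T, -, hTp, hidx, he⟩ := LocalFusion.familyControlsTransfer_of_covering S
    (LocalFusion.isCovering_wellPlaced S puigZ puigZ_isConjugacyFunctor)
    (fun W hW => by rw [Set.mem_singleton_iff.mp hW]; exact puigZ_isConjugacyFunctor) hloc
  simp only [Set.mem_singleton_iff, iSup_iSup_eq_left, top_inf_eq] at he
  have htop : (⁅(⊤ : Subgroup G), (⊤ : Subgroup G)⁆ : Subgroup G) = ⊤ := by
    haveI := hG.2.1
    rcases (inferInstance : (commutator G).Normal).eq_bot_or_eq_top with h | h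
    · exact absurd (⟨⟨fun a b => (mem_centralizer_iff.mp
        (commutator_eq_bot_iff_le_centralizer.mp h (mem_top b)) a (mem_top a))⟩⟩ :
          IsMulCommutative G) hG.2.2.1
    · exact h
  rw [htop, inf_top_eq] at he
  obtain ⟨Q, hQ⟩ := hTp.exists_le_sylow
  have hTQ : (Q : Subgroup G) = T := by
    refine (eq_of_le_of_card_ge hQ ?_).symm
    obtain ⟨a, ha⟩ := IsPGroup.iff_card.mp Q.2
    rw [ha]
    refine Nat.le_of_dvd Nat.card_pos ?_
    rw [relIndex_top_right] at hidx
    refine Nat.Coprime.dvd_of_dvd_mul_right ((hp.out.coprime_iff_not_dvd.mpr hidx).pow_left a) ?_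
    rw [card_mul_index, ← ha]
    exact card_subgroup_dvd_card _
  obtain ⟨g, hg⟩ := MulAction.exists_smul_eq G Q S
  set f := (MulAut.conj g).toMonoidHom
  have hSf : (S : Subgroup G) = T.map f := by rw [← hTQ, ← hg]; rfl
  have h1 : T ≤ ⁅normalizer (puigZ T : Set G), normalizer (puigZ T : Set G)⁆ := he.le.trans inf_le_right
  rw [hSf]
  refine (map_mono h1).trans ?_
  rw [map_commutator]
  have hn : (normalizer (puigZ T : Set G)).map f ≤ normalizer (puigZ (T.map f) : Set G) := by
    rw [← map_puigZ f (MulAut.conj g).injective]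
    exact le_normalizer_map f
  exact commutator_mono hn hn

end Cfsg.Agent.Lib.Uniq
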