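import Cfsg.Agent.Lib.Uniq.RankThree
import Cfsg.Agent.Lib.Uniq.Transfer
set_option autoImplicit false

/-! `SCN₃` subgroups lie in a unique maximal subgroup (BG 9.5). -/

namespace Cfsg.Agent.Lib.Uniq

open Subgroup
open scoped Pointwise commutatorElement
open Cfsg.Agent.Lib.OddLocal
open Cfsg.Agent.Lib.Components (Sig.gen_hyperplane)
open Cfsg.Agent.Lib.Components.MaxLocal (locCore locCore_le le_normalizer_locCore locCore_isPGroup)

/-- The input from the structure of solvable groups of rank two. -/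
def NarrowFitting (G : Type*) [Group G] : Prop :=
  ∀ Y : Subgroup G, Y ≠ ⊤ → RankLE 2 ↥(fittingOf Y) → ⁅Y, Y⁆ ≤ fittingOf Y

variable {G : Type*} [Group G] [Finite G]

lemma inf_le_of_elem_card {s : ℕ} [Fact s.Prime] {S : Subgroup G} (hSe : IsElementaryAbelian s S)
    (h : PRankLE s 1 S) : Nat.card S ≤ s := by
  by_contra hlt
  push Not at hlt
  exact not_pRankLE_of_elem le_rfl hSe (by rwa [pow_one]) h

/-- Commutators centralise a normalised subgroup of prime order. -/
lemma commutator_le_centralizer_of_card_le {s : ℕ} [Fact s.Prime] {N S : Subgroup G}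
    (hS : IsPGroup s S) (hcard : Nat.card S ≤ s) (hN : N ≤ normalizer (S : Set G)) :
    ⁅N, N⁆ ≤ centralizer (S : Set G) := by
  haveI : IsCyclic S := by
    rcases hS.card_eq_or_dvd with h | h
    · exact @isCyclic_of_subsingleton _ _ (Nat.card_eq_one_iff_unique.mp h).1
    · exact isCyclic_of_prime_card (p := s) (le_antisymm hcard (Nat.le_of_dvd Nat.card_pos h))
  obtain ⟨z, hz⟩ := IsCyclic.exists_generator (α := S)
  have hgen : ∀ y ∈ S, ∃ i : ℤ, (z : G) ^ i = y := fun y hy => by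
    obtain ⟨i, hi⟩ := mem_zpowers_iff.mp (hz ⟨y, hy⟩)
    exact ⟨i, by simpa using congrArg Subtype.val hi⟩
  rw [commutator_le]
  intro g hg h hh
  obtain ⟨i, hi⟩ := hgen _ ((mem_normalizer_iff.mp (hN hg) _).mp z.2)
  obtain ⟨j, hj⟩ := hgen _ ((mem_normalizer_iff.mp (hN hh) _).mp z.2)
  have hgh : (g * h) * z * (g * h)⁻¹ = (z : G) ^ (i * j) := by
    rw [show (g * h) * (z : G) * (g * h)⁻¹ = g * (h * z * h⁻¹) * g⁻¹ by group, ← hj, ← conj_zpow, ← hi,
      ← zpow_mul]
  have hhg : (h * g) * z * (h * g)⁻¹ = (z : G) ^ (i * j) := by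
    rw [show (h * g) * (z : G) * (h * g)⁻¹ = h * (g * z * g⁻¹) * h⁻¹ by group, ← hi, ← conj_zpow, ← hj,
      ← zpow_mul, mul_comm]
  have key : Commute ((h * g)⁻¹ * (g * h)) (z : G) := by
    have := hgh.trans hhg.symm
    calc (h * g)⁻¹ * (g * h) * z = (h * g)⁻¹ * (g * h * z * (g * h)⁻¹) * (g * h) := by group
      _ = z * ((h * g)⁻¹ * (g * h)) := by rw [this]; group
  rw [mem_centralizer_iff]
  intro y hy
  obtain ⟨k, rfl⟩ := hgen y hy
  have hconj : ⁅g, h⁆ = (h * g) * ((h * g)⁻¹ * (g * h)) * (h * g)⁻¹ := by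
    simp only [commutatorElement_def]; group
  have hn : (h * g)⁻¹ * (z : G) ^ k * (h * g) ∈ S := by
    simpa using (mem_normalizer_iff.mp (inv_mem (mul_mem (hN hh) (hN hg))) _).mp (zpow_mem z.2 k)
  obtain ⟨m, hm⟩ := hgen _ hn
  have hc := (key.zpow_right m).eq
  rw [hm] at hc
  calc (z : G) ^ k * ⁅g, h⁆
      = (h * g) * ((h * g)⁻¹ * (z : G) ^ k * (h * g) * ((h * g)⁻¹ * (g * h))) * (h * g)⁻¹ := by
        rw [hconj]; group
    _ = (h * g) * ((h * g)⁻¹ * (g * h) * ((h * g)⁻¹ * (z : G) ^ k * (h * g))) * (h * g)⁻¹ := by rw [hc]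
    _ = ⁅g, h⁆ * (z : G) ^ k := by rw [hconj]; group

variable {p : ℕ} [hp : Fact p.Prime]

/-- BG 9.5. -/
theorem unique_scn (hG : IsMinSimpleOddOrder G) (hnar : NarrowFitting G) (P : Sylow p G) {A : Subgroup G}
    (hA : IsSCN (P : Subgroup G) A) (hr : ¬ PRankLE p 2 A) : InUniqueMaximal A := by
  by_contra hAU
  have hgood := goodSylow_of_rank hG hr (G := G) (p := p)
  obtain ⟨hAP, hAn, hAC⟩ := id hA
  have hp2 := ne_two_of_rank hG hr
  have hAp : IsPGroup p A := P.2.to_le hAP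
  have hAc : IsMulCommutative A := le_centralizer_iff_isMulCommutative.mp (hAC.ge.trans inf_le_right)
  have hr1 : ¬ PRankLE p 1 A := fun h => hr (pRankLE_succ h)
  have htrans := transHyp_scn hG P hA hr1
  obtain ⟨E₀, hE₀A, hE₀, hE₀c⟩ := elem_of_not_pRankLE hr
  have hE₀2 : p ^ 2 ≤ Nat.card E₀ := hE₀c ▸ Nat.pow_le_pow_right hp.out.pos (by norm_num)
  have hAC0 : A ≤ centralizer (E₀ : Set G) := (comm_le_centralizer hAc).trans (centralizer_le hE₀A)
  -- no uniqueness subgroup inside the elements of `A`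
  have hnoB : ∀ B : Subgroup G, B ≤ E₀ → p ^ 2 ≤ Nat.card B → ¬ InUniqueMaximal B := fun B hB _ hU =>
    hAU (unique_mono hU (hB.trans hE₀A) (pgroup_ne_top hG hAp))
  set K := opc p (centralizer (A : Set G)) with hK
  have hpi : primesNotDvd (Nat.card A) = primesNotDvd p := primesNotDvd_card hAp htrans.1
  have hrk : ¬ RankLE 2 ↥(A ⊓ centralizer (A : Set G)) := by
    rw [inf_eq_left.mpr (comm_le_centralizer hAc)]
    exact fun h => hr (h p hp.out)
  -- a stable subgroup with the transfer property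
  set S : Subgroup G := (P : Subgroup G)
  have hS1 : S ≠ ⊥ := fun h => htrans.1 (le_bot_iff.mp (h ▸ hAP))
  obtain ⟨M₀, hM₀, hZM₀⟩ := exists_coatom_ge (minSimple_normalizer_ne_top hG
    (puigZ_ne_bot P.2 hS1) (pgroup_ne_top hG (P.2.to_le (puigZ_le S))))
  have hPM₀ : S ≤ M₀ := (le_normalizer.trans (normalizer_le_normalizer_puigZ S)).trans hZM₀
  obtain ⟨R₀, hAR₀, hR₀S, hSR₀, hfac⟩ := exists_stable_factor hG hp2 hM₀.1
    ⟨P.2, hPM₀, fun S' hS' hle _ => P.3 hS' hle⟩ hAP hAc hAn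
  set NR := normalizer (R₀ : Set G)
  have hPNR : S ≤ ⁅NR, NR⁆ := by
    have h1 : S ≤ ⁅M₀, M₀⁆ := (inf_commutator_puigZ hG hp2 P).trans (commutator_mono hZM₀ hZM₀)
    have h2 := inf_commutator_factor P.2 (le_inf hPM₀ hSR₀) inf_le_left hfac
    exact fun x hx => commutator_mono inf_le_right inf_le_right ((h2.le ⟨hx, h1 hx⟩).2)
  have hR₀p : IsPGroup p R₀ := P.2.to_le hR₀S
  have hdvd : ∀ {B : Subgroup G}, IsPGroup p B → ∀ r : ℕ, r.Prime → r ∣ Nat.card B → r ∣ Nat.card A := by
    intro B hB r hr' hd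
    obtain ⟨k, hk⟩ := IsPGroup.iff_card.mp hB
    obtain rfl := (Nat.prime_dvd_prime_iff_eq hr' hp.out).mp (hr'.dvd_of_dvd_pow (hk ▸ hd))
    obtain ⟨j, hj⟩ := IsPGroup.iff_card.mp hAp
    exact hj ▸ dvd_pow_self _ fun h0 => htrans.1 (card_eq_one.mp (by rw [hj, h0, pow_zero]))
  have hqA : ∀ q : ℕ, q.Prime → q ≠ p → ¬ q ∣ Nat.card A := fun q hq hne h => by
    obtain ⟨k, hk⟩ := IsPGroup.iff_card.mp hAp
    exact hne ((Nat.prime_dvd_prime_iff_eq hq hp.out).mp (hq.dvd_of_dvd_pow (hk ▸ h)))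
  -- the invariant maximal subgroups
  have hQfacts : ∀ (q : ℕ) [Fact q.Prime], q ≠ p → ∀ Q ∈ maxInvSubgroups ⊤ S {q},
      Q ∈ maxInvSubgroups ⊤ A {q} ∧
      A ≤ ⁅normalizer (Q : Set G), normalizer (Q : Set G)⁆ ∧
      NR ≤ K ⊔ (NR ⊓ normalizer (Q : Set G)) := by
    intro q _ hqp Q hQ
    have hq := hqA q Fact.out hqp
    have htr : ∀ Q₁ ∈ maxInvSubgroups ⊤ A {q}, ∀ Q₂ ∈ maxInvSubgroups ⊤ A {q},
        ∃ k ∈ piCoreOf (primesNotDvd (Nat.card A)) (centralizer (A : Set G)), MulAut.conj k • Q₁ = Q₂ :=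
      fun Q₁ h₁ Q₂ h₂ => transitivity_rank_three hG htrans hq hrk h₁ h₂
    have hgP := transGood_of_subnormal hG htrans hq (hdvd P.2) hAP
      ((normal_subgroupOf_iff_le_normalizer hAP).mpr hAn).isSubnormal htr
    have hgR := transGood_of_subnormal hG htrans hq (hdvd hR₀p) hAR₀
      ((normal_subgroupOf_iff_le_normalizer hAR₀).mpr (hR₀S.trans hAn)).isSubnormal htr
    have hQA := maxInvSubgroups_subset hG htrans hq (hdvd P.2) hAP hgP hQ
    have hQR : Q ∈ maxInvSubgroups ⊤ R₀ {q} :=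
      ⟨⟨le_top, hQ.1.2.1, hR₀S.trans hQ.1.2.2⟩, fun R hR hle => hQA.2 R ⟨le_top, hR.2.1, hAR₀.trans hR.2.2⟩ hle⟩
    obtain ⟨h1, h2⟩ := normalizer_eq_of_transGood hG htrans hq (hdvd hR₀p) hAR₀ hgR hQR
    refine ⟨hQA, fun a ha => h1 ⟨hAR₀ ha, hPNR (hAP ha)⟩, h2.le.trans (sup_le_sup_right ?_ _)⟩
    rw [← piCore_inf_centralizer hG htrans R₀ hAR₀, hpi]
    exact inf_le_left
  have hsup : ∀ {Y : Subgroup G}, A ≤ ⁅Y, Y⁆ → Y ≠ ⊤ → ¬ RankLE 2 ↥(fittingOf Y) := fun {Y} hAY hY h =>
    not_pRankLE_mono (hAY.trans (hnar Y hY h)) hr (h p hp.out)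
  -- strong maximal subgroups
  let Strong : Subgroup G → Prop := fun Y => IsCoatom Y ∧ A ≤ Y ∧ ¬ RankLE 2 ↥(fittingOf Y)
  have hstrong : ∀ Y : Subgroup G, Strong Y → S ≤ Y ∧ NR ≤ Y ∧ K ≤ Y ∧
      ∃ (s : ℕ) (L₀ : Subgroup G), s.Prime ∧ s ≠ p ∧ IsPGroup s L₀ ∧ L₀ ≤ Y ∧ L₀ ≠ ⊥ ∧
        E₀ ≤ normalizer (L₀ : Set G) ∧ L₀ ⊓ centralizer (E₀ : Set G) = ⊥ ∧ IsMulCommutative L₀ ∧
        L₀ ≤ locCore s Y ∧
        (∀ x ∈ L₀, x ≠ 1 → centralizer ({x} : Set G) ≤ Y) ∧
        (∀ X : Subgroup G, IsCoatom X → X ≠ Y → NR ≤ X → L₀ ⊓ X = ⊥) ∧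
        (∀ Q ∈ maxInvSubgroups ⊤ S {s}, normalizer (Q : Set G) ≤ Y) := by
    rintro Y ⟨hY, hAY, hYr⟩
    obtain ⟨s, hs, hsr⟩ : ∃ s : ℕ, s.Prime ∧ ¬ PRankLE s 2 ↥(fittingOf Y) := by
      simpa [RankLE] using hYr
    haveI := Fact.mk hs
    have hsp : s ≠ p := by
      rintro rfl
      exact hAU (unique_of_fitting_rank hG hY hsr hAp hAc hr)
    have hgs := goodSylow_of_rank hG hsr (G := G) (p := s)
    obtain ⟨T, hTF, hT, hTc⟩ := elem_of_not_pRankLE hsr
    have hT3 : ¬ PRankLE s 2 T :=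
      not_pRankLE_of_elem le_rfl hT (hTc ▸ Nat.pow_lt_pow_right hs.one_lt (by norm_num))
    have hTU := unique_of_fitting_rank hG hY hsr (elem_isPGroup hT) hT.1 hT3
    set F := locCore s Y
    have hFp : IsPGroup s F := locCore_isPGroup s Y
    have hTs : T ≤ F := le_locCore (elem_isPGroup hT) hTF
    have hFY : F ≤ Y := locCore_le s Y
    have hYF : Y ≤ normalizer (F : Set G) := le_normalizer_locCore s Y
    have hFU : InUniqueMaximal F := unique_mono hTU hTs (pgroup_ne_top hG hFp)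
    have hs2 : s ≠ 2 := ne_two_of_rank hG hsr
    have hE₀Y : E₀ ≤ Y := hE₀A.trans hAY
    have hcop : ∀ {X : Subgroup G}, IsPGroup s X → (Nat.card E₀).Coprime (Nat.card X) := fun {X} hX => by
      obtain ⟨k, hk⟩ := IsPGroup.iff_card.mp hX
      rw [hk, hE₀c]
      exact Nat.Coprime.pow _ _ ((Nat.coprime_primes hp.out hs).mpr hsp.symm)
    -- the omega subgroup of the centre
    let V : Subgroup G :=
      { carrier := {x | x ∈ F ⊓ centralizer (F : Set G) ∧ x ^ s = 1}
        one_mem' := ⟨one_mem _, one_pow s⟩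
        mul_mem' := fun {a b} ha hb => ⟨mul_mem ha.1 hb.1, by
          rw [Commute.mul_pow (mem_centralizer_iff.mp hb.1.2 a ha.1.1 : a * b = b * a),
            ha.2, hb.2, one_mul]⟩
        inv_mem' := fun {a} ha => ⟨inv_mem ha.1, by rw [inv_pow, ha.2, inv_one]⟩ }
    have hVF : V ≤ F := fun x hx => hx.1.1
    have hVp : IsPGroup s V := hFp.to_le hVF
    have hVe : IsElementaryAbelian s V :=
      ⟨⟨⟨fun a b => Subtype.ext (mem_centralizer_iff.mp b.2.1.2 (a : G) a.2.1.1)⟩⟩, fun a ha => ha.2⟩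
    have hYV : Y ≤ normalizer (V : Set G) := by
      have h1 : Y ≤ normalizer ((F ⊓ centralizer (F : Set G) : Subgroup G) : Set G) :=
        (le_inf hYF (hYF.trans (Coprime.normalizer_le_normalizer_centralizer F))).trans
          inf_normalizer_le_normalizer_inf
      exact fun g hg => mem_normalizer_iff.mpr fun x =>
        ⟨fun hx => ⟨(mem_normalizer_iff.mp (h1 hg) x).mp hx.1, by rw [conj_pow, hx.2]; simp⟩,
         fun hx => ⟨(mem_normalizer_iff.mp (h1 hg) x).mpr hx.1, by
          have := hx.2; rw [conj_pow] at this; simpa using this⟩⟩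
    have hV1 : V ≠ ⊥ := by
      haveI : Nontrivial F := (nontrivial_iff_ne_bot _).mpr (unique_ne_bot hG hFU)
      obtain ⟨z, -, hz1, hzc⟩ := exists_central_mem hFp (⊤ : Subgroup F) top_ne_bot
      have hZ1 : F ⊓ centralizer (F : Set G) ≠ ⊥ := fun hb => by
        have hmem : (z : G) ∈ F ⊓ centralizer (F : Set G) := ⟨z.2, mem_centralizer_iff.mpr fun y hy =>
          congrArg Subtype.val (mem_center_iff.mp hzc ⟨y, hy⟩)⟩
        rw [hb, mem_bot] at hmem
        exact hz1 (Subtype.ext hmem)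
      obtain ⟨k, hk⟩ := IsPGroup.iff_card.mp (hFp.to_le (inf_le_left : F ⊓ centralizer (F : Set G) ≤ F))
      obtain ⟨y, hy⟩ := exists_prime_orderOf_dvd_card' s (hk ▸ dvd_pow_self s fun h0 =>
        hZ1 (card_eq_one.mp (by rw [hk, h0, pow_zero])))
      intro hb
      have hyV : (y : G) ∈ V := ⟨y.2, by
        rw [← hy]; exact_mod_cast congrArg Subtype.val (pow_orderOf_eq_one y)⟩
      rw [hb, mem_bot] at hyV
      rw [show y = 1 from Subtype.ext hyV, orderOf_one] at hy
      exact hs.one_lt.ne hy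
    have hCx : ∀ x ∈ V, x ≠ 1 → centralizer ({x} : Set G) ≤ Y := fun x hx hx1 =>
      centralizer_elem_le hG hFU hY hFY hx1 fun f hf =>
        mem_centralizer_singleton_iff.mpr (mem_centralizer_iff.mp hx.1.2 f hf)
    have hVU : ∀ D : Subgroup G, D ≤ V → s < Nat.card D → InUniqueMaximal D := fun D hD hc =>
      unique_of_centralizes hG hFU (fun x hx => (hD hx).1.2)
        (not_pRankLE_of_elem le_rfl (elem_mono hVe hD) (by rwa [pow_one])) hgs
    -- no subgroup of order `p²` of `E₀` centralises a noncyclic subgroup of `V`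
    have hnoV : ∀ D : Subgroup G, D ≤ V → s < Nat.card D → ¬ E₀ ≤ centralizer (D : Set G) :=
      fun D hD hc h => hnoB E₀ le_rfl hE₀2
        (inUnique_of_le_centralizer_elem hG (hVU D hD hc) h hE₀ hE₀2 hgood)
    have hdle : ∀ d ∈ E₀, d ≠ 1 → ∀ D : Subgroup G, InUniqueMaximal D → D ≤ Y →
        D ≤ centralizer ({d} : Set G) → centralizer ({d} : Set G) ≤ Y :=
      fun d _ hd1 D hDU hDY hDd => centralizer_elem_le hG hDU hY hDY hd1 hDd
    have hKd : ∀ d ∈ E₀, centralizer ({d} : Set G) ≤ Y → K ≤ Y := fun d hd h =>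
      ((piCoreOf_le _ _).trans ((centralizer_le (fun x hx => by
        rw [Set.mem_singleton_iff] at hx; exact hx ▸ hE₀A hd : ({d} : Set G) ⊆ A)).trans h))
    -- the cyclic case
    have hcyc : Nat.card V ≤ s → K ≤ Y ∧ ¬ E₀ ≤ centralizer (V : Set G) := by
      intro hV
      let W : Subgroup G :=
        { carrier := {x | x ∈ F ∧ x ^ s = 1 ∧ ∀ f ∈ F, ⁅x, f⁆ ∈ V}
          one_mem' := ⟨one_mem _, one_pow s, fun f _ => by simp [one_mem]⟩
          mul_mem' := fun {a b} ha hb => by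
            refine ⟨mul_mem ha.1 hb.1, ?_, fun f hf => ?_⟩
            · have hcen : ∀ v ∈ V, ∀ f ∈ F, Commute v f := fun v hv f hf =>
                (mem_centralizer_iff.mp hv.1.2 f hf).symm
              have hz : ⁅b, a⁆ ∈ V := hb.2.2 a ha.1
              obtain ⟨-, h2⟩ := mul_pow_of_central_commutator (hcen _ hz a ha.1) (hcen _ hz b hb.1)
                (show b * a = ⁅b, a⁆ * a * b by simp [commutatorElement_def, mul_assoc]) s
              obtain ⟨c, hc⟩ : s ∣ s.choose 2 := Nat.Prime.dvd_choose_self hs two_ne_zero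
                (lt_of_le_of_ne hs.two_le (Ne.symm hs2))
              rw [h2, ha.2.1, hb.2.1, hc, pow_mul, hz.2, one_pow, one_mul, one_mul]
            · have e : ⁅a * b, f⁆ = a * ⁅b, f⁆ * a⁻¹ * ⁅a, f⁆ := by
                simp only [commutatorElement_def]; group
              rw [e, mem_centralizer_iff.mp (hb.2.2 f hf).1.2 a ha.1, mul_inv_cancel_right]
              exact mul_mem (hb.2.2 f hf) (ha.2.2 f hf)
          inv_mem' := fun {a} ha => by
            refine ⟨inv_mem ha.1, by rw [inv_pow, ha.2.1, inv_one], fun f hf => ?_⟩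
            have e : ⁅a⁻¹, f⁆ = a⁻¹ * ⁅a, f⁆⁻¹ * a := by simp only [commutatorElement_def]; group
            have hc : a⁻¹ * ⁅a, f⁆⁻¹ = ⁅a, f⁆⁻¹ * a⁻¹ :=
              mem_centralizer_iff.mp (inv_mem (ha.2.2 f hf).1.2) a⁻¹ (inv_mem ha.1)
            rw [e, hc, inv_mul_cancel_right]
            exact inv_mem (ha.2.2 f hf) }
      have hWF : W ≤ F := fun x hx => hx.1
      have hYW : Y ≤ normalizer (W : Set G) := by
        have key : ∀ g ∈ Y, ∀ x ∈ W, g * x * g⁻¹ ∈ W := fun g hg x hx =>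
          ⟨(mem_normalizer_iff.mp (hYF hg) x).mp hx.1, by rw [conj_pow, hx.2.1]; simp, fun f hf => by
            have hf' : g⁻¹ * f * g ∈ F := by
              simpa using (mem_normalizer_iff.mp (hYF (inv_mem hg)) f).mp hf
            have := (mem_normalizer_iff.mp (hYV hg) _).mp (hx.2.2 _ hf')
            simpa [commutatorElement_def, mul_assoc] using this⟩
        exact fun g hg => mem_normalizer_iff.mpr fun x => ⟨key g hg x, fun h => by
          simpa [mul_assoc] using key g⁻¹ (inv_mem hg) _ h⟩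
      have hVW : V ≤ W := fun x hx => ⟨hx.1.1, hx.2, fun f hf => by
        rw [commutatorElement_eq_one_iff_commute.mpr (mem_centralizer_iff.mp hx.1.2 f hf).symm]
        exact one_mem V⟩
      -- `W` is not contained in `V`
      have hTnc : ¬ IsCyclic F := fun hc => by
        refine not_isCyclic_of_sq_le hT (hTc ▸ Nat.pow_le_pow_right hs.pos (by norm_num)) ?_
        haveI := hc
        exact isCyclic_of_injective (inclusion hTs) (inclusion_injective _)
      obtain ⟨x₀, hx₀, hx₀V⟩ : ∃ x ∈ W, x ∉ V := by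
        obtain ⟨U, hUF, hUn, hU, hUc, hUi, -⟩ := exists_normal_pair hs2 hFp hTnc
        by_contra hno
        push Not at hno
        obtain ⟨u, hu, huV⟩ : ∃ u ∈ U, u ∉ V := by
          by_contra h
          push Not at h
          have := card_le_of_le (fun x hx => h x hx : U ≤ V)
          rw [hUc, pow_two] at this
          have := Nat.le_of_mul_le_mul_right (this.trans (hV.trans (one_mul s).ge)) hs.pos
          exact absurd this (not_le.mpr hs.one_lt)
        refine huV (hno u ⟨hUF hu, hU.2 u hu, fun f hf => ?_⟩)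
        -- `[U, F]` is central of order `s`
        haveI : Group.IsNilpotent F := hFp.isNilpotent
        have hlt : ⁅U, F⁆ ≠ U := fun he => by
          have : (U.subgroupOf F) = ⊥ := Transfer.eq_bot_of_le_commutator_top (le_of_eq ?_)
          · have h9 : Nat.card U = 1 := by rw [← Coprime.card_subgroupOf hUF, this, card_bot]
            rw [hUc] at h9
            exact (Nat.one_lt_pow two_ne_zero hs.one_lt).ne' h9
          · apply map_injective F.subtype_injective
            rw [map_commutator, map_subgroupOf_eq_of_le hUF, ← MonoidHom.range_eq_map, range_subtype, he]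
        have hle : ⁅U, F⁆ ≤ U := Coprime.commutator_le_of_le_normalizer' hUn
        have hcard : Nat.card ↥(⁅U, F⁆ : Subgroup G) ≤ s := by
          obtain ⟨i, hi, hc⟩ := (Nat.dvd_prime_pow hs).mp (hUc ▸ card_dvd_of_le hle)
          rw [hc]
          refine (Nat.pow_le_pow_right hs.pos ?_).trans (pow_one s).le
          by_contra hi'
          exact hlt (eq_of_le_of_card_ge hle (by
            rw [hc, hUc]; exact Nat.pow_le_pow_right hs.pos (by omega)))
        have hmem : ⁅u, f⁆ ∈ (⁅U, F⁆ : Subgroup G) := commutator_mem_commutator hu hf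
        refine ⟨⟨hUF (hle hmem), mem_centralizer_iff.mpr fun g hg => ?_⟩, hU.2 _ (hle hmem)⟩
        let D : Subgroup G := ⁅U, F⁆
        have hDn : F ≤ normalizer (D : Set G) := by
          show F ≤ normalizer ((⁅U, F⁆ : Subgroup G) : Set G)
          exact Coprime.right_le_normalizer_commutator U F
        haveI : (D.subgroupOf F).Normal :=
          (normal_subgroupOf_iff_le_normalizer (hle.trans hUF)).mpr hDn
        by_cases hD1 : D.subgroupOf F = ⊥
        · have : (⟨⁅u, f⁆, hUF (hle hmem)⟩ : F) ∈ D.subgroupOf F := hmem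
          rw [hD1, mem_bot] at this
          rw [show ⁅u, f⁆ = 1 from congrArg Subtype.val this]
          simp
        obtain ⟨z, hz, hz1, hzc⟩ := exists_central_mem hFp (D.subgroupOf F) hD1
        have hgenD : zpowers (z : G) = D := by
          refine eq_of_le_of_card_ge (zpowers_le.mpr (mem_subgroupOf.mp hz)) ?_
          rw [Nat.card_zpowers]
          refine hcard.trans (le_of_eq (orderOf_eq_prime (hU.2 _ (hle (mem_subgroupOf.mp hz)))
            (fun h => hz1 (Subtype.ext h))).symm)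
        obtain ⟨i, hi⟩ := mem_zpowers_iff.mp (hgenD.ge hmem)
        rw [← hi]
        exact (Commute.zpow_right (congrArg Subtype.val (mem_center_iff.mp hzc ⟨g, hg⟩) :
          g * (z : G) = z * g) i).eq
      have hpair : ∀ x ∈ W, x ∉ V → InUniqueMaximal (V ⊔ zpowers x) ∧ V ⊔ zpowers x ≤ Y := by
        intro x hx hxV
        have hVn : zpowers x ≤ centralizer (V : Set G) := zpowers_le.mpr (mem_centralizer_iff.mpr
          fun v hv => ((mem_centralizer_iff.mp hv.1.2 x hx.1).symm))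
        set B := V ⊔ zpowers x
        have hBF : B ≤ F := sup_le hVF (zpowers_le.mpr hx.1)
        have hBe : IsElementaryAbelian s B := by
          refine ⟨?_, fun w hw => ?_⟩
          · rw [← le_centralizer_iff_isMulCommutative]
            refine sup_le ?_ ?_ <;> rw [le_centralizer_iff] <;> refine sup_le ?_ ?_
            · exact comm_le_centralizer hVe.1
            · exact hVn
            · exact le_centralizer_iff.mp hVn
            · exact le_centralizer_iff_isMulCommutative.mpr inferInstance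
          · rw [← SetLike.mem_coe, coe_mul_of_right_le_normalizer_left _ _
              (hVn.trans (centralizer_le_normalizer _))] at hw
            obtain ⟨v, hv, y, hy, rfl⟩ := hw
            obtain ⟨i, rfl⟩ := mem_zpowers_iff.mp hy
            have hc : Commute v x := (mem_centralizer_iff.mp (zpowers_le.mp hVn) v hv)
            rw [(hc.zpow_right i).mul_pow, hv.2, ← zpow_natCast, ← zpow_mul, mul_comm i, zpow_mul,
              zpow_natCast, hx.2.1, one_zpow, one_mul]
        obtain ⟨z, hzV, hz1⟩ := (bot_or_exists_ne_one V).resolve_left hV1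
        have hzV' : zpowers z = V := eq_of_le_of_card_ge (zpowers_le.mpr hzV)
          (hV.trans (by rw [Nat.card_zpowers, orderOf_eq_prime hzV.2 hz1]))
        have hidx : (centralizer (B : Set G)).relIndex T ≤ s := by
          refine (relIndex_le_of_le hTs).trans ?_
          refine le_trans ?_ (relIndex_centralizer_le (P := F) (x := x) hzV.2
            (fun g hg => mem_centralizer_iff.mp hzV.1.2 g hg) (fun g hg => by
              rw [hzV']
              have := inv_mem (hx.2.2 g hg)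
              rw [commutatorElement_inv] at this
              exact this))
          rw [← inf_relIndex_right (centralizer ({x} : Set G)) F]
          refine relIndex_le_of_le_left ?_ index_ne_zero_of_finite
          rintro y ⟨hy, hyF⟩
          refine (le_centralizer_iff.mp (sup_le ?_ (zpowers_le.mpr ?_) :
            B ≤ centralizer ((zpowers y : Subgroup G) : Set G))) (mem_zpowers y)
          · intro v hv
            rw [mem_centralizer_iff]
            rintro _ ⟨i, rfl⟩
            exact (Commute.zpow_left (mem_centralizer_iff.mp hv.1.2 y hyF) i).eq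
          · rw [mem_centralizer_iff]
            rintro _ ⟨i, rfl⟩
            exact (Commute.zpow_left (mem_centralizer_singleton_iff.mp hy) i).eq
        have hBcard : s ^ 2 ≤ Nat.card B := by
          obtain ⟨i, hi⟩ := IsPGroup.iff_card.mp (hFp.to_le hBF)
          rw [hi]
          refine Nat.pow_le_pow_right hs.pos ?_
          by_contra hlt
          have hle' : Nat.card B ≤ s := hi ▸
            (Nat.pow_le_pow_right hs.pos (show i ≤ 1 by omega)).trans (pow_one s).le
          refine hxV ((eq_of_le_of_card_ge (le_sup_left : V ≤ B) (hle'.trans ?_)).ge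
            (mem_sup_right (mem_zpowers x)))
          rw [← hzV', Nat.card_zpowers, orderOf_eq_prime hzV.2 hz1]
        have hD : InUniqueMaximal (T ⊓ centralizer (B : Set G)) :=
          inUnique_of_le_centralizer_elem hG hTU (inf_le_left.trans (comm_le_centralizer hT.1))
            (elem_mono hT inf_le_left) (sq_le_card_inf hTc.ge hidx) hgs
        exact ⟨inUnique_of_le_centralizer_elem hG hD (le_centralizer_iff.mp inf_le_right) hBe hBcard hgs,
          hBF.trans hFY⟩
      have hWp : IsPGroup s W := hFp.to_le hWF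
      have hbad : ¬ E₀ ≤ centralizer (V : Set G) := by
        intro hEV
        have hgen := Sig.gen_hyperplane hE₀ hE₀2 (hcop hWp) (hE₀Y.trans hYW)
        obtain ⟨B, x, hB, hBx, hxV⟩ : ∃ (B : Subgroup G) (x : G), (B ≤ E₀ ∧ B.relIndex E₀ ≤ p) ∧
            x ∈ W ⊓ centralizer (B : Set G) ∧ x ∉ V := by
          by_contra hno
          push Not at hno
          exact hx₀V ((hgen.trans (iSup_le fun B x hx => hno B.1 x B.2 hx)) hx₀)
        have hB2 : p ^ 2 ≤ Nat.card B := by
          have := sq_le_card_inf (C := B) hE₀c.ge hB.2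
          rwa [inf_eq_right.mpr hB.1] at this
        refine hnoB B hB.1 hB2 (inUnique_of_le_centralizer_elem hG (hpair x hBx.1 hxV).1 ?_
          (elem_mono hE₀ hB.1) hB2 hgood)
        rw [le_centralizer_iff]
        exact sup_le (le_centralizer_iff.mp (hB.1.trans hEV)) (zpowers_le.mpr hBx.2)
      refine ⟨?_, hbad⟩
      obtain ⟨B, hB, hBV⟩ : ∃ B : Subgroup G, (B ≤ E₀ ∧ B.relIndex E₀ ≤ p) ∧
          B ≤ centralizer (V : Set G) := by
        have hgen := Sig.gen_hyperplane hE₀ hE₀2 (hcop hVp) (hE₀Y.trans hYV)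
        by_contra hno
        push Not at hno
        refine hV1 (le_bot_iff.mp (hgen.trans (iSup_le fun B => ?_)))
        by_contra hne
        have hle : Nat.card V ≤ Nat.card ↥(V ⊓ centralizer ((B : Subgroup G) : Set G)) := by
          rcases (hVp.to_le (inf_le_left : V ⊓ centralizer ((B : Subgroup G) : Set G) ≤ V)).card_eq_or_dvd with h | h
          · exact absurd (le_bot_iff.mpr (card_eq_one.mp h)) hne
          · exact hV.trans (Nat.le_of_dvd Nat.card_pos h)
        exact hno B.1 B.2 (le_centralizer_iff.mp ((eq_of_le_of_card_ge inf_le_left hle).ge.trans inf_le_right))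
      have hB2 : p ^ 2 ≤ Nat.card B := by
        have := sq_le_card_inf (C := B) hE₀c.ge hB.2
        rwa [inf_eq_right.mpr hB.1] at this
      haveI := (elem_mono hE₀ hB.1).1
      have hfix := Coprime.fixGen_eq (A := B) (K := W)
        (not_isCyclic_of_sq_le (elem_mono hE₀ hB.1) hB2) ((hB.1.trans hE₀Y).trans hYW)
        ((hcop hWp).coprime_dvd_left (card_dvd_of_le hB.1))
      obtain ⟨d, hd, hd1, x, hxd, hxV⟩ : ∃ d ∈ B, d ≠ 1 ∧ ∃ x ∈ W ⊓ centralizer ({d} : Set G), x ∉ V := by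
        by_contra hno
        push Not at hno
        exact hx₀V ((hfix.ge.trans (iSup₂_le fun d hd x hx => hno d hd.1 hd.2 x hx)) hx₀)
      refine hKd d (hB.1 hd) (hdle d (hB.1 hd) hd1 _ (hpair x hxd.1 hxV).1 (hpair x hxd.1 hxV).2
        (sup_le (fun v hv => mem_centralizer_singleton_iff.mpr
          (mem_centralizer_iff.mp (hBV hd) v hv)) (zpowers_le.mpr hxd.2)))
    -- `K ≤ Y`
    have hKY : K ≤ Y := by
      by_cases hV : Nat.card V ≤ s
      · exact (hcyc hV).1
      push Not at hV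
      have hgen := Sig.gen_hyperplane hE₀ hE₀2 (hcop hVp) (hE₀Y.trans hYV)
      obtain ⟨d, hd, hd1, hdV⟩ : ∃ d ∈ E₀, d ≠ 1 ∧
          s < Nat.card ↥(V ⊓ centralizer ({d} : Set G)) := by
        by_contra hno
        push Not at hno
        let L := fun B : {B : Subgroup G // B ≤ E₀ ∧ B.relIndex E₀ ≤ p} =>
          V ⊓ centralizer ((B : Subgroup G) : Set G)
        by_cases hall : ∀ B, L B = ⊥
        · refine hV1 (le_bot_iff.mp (hgen.trans (iSup_le fun B => ?_)))
          exact (hall B).le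
        push Not at hall
        obtain ⟨B₁, hB₁⟩ := hall
        obtain ⟨B₂, hB₂⟩ : ∃ B₂, ¬ L B₂ ≤ L B₁ := by
          by_contra h
          push Not at h
          have hle : V ≤ L B₁ := hgen.trans (iSup_le h)
          obtain ⟨d, hd, hd1⟩ := (bot_or_exists_ne_one B₁.1).resolve_left fun hb => by
            have := sq_le_card_inf (C := B₁.1) hE₀c.ge B₁.2.2
            rw [inf_eq_right.mpr B₁.2.1, hb, card_bot] at this
            exact absurd this (not_le.mpr (Nat.one_lt_pow two_ne_zero hp.out.one_lt))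
          have hVd : V ≤ V ⊓ centralizer ({d} : Set G) := le_inf le_rfl
            ((hle.trans inf_le_right).trans (centralizer_le (Set.singleton_subset_iff.mpr hd)))
          exact absurd ((card_le_of_le hVd).trans (hno d (B₁.2.1 hd) hd1)) (not_le.mpr hV)
        obtain ⟨d, hd, hd1⟩ : ∃ d, d ∈ B₁.1 ⊓ B₂.1 ∧ d ≠ 1 := by
          refine (bot_or_exists_ne_one _).resolve_left fun hb => ?_
          have hi1 : B₁.1.relIndex B₂.1 ≤ p := (relIndex_le_of_le B₂.2.1).trans B₁.2.2
          have e := Components.Sig.card_mul_relIndex (H := B₁.1 ⊓ B₂.1) (K := B₂.1) inf_le_right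
          rw [inf_relIndex_right, hb, card_bot, one_mul] at e
          have h2 := sq_le_card_inf (C := B₂.1) hE₀c.ge B₂.2.2
          rw [inf_eq_right.mpr B₂.2.1, ← e] at h2
          have h3 := h2.trans hi1
          rw [pow_two] at h3
          exact absurd h3 (not_le.mpr (lt_mul_of_one_lt_left hp.out.pos hp.out.one_lt))
        have hL : L B₁ < L B₁ ⊔ L B₂ := lt_of_le_of_ne le_sup_left fun h => hB₂ (h.ge.trans' le_sup_right)
        have hLd : L B₁ ⊔ L B₂ ≤ V ⊓ centralizer ({d} : Set G) := sup_le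
          (inf_le_inf_left _ (centralizer_le (Set.singleton_subset_iff.mpr hd.1)))
          (inf_le_inf_left _ (centralizer_le (Set.singleton_subset_iff.mpr hd.2)))
        have hLc : s ≤ Nat.card (L B₁) := by
          rcases (hVp.to_le (inf_le_left : L B₁ ≤ V)).card_eq_or_dvd with h | h
          · exact absurd (card_eq_one.mp h) hB₁
          · exact Nat.le_of_dvd Nat.card_pos h
        exact absurd ((hLc.trans_lt (Transfer.card_lt_of_subgroup_lt hL)).trans_le
          ((card_le_of_le hLd).trans (hno d (B₁.2.1 hd.1) hd1))) (lt_irrefl _)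
      exact hKd d hd (hdle d hd hd1 _ (hVU _ inf_le_left hdV) (inf_le_left.trans (hVF.trans hFY)) inf_le_right)
    -- the invariant `s`-subgroups
    have hQY : ∀ Q ∈ maxInvSubgroups ⊤ S {s}, normalizer (Q : Set G) ≤ Y := by
      intro Q hQ
      obtain ⟨hQA, -, -⟩ := hQfacts s hsp Q hQ
      obtain ⟨Q', hQ', hFQ'⟩ := exists_max_invariant hFp (hAY.trans hYF)
      obtain ⟨k, hk, hkQ⟩ := transitivity_rank_three hG htrans (hqA s hs hsp) hrk hQA hQ'
      rw [hpi] at hk
      have hQ'p : IsPGroup s Q' := isPGroup_of_invSubgroup hQ'.1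
      have hQ'U := unique_mono hFU hFQ' (pgroup_ne_top hG hQ'p)
      have hQ'Y : Q' ≤ Y := le_max_of_le hFU hY hFY hFQ' (pgroup_ne_top hG hQ'p)
      have hQeq : Q = Q'.map (MulAut.conj k⁻¹).toMonoidHom := by
        rw [← hkQ]; exact (Coprime.conj_inv_smul_smul k Q).symm
      have hQY : Q ≤ Y := by
        rw [hQeq]
        rintro _ ⟨x, hx, rfl⟩
        show k⁻¹ * x * k⁻¹⁻¹ ∈ Y
        exact mul_mem (mul_mem (inv_mem (hKY hk)) (hQ'Y hx)) (inv_mem (inv_mem (hKY hk)))
      have hQU : InUniqueMaximal Q := hQeq ▸ unique_conj hQ'U k⁻¹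
      exact normalizer_unique_le hG hQU hY hQY
    obtain ⟨Q, hQ, -⟩ := exists_max_invariant (q := s) (A := S) (R := ⊥) IsPGroup.of_bot
      (by rw [normalizer_eq_top]; exact le_top)
    have hSY : S ≤ Y := hQ.1.2.2.trans (hQY Q hQ)
    have hNRY : NR ≤ Y :=
      ((hQfacts s hsp Q hQ).2.2).trans (sup_le hKY (inf_le_right.trans (hQY Q hQ)))
    have hPY : E₀ ≤ ⁅Y, Y⁆ := ((hE₀A.trans hAP).trans hPNR).trans (commutator_mono hNRY hNRY)
    have hVbig : s < Nat.card V := by
      by_contra hV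
      push Not at hV
      exact (hcyc hV).2 (hPY.trans (commutator_le_centralizer_of_card_le hVp hV hYV))
    have hE₀V : E₀ ≤ normalizer (V : Set G) := hE₀Y.trans hYV
    set L₀ := ⁅V, E₀⁆ with hL₀
    have hL₀V : L₀ ≤ V := Coprime.commutator_le_of_le_normalizer' hE₀V
    haveI := hVe.1
    have hL₀C : L₀ ⊓ centralizer (E₀ : Set G) = ⊥ := by
      rw [eq_bot_iff, ← Coprime.inf_centralizer_inf_commutator (A := E₀) hE₀V (hcop hVp)]
      exact fun x hx => ⟨⟨hL₀V hx.1, hx.2⟩, hx.1⟩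
    refine ⟨hSY, hNRY, hKY, s, L₀, hs, hsp, hVp.to_le hL₀V, (hL₀V.trans hVF).trans hFY, ?_,
      Coprime.right_le_normalizer_commutator V E₀, hL₀C, (elem_mono hVe hL₀V).1, hL₀V.trans hVF,
      fun x hx hx1 => hCx x (hL₀V hx) hx1, fun X hX hXY hNX => ?_, hQY⟩
    · intro hb
      exact hnoV V le_rfl hVbig (commutator_eq_bot_iff_le_centralizer.mp ((commutator_comm _ _).trans hb))
    · set S' := V ⊓ X
      have hS' : Nat.card S' ≤ s := by
        by_contra hlt
        push Not at hlt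
        exact hXY (max_eq (hVU S' inf_le_left hlt) hX hY inf_le_right (inf_le_left.trans (hVF.trans hFY)))
      have hNS : NR ≤ normalizer (S' : Set G) :=
        (le_inf (hNRY.trans hYV) (hNX.trans le_normalizer)).trans inf_normalizer_le_normalizer_inf
      have hc : E₀ ≤ centralizer (S' : Set G) := ((hE₀A.trans hAP).trans hPNR).trans
        (commutator_le_centralizer_of_card_le (hVp.to_le inf_le_left) hS' hNS)
      rw [eq_bot_iff, ← hL₀C]
      exact le_inf inf_le_left ((inf_le_inf_right X hL₀V).trans (le_centralizer_iff.mp hc))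
  -- all strong maximal subgroups coincide
  have huniq : ∀ Y₁ Y₂, Strong Y₁ → Strong Y₂ → Y₁ = Y₂ := by
    intro Y₁ Y₂ h₁ h₂
    by_contra hne
    obtain ⟨-, hN₁, hK₁, s₁, L₁, hs₁, hs₁p, hL₁p, hL₁Y, hL₁b, hL₁n, hL₁C, hL₁c, hL₁F, hC₁, hX₁, hQ₁⟩ :=
      hstrong Y₁ h₁
    obtain ⟨-, hN₂, hK₂, s₂, L₂, hs₂, hs₂p, hL₂p, hL₂Y, hL₂b, hL₂n, hL₂C, hL₂c, hL₂F, hC₂, hX₂, hQ₂⟩ :=
      hstrong Y₂ h₂
    haveI := Fact.mk hs₁
    haveI := Fact.mk hs₂
    have hss : s₁ ≠ s₂ := by
      rintro rfl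
      obtain ⟨Q, hQ, -⟩ := exists_max_invariant (q := s₁) (A := S) (R := ⊥) IsPGroup.of_bot
        (by rw [normalizer_eq_top]; exact le_top)
      obtain ⟨hQA, -, -⟩ := hQfacts s₁ hs₁p Q hQ
      obtain ⟨Q', hQ', hLQ'⟩ := exists_max_invariant (q := s₁) (A := A) (locCore_isPGroup s₁ Y₁)
        (h₁.2.1.trans (le_normalizer_locCore s₁ Y₁))
      obtain ⟨k, hk, hkQ⟩ := transitivity_rank_three hG htrans (hqA s₁ hs₁ hs₁p) hrk hQA hQ'
      rw [hpi] at hk
      have hQ'Y : Q' ≤ Y₂ := by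
        rw [← hkQ]
        rintro _ ⟨x, hx, rfl⟩
        exact mul_mem (mul_mem (hK₂ hk) (hQ₂ Q hQ (le_normalizer hx))) (inv_mem (hK₂ hk))
      have hle : L₁ ≤ Y₂ := hL₁F.trans (hLQ'.trans hQ'Y)
      exact hL₁b (le_bot_iff.mp ((le_inf le_rfl hle).trans (hX₁ Y₂ h₂.1 (Ne.symm hne) hN₂).le))
    -- fixed points of hyperplanes
    have hhyp : ∀ (s : ℕ) [Fact s.Prime] (L : Subgroup G), s ≠ p → IsPGroup s L → IsMulCommutative L →
        E₀ ≤ normalizer (L : Set G) → L ≠ ⊥ → L ⊓ centralizer (E₀ : Set G) = ⊥ →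
        ∃ B : Subgroup G, B ≤ E₀ ∧ p ^ 2 ≤ Nat.card B ∧ ∃ D : Subgroup G, D ≠ ⊥ ∧ D ≤ L ∧
          B ≤ centralizer (D : Set G) ∧ ⁅D, E₀⁆ = D ∧ A ≤ centralizer (B : Set G) := by
      intro s _ L hsp hLp hLc hLn hL1 hLC
      obtain ⟨k, hk⟩ := IsPGroup.iff_card.mp hLp
      have hcop : (Nat.card E₀).Coprime (Nat.card L) := by
        rw [hk, hE₀c]
        exact Nat.Coprime.pow _ _ ((Nat.coprime_primes hp.out Fact.out).mpr hsp.symm)
      have hgen := Sig.gen_hyperplane hE₀ hE₀2 hcop hLn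
      obtain ⟨⟨B, hB, hBi⟩, hD⟩ : ∃ B : {B : Subgroup G // B ≤ E₀ ∧ B.relIndex E₀ ≤ p},
          L ⊓ centralizer ((B : Subgroup G) : Set G) ≠ ⊥ := by
        by_contra h
        push Not at h
        exact hL1 (le_bot_iff.mp (hgen.trans (iSup_le fun B => (h B).le)))
      have hB2 : p ^ 2 ≤ Nat.card B := by
        have := sq_le_card_inf (C := B) hE₀c.ge hBi
        rwa [inf_eq_right.mpr hB] at this
      set D := L ⊓ centralizer (B : Set G)
      have hEB : E₀ ≤ centralizer (B : Set G) := (comm_le_centralizer hE₀.1).trans (centralizer_le hB)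
      have hDn : E₀ ≤ normalizer (D : Set G) :=
        (le_inf hLn (hEB.trans le_normalizer)).trans inf_normalizer_le_normalizer_inf
      haveI : IsMulCommutative D := ⟨⟨fun a b => Subtype.ext (by
        simpa using congrArg Subtype.val (hLc.is_comm.comm (⟨_, a.2.1⟩ : L) ⟨_, b.2.1⟩))⟩⟩
      refine ⟨B, hB, hB2, D, hD, inf_le_left, le_centralizer_iff.mp inf_le_right, ?_,
        (comm_le_centralizer hAc).trans (centralizer_le (hB.trans hE₀A))⟩
      have h := Coprime.sup_commutator_eq (A := E₀) (V := D) hDn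
        (hcop.coprime_dvd_right (card_dvd_of_le inf_le_left))
      rwa [show D ⊓ centralizer (E₀ : Set G) = ⊥ from le_bot_iff.mp
        ((inf_le_inf_right _ inf_le_left).trans hLC.le), bot_sup_eq] at h
    obtain ⟨B₁, hB₁, hB₁c, D₁, hD₁, hD₁L, hB₁D, hD₁e, hAB₁⟩ :=
      hhyp s₁ L₁ hs₁p hL₁p hL₁c hL₁n hL₁b hL₁C
    obtain ⟨B₂, hB₂, hB₂c, D₂, hD₂, hD₂L, hB₂D, hD₂e, hAB₂⟩ :=
      hhyp s₂ L₂ hs₂p hL₂p hL₂c hL₂n hL₂b hL₂C
    obtain ⟨e, he, he1⟩ : ∃ e, e ∈ B₁ ⊓ B₂ ∧ e ≠ 1 := by
      refine (bot_or_exists_ne_one _).resolve_left fun hb => ?_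
      have hn : B₁ ≤ normalizer (B₂ : Set G) := hB₁.trans (((comm_le_centralizer hE₀.1).trans
        (centralizer_le hB₂)).trans (centralizer_le_normalizer _))
      have h := Coprime.card_sup_mul_card_inf_of_le_normalizer hn
      rw [hb, card_bot, mul_one] at h
      have h2 := (Nat.mul_le_mul hB₁c hB₂c).trans (h ▸ card_le_of_le (sup_le hB₁ hB₂))
      rw [hE₀c, ← pow_add] at h2
      exact absurd ((Nat.pow_le_pow_iff_right hp.out.one_lt).mp h2) (by norm_num)
    obtain ⟨X, hX, heX⟩ := exists_coatom_ge (minSimple_centralizer_ne_top hG he1)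
    have hsub : ∀ {B : Subgroup G} {D : Subgroup G}, e ∈ B → B ≤ centralizer (D : Set G) → D ≤ X :=
      fun {B} {D} he' hBD => le_trans (fun x hx => mem_centralizer_singleton_iff.mpr
        (mem_centralizer_iff.mp (hBD he') x hx)) heX
    have hD₁X := hsub he.1 hB₁D
    have hD₂X := hsub he.2 hB₂D
    have hAe : A ≤ centralizer ({e} : Set G) := fun a ha => mem_centralizer_singleton_iff.mpr
      (mem_centralizer_iff.mp (hAB₁ ha) e he.1).symm
    have hAX : A ≤ X := hAe.trans heX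
    by_cases hXs : Strong X
    · obtain ⟨-, hNX, -⟩ := hstrong X hXs
      by_cases hX1 : X = Y₁
      · have hne2 : X ≠ Y₂ := fun h => hne (hX1.symm.trans h)
        exact hD₂ (le_bot_iff.mp ((le_inf hD₂L hD₂X).trans (hX₂ X hX hne2 hNX).le))
      · exact hD₁ (le_bot_iff.mp ((le_inf hD₁L hD₁X).trans (hX₁ X hX hX1 hNX).le))
    · have hweak : RankLE 2 ↥(fittingOf X) := by
        by_contra h
        exact hXs ⟨hX, hAX, h⟩
      have hF := hnar X hX.1 hweak
      have hE₀X : E₀ ≤ X := hE₀A.trans hAX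
      have hDF₁ : D₁ ≤ locCore s₁ X :=
        le_locCore (hL₁p.to_le hD₁L) (hD₁e.ge.trans ((commutator_mono hD₁X hE₀X).trans hF))
      have hDF₂ : D₂ ≤ locCore s₂ X :=
        le_locCore (hL₂p.to_le hD₂L) (hD₂e.ge.trans ((commutator_mono hD₂X hE₀X).trans hF))
      have hcom : D₂ ≤ centralizer (D₁ : Set G) :=
        (hDF₂.trans (commute_parts hs₂ hs₁ hss.symm)).trans (centralizer_le hDF₁)
      obtain ⟨x, hx, hx1⟩ := (bot_or_exists_ne_one D₁).resolve_left hD₁
      have hD₂Y : D₂ ≤ Y₁ := le_trans (fun y hy => mem_centralizer_singleton_iff.mpr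
        (mem_centralizer_iff.mp (hcom hy) x hx).symm) (hC₁ x (hD₁L hx) hx1)
      exact hD₂ (le_bot_iff.mp ((le_inf hD₂L hD₂Y).trans (hX₂ Y₁ h₁.1 hne hN₁).le))
  -- a maximal subgroup containing all invariant `p'`-subgroups
  obtain ⟨M, hM, hSM, hMs⟩ : ∃ M, IsCoatom M ∧ S ≤ M ∧ ∀ Y, Strong Y → Y = M := by
    by_cases h : ∃ Y, Strong Y
    · obtain ⟨Y, hY⟩ := h
      exact ⟨Y, hY.1, (hstrong Y hY).1, fun Z hZ => huniq Z Y hZ hY⟩
    · exact ⟨M₀, hM₀, hPM₀, fun Z hZ => absurd ⟨Z, hZ⟩ h⟩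
  refine hAU (unique_of_invariant_le hG hM hAp htrans.1 (hAP.trans hSM) (fun Y hY hAY => ?_) hgood)
  refine invariant_le_of_rank_three hG htrans hAp hAc hr P.2 hAP hAn (fun T hT hPT => ?_) hY hAY
  refine le_of_invariant_sylows P.2 hT hPT fun q _ hqp Q hQ hPQ _ => ?_
  obtain ⟨Q₁, hQ₁, hQQ₁⟩ := exists_max_invariant hQ hPQ
  by_cases hb : Q₁ = ⊥
  · exact hQQ₁.trans (hb ▸ bot_le)
  obtain ⟨-, hAQ, -⟩ := hQfacts q hqp Q₁ hQ₁
  obtain ⟨Z, hZ, hNZ⟩ := exists_coatom_ge (minSimple_normalizer_ne_top hG hb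
    (pgroup_ne_top hG (isPGroup_of_invSubgroup hQ₁.1)))
  have hAZ : A ≤ ⁅Z, Z⁆ := hAQ.trans (commutator_mono hNZ hNZ)
  have hZA : A ≤ Z := (hAP.trans hQ₁.1.2.2).trans hNZ
  have hZM := hMs Z ⟨hZ, hZA, hsup hAZ hZ.1⟩
  exact (hQQ₁.trans (le_normalizer.trans hNZ)).trans hZM.le

end Cfsg.Agent.Lib.Uniq
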