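import Cfsg.Agent.Lib.Uniq.PLengthAux
import Cfsg.Agent.Lib.Uniq.BlockCore
import Cfsg.Agent.Lib.FitHeight.HallHigman
import Cfsg.Agent.Lib.FitHeight.WardCore
import Cfsg.Agent.Lib.HallHigman.Prime
import Cfsg.Agent.Lib.OddLocal.CoprimeOdd
import Cfsg.Agent.Lib.Thompson.PGroup
import Cfsg.Agent.Lib.FPF.Key
set_option autoImplicit false

/-! BG 3.6: `[H, R]` has `p`-length one when some subgroup of `R` of prime order has a
centraliser in `H` with cyclic Sylow subgroups. -/

namespace Cfsg.Agent.Lib.Uniq.PL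

open Subgroup
open scoped Pointwise commutatorElement
open Cfsg.Agent.Lib.Components.MaxLocal (locCore locCore_le le_normalizer_locCore locCore_isPGroup)

universe u

/-- The hypotheses of BG 3.6. -/
structure Setup {G : Type u} [Group G] (H R R₀ : Subgroup G) : Prop where
  solv : Group.IsSolvable G
  odd : Odd (Nat.card G)
  norm : R ≤ normalizer (H : Set G)
  cop : (Nat.card H).Coprime (Nat.card R)
  le : R₀ ≤ R
  prime : (Nat.card R₀).Prime
  zg : IsZGroup ↥(H ⊓ centralizer (R₀ : Set G))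

/-- The conclusion for groups of size below `n`. -/
def Holds (p n : ℕ) : Prop :=
  ∀ (G : Type u) [Group G] [Finite G] (H R R₀ : Subgroup G), Setup H R R₀ →
    Nat.card H + Nat.card R < n → PLengthLE p 1 ↥⁅H, R⁆

variable {G : Type u} [Group G] [Finite G] {H R R₀ : Subgroup G} {p : ℕ} [hp : Fact p.Prime]

omit [Finite G] hp in
theorem Setup.sub (S : Setup H R R₀) {H' : Subgroup G} (hle : H' ≤ H) (hn : R ≤ normalizer (H' : Set G)) :
    Setup H' R R₀ where
  solv := S.solv
  odd := S.odd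
  norm := hn
  cop := S.cop.coprime_dvd_left (card_dvd_of_le hle)
  le := S.le
  prime := S.prime
  zg := IsZGroup.of_injective (hG' := S.zg) (inclusion_injective (inf_le_inf_right _ hle))

/-- Induction for a quotient. -/
theorem quot_step (S : Setup H R R₀) (ih : Holds.{u} p (Nat.card H + Nat.card R)) (hHR : ⁅H, R⁆ = H)
    {N : Subgroup G} (hNH : N ≤ H) (hN1 : N ≠ ⊥) (hHN : H ≤ normalizer (N : Set G))
    (hRN : R ≤ normalizer (N : Set G)) [(N.subgroupOf H).Normal] : PLengthLE p 1 (↥H ⧸ N.subgroupOf H) := by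
  haveI := S.solv
  set Nn := normalizer (N : Set G)
  set π := QuotientGroup.mk' (N.subgroupOf Nn)
  have hHR' : ⁅H.subgroupOf Nn, R.subgroupOf Nn⁆ = H.subgroupOf Nn := by
    apply map_injective Nn.subtype_injective
    rw [map_commutator, map_subgroupOf_eq_of_le hHN, map_subgroupOf_eq_of_le hRN, hHR]
  set H' := (H.subgroupOf Nn).map π
  set R' := (R.subgroupOf Nn).map π
  have hcH : Nat.card H' * Nat.card N = Nat.card H := by
    have h := Coprime.card_map_mk' (N.subgroupOf Nn) (H.subgroupOf Nn)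
    rw [inf_eq_right.mpr (show N.subgroupOf Nn ≤ H.subgroupOf Nn from comap_mono hNH), Coprime.card_subgroupOf (hNH.trans hHN),
      Coprime.card_subgroupOf hHN] at h
    exact h
  have hcR : Nat.card R' ≤ Nat.card R := Nat.le_of_dvd Nat.card_pos
    ((card_map_dvd _ _).trans (Coprime.card_subgroupOf hRN).dvd)
  have hR₀n : R₀ ≤ Nn := S.le.trans hRN
  have hcopN : (Nat.card R₀).Coprime (Nat.card N) :=
    (S.cop.symm.coprime_dvd_left (card_dvd_of_le S.le)).coprime_dvd_right (card_dvd_of_le hNH)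
  have S' : Setup H' R' ((R₀.subgroupOf Nn).map π) := by
    refine ⟨inferInstance, ?_, ?_, ?_, map_mono (comap_mono S.le), ?_, ?_⟩
    · exact S.odd.of_dvd_nat (((N.subgroupOf Nn).index_eq_card ▸ (N.subgroupOf Nn).index_dvd_card).trans
        Nn.card_subgroup_dvd_card)
    · refine (map_mono ?_).trans (le_normalizer_map π)
      intro r hr
      rw [mem_normalizer_iff]
      intro z
      exact mem_normalizer_iff.mp (S.norm hr) (z : G)
    · exact (S.cop.coprime_dvd_left (Dvd.intro _ hcH)).coprime_dvd_right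
        ((card_map_dvd _ _).trans (Coprime.card_subgroupOf hRN).dvd)
    · have h := Coprime.card_map_mk' (N.subgroupOf Nn) (R₀.subgroupOf Nn)
      rw [Coprime.inf_eq_bot_of_coprime (by
        rw [Coprime.card_subgroupOf hR₀n, Coprime.card_subgroupOf (hNH.trans hHN)]
        exact hcopN), card_bot, mul_one, Coprime.card_subgroupOf hR₀n] at h
      rw [h]; exact S.prime
    · let C := (H ⊓ centralizer (R₀ : Set G)).subgroupOf Nn
      haveI : IsZGroup ↥C := by
        refine IsZGroup.of_injective (hG' := S.zg) (f := ((Nn.subtype.comp C.subtype).codRestrict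
          (H ⊓ centralizer (R₀ : Set G)) fun x => x.2)) fun a b h => ?_
        exact Subtype.ext (Subtype.ext (congrArg (fun z : ↥(H ⊓ centralizer (R₀ : Set G)) => (z : G)) h))
      haveI : IsZGroup ↥(C.map π) := IsZGroup.of_surjective (π.subgroupMap_surjective C)
      refine IsZGroup.of_injective (inclusion_injective (K := C.map π) ?_)
      rintro x ⟨hxH, hxC⟩
      obtain ⟨h, hh, rfl⟩ := hxH
      obtain ⟨c, hc, hcN⟩ := Coprime.exists_centralizer_mem_coset (hR₀n : R₀ ≤ normalizer (N : Set G)) hcopN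
        (Or.inl inferInstance) (k := (h : G)) (fun a ha => by
          have h1 := mem_centralizer_iff.mp hxC (π ⟨a, hR₀n ha⟩) (mem_map_of_mem π (x := ⟨a, hR₀n ha⟩) ha)
          rw [← map_mul, ← map_mul] at h1
          have h2 := (QuotientGroup.eq (s := N.subgroupOf Nn)).mp h1.symm
          have h3 : ((h : G) * a)⁻¹ * (a * h) ∈ N := h2
          have h4 := (mem_normalizer_iff.mp (hR₀n ha) _).mp h3
          simpa [mul_assoc] using h4)
      refine ⟨⟨c, ?_⟩, ⟨?_, hc⟩, ?_⟩
      · have := mul_mem h.2 (le_normalizer hcN)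
        simpa using this
      · have := mul_mem (show (h : G) ∈ H from hh) (hNH hcN)
        simpa using this
      · refine ((QuotientGroup.eq (s := N.subgroupOf Nn)).mpr ?_).symm
        exact hcN
  have hlt : Nat.card H' + Nat.card R' < Nat.card H + Nat.card R := by
    have : Nat.card H' < Nat.card H := by
      rw [← hcH]
      refine lt_mul_of_one_lt_right Nat.card_pos ?_
      by_contra hle
      exact hN1 (card_eq_one.mp (le_antisymm (not_lt.mp hle) Nat.card_pos))
    omega
  have h1 := ih _ H' R' _ S' hlt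
  rw [show ⁅H', R'⁆ = H' by rw [← map_commutator, hHR']] at h1
  let φ : H →* ↥H' := (π.comp (inclusion hHN)).codRestrict H' fun x => mem_map_of_mem π (x := inclusion hHN x) x.2
  have hφ : Function.Surjective φ := by
    rintro ⟨_, x, hx, rfl⟩
    exact ⟨⟨x, hx⟩, Subtype.ext rfl⟩
  have hker : φ.ker = N.subgroupOf H := by
    ext x
    rw [MonoidHom.mem_ker, ← Subtype.coe_inj]
    exact QuotientGroup.eq_one_iff _
  let e := (QuotientGroup.quotientMulEquivOfEq hker.symm).trans (QuotientGroup.quotientKerEquivOfSurjective φ hφ)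
  exact PLength.pLengthLE_of_surjective (f := e.symm.toMonoidHom) e.symm.surjective h1

/-- BG 3.6, all parameters explicit. -/
theorem holds_all (n : ℕ) : Holds.{u} p n := by
  induction n with
  | zero => intro G _ _ H R R₀ _ h; omega
  | succ n ihn =>
  intro G _ _ H R R₀ S hn
  by_cases hlt0 : Nat.card H + Nat.card R < n
  · exact ihn G H R R₀ S hlt0
  have ih : Holds.{u} p (Nat.card H + Nat.card R) := fun G' _ _ H' R' R₀' S' h' =>
    ihn G' H' R' R₀' S' (by omega)
  clear ihn hn hlt0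
  haveI := S.solv
  have hpodd : ∀ {q : ℕ}, q.Prime → q ∣ Nat.card G → q ≠ 2 := fun hq hd e => by
    subst e; exact S.odd.not_two_dvd_nat hd
  -- reduction to `H = [H, R]`
  by_cases hHR : ⁅H, R⁆ = H
  swap
  · have hle := Coprime.commutator_le_of_le_normalizer' S.norm
    have hlt : Nat.card ↥⁅H, R⁆ < Nat.card H :=
      (Set.toFinite _).card_lt_card (SetLike.coe_ssubset_coe.2 (lt_of_le_of_ne hle hHR))
    have h := ih G ⁅H, R⁆ R R₀ (S.sub hle (Coprime.right_le_normalizer_commutator H R)) (by omega)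
    rwa [Coprime.commutator_commutator S.norm S.cop.symm (Or.inr inferInstance)] at h
  rw [hHR]
  have ihsub : ∀ H₁ : Subgroup G, H₁ ≤ H → R ≤ normalizer (H₁ : Set G) → Nat.card H₁ < Nat.card H →
      PLengthLE p 1 ↥⁅H₁, R⁆ := fun H₁ hle hn hlt => ih G H₁ R R₀ (S.sub hle hn) (by omega)
  have hcharR : ∀ (X : Subgroup G), R ≤ normalizer (X : Set G) → ∀ (K : Subgroup X) [K.Characteristic],
      R ≤ normalizer ((K.map X.subtype : Subgroup G) : Set G) :=
    fun X hX K _ => hX.trans (normalizer_le_normalizer_map_char X K)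
  -- trivial `p'`-core
  by_cases hcore : pPrimeCore p ↥H = ⊥
  swap
  · set N := (pPrimeCore p ↥H).map H.subtype
    have hNeq : N.subgroupOf H = pPrimeCore p ↥H := comap_map_eq_self_of_injective H.subtype_injective _
    haveI : (N.subgroupOf H).Normal := hNeq ▸ Hall.pPrimeCore_normal p
    have hN1 : N ≠ ⊥ := fun e => hcore ((Subgroup.map_eq_bot_iff_of_injective _ H.subtype_injective).mp e)
    refine PLength.pLengthLE_of_quotient_coprime (N.subgroupOf H) ?_
      (quot_step S ih hHR (map_subtype_le _) hN1 ((normal_subgroupOf_iff_le_normalizer (map_subtype_le _)).mp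
        inferInstance) (hcharR H S.norm _))
    rw [hNeq]; exact Hall.coprime_card_pPrimeCore p
  set V := locCore p H with hVdef
  have hVH : V ≤ H := locCore_le p H
  have hVp : IsPGroup p V := locCore_isPGroup p H
  have hHV : H ≤ normalizer (V : Set G) := le_normalizer_locCore p H
  have hRV : R ≤ normalizer (V : Set G) := hcharR H S.norm _
  have hCV : H ⊓ centralizer (V : Set G) ≤ V := by
    rintro x ⟨hxH, hxC⟩
    refine ⟨⟨x, hxH⟩, Hall.centralizer_pCore_le p hcore (mem_centralizer_iff.mpr fun y hy => Subtype.ext ?_), rfl⟩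
    exact mem_centralizer_iff.mp hxC (y : G) (mem_map_of_mem _ hy)
  obtain ⟨kV, hkV⟩ := IsPGroup.iff_card.mp hVp
  have hcopV : ∀ {X : Subgroup G}, (Nat.card X).Coprime p → (Nat.card X).Coprime (Nat.card V) := fun h => by
    rw [hkV]; exact h.pow_right kV
  have hsylV : ∀ (O : Subgroup G), IsPGroup p O → O ≤ H → H ≤ normalizer (O : Set G) → O ≤ V := by
    intro O hO hOH hn x hx
    haveI : (O.subgroupOf H).Normal := (normal_subgroupOf_iff_le_normalizer hOH).mpr hn
    exact ⟨⟨x, hOH hx⟩, Hall.le_pCore (N := O.subgroupOf H) hO.comap_subtype hx, rfl⟩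
  -- lifting from a quotient by part of `V`
  have hlift : ∀ N : Subgroup G, N ≤ V → N ≠ ⊥ → H ≤ normalizer (N : Set G) → R ≤ normalizer (N : Set G) →
      (∀ X : Subgroup G, X ≤ H → (Nat.card X).Coprime p → H ≤ normalizer ((X ⊔ N : Subgroup G) : Set G) →
        X ≤ centralizer (V : Set G)) → PLengthLE p 1 ↥H := by
    intro N hNV hN1 hHN hRN hX
    haveI : (N.subgroupOf H).Normal := (normal_subgroupOf_iff_le_normalizer (hNV.trans hVH)).mpr hHN
    refine pl1_of_quot (N.subgroupOf H) ((hVp.to_le hNV).comap_subtype) (fun X hXc hXn => ?_)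
      (quot_step S ih hHR (hNV.trans hVH) hN1 hHN hRN)
    have hc : (Nat.card (X.map H.subtype)).Coprime p := by
      rwa [card_map_of_injective H.subtype_injective]
    have hn : H ≤ normalizer ((X.map H.subtype ⊔ N : Subgroup G) : Set G) := by
      have h := Components.MaxLocal.le_normalizer_map_subtype (M := H) (X ⊔ N.subgroupOf H)
      rwa [Subgroup.map_sup, map_subgroupOf_eq_of_le (hNV.trans hVH)] at h
    have h1 : X.map H.subtype ≤ V :=
      (le_inf (map_subtype_le X) (hX _ (map_subtype_le X) hc hn)).trans hCV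
    exact (Subgroup.map_eq_bot_iff_of_injective _ H.subtype_injective).mp
      (le_bot_iff.mp ((le_inf le_rfl h1).trans (Coprime.inf_eq_bot_of_coprime (hcopV hc)).le))
  -- elementary abelian `V`
  set Φ := (frattini V).map V.subtype with hΦdef
  have hΦn : normalizer (V : Set G) ≤ normalizer (Φ : Set G) :=
    FitHeight.normalizer_le_normalizer_map_frattini V
  by_cases hΦ : Φ = ⊥
  swap
  · refine hlift Φ (map_subtype_le _) hΦ (hHV.trans hΦn) (hRV.trans hΦn) fun X hXH hXc hXn => ?_
    refine Coprime.le_centralizer_of_frattini (hXH.trans hHV) ((hcopV hXc).coprime_dvd_right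
      (frattini V).card_subgroup_dvd_card) fun a ha v hv => ?_
    have h1 : a * v * a⁻¹ * v⁻¹ ∈ (X ⊔ Φ) ⊓ V := by
      refine ⟨?_, V.mul_mem ((mem_normalizer_iff.mp (hHV (hXH ha)) v).mp hv) (V.inv_mem hv)⟩
      rw [mul_assoc a, mul_assoc a]
      refine (X ⊔ Φ).mul_mem (mem_sup_left ha) ?_
      exact (mem_normalizer_iff.mp (hXn (hVH hv)) _).mp (mem_sup_left (X.inv_mem ha))
    obtain ⟨h2, h3⟩ := h1
    obtain ⟨x, hx, f, hf, hxf⟩ := (Coprime.mem_sup_of_le_normalizer (hXH.trans (hHV.trans hΦn))).mp h2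
    have hxV : x ∈ X ⊓ V := by
      refine ⟨hx, ?_⟩
      have := V.mul_mem h3 (V.inv_mem (map_subtype_le _ hf))
      rwa [← hxf, mul_inv_cancel_right] at this
    rw [Coprime.inf_eq_bot_of_coprime (hcopV hXc), mem_bot] at hxV
    rw [← hxf, hxV, one_mul]
    exact hf
  have hfr : frattini V = ⊥ := (Subgroup.map_eq_bot_iff_of_injective _ V.subtype_injective).mp hΦ
  have hVc : IsMulCommutative V := ⟨⟨fun a b => commutatorElement_eq_one_iff_mul_comm.mp (mem_bot.mp
    (hfr ▸ PGroupFrattini.commutator_le_frattini hVp (commutator_mem_commutator (mem_top a) (mem_top b))))⟩⟩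
  have hVe : ∀ v : V, v ^ p = 1 := fun v => mem_bot.mp (hfr ▸ PGroupFrattini.pow_mem_frattini hVp v)
  haveI := hVc
  -- the Hall subgroup `K` of `O_{p,p'}`
  haveI : (pCore p ↥H).Normal := Hall.pCore_normal p
  set π := QuotientGroup.mk' (pCore p ↥H)
  have hπ : Function.Surjective π := QuotientGroup.mk'_surjective _
  haveI : (pPrimeCore p (↥H ⧸ pCore p ↥H)).Normal := Hall.pPrimeCore_normal p
  set L' := (pPrimeCore p (↥H ⧸ pCore p ↥H)).comap π with hL'
  have hVL' : pCore p ↥H ≤ L' := fun x hx => by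
    show π x ∈ pPrimeCore p (↥H ⧸ pCore p ↥H)
    rw [show π x = 1 from (QuotientGroup.eq_one_iff x).mpr hx]
    exact one_mem _
  have hrelL : ((pCore p ↥H).relIndex L').Coprime p := by
    refine (Hall.coprime_card_pPrimeCore (G := ↥H ⧸ pCore p ↥H) p).coprime_dvd_left ?_
    have h := Coprime.card_map_mk' (pCore p ↥H) L'
    rw [map_comap_eq_self_of_surjective hπ, inf_eq_right.mpr hVL'] at h
    have h2 := ((pCore p ↥H).subgroupOf L').card_mul_index
    rw [Coprime.card_subgroupOf hVL', ← h, mul_comm] at h2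
    exact (Nat.eq_of_mul_eq_mul_right Nat.card_pos h2).dvd
  obtain ⟨K', hK'L, hK'sup, hK'c⟩ := HallHigman.exists_complement (Hall.isPGroup_pCore p) hVL' hrelL
  set L := L'.map H.subtype with hLdef
  haveI : L'.Normal := inferInstance
  have hLchar : L'.Characteristic := by
    refine characteristic_iff_map_le.mpr fun φ => ?_
    have hn : (L'.map φ.toMonoidHom).Normal := (inferInstance : L'.Normal).map _ φ.surjective
    haveI := hn
    haveI : ((L'.map φ.toMonoidHom).map π).Normal := hn.map π hπ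
    refine map_le_iff_le_comap.mp (Hall.le_pPrimeCore ?_)
    have h := Coprime.card_map_mk' (pCore p ↥H) (L'.map φ.toMonoidHom)
    have hV' : pCore p ↥H ≤ L'.map φ.toMonoidHom := by
      rw [← Subgroup.characteristic_iff_map_eq.mp (Hall.pCore_characteristic (G := ↥H) p) φ]
      exact map_mono hVL'
    rw [inf_eq_right.mpr hV', card_map_of_injective (f := φ.toMonoidHom) φ.injective] at h
    have h2 := ((pCore p ↥H).subgroupOf L').card_mul_index
    rw [Coprime.card_subgroupOf hVL', ← h, mul_comm] at h2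
    rw [← Nat.eq_of_mul_eq_mul_right Nat.card_pos h2]
    exact hrelL
  have hHL : H ≤ normalizer (L : Set G) := le_normalizer.trans (normalizer_le_normalizer_map_char H L')
  have hRL : R ≤ normalizer (L : Set G) := hcharR H S.norm L'
  have hLH : L ≤ H := map_subtype_le _
  have hVL : V ≤ L := map_mono hVL'
  set K₀ := K'.map H.subtype with hK₀
  have hK₀sup : K₀ ⊔ V = L := by rw [hLdef, ← hK'sup, Subgroup.map_sup]; rfl
  have hK₀c : (Nat.card K₀).Coprime p := by rwa [hK₀, card_map_of_injective H.subtype_injective]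
  have hK₀V : K₀ ≤ normalizer (V : Set G) := (map_subtype_le _).trans hHV
  have hconj : ∀ g ∈ normalizer (L : Set G), ∀ K₁ : Subgroup G, K₁ ⊔ V = L → (Nat.card K₁).Coprime p →
      ∃ v ∈ V, MulAut.conj g • K₁ = MulAut.conj v • K₁ := by
    intro g hg K₁ hK₁ hK₁c
    have hK₁L : K₁ ≤ L := hK₁ ▸ le_sup_left
    obtain ⟨v, hv, hvK⟩ := Coprime.exists_conj_eq_of_le_sup ((hK₁L.trans hLH).trans hHV) (hcopV hK₁c)
      (Or.inr inferInstance) (B := MulAut.conj g • K₁) (by
        rw [hK₁]
        exact (pointwise_smul_le_pointwise_smul_iff.mpr hK₁L).trans (Coprime.conj_smul_eq_self hg).le)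
      (Coprime.card_conj_smul g K₁)
    exact ⟨v, hv, hvK.symm⟩
  obtain ⟨l, hl, hlR⟩ := Coprime.exists_invariant_conj hRL
    ((S.cop.symm.coprime_dvd_right (card_dvd_of_le hLH))) (Or.inr inferInstance) K₀
    (fun a ha => by
      obtain ⟨v, hv, hva⟩ := hconj a (hRL ha) K₀ hK₀sup hK₀c
      exact ⟨v, hVL hv, hva⟩)
  set K := MulAut.conj l • K₀ with hKdef
  have hlV : MulAut.conj l • V = V := Coprime.conj_smul_eq_self (hHV (hLH hl))
  have hKsup : K ⊔ V = L := by
    rw [hKdef]
    conv_lhs => rw [← hlV]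
    rw [← smul_sup, hK₀sup, Coprime.conj_smul_eq_self (le_normalizer hl)]
  have hKc : (Nat.card K).Coprime p := by rw [hKdef, Coprime.card_conj_smul]; exact hK₀c
  have hKL : K ≤ L := hKsup ▸ le_sup_left
  have hKH : K ≤ H := hKL.trans hLH
  have hKV : K ≤ normalizer (V : Set G) := hKH.trans hHV
  have hVK : V ⊓ K = ⊥ := Coprime.inf_eq_bot_of_coprime (hcopV hKc).symm
  -- `K` fixes only the trivial vector
  set U := V ⊓ centralizer (K : Set G) with hU
  by_cases hU1 : U = ⊥
  swap
  · have hUn : ∀ g ∈ normalizer (L : Set G), g ∈ normalizer (V : Set G) → g ∈ normalizer (U : Set G) := by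
      intro g hg hgV
      obtain ⟨v, hv, hvK⟩ := hconj g hg K hKsup hKc
      have hgU : MulAut.conj g • U = MulAut.conj v • U := by
        have e1 : ∀ x : G, MulAut.conj x • centralizer (K : Set G) = centralizer ((MulAut.conj x • K : Subgroup G) : Set G) := by
          intro x
          ext y
          simp only [Coprime.mem_conj_smul, mem_centralizer_iff]
          constructor
          · intro h z hz
            have hz' := h _ (Coprime.mem_conj_smul.mp hz)
            calc z * y = x * ((x⁻¹ * z * x) * (x⁻¹ * y * x)) * x⁻¹ := by group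
              _ = y * z := by rw [hz']; group
          · intro h z hz
            have hz' := h _ (Coprime.conj_mem_conj_smul (g := x) hz)
            calc z * (x⁻¹ * y * x) = x⁻¹ * ((x * z * x⁻¹) * y) * x := by group
              _ = (x⁻¹ * y * x) * z := by rw [hz']; group
        rw [hU, Coprime.conj_smul_inf, Coprime.conj_smul_inf, Coprime.conj_smul_eq_self hgV,
          Coprime.conj_smul_eq_self (le_normalizer hv), e1, e1, hvK]
      have hvU : MulAut.conj v • U = U := by
        refine Coprime.conj_smul_eq_self (centralizer_le_normalizer _ (mem_centralizer_iff.mpr fun u hu => ?_))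
        exact congrArg Subtype.val (hVc.is_comm.comm ⟨u, hu.1⟩ ⟨v, hv⟩)
      exact Coprime.mem_normalizer_of_conj_smul_eq (hgU.trans hvU)
    refine hlift U inf_le_left hU1 (fun g hg => hUn g (hHL hg) (hHV hg))
      (fun g hg => hUn g (hRL hg) (hRV hg)) fun X hXH hXc hXn => ?_
    haveI : Group.IsSolvable V := inferInstance
    have hVX : ⁅V, X⁆ ≤ U := by
      rw [commutator_le]
      intro v hv x hx
      have h1 : ⁅v, x⁆ ∈ (X ⊔ U) ⊓ V := by
        refine ⟨?_, ?_⟩
        · rw [commutatorElement_def]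
          exact (X ⊔ U).mul_mem ((mem_normalizer_iff.mp (hXn (hVH hv)) x).mp (mem_sup_left hx))
            ((X ⊔ U).inv_mem (mem_sup_left hx))
        · rw [commutatorElement_def, mul_assoc, mul_assoc]
          exact V.mul_mem hv (by simpa [mul_assoc] using (mem_normalizer_iff.mp (hHV (hXH hx)) _).mp (V.inv_mem hv))
      obtain ⟨h2, h3⟩ := h1
      obtain ⟨y, hy, f, hf, hyf⟩ := (Coprime.mem_sup_of_le_normalizer
        (fun z hz => hUn z (hHL (hXH hz)) (hHV (hXH hz)))).mp h2
      have hyV : y ∈ X ⊓ V := by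
        refine ⟨hy, ?_⟩
        have := V.mul_mem h3 (V.inv_mem hf.1)
        rwa [← hyf, mul_inv_cancel_right] at this
      rw [Coprime.inf_eq_bot_of_coprime (hcopV hXc), mem_bot] at hyV
      rw [← hyf, hyV, one_mul]
      exact hf
    have hXL : X ≤ L := by
      have hn : H ≤ normalizer ((X ⊔ V : Subgroup G) : Set G) := by
        rw [show X ⊔ V = (X ⊔ U) ⊔ V by rw [sup_assoc, sup_eq_right.mpr (inf_le_left : U ≤ V)]]
        intro g hg
        refine Coprime.mem_normalizer_of_conj_smul_eq ?_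
        rw [smul_sup, Coprime.conj_smul_eq_self (hXn hg), Coprime.conj_smul_eq_self (hHV hg)]
      haveI : ((X ⊔ V).subgroupOf H).Normal :=
        (normal_subgroupOf_iff_le_normalizer (sup_le hXH hVH)).mpr hn
      haveI : (((X ⊔ V).subgroupOf H).map π).Normal := Subgroup.Normal.map inferInstance π hπ
      have hle : ((X ⊔ V).subgroupOf H).map π ≤ pPrimeCore p (↥H ⧸ pCore p ↥H) := by
        refine Hall.le_pPrimeCore ?_
        have hVeq : V.subgroupOf H = pCore p ↥H := comap_map_eq_self_of_injective H.subtype_injective _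
        rw [subgroupOf_sup hXH hVH, hVeq, Subgroup.map_sup,
          (Subgroup.map_eq_bot_iff (pCore p ↥H) (f := π)).mpr (by simp [π]), sup_bot_eq]
        exact hXc.coprime_dvd_left ((card_map_dvd _ _).trans (Coprime.card_subgroupOf hXH).dvd)
      intro x hx
      refine ⟨⟨x, hXH hx⟩, ?_, rfl⟩
      exact hle (mem_map_of_mem π (x := (⟨x, hXH hx⟩ : ↥H)) (mem_subgroupOf.mpr (mem_sup_left hx)))
    have hXU : X ≤ centralizer (U : Set G) := by
      have hLU : L ≤ centralizer (U : Set G) := by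
        rw [← hKsup]
        refine sup_le (le_centralizer_iff.mp inf_le_right) fun v hv => mem_centralizer_iff.mpr fun u hu => ?_
        exact congrArg Subtype.val (hVc.is_comm.comm ⟨u, hu.1⟩ ⟨v, hv⟩)
      exact hXL.trans hLU
    have h3 : ⁅⁅V, X⁆, X⁆ = ⊥ := le_bot_iff.mp <| (commutator_mono hVX le_rfl).trans
      (le_of_eq (commutator_eq_bot_iff_le_centralizer.mpr (le_centralizer_iff.mp hXU)))
    rw [Coprime.commutator_commutator (hXH.trans hHV) (hcopV hXc) (Or.inr inferInstance)] at h3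
    exact le_centralizer_iff.mp (commutator_eq_bot_iff_le_centralizer.mp h3)
  -- the complement `H₁`
  set H₁ := H ⊓ normalizer (K : Set G) with hH₁
  have hRK : R ≤ normalizer (K : Set G) := hlR
  have hRH₁ : R ≤ normalizer (H₁ : Set G) :=
    (le_inf S.norm (hRK.trans le_normalizer)).trans inf_normalizer_le_normalizer_inf
  have hKH₁ : K ≤ H₁ := le_inf hKH le_normalizer
  have hVH₁ : V ⊓ H₁ = ⊥ := by
    rw [eq_bot_iff, ← hU1]
    rintro v ⟨hv, hvH, hvK⟩
    refine ⟨hv, mem_centralizer_iff.mpr fun k hk => ?_⟩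
    have h1 : v * k * v⁻¹ * k⁻¹ ∈ V ⊓ K := by
      refine ⟨?_, K.mul_mem ((mem_normalizer_iff.mp hvK k).mp hk) (K.inv_mem hk)⟩
      rw [mul_assoc v, mul_assoc v]
      exact V.mul_mem hv ((mem_normalizer_iff.mp (hKV hk) _).mp (V.inv_mem hv))
    rw [hVK, mem_bot] at h1
    exact (mul_inv_eq_iff_eq_mul.mp (mul_inv_eq_one.mp h1)).symm
  have hH₁V : H₁ ≤ normalizer (V : Set G) := inf_le_left.trans hHV
  have hsupH : V ⊔ H₁ = H := by
    refine le_antisymm (sup_le hVH inf_le_left) fun h hh => ?_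
    obtain ⟨v, hv, hvK⟩ := hconj h (hHL hh) K hKsup hKc
    have hn : v⁻¹ * h ∈ H₁ := ⟨H.mul_mem (H.inv_mem (hVH hv)) hh, Coprime.mem_normalizer_of_conj_smul_eq (by
      rw [map_mul, mul_smul, hvK, map_inv, inv_smul_smul])⟩
    rw [show h = v * (v⁻¹ * h) by group]
    exact mul_mem (mem_sup_left hv) (mem_sup_right hn)
  have hdec : ∀ {h : G}, h ∈ H → ∃ v ∈ V, ∃ m ∈ H₁, v * m = h := fun {h} hh => by
    obtain ⟨m, hm, v, hv, e⟩ := (Coprime.mem_sup_of_le_normalizer hH₁V).mp (sup_comm V H₁ ▸ hsupH.ge hh)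
    exact ⟨m * v * m⁻¹, (mem_normalizer_iff.mp (hH₁V hm) v).mp hv, m, hm, by rw [← e]; group⟩
  have hHR₁ : ⁅H₁, R⁆ = H₁ := by
    have hle := Coprime.commutator_le_of_le_normalizer' hRH₁
    refine le_antisymm hle fun h hh => ?_
    have hDV : ⁅H₁, R⁆ ≤ normalizer (V : Set G) := hle.trans hH₁V
    have hsub : ⁅H, R⁆ ≤ ⁅H₁, R⁆ ⊔ V := by
      rw [commutator_le]
      intro x hx a ha
      obtain ⟨v, hv, m, hm, rfl⟩ := hdec hx
      have e : ⁅v * m, a⁆ = v * ⁅m, a⁆ * v⁻¹ * ⁅v, a⁆ := by simp only [commutatorElement_def]; group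
      rw [e]
      refine mul_mem (mul_mem (mul_mem (mem_sup_right hv) (mem_sup_left (commutator_mem_commutator hm ha)))
        (inv_mem (mem_sup_right hv))) (mem_sup_right ?_)
      exact (Coprime.commutator_le_of_le_normalizer' hRV) (commutator_mem_commutator hv ha)
    obtain ⟨d, hd, v, hv, hdv⟩ := (Coprime.mem_sup_of_le_normalizer hDV).mp (hsub (hHR.ge hh.1))
    have hv' : v ∈ V ⊓ H₁ := ⟨hv, by
      rw [show v = d⁻¹ * h by rw [← hdv]; group]
      exact H₁.mul_mem (H₁.inv_mem (hle hd)) hh⟩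
    rw [hVH₁, mem_bot] at hv'
    rw [← hdv, hv', mul_one]
    exact hd
  have hH1 : H ≠ ⊥ → V ≠ ⊥ := fun hne e => hne (le_bot_iff.mp fun x hx => e ▸ hCV ⟨hx, by
    refine mem_centralizer_iff.mpr fun y hy => ?_
    rw [SetLike.mem_coe, e] at hy
    rw [mem_bot.mp hy, one_mul, mul_one]⟩)
  by_cases hHbot : H = ⊥
  · refine pl1_of_sylow_le (⊤ : Subgroup ↥H) ?_ fun _ => le_top
    refine IsPGroup.of_card (n := 0) ?_
    rw [card_top, hHbot, card_bot, pow_zero]
  have hV1 := hH1 hHbot
  have hcard : ∀ {X : Subgroup G}, X ≤ H₁ → Nat.card (X ⊔ V : Subgroup G) = Nat.card X * Nat.card V :=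
    fun {X} hX => FitHeight.card_sup_of_coprime_like (hX.trans hH₁V)
      (le_bot_iff.mp (hVH₁ ▸ (le_inf inf_le_right (inf_le_left.trans hX))))
  have hlt₁ : Nat.card H₁ < Nat.card H := by
    have h := hcard le_rfl
    rw [sup_comm, hsupH] at h
    rw [h]
    refine lt_mul_of_one_lt_right Nat.card_pos ?_
    by_contra hle
    exact hV1 (card_eq_one.mp (le_antisymm (not_lt.mp hle) Nat.card_pos))
  have hpl₁ : PLengthLE p 1 ↥H₁ := by
    have := ihsub H₁ inf_le_left hRH₁ hlt₁
    rwa [hHR₁] at this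
  by_cases hdvd : p ∣ Nat.card H₁
  swap
  · haveI : (pCore p ↥H).Normal := Hall.pCore_normal p
    refine pl1_of_sylow_le (pCore p ↥H) (Hall.isPGroup_pCore p) fun P' x hx => ?_
    obtain ⟨v, hv, m, hm, hvm⟩ := hdec x.2
    obtain ⟨j, hj⟩ := P'.2 ⟨x, hx⟩
    have hxpow : (x : G) ^ p ^ j = 1 := by
      have := congrArg (fun z : ↥(P' : Subgroup ↥H) => ((z : ↥H) : G)) hj
      simpa using this
    -- modulo `V` the element lies in `H₁`, whose order is prime to `p`
    have hmem : ∀ i : ℕ, (v * m) ^ i * (m ^ i)⁻¹ ∈ V := by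
      intro i
      induction i with
      | zero => simp
      | succ i ihi =>
        have e : (v * m) ^ (i + 1) * (m ^ (i + 1))⁻¹ = v * (m * ((v * m) ^ i * (m ^ i)⁻¹) * m⁻¹) := by
          rw [pow_succ', pow_succ']; group
        rw [e]
        exact V.mul_mem hv ((mem_normalizer_iff.mp (hH₁V hm) _).mp ihi)
    have h1 := hmem (p ^ j)
    rw [hvm, hxpow, one_mul] at h1
    have h2 : m ^ p ^ j ∈ V ⊓ H₁ := ⟨V.inv_mem_iff.mp h1, H₁.pow_mem hm _⟩
    rw [hVH₁, mem_bot] at h2
    have hm1 : m = 1 := orderOf_eq_one_iff.mp <| Nat.eq_one_of_dvd_coprimes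
      ((hp.out.coprime_iff_not_dvd.mpr hdvd).pow_left j) (orderOf_dvd_of_pow_eq_one h2)
      (H₁.orderOf_dvd_natCard hm)
    rw [hm1, mul_one] at hvm
    obtain ⟨y, hy, hyv⟩ := hv
    have : x = y := Subtype.ext (hvm.symm.trans hyv.symm)
    rw [this]
    exact hy
  -- cores of `H₁`
  have hOp : pCore p ↥H₁ = ⊥ := by
    have hO : locCore p H₁ = ⊥ := by
      set O := locCore p H₁
      have hOH : O ≤ H₁ := locCore_le p H₁
      have hn : H ≤ normalizer ((O ⊔ V : Subgroup G) : Set G) := by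
        rw [← hsupH]
        refine sup_le ((le_sup_right : V ≤ O ⊔ V).trans le_normalizer) fun g hg => ?_
        refine Coprime.mem_normalizer_of_conj_smul_eq ?_
        rw [smul_sup, Coprime.conj_smul_eq_self (le_normalizer_locCore p H₁ hg),
          Coprime.conj_smul_eq_self (hH₁V hg)]
      have hOp' : IsPGroup p ↥(O ⊔ V) :=
        IsPGroup.to_sup_of_normal_right' (locCore_isPGroup p H₁) hVp (hOH.trans hH₁V)
      exact le_bot_iff.mp (hVH₁ ▸ le_inf (le_sup_left.trans (hsylV _ hOp' (sup_le (hOH.trans inf_le_left) hVH) hn)) hOH)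
    exact (Subgroup.map_eq_bot_iff_of_injective _ H₁.subtype_injective).mp hO
  have hopK : opc p H₁ = K := by
    refine le_antisymm ?_ (le_opc hp.out hKH₁ inf_le_right hKc)
    set O := opc p H₁
    have hOH : O ≤ H := (opc_le p H₁).trans inf_le_left
    have hn : H ≤ normalizer ((O ⊔ V : Subgroup G) : Set G) := by
      rw [← hsupH]
      refine sup_le ((le_sup_right : V ≤ O ⊔ V).trans le_normalizer) fun g hg => ?_
      refine Coprime.mem_normalizer_of_conj_smul_eq ?_
      rw [smul_sup, Coprime.conj_smul_eq_self (OddLocal.le_normalizer_piCoreOf _ H₁ hg),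
        Coprime.conj_smul_eq_self (hH₁V hg)]
    haveI : ((O ⊔ V).subgroupOf H).Normal :=
      (normal_subgroupOf_iff_le_normalizer (sup_le hOH hVH)).mpr hn
    haveI : (((O ⊔ V).subgroupOf H).map π).Normal := Subgroup.Normal.map inferInstance π hπ
    have hle : ((O ⊔ V).subgroupOf H).map π ≤ pPrimeCore p (↥H ⧸ pCore p ↥H) := by
      refine Hall.le_pPrimeCore ?_
      have hVeq : V.subgroupOf H = pCore p ↥H := comap_map_eq_self_of_injective H.subtype_injective _
      rw [subgroupOf_sup hOH hVH, hVeq, Subgroup.map_sup,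
        (Subgroup.map_eq_bot_iff (pCore p ↥H) (f := π)).mpr (by simp [π]), sup_bot_eq]
      exact (coprime_opc p H₁).coprime_dvd_left ((card_map_dvd _ _).trans (Coprime.card_subgroupOf hOH).dvd)
    intro x hx
    have hxL : x ∈ L := ⟨⟨x, hOH hx⟩,
      hle (mem_map_of_mem π (x := (⟨x, hOH hx⟩ : ↥H)) (mem_subgroupOf.mpr (mem_sup_left hx))), rfl⟩
    obtain ⟨k, hk, v, hv, e⟩ := (Coprime.mem_sup_of_le_normalizer hKV).mp (hKsup.ge hxL)
    have hv' : v ∈ V ⊓ H₁ := ⟨hv, by
      rw [show v = k⁻¹ * x by rw [← e]; group]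
      exact H₁.mul_mem (H₁.inv_mem (hKH₁ hk)) (opc_le p H₁ hx)⟩
    rw [hVH₁, mem_bot] at hv'
    rw [← e, hv', mul_one]
    exact hk
  have hCK : H₁ ⊓ centralizer (K : Set G) ≤ K := by
    rintro x ⟨hx, hxC⟩
    have h : (⟨x, hx⟩ : ↥H₁) ∈ pPrimeCore p ↥H₁ := by
      refine HallHigman.centralizer_pPrimeCore_le (HallHigman.isPSolvable_of_isSolvable p) hOp
        (mem_centralizer_iff.mpr fun y hy => Subtype.ext ?_)
      refine mem_centralizer_iff.mp hxC (y : G) ?_
      rw [← hopK, opc_eq hp.out]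
      exact mem_map_of_mem _ hy
    rw [← hopK, opc_eq hp.out]
    exact ⟨_, h, rfl⟩
  -- an invariant Sylow subgroup
  obtain ⟨P₁, hRP⟩ := Coprime.exists_invariant_sylow hRH₁ (S.cop.symm.coprime_dvd_right (card_dvd_of_le inf_le_left))
    (Or.inr inferInstance) p
  set P := (P₁ : Subgroup H₁).map H₁.subtype with hPdef
  have hPH₁ : P ≤ H₁ := map_subtype_le _
  have hPp : IsPGroup p P := P₁.2.map _
  obtain ⟨kP, hkP⟩ := IsPGroup.iff_card.mp hPp
  have hP1 : P ≠ ⊥ := fun e => P₁.ne_bot_of_dvd_card hdvd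
    ((Subgroup.map_eq_bot_iff_of_injective _ H₁.subtype_injective).mp e)
  have hcopPK : (Nat.card P).Coprime (Nat.card K) := by rw [hkP]; exact hKc.symm.pow_left kP
  have hPK : P ≤ normalizer (K : Set G) := hPH₁.trans inf_le_right
  -- `[P, R]` is nontrivial
  set P₀ := ⁅P, R⁆ with hP₀
  have hP₀P : P₀ ≤ P := Coprime.commutator_le_of_le_normalizer' hRP
  have hcopPR : (Nat.card R).Coprime (Nat.card P) :=
    S.cop.symm.coprime_dvd_right (card_dvd_of_le (hPH₁.trans inf_le_left))
  have hP₀R : ⁅P₀, R⁆ = P₀ := Coprime.commutator_commutator hRP hcopPR (Or.inr inferInstance)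
  have hP₀1 : P₀ ≠ ⊥ := by
    intro e
    have hPC : P ≤ centralizer (R : Set G) := commutator_eq_bot_iff_le_centralizer.mp e
    set M := H₁ ⊓ normalizer (P : Set G)
    have hPM : P ≤ M := le_inf hPH₁ le_normalizer
    have hfac : H₁ ≤ K ⊔ M := by
      intro h hh
      have h1 := OddLocal.pPrimeCore_sup_normalizer_eq_top p hpl₁ P₁
      haveI := Hall.pPrimeCore_normal (G := ↥H₁) p
      obtain ⟨k, hk, m, hm, ekm⟩ := mem_sup_of_normal_left.mp (h1.ge (mem_top (⟨h, hh⟩ : ↥H₁)))
      rw [show h = (k : G) * (m : G) from (congrArg Subtype.val ekm).symm]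
      refine mul_mem (mem_sup_left ?_) (mem_sup_right ⟨m.2, ?_⟩)
      · rw [← hopK, opc_eq hp.out]; exact mem_map_of_mem _ hk
      · exact le_normalizer_map H₁.subtype (mem_map_of_mem H₁.subtype hm)
    have hRM : R ≤ normalizer (M : Set G) :=
      (le_inf hRH₁ (hRP.trans le_normalizer)).trans inf_normalizer_le_normalizer_inf
    set M₁ := ⁅M, R⁆
    have hM₁M : M₁ ≤ M := Coprime.commutator_le_of_le_normalizer' hRM
    have hcopM : (Nat.card R).Coprime (Nat.card M) :=
      S.cop.symm.coprime_dvd_right (card_dvd_of_le (inf_le_left.trans inf_le_left))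
    have hM₁R : ⁅M₁, R⁆ = M₁ := Coprime.commutator_commutator hRM hcopM (Or.inr inferInstance)
    have hM₁P : M₁ ≤ centralizer (P : Set G) := by
      refine commutator_eq_bot_iff_le_centralizer.mp (Subgroup.commutator_commutator_eq_bot_of_rotate ?_ ?_)
      · rw [commutator_comm R P, ← hP₀, e, commutator_bot_left]
      · refine le_bot_iff.mp ((commutator_mono ?_ le_rfl).trans (le_of_eq e))
        exact Coprime.commutator_le_of_le_normalizer' (inf_le_right : M ≤ normalizer (P : Set G))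
    have hKM₁ : H₁ ≤ K ⊔ M₁ := by
      rw [← hHR₁, commutator_le]
      intro x hx a ha
      obtain ⟨m, hm, k, hk, rfl⟩ := (Coprime.mem_sup_of_le_normalizer (inf_le_left.trans inf_le_right :
        M ≤ normalizer (K : Set G))).mp (sup_comm K M ▸ hfac hx)
      have e' : ⁅m * k, a⁆ = m * ⁅k, a⁆ * m⁻¹ * ⁅m, a⁆ := by simp only [commutatorElement_def]; group
      rw [e']
      refine mul_mem (mem_sup_left ((mem_normalizer_iff.mp ((inf_le_left.trans inf_le_right : M ≤ normalizer (K : Set G)) hm) _).mp ?_))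
        (mem_sup_right (commutator_mem_commutator hm ha))
      exact Coprime.commutator_le_of_le_normalizer' hRK (commutator_mem_commutator hk ha)
    have hPM₁ : P ≤ M₁ := by
      intro x hx
      obtain ⟨m, hm, k, hk, hmk⟩ := (Coprime.mem_sup_of_le_normalizer
        ((hM₁M.trans inf_le_left).trans inf_le_right : M₁ ≤ normalizer (K : Set G))).mp
        (sup_comm K M₁ ▸ hKM₁ (hPH₁ hx))
      have hc1 : Commute m x := (mem_centralizer_iff.mp (hM₁P hm) x hx).symm
      have hkx : k = m⁻¹ * x := by rw [← hmk]; group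
      have hc2 : Commute m k := by rw [hkx]; exact ((Commute.refl m).inv_right).mul_right hc1
      have hpow : x ^ Nat.card K = m ^ Nat.card K := by
        rw [← hmk, hc2.mul_pow, show k ^ Nat.card K = 1 from
          congrArg Subtype.val (pow_card_eq_one' (G := K) (x := ⟨k, hk⟩)), mul_one]
      obtain ⟨i, hi⟩ := exists_pow_eq_self_of_coprime
        ((hcopPK.coprime_dvd_left (P.orderOf_dvd_natCard hx)).symm)
      rw [← hi, hpow]
      exact pow_mem (pow_mem hm _) i
    have hcopP : (Nat.card (P.subgroupOf M₁)).Coprime (P.subgroupOf M₁).index := by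
      rw [Coprime.card_subgroupOf hPM₁, hkP]
      refine Nat.Coprime.pow_left kP (hp.out.coprime_iff_not_dvd.mpr fun hd => ?_)
      have hM₁H₁ : M₁ ≤ H₁ := hM₁M.trans inf_le_left
      refine P₁.not_dvd_index (hd.trans ?_)
      have : P.subgroupOf H₁ = (P₁ : Subgroup H₁) := comap_map_eq_self_of_injective H₁.subtype_injective _
      rw [← this]
      show P.relIndex M₁ ∣ P.relIndex H₁
      exact Dvd.intro _ (relIndex_mul_relIndex P M₁ H₁ hPM₁ hM₁H₁)
    haveI : (P.subgroupOf M₁).Normal :=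
      (normal_subgroupOf_iff_le_normalizer hPM₁).mpr (hM₁M.trans inf_le_right)
    obtain ⟨C, hC⟩ := exists_left_complement'_of_coprime hcopP
    have hCdec : ∀ y ∈ M₁, ∃ c ∈ C, ∃ z ∈ P, (c : G) * z = y := by
      intro y hy
      obtain ⟨c, hc, z, hz, ecz⟩ := mem_sup_of_normal_right.mp (hC.sup_eq_top.ge (mem_top (⟨y, hy⟩ : ↥M₁)))
      exact ⟨c, hc, z, hz, congrArg Subtype.val ecz⟩
    have hCc : (Nat.card C).Coprime p := by
      have h1 : Nat.card C = (P.subgroupOf M₁).index := hC.index_eq_card.symm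
      rw [h1]
      rw [Coprime.card_subgroupOf hPM₁, hkP] at hcopP
      rcases Nat.eq_zero_or_pos kP with h0 | h0
      · exact absurd (card_eq_one.mp (hkP.trans (by rw [h0, pow_zero]))) hP1
      · exact (hcopP.coprime_dvd_left (dvd_pow_self p h0.ne')).symm
    have hMle : M₁ ≤ C.map M₁.subtype := by
      refine hM₁R.ge.trans (commutator_le.mpr ?_)
      intro y hy a ha
      obtain ⟨c, hc, z, hz, rfl⟩ := hCdec y hy
      have hza : Commute z a := (mem_centralizer_iff.mp (hPC hz) a ha).symm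
      have e' : ⁅(c : G) * z, a⁆ = ⁅(c : G), a⁆ := by
        simp only [commutatorElement_def]
        calc (c : G) * z * a * ((c : G) * z)⁻¹ * a⁻¹ = (c : G) * (z * a) * z⁻¹ * (c : G)⁻¹ * a⁻¹ := by group
          _ = _ := by rw [hza.eq]; group
      rw [e']
      have hac : a * (c : G)⁻¹ * a⁻¹ ∈ M₁ :=
        (mem_normalizer_iff.mp (Coprime.right_le_normalizer_commutator M R ha) _).mp (inv_mem c.2)
      obtain ⟨c', hc', z', hz', hcz⟩ := hCdec _ hac
      have hz1 : z' = 1 := by
        have hcomm : Commute (c' : G) z' := (mem_centralizer_iff.mp (hM₁P c'.2) z' hz').symm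
        have hord : (a * (c : G)⁻¹ * a⁻¹) ^ Nat.card C = 1 := by
          rw [conj_pow, inv_pow, show (c : G) ^ Nat.card C = 1 from by
            have := congrArg (fun t : C => ((t : M₁) : G)) (pow_card_eq_one' (G := C) (x := ⟨c, hc⟩))
            simpa [-pow_card_eq_one'] using this]
          group
        rw [← hcz, hcomm.mul_pow, show (c' : G) ^ Nat.card C = 1 from by
          have := congrArg (fun t : C => ((t : M₁) : G)) (pow_card_eq_one' (G := C) (x := ⟨c', hc'⟩))
          simpa [-pow_card_eq_one'] using this, one_mul] at hord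
        refine orderOf_eq_one_iff.mp (Nat.eq_one_of_dvd_coprimes (hCc.pow_right kP) (orderOf_dvd_of_pow_eq_one hord) ?_)
        exact hkP ▸ P.orderOf_dvd_natCard hz'
      rw [hz1, mul_one] at hcz
      refine ⟨c * c', C.mul_mem hc hc', ?_⟩
      simp [commutatorElement_def, hcz, mul_assoc]
    refine hP1 ?_
    have hle : P ≤ C.map M₁.subtype := hPM₁.trans hMle
    refine le_bot_iff.mp ((le_inf le_rfl hle).trans (le_of_eq (Coprime.inf_eq_bot_of_coprime ?_)))
    rw [card_map_of_injective M₁.subtype_injective, hkP]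
    exact hCc.symm.pow_left kP
  -- the killing lemma
  have hkill : ∀ K₁ X : Subgroup G, K₁ ≤ K → X ≤ P → X ≤ normalizer (K₁ : Set G) →
      R ≤ normalizer (K₁ : Set G) → ⁅X, R⁆ = X → R ≤ normalizer (X : Set G) →
      Nat.card K₁ * Nat.card X < Nat.card H₁ → X ≤ centralizer (K₁ : Set G) := by
    intro K₁ X hK₁ hX hXK₁ hRK₁ hXR hRX hlt
    have hKX : K₁ ⊔ X ≤ H₁ := sup_le (hK₁.trans hKH₁) (hX.trans hPH₁)
    set H₂ := (K₁ ⊔ X) ⊔ V
    have hH₂H : H₂ ≤ H := sup_le (hKX.trans inf_le_left) hVH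
    have hRH₂ : R ≤ normalizer (H₂ : Set G) := fun a ha => Coprime.mem_normalizer_of_conj_smul_eq (by
      rw [show H₂ = (K₁ ⊔ X) ⊔ V from rfl, smul_sup, smul_sup, Coprime.conj_smul_eq_self (hRK₁ ha),
        Coprime.conj_smul_eq_self (hRX ha), Coprime.conj_smul_eq_self (hRV ha)])
    have hlt₂ : Nat.card H₂ < Nat.card H := by
      have h := hcard le_rfl
      rw [sup_comm, hsupH] at h
      rw [hcard hKX, h]
      refine Nat.mul_lt_mul_of_pos_right ?_ Nat.card_pos
      refine lt_of_le_of_lt ?_ hlt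
      rw [sup_comm, mul_comm (Nat.card K₁)]
      rw [← Coprime.card_sup_of_coprime hXK₁ ((hcopPK.coprime_dvd_left (card_dvd_of_le hX)).coprime_dvd_right
        (card_dvd_of_le hK₁))]
    obtain ⟨O, hOp', hOH, hOn, hXO⟩ := exists_normal_pgroup (V := V) (H₁ := H₂) (D := ⁅H₂, R⁆) le_sup_right hVp
      (hH₂H.trans hHV) ((inf_le_inf_right _ hH₂H).trans hCV) (Coprime.commutator_le_of_le_normalizer' hRH₂)
      (Coprime.left_le_normalizer_commutator H₂ R) (ihsub H₂ hH₂H hRH₂ hlt₂)
      (hXR.ge.trans (commutator_mono ((le_sup_right : X ≤ K₁ ⊔ X).trans le_sup_left) le_rfl)) (hPp.to_le hX)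
    refine fun x hx => mem_centralizer_iff.mpr fun k hk => ?_
    have h1 : k * x * k⁻¹ * x⁻¹ ∈ O ⊓ K₁ := by
      refine ⟨O.mul_mem ((mem_normalizer_iff.mp (hOn (mem_sup_left (mem_sup_left hk))) x).mp (hXO hx)) (O.inv_mem (hXO hx)), ?_⟩
      rw [mul_assoc k, mul_assoc k]
      exact K₁.mul_mem hk ((mem_normalizer_iff.mp (hXK₁ hx) _).mp (K₁.inv_mem hk))
    have hint : O ⊓ K₁ = ⊥ := Coprime.inf_eq_bot_of_coprime (by
      obtain ⟨i, hi⟩ := IsPGroup.iff_card.mp hOp'
      rw [hi]
      exact ((hKc.coprime_dvd_left (card_dvd_of_le hK₁)).symm).pow_left i)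
    rw [hint, mem_bot] at h1
    exact mul_inv_eq_iff_eq_mul.mp (mul_inv_eq_one.mp h1)
  have hKP_le : Nat.card K * Nat.card P ≤ Nat.card H₁ := by
    rw [mul_comm, ← Coprime.card_sup_of_coprime hPK hcopPK]
    exact Nat.le_of_dvd Nat.card_pos (card_dvd_of_le (sup_le hPH₁ hKH₁))
  have hRP₀ : R ≤ normalizer (P₀ : Set G) := Coprime.right_le_normalizer_commutator P R
  have hP₀eq : Nat.card K * Nat.card P₀ = Nat.card H₁ := by
    rcases lt_or_ge (Nat.card K * Nat.card P₀) (Nat.card H₁) with hlt | hge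
    · exfalso
      have h1 := hkill K P₀ le_rfl hP₀P (hP₀P.trans hPK) hRK hP₀R hRP₀ hlt
      refine hP₀1 (le_bot_iff.mp ?_)
      refine (le_inf le_rfl ((le_inf (hP₀P.trans hPH₁) h1).trans hCK)).trans (le_of_eq ?_)
      exact Coprime.inf_eq_bot_of_coprime (hcopPK.coprime_dvd_left (card_dvd_of_le hP₀P))
    · refine le_antisymm ((Nat.mul_le_mul_left _ (Nat.le_of_dvd Nat.card_pos (card_dvd_of_le hP₀P))).trans hKP_le) hge
  have hPP₀ : P₀ = P := eq_of_le_of_card_ge hP₀P (Nat.le_of_mul_le_mul_left (hP₀eq ▸ hKP_le) Nat.card_pos)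
  have hPR : ⁅P, R⁆ = P := hPP₀
  rw [hPP₀] at hP₀eq
  have hnPK : ¬ P ≤ centralizer (K : Set G) := fun h1 => hP1 <| le_bot_iff.mp <|
    (le_inf le_rfl ((le_inf hPH₁ h1).trans hCK)).trans (Coprime.inf_eq_bot_of_coprime hcopPK).le
  have hmin : ∀ K₁ : Subgroup G, K₁ < K → P ≤ normalizer (K₁ : Set G) → R ≤ normalizer (K₁ : Set G) →
      P ≤ centralizer (K₁ : Set G) := fun K₁ hK₁ h1 h2 => hkill K₁ P hK₁.le le_rfl h1 h2 hPR hRP (by
    rw [← hP₀eq]
    exact Nat.mul_lt_mul_of_pos_right ((Set.toFinite _).card_lt_card (SetLike.coe_ssubset_coe.2 hK₁)) Nat.card_pos)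
  -- `K` is a `q`-group
  have hPRK : P ⊔ R ≤ normalizer (K : Set G) := sup_le hPK hRK
  have hcopA : (Nat.card (P ⊔ R : Subgroup G)).Coprime (Nat.card K) := by
    rw [sup_comm, Coprime.card_sup_of_coprime hRP hcopPR]
    exact (S.cop.symm.coprime_dvd_right (card_dvd_of_le hKH)).mul_left hcopPK
  obtain ⟨q, hq, hKq⟩ : ∃ q : ℕ, q.Prime ∧ IsPGroup q K := by
    by_contra hnone
    push Not at hnone
    refine hnPK (le_centralizer_iff.mp ?_)
    have hdvdC : Nat.card K ∣ Nat.card ↥(K ⊓ centralizer (P : Set G)) := by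
      refine Nat.dvd_of_primeFactorsList_subperm Nat.card_pos.ne' ?_ |> fun h => h
      rw [List.subperm_iff_count]
      intro a
      rw [Nat.primeFactorsList_count_eq, Nat.primeFactorsList_count_eq]
      by_cases ha : a.Prime
      · haveI := Fact.mk ha
        obtain ⟨Q, hQ⟩ := Coprime.exists_invariant_sylow hPRK hcopA (Or.inr inferInstance) a
        have hQlt : (Q : Subgroup K).map K.subtype < K := lt_of_le_of_ne (map_subtype_le _) fun e =>
          hnone a ha (e ▸ Q.2.map _)
        have h1 := hmin _ hQlt (le_sup_left.trans hQ) (le_sup_right.trans hQ)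
        have h2 : Nat.card ((Q : Subgroup K).map K.subtype) ∣ Nat.card ↥(K ⊓ centralizer (P : Set G)) :=
          card_dvd_of_le (le_inf (map_subtype_le _) (le_centralizer_iff.mp h1))
        rw [card_map_of_injective K.subtype_injective, Q.card_eq_multiplicity] at h2
        exact (Nat.Prime.pow_dvd_iff_le_factorization ha Nat.card_pos.ne').mp h2
      · simp [Nat.factorization_eq_zero_of_not_prime _ ha]
    exact fun x hx => ((eq_of_le_of_card_ge inf_le_left (Nat.le_of_dvd Nat.card_pos hdvdC) :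
      K ⊓ centralizer (P : Set G) = K).ge hx).2
  haveI := Fact.mk hq
  have hK1 : K ≠ ⊥ := fun e => hnPK (le_centralizer_iff.mp (e ▸ bot_le))
  obtain ⟨kK, hkK⟩ := IsPGroup.iff_card.mp hKq
  have hkK0 : kK ≠ 0 := fun e => hK1 (card_eq_one.mp (by rw [hkK, e, pow_zero]))
  have hqp : q ≠ p := fun e => by
    rw [hkK, e] at hKc
    exact (Nat.Prime.coprime_iff_not_dvd hp.out).mp (Nat.Coprime.coprime_dvd_left (dvd_pow_self p hkK0) hKc) dvd_rfl
  have hqd : q ∣ Nat.card G :=
    ((dvd_pow_self q hkK0).trans hkK.symm.dvd).trans K.card_subgroup_dvd_card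
  have hq2 : q ≠ 2 := hpodd hq hqd
  have hp2 : p ≠ 2 := hpodd hp.out (hdvd.trans H₁.card_subgroup_dvd_card)
  have hKP : ⁅K, P⁆ = K := by
    have hle := Coprime.commutator_le_of_le_normalizer' hPK
    refine le_antisymm hle ?_
    by_contra hnle
    have h1 := hmin _ (lt_of_le_of_ne hle fun e => hnle e.ge) (Coprime.right_le_normalizer_commutator K P)
      (fun a ha => Coprime.mem_normalizer_of_conj_smul_eq (by
        show Subgroup.map (MulAut.conj a).toMonoidHom ⁅K, P⁆ = ⁅K, P⁆
        rw [map_commutator]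
        exact congrArg₂ (fun x y => ⁅x, y⁆) (Coprime.conj_smul_eq_self (hRK ha)) (Coprime.conj_smul_eq_self (hRP ha))))
    have h2 := commutator_eq_bot_iff_le_centralizer.mpr (le_centralizer_iff.mp h1)
    rw [Coprime.commutator_commutator hPK hcopPK (Or.inr inferInstance)] at h2
    exact hnPK (le_centralizer_iff.mp (commutator_eq_bot_iff_le_centralizer.mp h2))
  set D := OddLocal.powCommSub q K
  have hDn : normalizer (K : Set G) ≤ normalizer (D : Set G) := OddLocal.le_normalizer_powCommSub q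
  have hDP := hmin D (lt_of_le_of_ne (OddLocal.powCommSub_le q K) (OddLocal.powCommSub_ne q hKq hK1))
    (hPK.trans hDn) (hRK.trans hDn)
  have hDc : D ≤ centralizer (K : Set G) := by
    have hPD : ⁅D, P⁆ = ⊥ := commutator_eq_bot_iff_le_centralizer.mpr (le_centralizer_iff.mp hDP)
    have h1 : ⁅⁅K, P⁆, D⁆ = ⊥ := by
      refine Subgroup.commutator_commutator_eq_bot_of_rotate ?_ ?_
      · rw [commutator_comm P D, hPD, commutator_bot_left]
      · refine le_bot_iff.mp ((commutator_mono ?_ le_rfl).trans hPD.le)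
        exact commutator_comm D K ▸ (Coprime.commutator_le_of_le_normalizer' (le_normalizer.trans hDn))
    rw [hKP] at h1
    exact le_centralizer_iff.mp (commutator_eq_bot_iff_le_centralizer.mp h1)
  have hcl2 : ⁅commutator ↥K, (⊤ : Subgroup ↥K)⁆ = ⊥ := by
    rw [commutator_eq_bot_iff_le_centralizer, _root_.commutator_def, commutator_le]
    intro x _ y _
    refine mem_centralizer_iff.mpr fun z _ => Subtype.ext ?_
    exact mem_centralizer_iff.mp (hDc (subset_closure (Or.inr ⟨x, x.2, y, y.2, rfl⟩))) (z : G) z.2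
  let Ω : Subgroup G :=
    { carrier := {x | x ∈ K ∧ x ^ q = 1}
      one_mem' := ⟨one_mem K, one_pow q⟩
      mul_mem' := fun {a b} ha hb => ⟨mul_mem ha.1 hb.1, by
        have := Thompson.pow_mul_eq_one_class_two (p := q) hq2 hcl2 (x := ⟨a, ha.1⟩) (y := ⟨b, hb.1⟩)
          (Subtype.ext ha.2) (Subtype.ext hb.2)
        exact congrArg Subtype.val this⟩
      inv_mem' := fun {a} ha => ⟨inv_mem ha.1, by rw [inv_pow, ha.2, inv_one]⟩ }
  have hKexp : ∀ x ∈ K, x ^ q = 1 := by
    by_contra hne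
    have hΩn : normalizer (K : Set G) ≤ normalizer (Ω : Set G) := by
      intro g hg
      rw [mem_normalizer_iff]
      intro x
      refine and_congr (mem_normalizer_iff.mp hg x) ?_
      rw [conj_pow]
      exact ⟨fun h => by rw [h]; group, fun h => by simpa using h⟩
    have hΩK : Ω < K := lt_of_le_of_ne (fun x hx => hx.1) fun e => hne fun x hx => (e.ge hx).2
    have h1 := hmin Ω hΩK (hPK.trans hΩn) (hRK.trans hΩn)
    refine hnPK (OddLocal.le_centralizer_of_fix_order_p q hq2 ?_ hKq hPK fun x hx hxq a ha => ?_)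
    · rw [hkP]
      exact ((Nat.coprime_primes hp.out hq).mpr (Ne.symm hqp)).pow_left kP
    · exact (mem_centralizer_iff.mp (h1 ha) x ⟨hx, hxq⟩).symm
  -- the operator `t`
  obtain ⟨t, htR₀, ht1⟩ := R₀.bot_or_exists_ne_one.resolve_left fun e => by
    have := S.prime
    rw [e, card_bot] at this
    exact Nat.not_prime_one this
  set r := Nat.card R₀ with hrdef
  have hr : r.Prime := S.prime
  have ht : t ^ r = 1 := congrArg Subtype.val (pow_card_eq_one' (G := R₀) (x := ⟨t, htR₀⟩))
  have htR : t ∈ R := S.le htR₀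
  have hgen : zpowers t = R₀ := eq_of_le_of_card_ge (zpowers_le.mpr htR₀) (by
    haveI := Fact.mk hr
    rw [Nat.card_zpowers, orderOf_eq_prime ht ht1])
  have hr2 : r ≠ 2 := hpodd hr R₀.card_subgroup_dvd_card
  have hrp : r ≠ p := fun e => by
    have h1 : p ∣ Nat.card R := e ▸ card_dvd_of_le S.le
    exact hp.out.ne_one (Nat.eq_one_of_dvd_coprimes S.cop (hdvd.trans (card_dvd_of_le inf_le_left)) h1)
  have hrq : r ≠ q := fun e => by
    have h1 : q ∣ Nat.card R := e ▸ card_dvd_of_le S.le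
    exact hq.ne_one (Nat.eq_one_of_dvd_coprimes S.cop
      ((dvd_pow_self q hkK0).trans (hkK.symm.dvd.trans (card_dvd_of_le hKH))) h1)
  have hfixmem : ∀ {x : G}, x ∈ H → t * x = x * t → x ∈ H ⊓ centralizer (R₀ : Set G) := by
    intro x hx hxt
    refine ⟨hx, ?_⟩
    rw [← hgen]
    refine mem_centralizer_iff.mpr fun y hy => ?_
    obtain ⟨i, rfl⟩ := mem_zpowers_iff.mp hy
    exact (Commute.zpow_left hxt i).eq
  haveI := S.zg
  have hsame : ∀ {s : ℕ} [Fact s.Prime] {X : Subgroup G}, IsPGroup s X → X ≤ H ⊓ centralizer (R₀ : Set G) →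
      ∀ {v w : G}, v ∈ X → w ∈ X → v ^ s = 1 → w ^ s = 1 → v ≠ 1 → w ∈ zpowers v := by
    intro s _ X hX hXC v w hv hw hvp hwp hv1
    have h := zpowers_eq_of_cyclic (H := ↥(H ⊓ centralizer (R₀ : Set G))) (p := s)
      (S := X.subgroupOf (H ⊓ centralizer (R₀ : Set G))) hX.comap_subtype (v := ⟨v, hXC hv⟩) (w := ⟨w, hXC hw⟩)
      hv hw (Subtype.ext hvp) (Subtype.ext hwp) (fun e => hv1 (congrArg Subtype.val e))
    obtain ⟨i, hi⟩ := mem_zpowers_iff.mp h
    exact mem_zpowers_iff.mpr ⟨i, congrArg Subtype.val hi⟩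
  have htK : t ∈ normalizer (K : Set G) := hRK htR
  have htP : t ∈ normalizer (P : Set G) := hRP htR
  have hKfaith : ∀ y ∈ K, y ∈ centralizer (V : Set G) → y = 1 := fun y hy hyC => by
    have : y ∈ V ⊓ K := ⟨hCV ⟨hKH hy, hyC⟩, hy⟩
    rwa [hVK, mem_bot] at this
  have htK' : ¬ ∀ y ∈ K, t * y = y * t := by
    intro hall
    have hKC : K ≤ H ⊓ centralizer (R₀ : Set G) := fun y hy => hfixmem (hKH hy) (hall y hy)
    obtain ⟨y₀, hy₀, hy₀1⟩ := K.bot_or_exists_ne_one.resolve_left hK1
    have hKz : K ≤ zpowers y₀ := fun y hy => hsame hKq hKC hy₀ hy (hKexp y₀ hy₀) (hKexp y hy) hy₀1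
    haveI : IsCyclic ↥K := by
      rw [← le_antisymm (zpowers_le.mpr hy₀) hKz]
      infer_instance
    let f : normalizer (K : Set G) →* MulAut K := K.normalizerMonoidHom
    have hcomm : ∀ a b : normalizer (K : Set G), f ⁅a, b⁆ = 1 := fun a b => by
      rw [map_commutatorElement]
      exact commutatorElement_eq_one_iff_mul_comm.mpr (FPF.commute_of_isCyclic _ _)
    refine hnPK ?_
    rw [← hPR, commutator_le]
    intro x hx a ha
    refine mem_centralizer_iff.mpr fun y hy => ?_
    have h1 := congrArg Subtype.val (DFunLike.congr_fun (hcomm ⟨x, hPK hx⟩ ⟨a, hRK ha⟩) ⟨y, hy⟩)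
    have h2 : ⁅x, a⁆ * y * ⁅x, a⁆⁻¹ = y := h1
    exact (mul_inv_eq_iff_eq_mul.mp h2).symm
  set Γ := normalizer (V : Set G) with hΓ
  let actV : MulDistribMulAction (Γ) V :=
    MulDistribMulAction.compHom V V.normalizerMonoidHom
  letI := actV
  letI : CommGroup V := { (inferInstance : Group V) with mul_comm := fun a b => hVc.is_comm.comm a b }
  have hact : ∀ (g : Γ) (v : V), ((g • v : V) : G) = (g : G) * v * (g : G)⁻¹ := fun _ _ => rfl
  have htV : t ∈ Γ := hRV htR
  have hfixV : ∀ v : V, (⟨t, htV⟩ : Γ) • v = v → (v : G) ∈ H ⊓ centralizer (R₀ : Set G) := by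
    intro v hv
    refine hfixmem (hVH v.2) ?_
    have h1 : t * (v : G) * t⁻¹ = v := congrArg Subtype.val hv
    exact mul_inv_eq_iff_eq_mul.mp h1
  have hfixne : ∃ v : V, v ≠ 1 ∧ (⟨t, htV⟩ : Γ) • v = v := by
    by_contra hno
    push Not at hno
    refine htK' fun y hy => ?_
    have hcop' : (Nat.card (zpowers t)).Coprime (Nat.card K) := by
      rw [hgen, hkK]
      exact ((Nat.coprime_primes hr hq).mpr hrq).pow_right kK
    have key := FitHeight.commute_of_cycProd_eq_one (l := p) (p := r) (q := q) hp.out hr hq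
      (Ne.symm hrq) (Ne.symm hrp) (Ne.symm hqp) (Or.inl hq2) (Γ := ↥Γ) (V := V)
      (Q := K.subgroupOf (Γ)) hKq.comap_subtype (f := ⟨t, htV⟩) (by
        rw [mem_normalizer_iff]
        intro z
        exact mem_normalizer_iff.mp htK (z : G))
      (Subtype.ext ht) ⊤ (fun w _ => hVe w) (fun _ _ _ _ => mem_top _) (fun _ _ => mem_top _)
      (fun w _ => by
        by_contra hw
        exact hno _ hw (FitHeight.smul_cycProd (Subtype.ext ht) w))
      ⟨y, hKV hy⟩ hy
    have hd : ⁅y, t⁆ ∈ K := by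
      rw [commutatorElement_def, mul_assoc, mul_assoc]
      exact K.mul_mem hy (by simpa [mul_assoc] using (mem_normalizer_iff.mp htK _).mp (K.inv_mem hy))
    refine (commutatorElement_eq_one_iff_mul_comm.mp (hKfaith _ hd (mem_centralizer_iff.mpr fun v hv => ?_))).symm
    let g : Γ := ⟨t, htV⟩
    let g' : Γ := ⟨y, hKV hy⟩
    have h1 := key ((g'⁻¹ * g⁻¹) • (⟨v, hv⟩ : V)) (mem_top _)
    rw [smul_smul, smul_smul, smul_smul, smul_smul] at h1
    rw [show g * g' * (g'⁻¹ * g⁻¹) = 1 by group, one_smul,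
      show g' * g * (g'⁻¹ * g⁻¹) = ⁅g', g⁆ by simp only [commutatorElement_def]; group] at h1
    have h2 := congrArg Subtype.val h1
    rw [hact] at h2
    have h3 : v = ⁅y, t⁆ * v * ⁅y, t⁆⁻¹ := h2
    exact eq_mul_inv_iff_mul_eq.mp h3
  obtain ⟨v₀, hv₀1, hv₀t⟩ := hfixne
  have hv₀C := hfixV v₀ hv₀t
  have hVexp : ∀ v ∈ V, v ^ p = 1 := fun v hv => congrArg Subtype.val (hVe ⟨v, hv⟩)
  have hPfix : ∀ x ∈ P, t * x = x * t → x = 1 := by
    intro x hx hxt
    by_contra hx1
    obtain ⟨x', hx'z, hx'o⟩ : ∃ x' ∈ zpowers x, orderOf x' = p := by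
      obtain ⟨j, -, hj⟩ := (Nat.dvd_prime_pow hp.out).mp (hkP ▸ P.orderOf_dvd_natCard hx)
      rcases j with _ | j
      · exact absurd (orderOf_eq_one_iff.mp (by simpa using hj)) hx1
      · refine ⟨x ^ p ^ j, pow_mem (mem_zpowers x) _, ?_⟩
        rw [orderOf_pow_of_dvd (pow_ne_zero _ hp.out.ne_zero) (hj ▸ pow_dvd_pow p (Nat.le_succ j)), hj,
          Nat.pow_div (Nat.le_succ j) hp.out.pos, Nat.succ_sub le_rfl]
        simp
    have hzP : zpowers x ≤ P := zpowers_le.mpr hx
    set X := zpowers x' ⊔ (V ⊓ centralizer (R₀ : Set G))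
    have hx'P := hzP hx'z
    have hx'C : x' ∈ H ⊓ centralizer (R₀ : Set G) :=
      (zpowers_le.mpr (hfixmem ((hPH₁ hx).1) hxt)) hx'z
    have hn : zpowers x' ≤ normalizer ((V ⊓ centralizer (R₀ : Set G) : Subgroup G) : Set G) :=
      zpowers_le.mpr (inf_normalizer_le_normalizer_inf ⟨hH₁V (hPH₁ hx'P), le_normalizer hx'C.2⟩)
    have hXp : IsPGroup p X := IsPGroup.to_sup_of_normal_right' (hPp.to_le (zpowers_le.mpr hx'P))
      (hVp.to_le inf_le_left) hn
    have h := hsame (v := (v₀ : G)) (w := x') hXp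
      (sup_le (zpowers_le.mpr hx'C) (inf_le_inf_right _ hVH))
      (mem_sup_right ⟨v₀.2, hv₀C.2⟩) (mem_sup_left (mem_zpowers x')) (hVexp _ v₀.2)
      (hx'o ▸ pow_orderOf_eq_one x') (fun e => hv₀1 (Subtype.ext e))
    have hmem : x' ∈ V ⊓ H₁ := ⟨(zpowers_le.mpr v₀.2) h, hPH₁ hx'P⟩
    rw [hVH₁, mem_bot] at hmem
    rw [hmem, orderOf_one] at hx'o
    exact hp.out.ne_one hx'o.symm
  have hline : ∀ v w : V, (⟨t, htV⟩ : Γ) • v = v → (⟨t, htV⟩ : Γ) • w = w →
      v ≠ 1 → w ∈ zpowers v := by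
    intro v w hv hw hv1
    have h := hsame (hVp.to_le (inf_le_left : V ⊓ centralizer (R₀ : Set G) ≤ V))
      (inf_le_inf_right _ hVH) (v := (v : G)) (w := (w : G)) ⟨v.2, (hfixV v hv).2⟩ ⟨w.2, (hfixV w hw).2⟩
      (hVexp _ v.2) (hVexp _ w.2) (fun e => hv1 (Subtype.ext e))
    obtain ⟨i, hi⟩ := mem_zpowers_iff.mp h
    exact mem_zpowers_iff.mpr ⟨i, Subtype.ext hi⟩
  have hVΓ : ∀ v : V, v ^ p = 1 := hVe
  have hQq : ∀ a ∈ K.subgroupOf Γ, a ^ q = 1 := fun a ha => Subtype.ext (by simpa using hKexp a ha)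
  have hfaithΓ : ∀ a ∈ K.subgroupOf Γ, (∀ v : V, a • v = v) → a = 1 := fun a ha hav => by
    refine Subtype.ext (hKfaith a ha (mem_centralizer_iff.mpr fun v hv => ?_))
    have h1 : (a : G) * v * (a : G)⁻¹ = v := congrArg Subtype.val (hav ⟨v, hv⟩)
    exact (mul_inv_eq_iff_eq_mul.mp h1).symm
  have htKΓ : (⟨t, htV⟩ : Γ) ∈ normalizer (K.subgroupOf Γ : Set Γ) := by
    rw [mem_normalizer_iff]
    intro z
    exact mem_normalizer_iff.mp htK (z : G)
  exfalso
  by_cases hKc' : ∀ a ∈ K, ∀ b ∈ K, a * b = b * a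
  · refine Blocks.abelian_false (Γ := ↥Γ) (V := V) (t := ⟨t, htV⟩) (Q := K.subgroupOf Γ) (P := P.subgroupOf Γ)
      hp.out hq hr (Ne.symm hqp) hrp hp2 hr2 hVΓ (Subtype.ext ht) hPp.comap_subtype ?_ htKΓ ?_
      (fun a ha b hb => Subtype.ext (hKc' a ha b hb)) hQq ?_ ?_ hfaithΓ ?_ ?_ hline
    · intro x hx
      rw [mem_normalizer_iff]
      intro z
      exact mem_normalizer_iff.mp (hPK hx) (z : G)
    · rw [mem_normalizer_iff]
      intro z
      exact mem_normalizer_iff.mp htP (z : G)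
    · intro e
      refine hK1 ?_
      rw [← map_subgroupOf_eq_of_le hKV, e, Subgroup.map_bot]
    · intro v hv
      have hvU : (v : G) ∈ U := ⟨v.2, mem_centralizer_iff.mpr fun k hk => by
        have h1 : k * (v : G) * k⁻¹ = v := congrArg Subtype.val (hv ⟨k, hKV hk⟩ hk)
        exact mul_inv_eq_iff_eq_mul.mp h1⟩
      rw [hU1, mem_bot] at hvU
      exact Subtype.ext hvU
    · apply map_injective Γ.subtype_injective
      rw [map_commutator, map_subgroupOf_eq_of_le hKV,
        map_subgroupOf_eq_of_le (hPH₁.trans hH₁V : P ≤ Γ), hKP]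
    · intro x hx hxt
      exact Subtype.ext (hPfix x hx (congrArg Subtype.val hxt))
  · -- a fixed point outside the centre
    set Zc := K ⊓ centralizer (K : Set G) with hZc
    obtain ⟨y, hy, hyt, hyZ⟩ : ∃ y ∈ K, t * y = y * t ∧ y ∉ Zc := by
      by_contra hno
      push Not at hno
      set N₀ := normalizer (K : Set G) ⊓ normalizer (Zc : Set G)
      have hKN : K ≤ N₀ := le_inf le_normalizer fun a ha => centralizer_le_normalizer _
        (mem_centralizer_iff.mpr fun z hz => (mem_centralizer_iff.mp hz.2 a ha).symm)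
      have hnn : normalizer (K : Set G) ≤ N₀ := le_inf le_rfl ((le_inf le_rfl
        (Coprime.normalizer_le_normalizer_centralizer K)).trans inf_normalizer_le_normalizer_inf)
      haveI : (Zc.subgroupOf N₀).Normal :=
        (normal_subgroupOf_iff_le_normalizer (inf_le_left.trans hKN)).mpr inf_le_right
      haveI : (K.subgroupOf N₀).Normal := (normal_subgroupOf_iff_le_normalizer hKN).mpr inf_le_left
      set ρ := QuotientGroup.mk' (Zc.subgroupOf N₀)
      set Kb := (K.subgroupOf N₀).map ρ with hKb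
      haveI : Kb.Normal := Subgroup.Normal.map inferInstance ρ (QuotientGroup.mk'_surjective _)
      letI : CommGroup Kb := { (inferInstance : Group Kb) with
        mul_comm := by
          rintro ⟨_, a, ha, rfl⟩ ⟨_, b, hb, rfl⟩
          refine Subtype.ext ?_
          show ρ a * ρ b = ρ b * ρ a
          rw [← map_mul, ← map_mul]
          refine QuotientGroup.eq.mpr ?_
          have : ((a : G) * b)⁻¹ * ((b : G) * a) ∈ Zc := by
            rw [show ((a : G) * b)⁻¹ * ((b : G) * a) = ⁅(b : G)⁻¹, (a : G)⁻¹⁆ by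
              simp [commutatorElement_def, mul_assoc]]
            have hD' : ⁅(b : G)⁻¹, (a : G)⁻¹⁆ ∈ D :=
              subset_closure (Or.inr ⟨_, K.inv_mem hb, _, K.inv_mem ha, rfl⟩)
            exact ⟨OddLocal.powCommSub_le q K hD', hDc hD'⟩
          exact this }
      letI : MulDistribMulAction (N₀ ⧸ Zc.subgroupOf N₀) Kb :=
        MulDistribMulAction.compHom Kb (MulAut.conjNormal (H := Kb))
      have hPN : P ≤ N₀ := hPK.trans hnn
      have key : ∀ x ∈ P, ∀ k ∈ K, ⁅k, x⁆ ∈ Zc := by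
        intro x hx k hk
        have hcopPb : (Nat.card ((P.subgroupOf N₀).map ρ)).Coprime (Nat.card Kb) :=
          (hcopPK.coprime_dvd_left ((card_map_dvd _ _).trans (Coprime.card_subgroupOf hPN).dvd)).coprime_dvd_right
            ((card_map_dvd _ _).trans (Coprime.card_subgroupOf hKN).dvd)
        have hfix := FitHeight.smul_eq_self_of_fpf (Γ := N₀ ⧸ Zc.subgroupOf N₀) (V := Kb) hr
          (t := ρ ⟨t, hnn htK⟩) (Q := (P.subgroupOf N₀).map ρ)
          (by rw [← map_pow, show (⟨t, hnn htK⟩ : N₀) ^ r = 1 from Subtype.ext ht, map_one])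
          (le_normalizer_map ρ (mem_map_of_mem ρ (show (⟨t, hnn htK⟩ : N₀) ∈ normalizer (P.subgroupOf N₀ : Set N₀) by
            rw [mem_normalizer_iff]; intro z; exact mem_normalizer_iff.mp htP (z : G))))
          ?_ ?_ hcopPb (mem_map_of_mem ρ (x := ⟨x, hPN hx⟩) hx) ⟨ρ ⟨k, hKN hk⟩, mem_map_of_mem ρ hk⟩
        · have h1 : ρ ⟨x, hPN hx⟩ * ρ ⟨k, hKN hk⟩ * (ρ ⟨x, hPN hx⟩)⁻¹ = ρ ⟨k, hKN hk⟩ :=
            congrArg Subtype.val hfix
          rw [← map_mul, ← map_inv, ← map_mul] at h1
          have h2 : (k : G)⁻¹ * (x * k * x⁻¹) ∈ Zc := (QuotientGroup.eq (s := Zc.subgroupOf N₀)).mp h1.symm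
          have h3 : x * k * x⁻¹ * k⁻¹ ∈ Zc := by
            have h4 := (mem_normalizer_iff.mp (hKN hk).2 _).mp h2
            simpa [mul_assoc] using h4
          have h5 := Zc.inv_mem h3
          simpa [commutatorElement_def, mul_assoc] using h5
        · rintro _ ⟨b, hb, rfl⟩ hbt
          rw [← map_mul, ← map_mul] at hbt
          have h2 : (t * (b : G))⁻¹ * ((b : G) * t) ∈ Zc := (QuotientGroup.eq (s := Zc.subgroupOf N₀)).mp hbt
          have hc : ⁅(b : G)⁻¹, t⁻¹⁆ ∈ P := by
            rw [commutatorElement_def, mul_assoc, mul_assoc]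
            exact P.mul_mem (P.inv_mem hb) (by simpa [mul_assoc] using (mem_normalizer_iff''.mp htP _).mp hb)
          have he : (t * (b : G))⁻¹ * ((b : G) * t) = ⁅(b : G)⁻¹, t⁻¹⁆ := by
            simp [commutatorElement_def, mul_assoc]
          rw [he] at h2
          have h3 : ⁅(b : G)⁻¹, t⁻¹⁆ = 1 := by
            have : ⁅(b : G)⁻¹, t⁻¹⁆ ∈ P ⊓ K := ⟨hc, h2.1⟩
            rwa [Coprime.inf_eq_bot_of_coprime hcopPK, mem_bot] at this
          have h6 : Commute (b : G)⁻¹ t⁻¹ := commutatorElement_eq_one_iff_mul_comm.mp h3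
          rw [show b = 1 from Subtype.ext (hPfix b hb (by
            have := h6.inv_inv
            simp only [inv_inv] at this
            exact this.eq.symm)), map_one]
        · rintro ⟨_, a, ha, rfl⟩ hat
          have h1 : ρ ⟨t, hnn htK⟩ * ρ a * (ρ ⟨t, hnn htK⟩)⁻¹ = ρ a := congrArg Subtype.val hat
          rw [← map_mul, ← map_inv, ← map_mul] at h1
          have h2 : (a : G)⁻¹ * (t * a * t⁻¹) ∈ Zc := (QuotientGroup.eq (s := Zc.subgroupOf N₀)).mp h1.symm
          have htZc : zpowers t ≤ normalizer (Zc : Set G) := zpowers_le.mpr (hnn htK).2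
          obtain ⟨c, hc, hca⟩ := Coprime.exists_centralizer_mem_coset htZc
            (by
              rw [hgen]
              exact (S.cop.symm.coprime_dvd_left (card_dvd_of_le S.le)).coprime_dvd_right
                (card_dvd_of_le ((inf_le_left : Zc ≤ K).trans hKH)))
            (Or.inr inferInstance) (k := (a : G)) (fun s hs => by
              obtain ⟨i, rfl⟩ := mem_zpowers_iff.mp hs
              have hct : Commute (ρ ⟨t, hnn htK⟩) (ρ a) := by
                show ρ ⟨t, hnn htK⟩ * ρ a = ρ a * ρ ⟨t, hnn htK⟩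
                rw [← map_mul, ← mul_inv_eq_iff_eq_mul, ← map_inv, ← map_mul]
                exact h1
              have h7 : ρ (⟨t, hnn htK⟩ ^ i * a * (⟨t, hnn htK⟩ ^ i)⁻¹) = ρ a := by
                rw [map_mul, map_mul, map_inv, map_zpow, (hct.zpow_left i).eq, mul_inv_cancel_right]
              exact (QuotientGroup.eq (s := Zc.subgroupOf N₀)).mp h7.symm)
          have hcK : c ∈ K := by
            have := K.mul_mem ha hca.1
            simpa using this
          have hcZ := hno c hcK (mem_centralizer_iff.mp hc t (mem_zpowers t))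
          refine Subtype.ext ?_
          show ρ a = 1
          refine (QuotientGroup.eq_one_iff _).mpr ?_
          have := Zc.mul_mem hcZ (Zc.inv_mem hca)
          show (a : G) ∈ Zc
          simpa [mul_assoc] using this
      refine hKc' fun a ha b hb => ?_
      have hle : K ≤ Zc := hKP.ge.trans (commutator_le.mpr fun k hk x hx => key x hx k hk)
      exact (mem_centralizer_iff.mp (hle hb).2 a ha)
    have hyV : y ∈ Γ := hKV hy
    have hKnc : ∃ a ∈ K, ∃ b ∈ K, ⁅a, b⁆ ≠ 1 := by
      by_contra hno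
      push Not at hno
      exact hKc' fun a ha b hb => commutatorElement_eq_one_iff_mul_comm.mp (hno a ha b hb)
    have hmap : (⁅K.subgroupOf Γ, K.subgroupOf Γ⁆).map Γ.subtype = ⁅K, K⁆ := by
      rw [map_commutator, map_subgroupOf_eq_of_le hKV]
    refine Blocks.nonabelian_false (Γ := ↥Γ) (V := V) (t := ⟨t, htV⟩) (Q := K.subgroupOf Γ) (y := ⟨y, hyV⟩)
      hp.out hq hr (Ne.symm hqp) hrq hq2 hr2 hVΓ (Subtype.ext ht) htKΓ hQq ?_ ?_ ?_ hfaithΓ hline ?_ hy
      (Subtype.ext hyt) ?_
    · intro z hz a ha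
      have h1 : (z : G) ∈ ⁅K, K⁆ := hmap ▸ mem_map_of_mem Γ.subtype hz
      have h2 : ⁅K, K⁆ ≤ centralizer (K : Set G) := (commutator_le.mpr fun a ha b hb =>
        subset_closure (Or.inr ⟨a, ha, b, hb, rfl⟩) : ⁅K, K⁆ ≤ D).trans hDc
      exact Subtype.ext (mem_centralizer_iff.mp (h2 h1) (a : G) ha)
    · obtain ⟨a, ha, b, hb, hab⟩ := hKnc
      intro e
      refine hab ?_
      have h1 : ⁅a, b⁆ ∈ ⁅K, K⁆ := commutator_mem_commutator ha hb
      rw [← hmap, e, Subgroup.map_bot, mem_bot] at h1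
      exact h1
    · by_contra hno
      push Not at hno
      exact hyZ ⟨hy, mem_centralizer_iff.mpr fun z hz =>
        congrArg Subtype.val (hno ⟨z, hKV hz⟩ hz).symm⟩
    · intro a ha b hb hat hbt ha1
      have hX : IsPGroup q ↥(K ⊓ centralizer (R₀ : Set G)) := hKq.to_le inf_le_left
      have hmemX : ∀ {c : Γ}, c ∈ K.subgroupOf Γ → (⟨t, htV⟩ : Γ) * c = c * ⟨t, htV⟩ →
          (c : G) ∈ K ⊓ centralizer (R₀ : Set G) := fun {c} hc hct =>
        ⟨hc, (hfixmem (hKH hc) (congrArg Subtype.val hct)).2⟩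
      obtain ⟨i, hi⟩ := mem_zpowers_iff.mp (hsame hX (inf_le_inf_right _ hKH) (hmemX ha hat) (hmemX hb hbt)
        (hKexp _ ha) (hKexp _ hb) (fun e => ha1 (Subtype.ext e)))
      exact mem_zpowers_iff.mpr ⟨i, Subtype.ext hi⟩
    · intro hmem
      have h1 : y ∈ ⁅K, K⁆ := hmap ▸ mem_map_of_mem Γ.subtype (x := ⟨y, hyV⟩) hmem
      exact hyZ ⟨hy, ((commutator_le.mpr fun a ha b hb =>
        subset_closure (Or.inr ⟨a, ha, b, hb, rfl⟩) : ⁅K, K⁆ ≤ D).trans hDc) h1⟩

end Cfsg.Agent.Lib.Uniq.PL
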