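import Cfsg.Agent.Lib.Uniq.TauTwoAbelian
set_option autoImplicit false

/-! BG 12.7: `p ∈ τ₂(M)` with nonabelian Sylow `p`-subgroups of `G`. -/

namespace Cfsg.Agent.Lib.Uniq

open Subgroup
open scoped Pointwise commutatorElement

universe u

variable {G : Type u} [Group G] [Finite G] {M A E : Subgroup G} {p : ℕ}

/-- A `σ(M)'`-subgroup of prime power order is conjugate in `M` into a complement. -/
theorem exists_conj_le_compl (hG : IsMinSimpleOddOrder G) (hM : IsCoatom M) (hE : IsComplIn E (sigmaCore M) M)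
    [Fact p.Prime] (hpσ : p ∉ sigma M) {Y : Subgroup G} (hY : IsPGroup p Y) (hYM : Y ≤ M) :
    ∃ m ∈ M, MulAut.conj m • Y ≤ E := by
  classical
  haveI := solvable_of_ne_top hG hM.1
  have hEi : (E.subgroupOf M).index = Nat.card (sigmaCore M) := by
    have h1 := (E.subgroupOf M).card_mul_index
    rw [Coprime.card_subgroupOf hE.1, ← (compl_card hE).1] at h1
    exact Nat.eq_of_mul_eq_mul_left Nat.card_pos h1
  have hπ : ∀ r : ℕ, r.Prime → r ∣ Nat.card (sigmaCore M) → r ∈ sigma M :=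
    OddLocal.piCoreOf_isPi (sigma M) M
  have hcE : (Nat.card (E.subgroupOf M)).Coprime (E.subgroupOf M).index := by
    rw [Coprime.card_subgroupOf hE.1, hEi]
    exact Nat.coprime_of_dvd fun r hr h1 h2 => by
      haveI := Fact.mk hr
      exact compl_not_sigma hG hM hE h1 (hπ r hr h2)
  obtain ⟨g, hg⟩ := Hall.exists_le_conj hcE (K := Y.subgroupOf M) (by
    rw [hEi, Coprime.card_subgroupOf hYM]
    exact Nat.coprime_of_dvd fun r hr h1 h2 => hpσ (isPGroup_ne_dvd hY hr h1 ▸ hπ r hr h2))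
  refine ⟨((g⁻¹ : M) : G), (g⁻¹).2, ?_⟩
  rintro y ⟨w, hw, rfl⟩
  have h := hg (show (⟨w, hYM hw⟩ : M) ∈ Y.subgroupOf M from hw)
  rw [mem_pointwise_smul_iff_inv_smul_mem, ← map_inv] at h
  exact h

variable [hp : Fact p.Prime]

/-- BG 12.7. -/
theorem tau_two_nonabelian (hG : IsMinSimpleOddOrder G) (hM : IsCoatom M) (hE : IsComplIn E (sigmaCore M) M)
    (hpσ : p ∉ sigma M) (hS : ∀ S : Sylow p G, ¬ IsMulCommutative (S : Subgroup G))
    (hA : IsElementaryAbelian p A) (hAE : A ≤ E) (hAc : Nat.card A = p ^ 2) :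
    (∀ q ∈ tau2 M, q = p) ∧
      (Nat.card ↥(A ⊓ centralizer (sigmaCore M : Set G)) = p ∧
        fittingOf M = sigmaCore M ⊔ (A ⊓ centralizer (sigmaCore M : Set G))) ∧
      ∀ X : Subgroup G, X ≤ E → Nat.card X = p → X ≠ A ⊓ centralizer (sigmaCore M : Set G) →
        sigmaCore M ⊓ centralizer (X : Set G) = ⊥ ∧ ¬ centralizer (X : Set G) ≤ M := by
  classical
  have hAM : A ≤ M := hAE.trans hE.1
  have hp2 : p ≠ 2 := fun e => hG.1.not_two_dvd_nat
    (e ▸ (dvd_pow_self p two_ne_zero).trans (hAc.symm.dvd.trans A.card_subgroup_dvd_card))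
  obtain ⟨X', hX'⟩ := exists_exc hG hM hpσ hAM hA hAc
  have hmax := hX'.hmax hG
  have hA1 : A ≠ ⊥ := fun e => by
    rw [e, card_bot] at hAc
    exact (Nat.one_lt_pow two_ne_zero hp.out.one_lt).ne hAc
  obtain ⟨S, hAS⟩ := hX'.exists_sylow_ge
  obtain ⟨T, hT⟩ := (S.2.map M.subtype).exists_le_sylow
  have hAT : A ≤ (T : Subgroup G) := hAS.trans hT
  set D := (T : Subgroup G) ⊓ centralizer (A : Set G) with hD
  have hDM : D ≤ M := inf_le_right.trans hX'.centralizer_le
  have hDA : ∀ x ∈ D, x ^ p = 1 → x ∈ A := fun x hx hxp =>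
    mem_of_commute_maximal hA hmax hxp fun a ha => mem_centralizer_iff.mp hx.2 a ha
  have hcomm := comm_centralizer_maximal hG hp2 T hA hAc hmax hAT
  have hDT : D < (T : Subgroup G) := lt_of_le_of_ne inf_le_left fun e => hS T
    ⟨⟨fun a b => Subtype.ext (hcomm a (e.ge a.2) b (e.ge b.2))⟩⟩
  obtain ⟨u, ⟨huT, huN⟩, huD⟩ := SetLike.exists_of_lt (Transfer.lt_inf_normalizer T.2 hDT)
  have huA : u ∈ normalizer (A : Set G) := Coprime.mem_normalizer_of_conj_smul_eq
    (eq_of_le_of_card_ge (by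
      rintro x ⟨a, ha, rfl⟩
      refine hDA _ ((mem_normalizer_iff.mp huN a).mp ⟨hAT ha, comm_le_centralizer hA.1 ha⟩) ?_
      show (u * a * u⁻¹) ^ p = 1
      rw [conj_pow, hA.2 a ha]; group) (Coprime.card_conj_smul _ _).ge)
  set U := zpowers u ⊔ A with hU
  have hUT : U ≤ (T : Subgroup G) := sup_le (zpowers_le.mpr huT) hAT
  have hUp : IsPGroup p U := T.2.to_le hUT
  have hmemM : ∀ v ∈ U, v ∈ M → v ∈ centralizer (A : Set G) := fun v hv hvM =>
    mem_centralizer_of_pgroup hG hM hpσ hA hAc (U := zpowers v ⊔ A)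
      (hUp.to_le (sup_le (zpowers_le.mpr hv) le_sup_right)) (sup_le (zpowers_le.mpr hvM) hAM) le_sup_right
      (mem_sup_left (mem_zpowers v))
  have huM : u ∉ M := fun h => huD ⟨huT, hmemM u (mem_sup_left (mem_zpowers u)) h⟩
  have huC : u ∉ centralizer (A : Set G) := fun h => huM (hX'.centralizer_le h)
  -- `Z = A ⊓ C(u)` contains a central element of `T`
  obtain ⟨z, -, hzc, hzo⟩ : ∃ z : ↥(T : Subgroup G), z ∈ (⊤ : Subgroup ↥(T : Subgroup G)) ∧
      z ∈ center ↥(T : Subgroup G) ∧ orderOf z = p := by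
    haveI : Nontrivial ↥(T : Subgroup G) := (nontrivial_iff_ne_bot _).mpr (ne_bot_of_le_ne_bot hA1 hAT)
    exact Thompson.exists_central_order_p T.2 top_ne_bot
  have hzT : ∀ t ∈ (T : Subgroup G), t * (z : G) = z * t := fun t ht =>
    congrArg Subtype.val (mem_center_iff.mp hzc ⟨t, ht⟩)
  have hzp : (z : G) ^ p = 1 := (congrArg ((z : G) ^ ·) ((orderOf_coe z).trans hzo)).symm.trans (pow_orderOf_eq_one _)
  have hz1 : (z : G) ≠ 1 := fun e => hp.out.ne_one (by rw [← hzo, ← orderOf_coe, e, orderOf_one])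
  have hzA : (z : G) ∈ A := mem_of_commute_maximal hA hmax hzp fun a ha => hzT a (hAT ha)
  set Z := zpowers (z : G) with hZ
  have hline : ∀ x ∈ A, x ≠ 1 → Nat.card (zpowers x) = p := fun x hx hx1 =>
    (exists_line_of_ne hA hx hx1).2
  have hfix : ∀ x ∈ A, u * x = x * u → x ∈ Z := by
    intro x hx hxu
    by_contra hxZ
    refine huC (mem_centralizer_iff.mpr fun a ha => ?_)
    have hlt : Z < Z ⊔ zpowers x := lt_of_le_of_ne le_sup_left fun e => hxZ (e ▸ mem_sup_right (mem_zpowers x))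
    have hle : Z ⊔ zpowers x ≤ A := sup_le (zpowers_le.mpr hzA) (zpowers_le.mpr hx)
    have heq : Z ⊔ zpowers x = A := by
      refine eq_of_le_of_card_ge hle ?_
      obtain ⟨i, hi, hie⟩ := (Nat.dvd_prime_pow hp.out).mp (hAc ▸ card_dvd_of_le hle)
      have h1 : Nat.card Z < Nat.card (Z ⊔ zpowers x : Subgroup G) :=
        (Set.toFinite _).card_lt_card (SetLike.coe_ssubset_coe.2 hlt)
      rw [hline _ hzA hz1, hie] at h1
      have h2 : 1 < i := (Nat.pow_lt_pow_iff_right hp.out.one_lt).mp (by rwa [pow_one])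
      rw [hie, hAc, show i = 2 by omega]
    have hc : Z ⊔ zpowers x ≤ centralizer ({u} : Set G) := sup_le
      (zpowers_le.mpr (mem_centralizer_singleton_iff.mpr (hzT u huT).symm))
      (zpowers_le.mpr (mem_centralizer_singleton_iff.mpr hxu.symm))
    exact mem_centralizer_singleton_iff.mp (hc (heq.ge ha))
  -- the special line `X₀`
  have hcop : (Nat.card A).Coprime (Nat.card (sigmaCore M)) := Nat.coprime_of_dvd fun r hr h1 h2 =>
    hpσ (isPGroup_ne_dvd (elem_isPGroup hA) hr h1 ▸ OddLocal.piCoreOf_isPi (sigma M) M r hr h2)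
  have hgenA := Coprime.fixGen_eq_of_elementary hp.out (fun a ha b hb => elem_comm hA ha hb) hA.2 hAc
    (hAM.trans (OddLocal.le_normalizer_piCoreOf (sigma M) M)) hcop
  have hK1 : sigmaCore M ≠ ⊥ := sigmaCore_ne_bot hG hM (ne_bot_of_le_ne_bot hA1 hAM)
  obtain ⟨a, ha, ha1, hCa⟩ : ∃ a ∈ A, a ≠ 1 ∧ sigmaCore M ⊓ centralizer ({a} : Set G) ≠ ⊥ := by
    by_contra h
    push Not at h
    refine hK1 (le_bot_iff.mp ?_)
    exact hgenA.ge.trans (iSup₂_le fun a ha => (h a ha.1 ha.2).le)
  set X₀ := zpowers a with hX₀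
  have hX₀A : X₀ ≤ A := zpowers_le.mpr ha
  have hX₀1 : X₀ ≠ ⊥ := fun e => ha1 (zpowers_eq_bot.mp e)
  have huniq := centralizer_line_unique hG hM hpσ hAM hA hAc hX₀A hX₀1 (by rwa [centralizer_zpowers])
  have hNM : normalizer (M : Set G) = M :=
    normalizer_eq_of_normal hG hM (ne_bot_of_le_ne_bot hA1 hAM) le_rfl le_normalizer
  have hTM : ¬ (T : Subgroup G) ≤ M := fun h => huM (h huT)
  have hX₀Z : X₀ ≠ Z := fun e => hTM (le_trans (fun t ht => by
    rw [centralizer_zpowers]; exact mem_centralizer_singleton_iff.mpr (hzT t ht)) (e ▸ huniq.1))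
  have haZ : a ∉ Z := fun h => hX₀Z (eq_of_le_of_card_ge (zpowers_le.mpr h)
    (by rw [hline a ha ha1, hline _ hzA hz1]))
  -- `u` moves `a` by a generator of `Z`
  set W := ⁅A, U⁆ with hW
  have hUNA : U ≤ normalizer (A : Set G) := sup_le (zpowers_le.mpr huA) le_normalizer
  have hWA : W ≤ A := Coprime.commutator_le_of_le_normalizer' hUNA
  have hw : ⁅a, u⁆ ∈ Z := by
    have hwW : ⁅a, u⁆ ∈ W := commutator_mem_commutator ha (mem_sup_left (mem_zpowers u))
    set A' := A.subgroupOf U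
    haveI : A'.Normal := (normal_subgroupOf_iff_le_normalizer le_sup_right).mpr hUNA
    set W' := ⁅A', (⊤ : Subgroup U)⁆
    haveI : W'.Normal := inferInstance
    have hWW : W'.map U.subtype = W := by
      rw [Subgroup.map_commutator, map_subgroupOf_eq_of_le le_sup_right, ← MonoidHom.range_eq_map, range_subtype]
    by_cases hW1 : W' = ⊥
    · rw [hW1, Subgroup.map_bot] at hWW
      rw [← hWW, mem_bot] at hwW
      rw [hwW]; exact one_mem _
    obtain ⟨w, hw, hwc, hwo⟩ := Thompson.exists_central_order_p hUp hW1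
    have hwA : (w : G) ∈ A := hWA (hWW ▸ mem_map_of_mem _ hw)
    have hwZ : (w : G) ∈ Z := hfix _ hwA
      (congrArg Subtype.val (mem_center_iff.mp hwc ⟨u, mem_sup_left (mem_zpowers u)⟩))
    have hw1 : (w : G) ≠ 1 := fun e => hp.out.ne_one (by rw [← hwo, ← orderOf_coe, e, orderOf_one])
    have hne : W ≠ A := by
      intro e
      have hA' : A' = ⊥ := by
        haveI : Group.IsNilpotent U := hUp.isNilpotent
        refine Transfer.eq_bot_of_le_commutator_top fun x hx => ?_
        have h1 : (x : G) ∈ W'.map U.subtype := hWW.ge (e.ge hx)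
        obtain ⟨y, hy, hyx⟩ := h1
        exact Subtype.ext hyx ▸ hy
      have h2 := Coprime.card_subgroupOf (le_sup_right : A ≤ U)
      rw [show A.subgroupOf U = ⊥ from hA', card_bot] at h2
      exact hA1 (card_eq_one.mp h2.symm)
    have hWZ : zpowers (w : G) = W := by
      refine eq_of_le_of_card_ge (zpowers_le.mpr (hWW ▸ mem_map_of_mem _ hw)) ?_
      obtain ⟨i, hi, hie⟩ := (Nat.dvd_prime_pow hp.out).mp (hAc ▸ card_dvd_of_le hWA)
      have hi2 : i ≠ 2 := fun e => hne (eq_of_le_of_card_ge hWA (by rw [hie, e, hAc]))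
      rw [hline _ hwA hw1, hie]
      exact (Nat.pow_le_pow_right hp.out.pos (by omega : i ≤ 1)).trans (pow_one p).le
    exact (hWZ.symm ▸ zpowers_le.mpr hwZ : W ≤ Z) hwW
  have hw1 : ⁅a, u⁆ ≠ 1 := fun h => haZ (hfix a ha (commutatorElement_eq_one_iff_mul_comm.mp h).symm)
  have hiter : ∀ n : ℕ, u ^ n * a * (u ^ n)⁻¹ = a * (⁅a, u⁆⁻¹) ^ n := by
    have hwA : ⁅a, u⁆ ∈ A := (zpowers_le.mpr hzA : Z ≤ A) hw
    have h1 : u * a * u⁻¹ = a * ⁅a, u⁆⁻¹ := by
      have hc : Commute a ⁅a, u⁆⁻¹ := elem_comm hA ha (A.inv_mem hwA)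
      calc u * a * u⁻¹ = ⁅a, u⁆⁻¹ * a := by rw [commutatorElement_def]; group
        _ = _ := hc.eq.symm
    have h2 : u * ⁅a, u⁆⁻¹ * u⁻¹ = ⁅a, u⁆⁻¹ := by
      obtain ⟨i, hi⟩ := mem_zpowers_iff.mp hw
      rw [← hi, ← zpow_neg, ← conj_zpow, hzT u huT, mul_inv_cancel_right]
    intro n
    induction n with
    | zero => simp
    | succ n ih =>
      calc u ^ (n + 1) * a * (u ^ (n + 1))⁻¹ = u * (u ^ n * a * (u ^ n)⁻¹) * u⁻¹ := by rw [pow_succ']; group
        _ = (u * a * u⁻¹) * (u * ⁅a, u⁆⁻¹ * u⁻¹) ^ n := by rw [ih, conj_pow]; group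
        _ = a * ⁅a, u⁆⁻¹ ^ (n + 1) := by rw [h1, h2, mul_assoc, ← pow_succ']
  -- every other line
  have hother : ∀ X : Subgroup G, X ≤ A → Nat.card X = p → X ≠ X₀ → ¬ centralizer (X : Set G) ≤ M := by
    intro X hXA hXc hne hle
    obtain ⟨x, hx, hx1⟩ := X.bot_or_exists_ne_one.resolve_left fun e => by
      rw [e, card_bot] at hXc; exact hp.out.ne_one hXc.symm
    have hXx : zpowers x = X := eq_of_le_of_card_ge (zpowers_le.mpr hx) (by rw [hline x (hXA hx) hx1, hXc])
    by_cases hxZ : x ∈ Z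
    · refine hTM (le_trans (fun t ht => ?_) hle)
      rw [← hXx, centralizer_zpowers]
      obtain ⟨i, rfl⟩ := mem_zpowers_iff.mp hxZ
      exact mem_centralizer_singleton_iff.mpr ((show Commute t z from hzT t ht).zpow_right i).eq
    have hsup : zpowers x ⊔ Z = A := by
      refine eq_of_le_of_card_ge (sup_le (zpowers_le.mpr (hXA hx)) (zpowers_le.mpr hzA)) ?_
      have hlt : Z < zpowers x ⊔ Z := lt_of_le_of_ne le_sup_right fun e => hxZ (e ▸ mem_sup_left (mem_zpowers x))
      obtain ⟨i, hi, hie⟩ := (Nat.dvd_prime_pow hp.out).mp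
        (hAc ▸ card_dvd_of_le (sup_le (zpowers_le.mpr (hXA hx)) (zpowers_le.mpr hzA) : zpowers x ⊔ Z ≤ A))
      have h1 : Nat.card Z < Nat.card (zpowers x ⊔ Z : Subgroup G) :=
        (Set.toFinite _).card_lt_card (SetLike.coe_ssubset_coe.2 hlt)
      rw [hline _ hzA hz1, hie] at h1
      have h2 : 1 < i := (Nat.pow_lt_pow_iff_right hp.out.one_lt).mp (by rwa [pow_one])
      rw [hie, hAc, show i = 2 by omega]
    obtain ⟨x', hx', c, hc, e⟩ := (Coprime.mem_sup_of_le_normalizer (show zpowers x ≤ normalizer (Z : Set G) from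
      (zpowers_le.mpr (hXA hx)).trans (((comm_le_centralizer hA.1).trans
        (Subgroup.centralizer_le (zpowers_le.mpr hzA))).trans (centralizer_le_normalizer _)))).mp (hsup.ge ha)
    have hwZ : zpowers ⁅a, u⁆⁻¹ = Z := eq_of_le_of_card_ge (zpowers_le.mpr (Z.inv_mem hw))
      (by rw [hline _ (A.inv_mem ((zpowers_le.mpr hzA : Z ≤ A) hw)) (inv_ne_one.mpr hw1), hline _ hzA hz1])
    obtain ⟨n, hn⟩ : ∃ n : ℕ, ⁅a, u⁆⁻¹ ^ n = c⁻¹ := by
      have h := hwZ.ge (Z.inv_mem hc)
      rw [← mem_powers_iff_mem_zpowers] at h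
      exact h
    set v := u ^ n
    have hva : v * a * v⁻¹ = x' := by rw [hiter n, hn, ← e, mul_inv_cancel_right]
    have hXv : MulAut.conj v • X₀ = X := by
      refine eq_of_le_of_card_ge ?_ (by rw [Coprime.card_conj_smul, hline a ha ha1, hXc])
      rw [hX₀, show MulAut.conj v • zpowers a = (zpowers a).map (MulAut.conj v).toMonoidHom from rfl,
        MonoidHom.map_zpowers, zpowers_le]
      show v * a * v⁻¹ ∈ X
      rw [hva, ← hXx]; exact hx'
    have hvU : v ∈ U := pow_mem (mem_sup_left (mem_zpowers u)) n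
    have hvM : v ∉ M := fun h => hne (by
      rw [← hXv]
      exact Coprime.conj_smul_eq_self ((centralizer_le_normalizer _) (Subgroup.centralizer_le hX₀A (hmemM v hvU h))))
    refine hvM ?_
    have hle' : centralizer (X₀ : Set G) ≤ MulAut.conj v⁻¹ • M := by
      intro c hc'
      rw [mem_pointwise_smul_iff_inv_smul_mem, ← map_inv, inv_inv]
      refine hle (mem_centralizer_iff.mpr fun y hy => ?_)
      rw [SetLike.mem_coe, ← hXv] at hy
      obtain ⟨y', hy', rfl⟩ := hy
      have h := mem_centralizer_iff.mp hc' y' hy'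
      show v * y' * v⁻¹ * (v * c * v⁻¹) = v * c * v⁻¹ * (v * y' * v⁻¹)
      calc v * y' * v⁻¹ * (v * c * v⁻¹) = v * (y' * c) * v⁻¹ := by group
        _ = _ := by rw [h]; group
    have hMv := huniq.2 _ (coatom_smul _ hM) hle'
    have : v⁻¹ ∈ normalizer (M : Set G) := Coprime.mem_normalizer_of_conj_smul_eq hMv
    rw [hNM] at this
    simpa using M.inv_mem this
  have hbot : ∀ X : Subgroup G, X ≤ A → Nat.card X = p → X ≠ X₀ → sigmaCore M ⊓ centralizer (X : Set G) = ⊥ :=
    fun X hXA hXc hne => by_contra fun h => hother X hXA hXc hne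
      (centralizer_line_unique hG hM hpσ hAM hA hAc hXA
        (fun e => by rw [e, card_bot] at hXc; exact hp.out.ne_one hXc.symm) h).1
  have hKX : sigmaCore M ≤ centralizer (X₀ : Set G) := by
    refine hgenA.ge.trans ?_
    refine iSup₂_le fun b hb => ?_
    by_cases hbX : zpowers b = X₀
    · exact inf_le_right.trans (by rw [← hbX, centralizer_zpowers])
    · have h := hbot _ (zpowers_le.mpr hb.1) (hline b hb.1 hb.2) hbX
      rw [centralizer_zpowers] at h
      exact h ▸ bot_le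
  have hA₀ : A ⊓ centralizer (sigmaCore M : Set G) = X₀ := by
    refine (eq_of_le_of_card_ge (le_inf hX₀A (le_centralizer_iff.mp hKX)) ?_).symm
    obtain ⟨i, hi, hie⟩ := (Nat.dvd_prime_pow hp.out).mp
      (hAc ▸ card_dvd_of_le (inf_le_left : A ⊓ centralizer (sigmaCore M : Set G) ≤ A))
    have hi2 : i ≠ 2 := fun e => hK1 (by
      have h := eq_of_le_of_card_ge (inf_le_left : A ⊓ centralizer (sigmaCore M : Set G) ≤ A) (by rw [hie, e, hAc])
      rw [← le_bot_iff, ← hX'.inf_centralizer_eq_bot hG]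
      exact le_inf le_rfl (le_centralizer_iff.mp (h.ge.trans inf_le_right)))
    rw [hline a ha ha1, hie]
    exact (Nat.pow_le_pow_right hp.out.pos (by omega : i ≤ 1)).trans (pow_one p).le
  -- `τ₂(M) = {p}`
  have htau : ∀ q ∈ tau2 M, q = p := by
    intro q hq
    by_contra hqp
    haveI := Fact.mk hq.1
    obtain ⟨B₀, hB₀M, hB₀, hB₀c⟩ := elem_of_not_pRankLE hq.2.2.2
    obtain ⟨m, hm, hmE⟩ := exists_conj_le_compl hG hM hE hq.2.1 (elem_isPGroup hB₀) hB₀M
    set B := MulAut.conj m • B₀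
    have hBe : IsElementaryAbelian q B := elem_of_conj m hB₀
    have hBc : Nat.card B = q ^ 2 := (Coprime.card_conj_smul _ _).trans hB₀c
    obtain ⟨hEB, hBall⟩ := le_normalizer_compl hG hM hE hq.2.1 hmE hBe hBc
    have hEA := (le_normalizer_compl hG hM hE hpσ hAE hA hAc).1
    have hBA : B ≤ centralizer (A : Set G) := by
      rw [← commutator_eq_bot_iff_le_centralizer, ← le_bot_iff]
      refine le_trans (le_inf (commutator_comm B A ▸ Coprime.commutator_le_of_le_normalizer' (hmE.trans hEA))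
        (Coprime.commutator_le_of_le_normalizer' (hAE.trans hEB))) ?_
      exact (Coprime.inf_eq_bot_of_coprime (coprime_pgroups hqp (elem_isPGroup hA) (elem_isPGroup hBe))).le
    have huB : u ∈ normalizer (B : Set G) := Coprime.mem_normalizer_of_conj_smul_eq
      (eq_of_le_of_card_ge (by
        rintro x ⟨b, hb, rfl⟩
        by_cases hb1 : b = 1
        · subst hb1; simp
        have h1 : u * b * u⁻¹ ∈ centralizer (A : Set G) :=
          (mem_normalizer_iff.mp (Coprime.normalizer_le_normalizer_centralizer A huA) b).mp (hBA hb)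
        obtain ⟨hC, hCE, -⟩ := normalizer_inf_eq_compl hG hM hE hpσ hAE hA hAc
        refine hBall (zpowers (u * b * u⁻¹)) (zpowers_le.mpr (hCE.le (hC h1))) ?_ (mem_zpowers _)
        rw [Nat.card_zpowers]
        refine orderOf_eq_prime (by rw [conj_pow, hBe.2 b hb]; group) fun e => hb1 (conj_eq_one_iff.mp e))
        (Coprime.card_conj_smul _ _).ge)
    have hB1 : B ≠ ⊥ := fun e => by
      rw [e, card_bot] at hBc
      exact (Nat.one_lt_pow two_ne_zero hq.1.one_lt).ne hBc
    have hne : normalizer (B : Set G) ≠ ⊤ := fun e => by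
      rcases hG.2.1.eq_bot_or_eq_top_of_normal B (normalizer_eq_top_iff.mp e) with h1 | h1
      · exact hB1 h1
      · exact ne_top_of_le hM (hmE.trans hE.1) h1
    obtain ⟨H, hH, hNH⟩ := exists_coatom_ge hne
    have hUB : U ≤ normalizer (B : Set G) := sup_le (zpowers_le.mpr huB) (hAE.trans hEB)
    have hUH := hUB.trans hNH
    by_cases hpH : p ∈ sigma H
    · have h := centralizes_of_sigma hG hH hqp hpH hUp hUH
        (fun hβ => not_idealPrime hG hM hq.2.2.1 hq.2.2.2 hβ.2) (elem_isPGroup hBe) (le_normalizer.trans hNH) hUB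
      exact huM (centralizer_elem_two_le hG hM (hmE.trans hE.1) hBe hBc (h (mem_sup_left (mem_zpowers u))))
    · exact huC (mem_centralizer_of_pgroup hG hH hpH hA hAc hUp hUH le_sup_right (mem_sup_left (mem_zpowers u)))
  -- the Fitting subgroup
  have hMX : M ≤ normalizer (X₀ : Set G) := by
    intro m hm
    obtain ⟨e, he, b, hb, rfl⟩ := hE.2.2.2 m hm
    refine mul_mem ?_ ((centralizer_le_normalizer _) (hKX hb))
    rw [← hA₀]
    refine inf_normalizer_le_normalizer_inf ⟨(le_normalizer_compl hG hM hE hpσ hAE hA hAc).1 he, ?_⟩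
    exact Coprime.normalizer_le_normalizer_centralizer (sigmaCore M)
      (OddLocal.le_normalizer_piCoreOf (sigma M) M (hE.1 he))
  have hpC : ∀ q : Nat.Primes, (pCore (q : ℕ) ↥M).map M.subtype ≤ sigmaCore M ⊔ X₀ := by
    rintro ⟨q, hq⟩
    haveI := Fact.mk hq
    show (pCore q ↥M).map M.subtype ≤ sigmaCore M ⊔ X₀
    set Y := (pCore q ↥M).map M.subtype with hY
    have hYq : IsPGroup q Y := (Hall.isPGroup_pCore q).map _
    have hYM : Y ≤ M := map_subtype_le _
    have hYn : M ≤ normalizer (Y : Set G) := by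
      refine (normal_subgroupOf_iff_le_normalizer hYM).mp ?_
      rw [hY, subgroupOf, comap_map_eq_self_of_injective M.subtype_injective]
      infer_instance
    by_cases hqσ : q ∈ sigma M
    · exact (pgroup_le_sigmaCore hG hM hqσ hYq hYM).trans le_sup_left
    by_cases hY1 : Y = ⊥
    · rw [hY1]; exact bot_le
    by_cases hqp : q = p
    · subst hqp
      refine le_trans ?_ le_sup_right
      have hYK : Y ≤ centralizer (sigmaCore M : Set G) := by
        rw [← commutator_eq_bot_iff_le_centralizer, ← le_bot_iff]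
        refine le_trans (le_inf (a := sigmaCore M) ?_ (Coprime.commutator_le_of_le_normalizer'
          ((OddLocal.piCoreOf_le (sigma M) M).trans hYn))) ?_
        · rw [commutator_comm]
          exact Coprime.commutator_le_of_le_normalizer' (hYM.trans (OddLocal.le_normalizer_piCoreOf (sigma M) M))
        · refine (Coprime.inf_eq_bot_of_coprime (Nat.coprime_of_dvd fun r hr h1 h2 => hpσ ?_)).le
          exact isPGroup_ne_dvd hYq hr h2 ▸ OddLocal.piCoreOf_isPi (sigma M) M r hr h1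
      have hYS : Y ≤ (S : Subgroup M).map M.subtype := map_mono (Hall.pCore_le_sylow S)
      have hYD : Y ≤ D := le_inf (hYS.trans hT)
        (hYS.trans (le_centralizer_iff.mp (hX'.le_centralizer_sylow hG S hAS)))
      have hmemX : ∀ y ∈ Y, y ^ q = 1 → y ∈ X₀ := fun y hy hyp => by
        rw [← hA₀]; exact ⟨hDA y (hYD hy) hyp, hYK hy⟩
      intro w hwY
      by_contra hwX
      obtain ⟨n, hn⟩ := IsPGroup.iff_orderOf.mp hYq ⟨w, hwY⟩
      rw [Subgroup.orderOf_mk] at hn
      have hn2 : 2 ≤ n := by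
        by_contra h
        refine hwX (hmemX w hwY ?_)
        refine orderOf_dvd_iff_pow_eq_one.mp ?_
        rw [hn]
        exact (pow_dvd_pow q (by omega : n ≤ 1)).trans (pow_one q).dvd
      obtain ⟨k, rfl⟩ := Nat.exists_eq_add_of_le hn2
      set y := w ^ q ^ k with hy
      have hy2 : (y ^ q) ^ q = 1 := by
        rw [hy, ← pow_mul, ← pow_mul, show q ^ k * (q * q) = q ^ (2 + k) by ring, ← hn, pow_orderOf_eq_one]
      have hy1 : y ^ q ≠ 1 := by
        rw [hy, ← pow_mul, ← pow_succ]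
        intro h
        have hd := orderOf_dvd_of_pow_eq_one h
        rw [hn, Nat.pow_dvd_pow_iff_le_right hq.one_lt] at hd
        omega
      have hyX : y ^ q ∈ X₀ := hmemX _ (pow_mem (pow_mem hwY _) _) hy2
      have hgen : zpowers (y ^ q) = X₀ := eq_of_le_of_card_ge (zpowers_le.mpr hyX)
        (by rw [hline a ha ha1, hline _ (hX₀A hyX) hy1])
      have hconj : (u * y * u⁻¹) ∈ D := (mem_normalizer_iff.mp huN y).mp (hYD (pow_mem hwY _))
      have hpow : u * y ^ q * u⁻¹ ∈ zpowers (y ^ q) := by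
        rw [← conj_pow]
        refine pow_line_unique hG hp2 T hA hAc hmax hAT (hS T) (hYD (pow_mem hwY _)) hconj hy2 ?_ hy1
        rw [conj_pow, conj_pow, hy2]; group
      have h2 : u * a * u⁻¹ ∈ X₀ := by
        obtain ⟨i, hi⟩ := mem_zpowers_iff.mp (hgen.ge (mem_zpowers a))
        rw [← hi, ← conj_zpow]
        exact zpow_mem (hgen ▸ hpow) i
      have h3 : a * ⁅a, u⁆⁻¹ ∈ X₀ := by
        have h := hiter 1
        rw [pow_one, pow_one] at h
        rwa [← h]
      have h4 : ⁅a, u⁆⁻¹ ∈ X₀ := by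
        have := X₀.mul_mem (X₀.inv_mem (mem_zpowers a)) h3
        rwa [inv_mul_cancel_left] at this
      have hwA : ⁅a, u⁆⁻¹ ∈ A := hX₀A h4
      refine hX₀Z ((eq_of_le_of_card_ge (zpowers_le.mpr h4) ?_).symm.trans
        (eq_of_le_of_card_ge (zpowers_le.mpr (Z.inv_mem hw)) ?_))
      · rw [hline a ha ha1, hline _ hwA (inv_ne_one.mpr hw1)]
      · rw [hline _ hzA hz1, hline _ hwA (inv_ne_one.mpr hw1)]
    · -- rank one for the other primes
      exfalso
      have hr2 := rank_two_of_not_sigma hG hM hq hqσ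
      have hr1 : PRankLE q 1 M := by_contra fun h => hqp (htau q ⟨hq, hqσ, hr2, h⟩)
      haveI : IsZGroup ↥Y := rank_one_zgroup hG hYM fun r hr hd => isPGroup_ne_dvd hYq hr hd ▸ hr1
      haveI : Nontrivial ↥Y := (nontrivial_iff_ne_bot _).mpr hY1
      obtain ⟨y, -, -, hyo⟩ := Thompson.exists_central_order_p hYq (N := (⊤ : Subgroup ↥Y)) top_ne_bot
      have hyo' : orderOf (y : G) = q := by rw [orderOf_coe, hyo]
      have hy1 : (y : G) ≠ 1 := fun e => hq.ne_one (by rw [← hyo', e, orderOf_one])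
      have hL : Nat.card (zpowers (y : G)) = q := by rw [Nat.card_zpowers, hyo']
      refine rank_one_no_normal_line hG hM hqσ hr1 hL (zpowers_le.mpr (hYM y.2))
        (normalizer_eq_of_normal hG hM (by rwa [Ne, zpowers_eq_bot]) (zpowers_le.mpr (hYM y.2)) fun m hm => ?_)
      refine Coprime.mem_normalizer_of_conj_smul_eq (eq_of_le_of_card_ge ?_ (Coprime.card_conj_smul _ _).ge)
      rw [show MulAut.conj m • zpowers (y : G) = (zpowers (y : G)).map (MulAut.conj m).toMonoidHom from rfl,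
        MonoidHom.map_zpowers, zpowers_le]
      have hmy : m * (y : G) * m⁻¹ ∈ Y := (mem_normalizer_iff.mp (hYn hm) _).mp y.2
      have hyq : (y : G) ^ q = 1 := by rw [← hyo']; exact pow_orderOf_eq_one _
      have h := PL.zpowers_eq_of_cyclic (H := ↥Y) (p := q) (S := ⊤) (hYq.to_subgroup ⊤) (v := y)
        (w := ⟨m * (y : G) * m⁻¹, hmy⟩) (mem_top _) (mem_top _) (Subtype.ext hyq)
        (Subtype.ext (show (m * (y : G) * m⁻¹) ^ q = 1 by rw [conj_pow, hyq]; group))
        (fun e => hy1 (congrArg Subtype.val e))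
      obtain ⟨i, hi⟩ := mem_zpowers_iff.mp h
      exact mem_zpowers_iff.mpr ⟨i, congrArg Subtype.val hi⟩
  have hX₀M : X₀ ≤ M := hX₀A.trans hAM
  have hFit : fittingOf M = sigmaCore M ⊔ X₀ := by
    apply le_antisymm
    · show (fittingSubgroup ↥M).map M.subtype ≤ _
      rw [Hall.fittingSubgroup_eq_iSup_pCore, Subgroup.map_iSup]
      exact iSup_le hpC
    · refine sup_le ?_ ?_
      · haveI := hX'.sigmaCore_nilpotent hG
        refine map_mono (Hall.le_fittingSubgroup ?_)
        haveI : Group.IsNilpotent ↥((piCore (sigma M) ↥M).map M.subtype) := hX'.sigmaCore_nilpotent hG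
        exact Group.nilpotent_of_mulEquiv
          ((piCore (sigma M) ↥M).equivMapOfInjective M.subtype M.subtype_injective).symm
      · haveI : (X₀.subgroupOf M).Normal := (normal_subgroupOf_iff_le_normalizer hX₀M).mpr hMX
        have hp0 : IsPGroup p (X₀.subgroupOf M) :=
          IsPGroup.of_card (n := 1) (by rw [Coprime.card_subgroupOf hX₀M, hline a ha ha1, pow_one])
        rw [← map_subgroupOf_eq_of_le hX₀M]
        exact map_mono (Hall.le_fittingSubgroup hp0.isNilpotent)
  refine ⟨htau, ⟨by rw [hA₀]; exact hline a ha ha1, by rw [hA₀]; exact hFit⟩, fun X hXE hXc hne => ?_⟩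
  have hXA := (le_normalizer_compl hG hM hE hpσ hAE hA hAc).2 X hXE hXc
  rw [hA₀] at hne
  exact ⟨hbot X hXA hXc hne, hother X hXA hXc hne⟩

end Cfsg.Agent.Lib.Uniq
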