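import Cfsg.Agent.Lib.Uniq.TypeP2Main
import Cfsg.Agent.Lib.Hall.NarrowAction
import Cfsg.Agent.Lib.OddLocal.FcoreStructure
import Cfsg.Agent.S1375
import Cfsg.Agent.S1408
import Cfsg.Agent.S1411
import Cfsg.Agent.S1414
import Cfsg.Agent.S1417
import Cfsg.Agent.S1419
import Cfsg.Agent.S1431
set_option autoImplicit false

/-! BG 15.9: a support subgroup of type P₂ forces a Frobenius group. -/

namespace Cfsg.Agent.Lib.Uniq

open Subgroup
open scoped Pointwise commutatorElement

universe u

variable {G : Type u} [Group G] [Finite G] {M N E F P A K U : Subgroup G} {p : ℕ}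

/-- Inside a complement `E` there is a standard factorisation with `K U = E`. -/
theorem exists_decomposition_in (hG : IsMinSimpleOddOrder G) (hN : IsCoatom N)
    (hE : IsComplIn E (sigmaCore N) N) (hκ : (kappa N).Nonempty) :
    ∃ K U : Subgroup G, IsSigmaDecomposition N K U ∧ K ≠ ⊥ ∧ K ⊔ U = E := by
  obtain ⟨K, hKh, -⟩ := exists_hall_ge hG (ne_top_of_le hN hE.1) (bot_le : ⊥ ≤ E) (kappa N)
    (fun r hr hd => absurd (card_bot (G := G) ▸ hd) hr.not_dvd_one)
  have hKN : IsPiHallOf (kappa N) K N := by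
    refine ⟨hKh.1.trans hE.1, hKh.2.1, fun t ht hκt hd => ?_⟩
    rw [← relIndex_mul_relIndex _ _ _ hKh.1 hE.1] at hd
    rcases ht.dvd_mul.mp hd with h | h
    · exact hKh.2.2 t ht hκt h
    · refine hκt.2.2.1 (OddLocal.piCoreOf_isPi (sigma N) N t ht ?_)
      have h1 := relIndex_mul_relIndex ⊥ E N bot_le hE.1
      rw [relIndex_bot_left, relIndex_bot_left, ← (compl_card hE).1] at h1
      rwa [Nat.eq_of_mul_eq_mul_left Nat.card_pos h1] at h
  have hK1 : K ≠ ⊥ := by
    obtain ⟨t, hκt⟩ := hκ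
    intro e
    exact hKN.2.2 t hκt.1 hκt (by rw [e, relIndex_bot_left]; exact hκt.2.1)
  have hKc := kappa_hall_cyclic hG hN hKN
  obtain ⟨U₁, hKU₁⟩ := OddLocal.Decomposition.exists_decomposition hG hN hKc hKN
  have hU₁ := OddLocal.Decomposition.hall_U hG hN hKU₁
  have hE₁ := OddLocal.KappaStar.compl_sigma hG hN hKN hU₁ hKU₁.normal
  set S := sigmaCore N with hS
  have hSN : S ≤ N := map_subtype_le _
  have hNS : N ≤ normalizer (S : Set G) := OddLocal.le_normalizer_piCoreOf (sigma N) N
  set V := U₁ ⊔ S with hV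
  have hNV : N ≤ normalizer (V : Set G) := OddLocal.UPart.normal_U_sigma hKU₁
  have hVN : V ≤ N := sup_le hU₁.1 hSN
  set U := E ⊓ V with hU
  have hcopU : (Nat.card U₁).Coprime (Nat.card S) := Nat.coprime_of_dvd fun t ht h1 h2 =>
    (hU₁.2.1 t ht h1).2.2 (OddLocal.piCoreOf_isPi (sigma N) N t ht h2)
  have hVc : Nat.card V = Nat.card U₁ * Nat.card S := by
    have h := Coprime.card_sup_mul_card_inf_of_le_normalizer (hU₁.1.trans hNS)
    rwa [Coprime.inf_eq_bot_of_coprime hcopU, card_bot, mul_one] at h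
  have htop : E ⊔ V = N := le_antisymm (sup_le hE.1 hVN) fun m hm => by
    obtain ⟨a, ha, b, hb, rfl⟩ := hE.2.2.2 m hm
    exact mul_mem (mem_sup_left ha) (mem_sup_right (mem_sup_right hb))
  have hUc : Nat.card U = Nat.card U₁ := by
    have h := Coprime.card_sup_mul_card_inf_of_le_normalizer (A := E) (N := V) (hE.1.trans hNV)
    rw [htop, hVc, ← (compl_card hE).1, ← hU] at h
    refine Nat.eq_of_mul_eq_mul_left (Nat.card_pos (α := S)) (Nat.eq_of_mul_eq_mul_left (Nat.card_pos (α := E)) ?_)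
    rw [← mul_assoc, h]; ring
  have hKUn : K ≤ normalizer (U : Set G) :=
    (le_inf (hKh.1.trans le_normalizer) (hKN.1.trans hNV)).trans inf_normalizer_le_normalizer_inf
  have hUπ : ∀ t : ℕ, t.Prime → t ∣ Nat.card U → t.Prime ∧ t ∉ kappa N ∧ t ∉ sigma N := fun t ht hd =>
    hU₁.2.1 t ht (hUc ▸ hd)
  have hKU : K ⊔ U = E := by
    refine eq_of_le_of_card_ge (sup_le hKh.1 inf_le_left) ?_
    have h := Coprime.card_sup_mul_card_inf_of_le_normalizer hKUn
    rw [Coprime.inf_eq_bot_of_coprime (Nat.coprime_of_dvd fun t ht h1 h2 =>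
      (hUπ t ht h2).2.1 (hKN.2.1 t ht h1)), card_bot, mul_one, hUc] at h
    have h' := Coprime.card_sup_mul_card_inf_of_le_normalizer hKU₁.normal
    rw [Coprime.inf_eq_bot_of_coprime (Nat.coprime_of_dvd fun t ht h1 h2 =>
      (hU₁.2.1 t ht h2).2.1 (hKN.2.1 t ht h1)), card_bot, mul_one] at h'
    have h1 := (compl_card hE₁).2
    rw [← (compl_card hE).2, h'] at h1
    rw [h, h1]
  have hKS : K ≤ normalizer (S : Set G) := hKN.1.trans hNS
  refine ⟨K, U, ⟨hKc, hKN, ⟨inf_le_left.trans hE.1, sup_le hKN.1 hSN, ?_, fun m hm => ?_⟩, hKUn⟩, hK1, hKU⟩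
  · refine Coprime.inf_eq_bot_of_coprime (Nat.coprime_of_dvd fun t ht h1 h2 => ?_)
    rcases prime_dvd_sup hKS ht h2 with h | h
    · exact (hUπ t ht h1).2.1 (hKN.2.1 t ht h)
    · exact (hUπ t ht h1).2.2 (OddLocal.piCoreOf_isPi (sigma N) N t ht h)
  · obtain ⟨e, he, s, hs, rfl⟩ := hE.2.2.2 m hm
    obtain ⟨a, ha, u, hu, rfl⟩ := (Coprime.mem_sup_of_le_normalizer hKUn).mp (hKU.ge he)
    exact ⟨a * u * a⁻¹, (mem_normalizer_iff.mp (hKUn ha) u).mp hu, a * s,
      (K ⊔ S).mul_mem (mem_sup_left ha) (mem_sup_right hs), by group⟩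

/-- A group of odd order acting faithfully and coprimely on a group of small rank, or with a small maximal
elementary abelian subgroup, is abelian. -/
theorem abelian_of_faithful [hp : Fact p.Prime] (hp2 : p ≠ 2) (hP : IsPGroup p P) (hA : IsElementaryAbelian p A)
    (hAc : Nat.card A = p ^ 2) (hAP : A ≤ P) (hmax : ∀ B : Subgroup G, IsElementaryAbelian p B → A ≤ B → B = A)
    (hF : F ≤ normalizer (P : Set G)) (hFo : Odd (Nat.card F)) (hFp : ¬ p ∣ Nat.card F)
    (hfaith : F ⊓ centralizer (P : Set G) = ⊥) (hFs : Group.IsSolvable F) : IsMulCommutative F := by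
  classical
  haveI := hFs
  let f : F →* MulAut P := P.normalizerMonoidHom.comp (Subgroup.inclusion hF)
  have hf : ∀ a : F, f a = 1 → a = 1 := fun a ha => by
    have h : (a : G) ∈ F ⊓ centralizer (P : Set G) := by
      refine ⟨a.2, mem_centralizer_iff.mpr fun x hx => ?_⟩
      have h1 : (a : G) * x * (a : G)⁻¹ = x := congrArg Subtype.val (DFunLike.congr_fun ha (⟨x, hx⟩ : P))
      exact (mul_inv_eq_iff_eq_mul.mp h1).symm
    rw [hfaith, mem_bot] at h
    exact Subtype.ext h
  have key : ∀ d ∈ commutator F, ∃ k : ℕ, f d ^ p ^ k = 1 := by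
    intro d hd
    by_cases hr : Cfsg.PRankLE p 2 P
    · exact Hall.commutator_act_pPow hp2 hP hr hFo f d hd
    · haveI : Nontrivial P := by
        refine (nontrivial_iff_ne_bot P).mpr fun e => ?_
        rw [e, le_bot_iff] at hAP
        rw [hAP, card_bot] at hAc
        exact (Nat.one_lt_pow two_ne_zero hp.out.one_lt).ne hAc
      -- a central element of order `p` lies in `A`
      obtain ⟨z, -, hzc, hzo⟩ := Thompson.exists_central_order_p hP (N := (⊤ : Subgroup P)) top_ne_bot
      have hzA : (z : G) ∈ A := mem_of_commute_maximal hA hmax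
        (by rw [← hzo, ← Subgroup.orderOf_coe]; exact pow_orderOf_eq_one _)
        fun a ha => congrArg Subtype.val (mem_center_iff.mp hzc ⟨a, hAP ha⟩)
      obtain ⟨a, ha, haz⟩ := SetLike.not_le_iff_exists.mp (fun hle : A ≤ zpowers (z : G) => by
        have h := card_dvd_of_le hle
        rw [hAc, Nat.card_zpowers, Subgroup.orderOf_coe, hzo] at h
        have := Nat.le_of_dvd hp.out.pos h
        rw [pow_two] at this
        exact absurd this (not_le.mpr (lt_mul_of_one_lt_left hp.out.pos hp.out.one_lt)))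
      have hAeq : zpowers a ⊔ zpowers (z : G) = A := by
        refine eq_of_le_of_card_ge (sup_le (zpowers_le.mpr ha) (zpowers_le.mpr hzA)) ?_
        obtain ⟨i, hi, hc⟩ := (Nat.dvd_prime_pow hp.out).mp
          (hAc ▸ card_dvd_of_le (sup_le (zpowers_le.mpr ha) (zpowers_le.mpr hzA)))
        rw [hAc, hc]
        refine Nat.pow_le_pow_right hp.out.pos (Nat.le_of_not_lt fun hi2 => haz ?_)
        have h2 : zpowers (z : G) = zpowers a ⊔ zpowers (z : G) := eq_of_le_of_card_ge le_sup_right (by
          rw [hc, Nat.card_zpowers, Subgroup.orderOf_coe, hzo]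
          exact (Nat.pow_le_pow_right hp.out.pos (Nat.le_of_lt_succ hi2)).trans (pow_one p).le)
        exact h2.ge (mem_sup_left (mem_zpowers a))
      have hC : Cfsg.PRankLE p 2 (centralizer ({⟨a, hAP ha⟩} : Set P)) := by
        intro B hBc hBp
        let ι : (centralizer ({⟨a, hAP ha⟩} : Set P) : Subgroup P) →* G := P.subtype.comp (Subgroup.subtype _)
        have hι : Function.Injective ι := fun u v h => Subtype.ext (Subtype.ext h)
        have hBA : B.map ι ≤ A := by
          rintro _ ⟨b, hb, rfl⟩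
          refine mem_of_commute_maximal hA hmax (by rw [← map_pow, hBp b hb, map_one]) fun c hc => ?_
          have hba : Commute a (ι b) :=
            (congrArg Subtype.val (mem_centralizer_singleton_iff.mp b.2) : (ι b) * a = a * ι b).symm
          have hbz : Commute (z : G) (ι b) := (congrArg Subtype.val (mem_center_iff.mp hzc (b : P))).symm
          have hle : zpowers a ⊔ zpowers (z : G) ≤ centralizer ({ι b} : Set G) :=
            sup_le (zpowers_le.mpr (mem_centralizer_singleton_iff.mpr hba.eq))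
              (zpowers_le.mpr (mem_centralizer_singleton_iff.mpr hbz.eq))
          exact mem_centralizer_singleton_iff.mp (hle (hAeq.ge hc))
        have h := card_le_of_le hBA
        rwa [card_map_of_injective hι, hAc] at h
      obtain ⟨D⟩ := Hall.narrowData_of_small hP hr ⟨a, hAP ha⟩ (Subtype.ext (hA.2 a ha)) hC
      exact Hall.narrowData_act_pPow hp2 hP D f d (Or.inl hd)
  have hbot : ∀ d ∈ _root_.commutator F, d = 1 := fun d hd => by
    obtain ⟨k, hk⟩ := key d hd
    have h1 : d ^ p ^ k = 1 := hf _ (by rw [map_pow]; exact hk)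
    exact orderOf_eq_one_iff.mp (Nat.eq_one_of_dvd_coprimes
      (((hp.out.coprime_iff_not_dvd).mpr hFp).pow_left k) (orderOf_dvd_of_pow_eq_one h1) (orderOf_dvd_natCard d))
  exact ⟨⟨fun a b => commutatorElement_eq_one_iff_mul_comm.mp
    (hbot _ ((_root_.commutator_def F).ge (commutator_mem_commutator (mem_top a) (mem_top b))))⟩⟩

end Cfsg.Agent.Lib.Uniq
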