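import Cfsg.Agent.Lib.Uniq.TauSigma
import Cfsg.Agent.Lib.Uniq.FrobeniusFixed
import Cfsg.Agent.Lib.OddLocal.CyclicSub
set_option autoImplicit false

/-! BG 13.8, 13.9: `σ(M)` and `σ(H)` are disjoint for non-conjugate maximal subgroups. -/

namespace Cfsg.Agent.Lib.Uniq

open Subgroup
open scoped Pointwise commutatorElement

universe u

variable {G : Type u} [Group G] [Finite G] {M H E : Subgroup G} {p q : ℕ}

theorem not_conj_symm (h : ∀ g : G, H ≠ MulAut.conj g • M) : ∀ g : G, M ≠ MulAut.conj g • H := fun g e =>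
  h g⁻¹ (by rw [e, map_inv, inv_smul_smul])

theorem not_alpha_of_not_conj (hG : IsMinSimpleOddOrder G) (hM : IsCoatom M) (hH : IsCoatom H)
    (hnc : ∀ g : G, H ≠ MulAut.conj g • M) (hq : q ∈ sigma H) : q ∉ alpha M := fun hα => by
  haveI := Fact.mk hq.1
  obtain ⟨g, hg⟩ := conj_of_alpha_sigma hG hM hH hα hq
  exact hnc g hg

theorem not_conj_of_sigma (hG : IsMinSimpleOddOrder G) (hM : IsCoatom M) (hpM : p ∉ sigma M) (hpH : p ∈ sigma H) :
    ∀ g : G, H ≠ MulAut.conj g • M := fun _ e => hpM (sigma_conj hM hG e hpH)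

/-- An element with centraliser in `H` pins down conjugates of `H` containing it. -/
theorem mem_of_fixed_conj (hG : IsMinSimpleOddOrder G) (hH : IsCoatom H) [hq : Fact q.Prime] (hqH : q ∈ sigma H)
    {y : G} (hyH : y ∈ H) (hyo : orderOf y = q) (hC : centralizer ({y} : Set G) ≤ H) {g : G}
    (hg : g * y * g⁻¹ ∈ H) : g ∈ H := by
  have hXc : Nat.card (zpowers y) = q := by rw [Nat.card_zpowers, hyo]
  obtain ⟨m, hm, c, hc, rfl⟩ := (S1404.result hG H hH q hqH (zpowers y) (IsPGroup.of_card (n := 1) (by rw [hXc, pow_one]))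
    (fun e => hq.out.ne_one (by rw [← hXc, e, card_bot])) (zpowers_le.mpr hyH)).1 g (by
      rw [MonoidHom.map_zpowers]; exact zpowers_le.mpr hg)
  rw [centralizer_zpowers] at hc
  exact H.mul_mem hm (hC hc)

/-- Conjugating one of two `π`-elements so that both lie in a common `π`-subgroup. -/
theorem exists_conj_common (hG : IsMinSimpleOddOrder G) {X : Subgroup G} (hX : X ≠ ⊤) {x y : G} (hx : x ∈ X)
    (hy : y ∈ X) (π : Set ℕ) (hxπ : ∀ r : ℕ, r.Prime → r ∣ orderOf x → r ∈ π)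
    (hyπ : ∀ r : ℕ, r.Prime → r ∣ orderOf y → r ∈ π) :
    ∃ (L : Subgroup G) (c : G), L ≤ X ∧ c ∈ X ∧ (∀ r : ℕ, r.Prime → r ∣ Nat.card L → r ∈ π) ∧
      x ∈ L ∧ c * y * c⁻¹ ∈ L := by
  obtain ⟨L, ⟨hLX, hLp, hLi⟩, hxL⟩ := exists_hall_ge hG hX (zpowers_le.mpr hx) π (fun r hr hd =>
    hxπ r hr (by rwa [Nat.card_zpowers] at hd))
  haveI := solvable_of_ne_top hG hX
  have hco : (Nat.card (L.subgroupOf X)).Coprime (L.subgroupOf X).index := by
    rw [Coprime.card_subgroupOf hLX]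
    exact Nat.coprime_of_dvd fun r hr h1 h2 => hLi r hr (hLp r hr h1) h2
  obtain ⟨g, hg⟩ := Hall.exists_le_conj hco (K := zpowers (⟨y, hy⟩ : X)) (by
    rw [Nat.card_zpowers, Subgroup.orderOf_mk]
    exact Nat.coprime_of_dvd fun r hr h1 h2 => hLi r hr (hyπ r hr h1) h2)
  obtain ⟨w, hw, hwy⟩ := hg (mem_zpowers _)
  have hwy' : (g : G) * (w : G) * (g : G)⁻¹ = y := congrArg Subtype.val hwy
  refine ⟨L, (g : G)⁻¹, hLX, X.inv_mem g.2, hLp, hxL (mem_zpowers x), ?_⟩
  rw [← hwy']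
  simpa [mul_assoc, mem_subgroupOf] using hw

/-- A `τ₃`-element of prime order is normal in every complement containing it. -/
theorem le_normalizer_tau_three_line (hG : IsMinSimpleOddOrder G) (hM : IsCoatom M)
    (hE : IsComplIn E (sigmaCore M) M) [hq : Fact q.Prime] (hq3 : q ∈ tau3 M) {x : G} (hxE : x ∈ E)
    (hxo : orderOf x = q) : E ≤ normalizer ((zpowers x : Subgroup G) : Set G) := by
  obtain ⟨E₃, hE₃, hxE₃⟩ := exists_hall_ge hG (ne_top_of_le hM hE.1) (zpowers_le.mpr hxE) (tau3 M) (fun r hr hd => by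
    rw [Nat.card_zpowers, hxo] at hd
    exact (Nat.prime_dvd_prime_iff_eq hr hq.out).mp hd ▸ hq3)
  obtain ⟨hcyc, -, hnorm⟩ := tau3_struct hG hM hE hE₃
  haveI := hcyc
  intro e he
  refine Coprime.mem_normalizer_of_conj_smul_eq (OddLocal.eq_of_card_eq_of_le_cyclic (W := E₃) ?_ hxE₃
    (Coprime.card_conj_smul _ _))
  exact (pointwise_smul_le_pointwise_smul_iff.mpr hxE₃).trans (Coprime.conj_smul_eq_self (hnorm he)).le

/-- A prime acting with coprime action on `M_β` through `[Q, P] = Q` and trivial fixed action centralises it. -/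
theorem beta_le_centralizer (hG : IsMinSimpleOddOrder G) (hM : IsCoatom M) [hp : Fact p.Prime] {Q P : Subgroup G}
    (hQc : IsMulCommutative Q) (hQM : Q ≤ M) (hPM : P ≤ M) (hP : Nat.card P = p) (hPQ : P ≤ normalizer (Q : Set G))
    (hQP : ⁅Q, P⁆ = Q) (hpQ : p.Coprime (Nat.card Q)) (hpβ : p ∉ beta M)
    (hQβ : ∀ r : ℕ, r.Prime → r ∣ Nat.card Q → r ∉ beta M)
    (hfix : ∀ x ∈ piCoreOf (beta M) M, (orderOf x).Prime → x ∈ centralizer (P : Set G) → x ∈ centralizer (Q : Set G)) :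
    piCoreOf (beta M) M ≤ centralizer (Q : Set G) := by
  classical
  set B := piCoreOf (beta M) M with hB
  have hBM : B ≤ M := OddLocal.piCoreOf_le _ M
  obtain ⟨v, hvP, hv1⟩ := P.bot_or_exists_ne_one.resolve_left fun e => by
    rw [e, card_bot] at hP; exact hp.out.ne_one hP.symm
  have hvo : orderOf v = p := ((Nat.dvd_prime hp.out).mp (hP ▸ Subgroup.orderOf_dvd_natCard P hvP)).resolve_left
    fun h => hv1 (orderOf_eq_one_iff.mp h)
  have hPv : zpowers v = P := eq_of_le_of_card_ge (zpowers_le.mpr hvP) (by rw [Nat.card_zpowers, hvo, hP])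
  have hA : Q ⊔ P ≤ normalizer (B : Set G) := (sup_le hQM hPM).trans (OddLocal.le_normalizer_piCoreOf _ M)
  have hcop : (Nat.card ↥(Q ⊔ P)).Coprime (Nat.card B) := Nat.coprime_of_dvd fun r hr h1 h2 => by
    have hrβ := OddLocal.piCoreOf_isPi (beta M) M r hr h2
    rw [sup_comm] at h1
    rcases prime_dvd_sup hPQ hr h1 with h | h
    · rw [hP] at h
      exact hpβ ((Nat.prime_dvd_prime_iff_eq hr hp.out).mp h ▸ hrβ)
    · exact hQβ r hr h hrβ
  haveI := solvable_of_ne_top hG (ne_top_of_le hM (sup_le hQM hPM))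
  set D := B ⊓ centralizer (Q : Set G)
  have hBD : Nat.card B ∣ Nat.card D := by
    refine (Nat.dvd_iff_prime_pow_dvd_dvd _ _).mpr fun t i ht hti => ?_
    haveI := Fact.mk ht
    rcases Nat.eq_zero_or_pos i with hi | hi
    · simp [hi]
    have htB : t ∣ Nat.card B := (dvd_pow_self t hi.ne').trans hti
    have htG : t ≠ 2 := fun e => hG.1.not_two_dvd_nat (e ▸ htB.trans B.card_subgroup_dvd_card)
    have htβ : t ∈ beta M := OddLocal.piCoreOf_isPi (beta M) M t ht htB
    obtain ⟨U₀, hU₀⟩ := Coprime.exists_invariant_sylow hA hcop (Or.inl inferInstance) t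
    set U := (U₀ : Subgroup B).map B.subtype
    have hcent : U ≤ centralizer (Q : Set G) := by
      refine le_centralizer_of_fixed_prime htG (U₀.2.map B.subtype) hp.out (hvo ▸ pow_orderOf_eq_one v) hQc
        (hU₀ (mem_sup_right hvP)) (le_sup_left.trans hU₀) (hPQ hvP) (hPv.symm ▸ hQP) hpQ
        (Nat.coprime_of_dvd fun r hr h1 h2 => hQβ r hr h1 ((Nat.prime_dvd_prime_iff_eq hr ht).mp h2 ▸ htβ))
        (fun e => hpβ (e ▸ htβ)) fun x hx hxt hvx => ?_
      by_cases hx1 : x = 1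
      · rw [hx1]; exact one_mem _
      refine hfix x (map_subtype_le _ hx) (by rw [orderOf_eq_prime hxt hx1]; exact ht) ?_
      rw [← hPv, centralizer_zpowers]
      exact mem_centralizer_singleton_iff.mpr hvx.eq.symm
    refine dvd_trans ?_ (card_dvd_of_le (le_inf (map_subtype_le _) hcent : U ≤ D))
    rw [card_map_of_injective B.subtype_injective]
    exact U₀.pow_dvd_card_of_pow_dvd_card hti
  exact (eq_of_le_of_card_ge (inf_le_left : D ≤ B) (Nat.le_of_dvd Nat.card_pos hBD)).ge.trans inf_le_right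

/-- An ideal prime outside `σ` has rank one. -/
theorem rank_one_of_ideal (hG : IsMinSimpleOddOrder G) (hM : IsCoatom M) [hq : Fact q.Prime] (hqσ : q ∉ sigma M)
    (hid : IsIdealPrime q G) : PRankLE q 1 M :=
  by_contra fun hr => (S1408.result hG M hM q hqσ (rank_two_of_not_sigma hG hM hq.out hqσ) hr).1 hid

/-- BG 13.8: fixed `β(M)`-elements of a line that is `τ₁` for two maximal subgroups lie in the second one. -/
theorem fixed_beta_le (hG : IsMinSimpleOddOrder G) (hM : IsCoatom M) (hH : IsCoatom H)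
    (hnc : ∀ g : G, H ≠ MulAut.conj g • M) (hE : IsComplIn E (sigmaCore M) M) (hEH : E ≤ H) [hp : Fact p.Prime]
    (hpM : p ∈ tau1 M) (hpH : p ∈ tau1 H) {P : Subgroup G} (hPE : P ≤ E) (hP : Nat.card P = p) [hr' : Fact q.Prime]
    {y : G} (hy : y ∈ piCoreOf (beta H) H) (hyP : y ∈ centralizer (P : Set G)) (hyo : orderOf y = q) :
    piCoreOf (beta M) M ⊓ centralizer (P : Set G) ≤ H := by
  classical
  set V := piCoreOf (beta M) M ⊓ centralizer (P : Set G) with hV
  by_cases hV1 : V = ⊥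
  · rw [hV1]; exact bot_le
  obtain ⟨t, ht, htd⟩ := Nat.exists_prime_and_dvd (mt card_eq_one.mp hV1)
  haveI := Fact.mk ht
  obtain ⟨x', hx'⟩ := exists_prime_orderOf_dvd_card' t htd
  set x : G := (x' : G)
  have hxo : orderOf x = t := by rw [orderOf_coe, hx']
  have hPM : P ≤ M := hPE.trans hE.1
  have hPH : P ≤ H := hPE.trans hEH
  have hBσ : ∀ {N : Subgroup G}, IsCoatom N → piCoreOf (beta N) N ≤ sigmaCore N := fun {N} hN =>
    le_sigmaCore hG hN (OddLocal.piCoreOf_le _ N) fun r hr hd =>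
      alpha_subset_sigma hG hN (OddLocal.piCoreOf_isPi (beta N) N r hr hd).1
  have htβ : t ∈ beta M := OddLocal.piCoreOf_isPi (beta M) M t ht (hxo ▸ Subgroup.orderOf_dvd_natCard _ x'.2.1)
  have hqβ : q ∈ beta H := OddLocal.piCoreOf_isPi (beta H) H q hr'.out (hyo ▸ Subgroup.orderOf_dvd_natCard _ hy)
  have hxσ : x ∈ sigmaCore M := hBσ hM x'.2.1
  obtain ⟨hNx, hCx, -⟩ := tau_one_fixed_unique hG hM hpM hPM hP hxσ x'.2.2 hxo
  obtain ⟨hNy, hCy, -⟩ := tau_one_fixed_unique hG hH hpH hPH hP (hBσ hH hy) hyP hyo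
  have hPp : IsPGroup p P := IsPGroup.of_card (n := 1) (by rw [hP, pow_one])
  have hP1 : P ≠ ⊥ := fun e => hp.out.ne_one (by rw [← hP, e, card_bot])
  obtain ⟨H₁, hH₁, hNH₁⟩ := exists_coatom_ge (normalizer_line_ne_top hG hPp hP1)
  have hσ₁ : p ∈ sigma H₁ := (tau_one_sigma hG hM hpM hP hPM (fun e => ht.ne_one (by
    have h : x ∈ sigmaCore M ⊓ centralizer (P : Set G) := ⟨hxσ, x'.2.2⟩
    rw [e, mem_bot] at h
    rw [← hxo, h, orderOf_one])) hH₁ hNH₁).1
  have hncM := not_conj_of_sigma hG hM hpM.2.1 hσ₁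
  have hncH := not_conj_of_sigma hG hH hpH.2.1 hσ₁
  have htH₁ : t ∉ sigma H₁ := fun h => not_alpha_of_not_conj hG hM hH₁ hncM h htβ.1
  have hqH₁ : q ∉ sigma H₁ := fun h => not_alpha_of_not_conj hG hH hH₁ hncH h hqβ.1
  have hC₁ : centralizer (P : Set G) ≤ H₁ := (centralizer_le_normalizer _).trans hNH₁
  have hxH₁ : x ∈ H₁ := hC₁ x'.2.2
  have hr1x := rank_one_of_ideal hG hH₁ htH₁ htβ.2
  have hr1y := rank_one_of_ideal hG hH₁ hqH₁ hqβ.2
  have hxc : Nat.card (zpowers x) = t := by rw [Nat.card_zpowers, hxo]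
  obtain ⟨E₀, hE₀, -⟩ := exists_compl_ge hG hH₁ htH₁ (IsPGroup.of_card (n := 1) (by rw [hxc, pow_one]))
    (zpowers_le.mpr hxH₁)
  have hCne : centralizer (P : Set G) ≠ ⊤ := ne_top_of_le hH₁ hC₁
  -- a conjugate of `y` by `C(P)` lies in `M`
  obtain ⟨c, hc, hcyM⟩ : ∃ c ∈ centralizer (P : Set G), c * y * c⁻¹ ∈ M := by
    by_cases hboth : t ∈ tau1 H₁ ∧ q ∈ tau1 H₁
    · obtain ⟨L, c, hLC, hc, hL, hxL, hyL⟩ := exists_conj_common hG hCne x'.2.2 hyP (tau1 H₁)
        (fun r hr hd => by rw [hxo] at hd; exact (Nat.prime_dvd_prime_iff_eq hr ht).mp hd ▸ hboth.1)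
        (fun r hr hd => by rw [hyo] at hd; exact (Nat.prime_dvd_prime_iff_eq hr hr'.out).mp hd ▸ hboth.2)
      obtain ⟨E', hE', hLE'⟩ := exists_compl_ge_pi hG hH₁ hE₀ (fun r hr hd => (hL r hr hd).2.1) (hLC.trans hC₁)
      obtain ⟨E₁, hE₁, hLE₁⟩ := exists_hall_ge hG (ne_top_of_le hH₁ hE'.1) hLE' (tau1 H₁) hL
      haveI : IsCyclic E₁ := tau1_cyclic hG hE' hE₁
      refine ⟨c, hc, hCx (mem_centralizer_singleton_iff.mpr ?_)⟩
      exact congrArg Subtype.val
        ((IsCyclic.commGroup (α := E₁)).mul_comm (⟨_, hLE₁ hyL⟩ : E₁) ⟨x, hLE₁ hxL⟩)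
    obtain ⟨L, c, hLC, hc, hL, hxL, hyL⟩ := exists_conj_common hG hCne x'.2.2 hyP {r | r ∉ sigma H₁}
      (fun r hr hd => by rw [hxo] at hd; exact (Nat.prime_dvd_prime_iff_eq hr ht).mp hd ▸ htH₁)
      (fun r hr hd => by rw [hyo] at hd; exact (Nat.prime_dvd_prime_iff_eq hr hr'.out).mp hd ▸ hqH₁)
    obtain ⟨E', hE', hLE'⟩ := exists_compl_ge_pi hG hH₁ hE₀ hL (hLC.trans hC₁)
    refine ⟨c, hc, ?_⟩
    by_cases htd : t ∣ Nat.card ↥⁅H₁, H₁⁆
    · exact hNx (le_normalizer_tau_three_line hG hH₁ hE' (q := t) ⟨ht, htH₁, htd, hr1x⟩ (hLE' hxL) hxo (hLE' hyL))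
    have hxτ : t ∈ tau1 H₁ := ⟨ht, htH₁, hxo ▸ Subgroup.orderOf_dvd_natCard H₁ hxH₁, htd, hr1x⟩
    have hqd : q ∣ Nat.card ↥⁅H₁, H₁⁆ := by_contra fun h => hboth ⟨hxτ,
      ⟨hr'.out, hqH₁, hyo ▸ Subgroup.orderOf_dvd_natCard H₁ (hC₁ hyP), h, hr1y⟩⟩
    set y' := c * y * c⁻¹
    have hy'o : orderOf y' = q := by rw [← hyo]; exact orderOf_injective (MulAut.conj c).toMonoidHom (MulAut.conj c).injective y
    have hxN := le_normalizer_tau_three_line hG hH₁ hE' (q := q) ⟨hr'.out, hqH₁, hqd, hr1y⟩ (hLE' hyL) hy'o (hLE' hxL)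
    set x₀ := c⁻¹ * x * c
    have hx₀N : x₀ ∈ normalizer ((zpowers y : Subgroup G) : Set G) := by
      refine Coprime.mem_normalizer_of_conj_smul_eq ?_
      have h := Coprime.conj_smul_eq_self hxN
      have he : zpowers y' = MulAut.conj c • zpowers y := ((MulAut.conj c).toMonoidHom.map_zpowers y).symm
      rw [he] at h
      rw [map_mul, map_mul, mul_smul, mul_smul, h, map_inv, inv_smul_smul]
    have hx₀P : x₀ ∈ centralizer (P : Set G) := mul_mem (mul_mem (inv_mem hc) x'.2.2) hc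
    have hx₀o : orderOf x₀ = t := by
      rw [← hxo]
      convert orderOf_injective (MulAut.conj c⁻¹).toMonoidHom (MulAut.conj c⁻¹).injective x using 2
      simp [x₀]
    have hx₀c : Nat.card (zpowers x₀) = t := by rw [Nat.card_zpowers, hx₀o]
    have htH : t ∉ sigma H := fun h => not_alpha_of_not_conj hG hM hH hnc h htβ.1
    have hPX : P ≤ normalizer ((zpowers x₀ : Subgroup G) : Set G) := by
      refine le_trans ?_ (centralizer_le_normalizer _)
      rw [centralizer_zpowers]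
      exact fun a ha => mem_centralizer_singleton_iff.mpr (mem_centralizer_iff.mp hx₀P a ha)
    obtain ⟨F₀, hF₀, -⟩ := exists_compl_ge hG hH hpH.2.1 hPp hPH
    obtain ⟨F, hF, hYF⟩ := exists_compl_ge_pi hG hH hF₀ (Y := P ⊔ zpowers x₀) (fun r hr hd => by
        rcases prime_dvd_sup hPX hr hd with h | h
        · exact not_sigma_of_prime_group hp.out hP hpH.2.1 r hr h
        · exact not_sigma_of_prime_group ht hx₀c htH r hr h)
      (sup_le hPH (zpowers_le.mpr (hNy hx₀N)))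
    have hcomm := tau_one_prime_action hG hH hF hpH (le_sup_left.trans hYF) hP (r := t)
      (le_inf (le_sup_right.trans hYF) (zpowers_le.mpr hx₀P)) hx₀c ⟨hBσ hH hy, hyP⟩
    refine hCx (mem_centralizer_singleton_iff.mpr ?_)
    have h1 := mem_centralizer_iff.mp hcomm x₀ (mem_zpowers x₀)
    have h2 := congrArg (fun w => c * w * c⁻¹) h1
    simp only [x₀, y'] at h2 ⊢
    group at h2 ⊢
    exact h2.symm
  -- `V ≤ c H c⁻¹`, and this conjugate is `H` after moving `c y c⁻¹` into `E`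
  set y' := c * y * c⁻¹ with hy'
  have hy'P : y' ∈ centralizer (P : Set G) := mul_mem (mul_mem hc hyP) (inv_mem hc)
  have hy'o : orderOf y' = q := by rw [← hyo]; exact orderOf_injective (MulAut.conj c).toMonoidHom (MulAut.conj c).injective y
  have hy'c : Nat.card (zpowers y') = q := by rw [Nat.card_zpowers, hy'o]
  have hqM : q ∉ sigma M := fun h => not_alpha_of_not_conj hG hH hM (not_conj_symm hnc) h hqβ.1
  have hPY : P ≤ normalizer ((zpowers y' : Subgroup G) : Set G) := by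
    refine le_trans ?_ (centralizer_le_normalizer _)
    rw [centralizer_zpowers]
    exact fun a ha => mem_centralizer_singleton_iff.mpr (mem_centralizer_iff.mp hy'P a ha)
  obtain ⟨m₀, hm₀, hle⟩ := exists_conj_le_compl' hG hM hE (Y := P ⊔ zpowers y') (fun r hr hd => by
      rcases prime_dvd_sup hPY hr hd with h | h
      · exact not_sigma_of_prime_group hp.out hP hpM.2.1 r hr h
      · exact not_sigma_of_prime_group hr'.out hy'c hqM r hr h)
    (sup_le hPM (zpowers_le.mpr hcyM))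
  obtain ⟨z, hz, hzP⟩ := exists_conj_prime_eq
    (Hall.prankLE_of_injective (inclusion hE.1) (inclusion_injective _) hpM.2.2.2.2)
    ((pointwise_smul_le_pointwise_smul_iff.mpr le_sup_left).trans hle) hPE
    ((Coprime.card_conj_smul _ _).trans hP) hP
  set m := z * m₀ with hm'
  have hmM : m ∈ M := M.mul_mem (hE.1 hz) hm₀
  have hmP : m ∈ normalizer (P : Set G) := Coprime.mem_normalizer_of_conj_smul_eq (by rw [map_mul, mul_smul, hzP])
  have hmy : m * y' * m⁻¹ ∈ E := by
    have h1 : m₀ * y' * m₀⁻¹ ∈ E :=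
      hle (Coprime.conj_mem_conj_smul (mem_sup_right (mem_zpowers y')))
    have := E.mul_mem (E.mul_mem hz h1) (E.inv_mem hz)
    convert this using 1
    simp only [hm']; group
  have hgH : m * c ∈ H := by
    refine mem_of_fixed_conj hG hH (alpha_subset_sigma hG hH hqβ.1) (OddLocal.piCoreOf_le _ H hy) hyo hCy ?_
    convert hEH hmy using 1
    simp only [hy']; group
  obtain ⟨E', hE', hYE'⟩ := exists_compl_ge_pi hG hM hE (Y := P ⊔ zpowers y') (fun r hr hd => by
      rcases prime_dvd_sup hPY hr hd with h | h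
      · exact not_sigma_of_prime_group hp.out hP hpM.2.1 r hr h
      · exact not_sigma_of_prime_group hr'.out hy'c hqM r hr h)
    (sup_le hPM (zpowers_le.mpr hcyM))
  have hVy := tau_one_prime_action hG hM hE' hpM (le_sup_left.trans hYE') hP (r := q)
    (le_inf (le_sup_right.trans hYE') (zpowers_le.mpr hy'P)) hy'c
  have hmV : m ∈ normalizer (V : Set G) := inf_normalizer_le_normalizer_inf
    ⟨OddLocal.le_normalizer_piCoreOf _ M hmM, Coprime.normalizer_le_normalizer_centralizer P hmP⟩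
  intro v hv
  have hu : m⁻¹ * v * m ∈ V := by
    have := (mem_normalizer_iff.mp (inv_mem hmV) v).mp hv
    simpa using this
  set u := m⁻¹ * v * m
  have huy := mem_centralizer_iff.mp (hVy ⟨hBσ hM hu.1, hu.2⟩) y' (mem_zpowers y')
  have huc : c⁻¹ * u * c ∈ H := hCy (mem_centralizer_singleton_iff.mpr (by
    have h2 := congrArg (fun w => c⁻¹ * w * c) huy
    simp only [hy'] at h2
    group at h2 ⊢
    exact h2.symm))
  have := H.mul_mem (H.mul_mem hgH huc) (H.inv_mem hgH)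
  convert this using 1
  simp only [u]; group

variable [hq : Fact q.Prime]

/-- Primes acting nontrivially on a common Sylow subgroup for `σ(M) ∩ σ(H)` lie in `τ₁(M)`. -/
theorem tau_one_of_acting (hG : IsMinSimpleOddOrder G) (hM : IsCoatom M) (hH : IsCoatom H)
    (hnc : ∀ g : G, H ≠ MulAut.conj g • M) (hqM : q ∈ sigma M) (hqH : q ∈ sigma H) (S : Sylow q G)
    (hSM : (S : Subgroup G) ≤ M) [hp : Fact p.Prime] (hpq : p ≠ q) {e : G} {k : ℕ} (he : orderOf e = p ^ (k + 1))
    (heM : e ∈ M) (heN : e ∈ normalizer ((S : Subgroup G) : Set G))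
    (hnot : ¬ zpowers e ≤ centralizer ((S : Subgroup G) : Set G)) : p ∈ tau1 M := by
  have hβ : q ∉ beta M := not_beta_of_not_conj hG hH hM (not_conj_symm hnc) hqH
  have hep : IsPGroup p (zpowers e) := IsPGroup.of_card (n := k + 1) (by rw [Nat.card_zpowers, he])
  have heD : e ∉ ⁅M, M⁆ := fun h => hnot (centralizes_of_derived hG hM (Ne.symm hpq) hep (zpowers_le.mpr h) hβ S.2 hSM
    (zpowers_le.mpr heN))
  have hpσ : p ∉ sigma M := fun h => heD (le_derived_of_sigma hG hM h hep (zpowers_le.mpr heM) (mem_zpowers e))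
  have hpd : p ∣ orderOf e := he ▸ dvd_pow_self p (Nat.succ_ne_zero k)
  have hpM : p ∣ Nat.card M := hpd.trans (Subgroup.orderOf_dvd_natCard M heM)
  have hr1 : PRankLE p 1 M := by
    by_contra hr
    obtain ⟨A, hAM, hA, hAc⟩ := elem_of_not_pRankLE hr
    obtain ⟨g, hg⟩ := conj_of_sigma_nilpotent hG hH hM (S1417.result hG M hM p
      ⟨hp.out, hpσ, rank_two_of_not_sigma hG hM hp.out hpσ, hr⟩ A ⟨hAM, hA, hAc⟩).1 hqH hqM
    exact hnc g⁻¹ (by rw [hg, map_inv, inv_smul_smul])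
  refine ⟨hp.out, hpσ, hpM, fun hd => heD ?_, hr1⟩
  obtain ⟨E, hE, heE⟩ := exists_compl_ge hG hM hpσ hep (zpowers_le.mpr heM)
  obtain ⟨E₃, hE₃, heE₃⟩ := exists_hall_ge hG (ne_top_of_le hM hE.1) heE (tau3 M) (fun r hr hrd =>
    isPGroup_ne_dvd hep hr hrd ▸ ⟨hp.out, hpσ, hd, hr1⟩)
  exact ((tau3_struct hG hM hE hE₃).2.1.trans (commutator_mono hE.1 hE.1)) (heE₃ (mem_zpowers e))

omit hq in
/-- BG 13.9: a prime common to `σ(M)` and `σ(H)` makes them conjugate. -/
theorem conj_of_sigma_sigma (hG : IsMinSimpleOddOrder G) (hM : IsCoatom M) (hH : IsCoatom H)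
    (hqM : q ∈ sigma M) (hqH : q ∈ sigma H) : ∃ g : G, H = MulAut.conj g • M := by
  classical
  haveI := Fact.mk hqM.1
  suffices key : ∀ {H : Subgroup G}, IsCoatom H → q ∈ sigma H → (∀ g : G, H ≠ MulAut.conj g • M) →
      ∀ S : Sylow q G, (S : Subgroup G) ≤ M → (S : Subgroup G) ≤ H → False by
    by_contra hnc
    push Not at hnc
    obtain ⟨S, hSM, -⟩ := exists_sigma_sylow hqM
    obtain ⟨T, hTH, -⟩ := exists_sigma_sylow hqH
    obtain ⟨g, hg⟩ := MulAction.exists_smul_eq G T S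
    refine key (coatom_smul g hH) ?_ (fun k e => hnc (g⁻¹ * k) ?_) S hSM ?_
    · exact sigma_conj (g := g⁻¹) (coatom_smul g hH) hG (by rw [map_inv, inv_smul_smul]) hqH
    · rw [map_mul, mul_smul, ← e, map_inv, inv_smul_smul]
    · rw [← hg, Sylow.coe_subgroup_smul]; exact pointwise_smul_le_pointwise_smul_iff.mpr hTH
  intro H hH hqH hnc S hSM hSH
  have hnc' := not_conj_symm hnc
  have hne : M ≠ H := fun e => hnc 1 (by rw [e, map_one, one_smul])
  haveI hSc : IsMulCommutative (S : Subgroup G) := by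
    by_contra hna
    exact hne (eq_of_sylow_le hG hM hH S hna hSM hSH)
  have hβM : q ∉ beta M := not_beta_of_not_conj hG hH hM hnc' hqH
  have hβH : q ∉ beta H := not_beta_of_not_conj hG hM hH hnc hqM
  have hNM := sylow_normalizer_le hG hM hqM S hSM
  have hNH := sylow_normalizer_le hG hH hqH S hSH
  set N := normalizer ((S : Subgroup G) : Set G) with hN
  have hS1 : (S : Subgroup G) ≠ ⊥ := S.ne_bot_of_dvd_card (hqM.2.1.trans M.card_subgroup_dvd_card)
  obtain ⟨f, hfN, hfC⟩ : ∃ f ∈ N, f ∉ centralizer ((S : Subgroup G) : Set G) := by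
    by_contra h
    push Not at h
    refine hS1 (le_bot_iff.mp ((sylow_le_commutator_self hG S).trans (le_of_eq ?_)))
    rw [commutator_eq_bot_iff_le_centralizer]
    exact le_centralizer_iff.mp h
  obtain ⟨p, k, hp, hk, hfe⟩ : ∃ p k : ℕ, p.Prime ∧ p ^ k ∣ orderOf f ∧
      f ^ (orderOf f / p ^ k) ∉ centralizer ((S : Subgroup G) : Set G) := by
    by_contra h
    push Not at h
    exact hfC (abelian_of_prime_pow_parts fun r k hr hrk => h r k hr hrk)
  haveI := Fact.mk hp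
  set e := f ^ (orderOf f / p ^ k)
  have heo : orderOf e = p ^ k := orderOf_pow_orderOf_div (orderOf_pos f).ne' hk
  have heN : e ∈ N := N.pow_mem hfN _
  have hk0 : k ≠ 0 := fun hk0 => hfe (by
    rw [orderOf_eq_one_iff.mp (by rw [heo, hk0, pow_zero] : orderOf e = 1)]; exact one_mem _)
  obtain ⟨k, rfl⟩ := Nat.exists_eq_succ_of_ne_zero hk0
  have hnot : ¬ zpowers e ≤ centralizer ((S : Subgroup G) : Set G) := fun h => hfe (h (mem_zpowers e))
  have hpq : p ≠ q := by
    intro hpe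
    subst hpe
    have he : zpowers e ≤ (S : Subgroup G) := by
      refine le_trans le_sup_right (S.3 ?_ le_sup_left).le
      exact S.2.to_sup_of_normal_left' (IsPGroup.of_card (n := k + 1) (by rw [Nat.card_zpowers, heo]))
        (zpowers_le.mpr heN)
    exact hnot (he.trans (comm_le_centralizer hSc))
  have hpM : p ∈ tau1 M := tau_one_of_acting hG hM hH hnc hqM hqH S hSM hpq heo (hNM heN) heN hnot
  have hpH : p ∈ tau1 H := tau_one_of_acting hG hH hM hnc' hqH hqM S hSH hpq heo (hNH heN) heN hnot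
  -- a complement containing `e` normalising `S`
  set K := sigmaCore M with hK
  have hep : IsPGroup p (zpowers e) := IsPGroup.of_card (n := k + 1) (by rw [Nat.card_zpowers, heo])
  obtain ⟨E₀, hE₀, heE₀⟩ := exists_compl_ge hG hM hpM.2.1 hep (zpowers_le.mpr (hNM heN))
  have hMK : M ≤ normalizer (K : Set G) := OddLocal.le_normalizer_piCoreOf (sigma M) M
  have hSK : (S : Subgroup G) ≤ K := pgroup_le_sigmaCore hG hM hqM S.2 hSM
  haveI := solvable_of_ne_top hG (ne_top_of_le hM hE₀.1)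
  haveI := solvable_of_ne_top hG (pgroup_ne_top hG hep)
  obtain ⟨T₀, hT₀⟩ := Coprime.exists_invariant_sylow (hE₀.1.trans hMK) (coprime_sigmaCore_compl hG hM hE₀)
    (Or.inl inferInstance) q
  obtain ⟨c, hce, hcT⟩ := Coprime.exists_centralizer_conj_sylow (A := zpowers e) (zpowers_le.mpr (hMK (hNM heN)))
    ((coprime_sigmaCore_compl hG hM hE₀).coprime_dvd_left (card_dvd_of_le heE₀)) (Or.inl inferInstance)
    T₀ (S.subtype hSK) (heE₀.trans hT₀) (by
      rw [Sylow.coe_subtype, map_subgroupOf_eq_of_le hSK]; exact zpowers_le.mpr heN)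
  set E := MulAut.conj (c : G) • E₀ with hEdef
  have hcM : (c : G) ∈ M := OddLocal.piCoreOf_le _ M c.2
  have hE : IsComplIn E K M := by
    refine ⟨?_, hE₀.2.1, ?_, fun z hz => ?_⟩
    · exact (pointwise_smul_le_pointwise_smul_iff.mpr hE₀.1).trans (Coprime.conj_smul_eq_self (le_normalizer hcM)).le
    · rw [← Coprime.conj_smul_eq_self (hMK hcM), hEdef, ← Subgroup.smul_inf, hE₀.2.2.1]
      exact Subgroup.smul_bot _
    · obtain ⟨a, ha, b, hb, hab⟩ := hE₀.2.2.2 ((c : G)⁻¹ * z * c) (M.mul_mem (M.mul_mem (M.inv_mem hcM) hz) hcM)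
      refine ⟨c * a * (c : G)⁻¹, Coprime.conj_mem_conj_smul ha, c * b * (c : G)⁻¹,
        K.mul_mem (K.mul_mem c.2 hb) (K.inv_mem c.2), ?_⟩
      have h2 := congrArg (fun w => (c : G) * w * (c : G)⁻¹) hab
      simpa [mul_assoc] using h2
  have hEN : E ≤ N := by
    intro z hz
    rw [hEdef, Coprime.mem_conj_smul] at hz
    refine Coprime.mem_normalizer_of_conj_smul_eq ?_
    have h1 := Coprime.conj_smul_eq_self (hT₀ hz)
    have h2 : MulAut.conj (c : G) • (T₀ : Subgroup K).map K.subtype = (S : Subgroup G) := by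
      have := congrArg (fun T : Sylow q K => (T : Subgroup K).map K.subtype) hcT
      simp only [Sylow.coe_subtype, map_subgroupOf_eq_of_le hSK] at this
      rw [← this]
      exact (Coprime.map_conj_smul _ _ _).symm
    rw [← h2, ← mul_smul, ← map_mul, show z * (c : G) = (c : G) * ((c : G)⁻¹ * z * c) by group, map_mul, mul_smul, h1]
  have heE : e ∈ E := by
    rw [hEdef, Coprime.mem_conj_smul, mul_assoc, mem_centralizer_iff.mp hce e (mem_zpowers e), inv_mul_cancel_left]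
    exact heE₀ (mem_zpowers e)
  set a := e ^ p ^ k with ha
  have hao : orderOf a = p := by
    rw [ha, orderOf_pow_of_dvd (pow_ne_zero _ hp.ne_zero) (heo ▸ pow_dvd_pow p (Nat.le_succ k)), heo,
      Nat.pow_div (Nat.le_succ k) hp.pos, Nat.succ_sub (le_refl k), Nat.sub_self, pow_one]
  set P := zpowers a with hPdef
  have hPc : Nat.card P = p := by rw [Nat.card_zpowers, hao]
  have hPE : P ≤ E := zpowers_le.mpr (E.pow_mem heE _)
  have hPM : P ≤ M := hPE.trans hE.1
  have hEH : E ≤ H := hEN.trans hNH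
  have hPH : P ≤ H := hPE.trans hEH
  have hPN : P ≤ N := hPE.trans hEN
  have hfpf : (S : Subgroup G) ⊓ centralizer (P : Set G) = ⊥ := by
    by_contra h1
    have hSq : IsPGroup q ↥((S : Subgroup G) ⊓ centralizer (P : Set G)) := S.2.to_le inf_le_left
    obtain ⟨j, hj⟩ := IsPGroup.iff_card.mp hSq
    have hj0 : j ≠ 0 := fun e => h1 (card_eq_one.mp (by rw [hj, e, pow_zero]))
    obtain ⟨x₀, hx₀⟩ := exists_prime_orderOf_dvd_card' q (show q ∣ Nat.card ↥((S : Subgroup G) ⊓ centralizer (P : Set G))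
      from hj ▸ dvd_pow_self q hj0)
    obtain ⟨-, hCM, -⟩ := tau_one_fixed_unique hG hM hpM hPM hPc (q := q) (hSK x₀.2.1) x₀.2.2 (by rw [orderOf_coe, hx₀])
    obtain ⟨-, -, huH⟩ := tau_one_fixed_unique hG hH hpH hPH hPc (q := q)
      (pgroup_le_sigmaCore hG hH hqH S.2 hSH x₀.2.1) x₀.2.2 (by rw [orderOf_coe, hx₀])
    exact hne (huH M hM hCM)
  have hcopS : p.Coprime (Nat.card (S : Subgroup G)) := by
    obtain ⟨j, hj⟩ := IsPGroup.iff_card.mp S.2
    rw [hj]
    exact ((Nat.coprime_primes hp hqM.1).mpr hpq).pow_right j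
  have hSP : ⁅(S : Subgroup G), P⁆ = (S : Subgroup G) := by
    have h := Coprime.sup_commutator_eq (V := (S : Subgroup G)) hPN (hPc ▸ hcopS)
    rwa [hfpf, bot_sup_eq] at h
  have hSβ : ∀ {N' : Subgroup G}, q ∉ beta N' → ∀ r : ℕ, r.Prime → r ∣ Nat.card (S : Subgroup G) → r ∉ beta N' :=
    fun h r hr hd => isPGroup_ne_dvd S.2 hr hd ▸ h
  obtain ⟨y, hy, hyo, hyP⟩ : ∃ y ∈ piCoreOf (beta H) H, (orderOf y).Prime ∧ y ∈ centralizer (P : Set G) := by
    by_contra h
    push Not at h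
    have hle := beta_le_centralizer hG hH hSc hSH hPH hPc hPN hSP hcopS (fun hb => hpH.2.1 (alpha_subset_sigma hG hH hb.1))
      (hSβ hβH) (fun x hx hxo hxP => absurd hxP (h x hx hxo))
    refine hne.symm ((hH.le_iff.mp ?_).resolve_left hM.1 |>.symm)
    rw [← coatom_eq_normalizer_sup_beta hG hH hqH S hSH]
    exact sup_le (inf_le_right.trans hNM) ((hle.trans (centralizer_le_normalizer _)).trans hNM)
  haveI := Fact.mk hyo
  have hVH := fixed_beta_le hG hM hH hnc hE hEH hpM hpH hPE hPc (q := orderOf y) hy hyP rfl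
  have hle := beta_le_centralizer hG hM hSc hSM hPM hPc hPN hSP hcopS (fun hb => hpM.2.1 (alpha_subset_sigma hG hM hb.1))
    (hSβ hβM) fun x hx hxo hxP => mem_centralizer_iff.mpr fun s hs => by
      have hxH : x ∈ H := hVH ⟨hx, hxP⟩
      have hsσ := pgroup_le_sigmaCore hG hH hqH S.2 hSH hs
      have h1 : ⁅x, s⁆ ∈ piCoreOf (beta M) M ⊓ sigmaCore H := by
        refine ⟨?_, ?_⟩
        · rw [show ⁅x, s⁆ = x * (s * x⁻¹ * s⁻¹) by group]
          exact mul_mem hx ((mem_normalizer_iff.mp (OddLocal.le_normalizer_piCoreOf _ M (hSM hs)) _).mp (inv_mem hx))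
        · rw [commutatorElement_def]
          exact (sigmaCore H).mul_mem ((mem_normalizer_iff.mp (OddLocal.le_normalizer_piCoreOf _ H hxH) _).mp hsσ)
            ((sigmaCore H).inv_mem hsσ)
      rw [Coprime.inf_eq_bot_of_coprime (A := piCoreOf (beta M) M) (N := sigmaCore H) (Nat.coprime_of_dvd fun r hr h1 h2 =>
        not_beta_of_not_conj hG hH hM hnc' (OddLocal.piCoreOf_isPi (sigma H) H r hr h2)
          (OddLocal.piCoreOf_isPi (beta M) M r hr h1)), mem_bot] at h1
      exact (commutatorElement_eq_one_iff_mul_comm.mp h1).symm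
  refine hne ((hM.le_iff.mp ?_).resolve_left hH.1).symm
  rw [← coatom_eq_normalizer_sup_beta hG hM hqM S hSM]
  exact sup_le (inf_le_right.trans hNH) ((hle.trans (centralizer_le_normalizer _)).trans hNH)

end Cfsg.Agent.Lib.Uniq
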