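import Cfsg.Agent.Lib.Uniq.KappaMain
import Cfsg.Agent.S1432
import Cfsg.Agent.S1378
set_option autoImplicit false

/-! BG 14.4, 14.8: the covering of `G#` by the sets `M̃` and the conjugates of `Ẑ`. -/

namespace Cfsg.Agent.Lib.Uniq

open Subgroup
open scoped Pointwise commutatorElement

universe u

variable {G : Type u} [Group G] [Finite G] {M N A B J K L : Subgroup G} {π : Set ℕ}

/-- Some `M̃` contains the element. -/
def InTilde (g : G) : Prop :=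
  ∃ L : Subgroup G, IsCoatom L ∧ g ∈ tildeOf L ((sigmaCore L : Set G) \ {1})

omit [Finite G] in
theorem InTilde.conj {g : G} (h : InTilde g) (y : G) : InTilde (y * g * y⁻¹) := by
  obtain ⟨L, hL, a, ha, r, hr, z, rfl⟩ := h
  exact ⟨L, hL, a, ha, r, hr, y * z, by group⟩

omit [Finite G] in
theorem InTilde.of_conj {g : G} {y : G} (h : InTilde (y * g * y⁻¹)) : InTilde g := by
  have h' := h.conj y⁻¹
  rwa [show y⁻¹ * (y * g * y⁻¹) * y⁻¹⁻¹ = g by group] at h'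

/-- The two parts of an element. -/
theorem exists_pi_parts (π : Set ℕ) (z : G) :
    ∃ a b : G, a ∈ zpowers z ∧ b ∈ zpowers z ∧ z = a * b ∧ PiElem π a ∧ PiElem πᶜ b := by
  obtain ⟨a, b, hab, ha, hb⟩ : ∃ a b : ℕ, orderOf z = a * b ∧ (∀ p : ℕ, p.Prime → p ∣ a → p ∈ π) ∧
      ∀ p : ℕ, p.Prime → p ∣ b → p ∉ π := by
    have key : ∀ n : ℕ, n ≠ 0 → ∃ a b : ℕ, n = a * b ∧ (∀ p : ℕ, p.Prime → p ∣ a → p ∈ π) ∧
        ∀ p : ℕ, p.Prime → p ∣ b → p ∉ π := by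
      intro n
      induction n using Nat.recOnMul with
      | zero => intro h; exact absurd rfl h
      | one => exact fun _ => ⟨1, 1, rfl, fun p hp hd => absurd hd hp.not_dvd_one, fun p hp hd => absurd hd hp.not_dvd_one⟩
      | prime q hq =>
        intro _
        by_cases hqπ : q ∈ π
        · exact ⟨q, 1, (mul_one q).symm, fun p hp hd => (Nat.prime_dvd_prime_iff_eq hp hq).mp hd ▸ hqπ,
            fun p hp hd => absurd hd hp.not_dvd_one⟩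
        · exact ⟨1, q, (one_mul q).symm, fun p hp hd => absurd hd hp.not_dvd_one,
            fun p hp hd => (Nat.prime_dvd_prime_iff_eq hp hq).mp hd ▸ hqπ⟩
      | mul m n ihm ihn =>
        intro h
        obtain ⟨a, b, rfl, ha, hb⟩ := ihm (left_ne_zero_of_mul h)
        obtain ⟨c, d, rfl, hc, hd⟩ := ihn (right_ne_zero_of_mul h)
        exact ⟨a * c, b * d, mul_mul_mul_comm a b c d, fun p hp h' => (hp.dvd_mul.mp h').elim (ha p hp) (hc p hp),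
          fun p hp h' => (hp.dvd_mul.mp h').elim (hb p hp) (hd p hp)⟩
    exact key _ (orderOf_pos z).ne'
  obtain ⟨n, h1, h2⟩ := OddLocal.Signalizer.exists_exponent (G := G)
    (Nat.coprime_of_dvd fun p hp h h' => hb p hp h' (ha p hp h))
  have hz : z ^ (a * b) = 1 := hab ▸ pow_orderOf_eq_one z
  refine ⟨z ^ n, (z ^ n)⁻¹ * z, pow_mem (mem_zpowers z) n, mul_mem (inv_mem (pow_mem (mem_zpowers z) n)) (mem_zpowers z),
    (mul_inv_cancel_left _ _).symm, fun p hp hd => ha p hp (hd.trans (orderOf_dvd_of_pow_eq_one ?_)),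
    fun p hp hd => hb p hp (hd.trans (orderOf_dvd_of_pow_eq_one ?_))⟩
  · rw [← pow_mul, mul_comm, pow_mul, h2 (z ^ a) (by rw [← pow_mul, hz])]
  · rw [((Commute.pow_self z n).inv_left).mul_pow, inv_pow, ← pow_mul, mul_comm n, pow_mul,
      h1 (z ^ b) (by rw [← pow_mul, mul_comm, hz]), inv_mul_cancel]

/-- `R(x)` for a given maximal subgroup over `C_G(x)`. -/
theorem supportR_eq (hG : IsMinSimpleOddOrder G) (hM : IsCoatom M) {x : G} (hx : x ∈ sigmaCore M) (hx1 : x ≠ 1)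
    (hne : ¬ centralizer ({x} : Set G) ≤ M) (hN : IsCoatom N) (hCN : centralizer ({x} : Set G) ≤ N) :
    supportR M x = sigmaCore N ⊓ centralizer ({x} : Set G) := by
  obtain ⟨N', ⟨hN', hCN'⟩, huniq, -, hNF, -⟩ :=
    OddLocal.Support.support_data hG (hdisj hG) (h30 hG) hM hx hx1 hne
  obtain rfl := huniq N hN hCN
  have hex : ¬ centralizer ({x} : Set G) ≤ M ∧ ∃! L : Subgroup G, IsCoatom L ∧ centralizer ({x} : Set G) ≤ L :=
    ⟨hne, N, ⟨hN, hCN⟩, fun L hL => huniq L hL.1 hL.2⟩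
  rw [supportR, dif_pos hex]
  obtain ⟨h1, h2⟩ := Classical.choose_spec hex.2.exists
  rw [huniq _ h1 h2, hNF]

/-- A `τ₂`-element centralising an element of `M_σ` gives a point of some `L̃`. -/
theorem inTilde_of_tau_two (hG : IsMinSimpleOddOrder G) {x b : G} (hx : x ∈ sigmaCore M)
    (hb : b ∈ M ⊓ centralizer ({x} : Set G)) (hb1 : b ≠ 1) (hbσ : PiElem (sigma M)ᶜ b)
    (h : (∃ L : Subgroup G, IsCoatom L ∧ ∀ p : ℕ, p.Prime → p ∣ orderOf b → p ∈ sigma L) ∧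
      centralizer ({b} : Set G) ≤ M ∧ ∀ L : Subgroup G, IsCoatom L → centralizer ({b} : Set G) ≤ L → L = M)
    (hM : IsCoatom M) : InTilde (x * b) := by
  obtain ⟨⟨L, hL, hLσ⟩, hCM, huniq⟩ := h
  obtain ⟨y, hy⟩ := exists_conj_le_sigmaCore hG hL (Y := zpowers b) (zpowers_ne_bot.mpr hb1)
    (fun r hr hd => hLσ r hr (Nat.card_zpowers b ▸ hd))
  have hyb : y * b * y⁻¹ ∈ sigmaCore L := hy (smul_mem_pointwise_smul _ (MulAut.conj y) _ (mem_zpowers b))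
  have hbL := conj_mem_sigmaCore hG hL hyb y⁻¹
  rw [show y⁻¹ * (y * b * y⁻¹) * y⁻¹⁻¹ = b by group] at hbL
  have hL' := coatom_smul y⁻¹ hL
  have hne : ¬ centralizer ({b} : Set G) ≤ MulAut.conj y⁻¹ • L := fun h' => by
    obtain ⟨p, hp, hd⟩ := Nat.exists_prime_and_dvd (fun e => hb1 (orderOf_eq_one_iff.mp e))
    exact hbσ p hp hd (huniq _ hL' h' ▸ PiElem.of_sigmaCore hbL p hp hd)
  have hxb : x * b = b * x := (mem_centralizer_singleton_iff.mp hb.2).symm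
  refine ⟨_, hL', b, ⟨hbL, hb1⟩, x, ?_, 1, by rw [one_mul, inv_one, mul_one, hxb]⟩
  rw [supportR_eq hG hL' hbL hb1 hne hM hCM]
  exact ⟨hx, mem_centralizer_singleton_iff.mpr hxb⟩

/-- Every element is in some `M̃`, or is a commuting product of an element of `M_σ` and a `κ(M)`-element. -/
theorem tilde_or_kappa (hG : IsMinSimpleOddOrder G) {g : G} (hg : g ≠ 1) :
    InTilde g ∨ ∃ (y : G) (M : Subgroup G) (x b : G), IsCoatom M ∧ x ∈ sigmaCore M ∧ x ≠ 1 ∧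
      b ∈ M ⊓ centralizer ({x} : Set G) ∧ b ≠ 1 ∧ PiElem (sigma M)ᶜ b ∧ PiElem (kappa M) b ∧
      y * g * y⁻¹ = x * b := by
  obtain ⟨t, ht, htd⟩ := Nat.exists_prime_and_dvd (fun e => hg (orderOf_eq_one_iff.mp e))
  obtain ⟨M, hM, htM⟩ := (S1378.result hG).1 t ht (htd.trans (orderOf_dvd_natCard g))
  obtain ⟨x₀, x₀', hx₀g, hx₀'g, hgx, hx₀σ, hx₀'σ⟩ := exists_pi_parts (sigma M) g
  have hc₀ : Commute x₀ x₀' := by
    obtain ⟨i, rfl⟩ := hx₀g; obtain ⟨j, rfl⟩ := hx₀'g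
    exact (Commute.refl g).zpow_zpow i j
  have hx₀1 : x₀ ≠ 1 := fun e => hx₀'σ t ht (by rwa [hgx, e, one_mul] at htd) htM
  obtain ⟨y, hy⟩ := exists_conj_le_sigmaCore hG hM (Y := zpowers x₀) (zpowers_ne_bot.mpr hx₀1)
    (fun r hr hd => hx₀σ r hr (Nat.card_zpowers x₀ ▸ hd))
  set x := y * x₀ * y⁻¹ with hxdef
  set x' := y * x₀' * y⁻¹ with hx'def
  have hx : x ∈ sigmaCore M := hy (smul_mem_pointwise_smul _ (MulAut.conj y) _ (mem_zpowers x₀))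
  have hx1 : x ≠ 1 := fun e => hx₀1 (conj_eq_one_iff.mp e)
  have hg' : y * g * y⁻¹ = x * x' := by rw [hgx, hxdef, hx'def]; group
  have hc : Commute x x' := by
    have := hc₀.map (MulAut.conj y).toMonoidHom
    simpa [hxdef, hx'def] using this
  have hx'σ : PiElem (sigma M)ᶜ x' := hx₀'σ.conj y
  have hx'C : x' ∈ centralizer ({x} : Set G) := mem_centralizer_singleton_iff.mpr hc.symm.eq
  rcases eq_or_ne x' 1 with hx'1 | hx'1
  · refine Or.inl (InTilde.of_conj (y := y) ⟨M, hM, x, ⟨hx, hx1⟩, 1, one_mem _, 1, ?_⟩)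
    rw [hg', hx'1]; group
  by_cases hne : centralizer ({x} : Set G) ≤ M
  · rcases S1432.result hG M hM x hx hx1 x' ⟨hne hx'C, hx'C⟩ hx'1 hx'σ with ⟨hκ, -⟩ | ⟨-, h2⟩
    · exact Or.inr ⟨y, M, x, x', hM, hx, hx1, ⟨hne hx'C, hx'C⟩, hx'1, hx'σ, hκ, hg'⟩
    · refine Or.inl (InTilde.of_conj (y := y) ?_)
      rw [hg']
      exact inTilde_of_tau_two hG hx ⟨hne hx'C, hx'C⟩ hx'1 hx'σ h2 hM
  refine Or.inl ?_
  obtain ⟨N, ⟨hN, hCN⟩, huniq, -, -, hRn, hcomp, -, hpτ⟩ :=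
    OddLocal.Support.support_data hG (hdisj hG) (h30 hG) hM hx hx1 hne
  obtain ⟨r, b, hr, hb, hrb, hrσ, hbσ⟩ := exists_pi_parts (sigma N) x'
  have hrC : r ∈ centralizer ({x} : Set G) := zpowers_le.mpr hx'C hr
  have hbC : b ∈ centralizer ({x} : Set G) := zpowers_le.mpr hx'C hb
  -- conjugate `b` into `M` under `C(x)`
  set C := centralizer ({x} : Set G) with hC
  have hCtop : C ≠ ⊤ := fun e => hN.1 (top_le_iff.mp (e ▸ hCN))
  haveI := solvable_of_ne_top hG hCtop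
  have hsup : (M ⊓ C) ⊔ (sigmaCore N ⊓ C) = C := le_antisymm (sup_le hcomp.1 hcomp.2.1) fun z hz => by
    obtain ⟨a, ha, c, hc, rfl⟩ := hcomp.2.2.2 z hz
    exact mul_mem (mem_sup_left ha) (mem_sup_right hc)
  have hidx : (M ⊓ C).relIndex C = Nat.card ↥(sigmaCore N ⊓ C) := by
    have h := Coprime.card_sup_mul_card_inf_of_le_normalizer (A := M ⊓ C) (N := sigmaCore N ⊓ C)
      (inf_le_right.trans hRn)
    rw [hsup, hcomp.2.2.1, card_bot, mul_one, ← Hall.card_mul_relIndex' (inf_le_right : M ⊓ C ≤ C)] at h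
    exact Nat.eq_of_mul_eq_mul_left Nat.card_pos h
  have hcop := (OddLocal.Support.centralizer_complement hG (hdisj hG) (h30 hG) hM hx hx1).1
  obtain ⟨c, hcb⟩ := Hall.exists_le_conj (H := (M ⊓ C).subgroupOf C) (by
    rw [Coprime.card_subgroupOf (inf_le_right : M ⊓ C ≤ C)]; exact hcop) (K := zpowers (⟨b, hbC⟩ : C)) (by
    rw [Nat.card_zpowers, Subgroup.orderOf_mk]
    refine Nat.coprime_of_dvd fun p hp h1 h2 => hbσ p hp h1 ?_
    exact OddLocal.piCoreOf_isPi (sigma N) N p hp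
      ((h2.trans (dvd_of_eq hidx)).trans (card_dvd_of_le inf_le_left)))
  obtain ⟨w, hw, hwb⟩ := hcb (mem_zpowers _)
  set d := (c : G)⁻¹ with hd
  have hwb' : (c : G) * (w : G) * (c : G)⁻¹ = b := congrArg Subtype.val hwb
  have hb₁ : d * b * d⁻¹ ∈ M ⊓ C := by
    rw [hd, ← hwb', inv_inv, show (c : G)⁻¹ * ((c : G) * w * (c : G)⁻¹) * c = w by group]
    exact hw
  have hdx : d * x * d⁻¹ = x := by
    rw [hd, inv_inv, mul_assoc, (mem_centralizer_singleton_iff.mp c.2).symm, inv_mul_cancel_left]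
  have hdC : d ∈ C := C.inv_mem c.2
  set b₁ := d * b * d⁻¹ with hb₁def
  set r₁ := d * r * d⁻¹ with hr₁def
  have hr₁C : r₁ ∈ C := C.mul_mem (C.mul_mem hdC hrC) (C.inv_mem hdC)
  have hr₁σ : r₁ ∈ sigmaCore N := le_sigmaCore hG hN (Y := zpowers r₁) (zpowers_le.mpr (hCN hr₁C))
    (fun p hp hd' => hrσ.conj d p hp (Nat.card_zpowers r₁ ▸ hd')) (mem_zpowers _)
  have hgd : d * (y * g * y⁻¹) * d⁻¹ = x * (r₁ * b₁) := by
    rw [hg', hrb, show d * (x * (r * b)) * d⁻¹ = d * x * d⁻¹ * (r₁ * b₁) by rw [hr₁def, hb₁def]; group, hdx]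
  refine InTilde.of_conj (y := y) (InTilde.of_conj (y := d) ?_)
  rw [hgd]
  rcases eq_or_ne b₁ 1 with hb1 | hb1
  · refine ⟨M, hM, x, ⟨hx, hx1⟩, r₁, ?_, 1, by rw [hb1]; group⟩
    rw [supportR_eq hG hM hx hx1 hne hN hCN]
    exact ⟨hr₁σ, hr₁C⟩
  have hb₁σ : PiElem (sigma M)ᶜ b₁ := by
    refine PiElem.conj (fun p hp hd' => hx'σ p hp (hd'.trans ?_)) d
    exact orderOf_dvd_of_mem_zpowers hb
  rcases S1432.result hG M hM x hx hx1 b₁ hb₁ hb1 hb₁σ with ⟨-, hle⟩ | ⟨-, h2⟩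
  · exact absurd hle hne
  rcases eq_or_ne r₁ 1 with hr1 | hr1
  · rw [hr1, one_mul]
    exact inTilde_of_tau_two hG hx hb₁ hb1 hb₁σ h2 hM
  exfalso
  have hxb : Commute x b₁ := (show x * b₁ = b₁ * x from (mem_centralizer_singleton_iff.mp hb₁.2).symm)
  have hxr : Commute x r₁ := (show x * r₁ = r₁ * x from (mem_centralizer_singleton_iff.mp hr₁C).symm)
  have hrb₁ : Commute r₁ b₁ := by
    obtain ⟨i, hi⟩ := hr; obtain ⟨j, hj⟩ := hb
    have h := (((Commute.refl x').zpow_zpow i j).map (MulAut.conj d).toMonoidHom)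
    simp only [MulEquiv.coe_toMonoidHom, MulAut.conj_apply] at h
    rw [show x' ^ i = r from hi, show x' ^ j = b from hj] at h
    exact h
  have hxσ' : PiElem (sigma M) x := PiElem.of_sigmaCore hx
  obtain ⟨n, hn, -⟩ := part_pow hxb hxb hxσ' hxσ' hb₁σ hb₁σ
  have hxdvd : orderOf x ∣ orderOf (x * b₁) := by
    conv_lhs => rw [← hn]
    exact orderOf_pow_dvd n
  have hxb1 : x * b₁ ≠ 1 := fun e => hx1 (orderOf_eq_one_iff.mp (Nat.dvd_one.mp (by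
    rwa [e, orderOf_one] at hxdvd)))
  have hxbσ : ∀ p : ℕ, p.Prime → p ∣ orderOf (x * b₁) → p ∉ sigma N := fun p hp hd' => by
    rcases hp.dvd_mul.mp (hd'.trans hxb.orderOf_mul_dvd_mul_orderOf) with h' | h'
    · exact (hpτ p hp h').1.2.1
    · exact hbσ.conj d p hp h'
  have hmem : x * b₁ ∈ N ⊓ centralizer ({r₁} : Set G) := ⟨N.mul_mem (hCN (mem_centralizer_singleton_iff.mpr rfl))
    (hCN hb₁.2), mem_centralizer_singleton_iff.mpr (hxr.mul_left hrb₁.symm).eq⟩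
  obtain ⟨q, hq, hqd⟩ := Nat.exists_prime_and_dvd (fun e => hx1 (orderOf_eq_one_iff.mp e))
  rcases S1432.result hG N hN r₁ hr₁σ hr1 (x * b₁) hmem hxb1 hxbσ with ⟨hκ, -⟩ | ⟨-, ⟨L, hL, hLσ⟩, -⟩
  · exact (hpτ q hq hqd).2 (hκ q hq (hqd.trans hxdvd))
  · obtain ⟨a, ha⟩ := conj_of_sigma_sigma hG hM hL (hxσ' q hq hqd) (hLσ q hq (hqd.trans hxdvd))
    obtain ⟨p, hp, hpd⟩ := Nat.exists_prime_and_dvd (fun e => hb1 (orderOf_eq_one_iff.mp e))
    have hbdvd : orderOf b₁ ∣ orderOf (x * b₁) := by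
      refine orderOf_dvd_of_mem_zpowers ?_
      have h := mul_mem (inv_mem (pow_mem (mem_zpowers (x * b₁)) n)) (mem_zpowers (x * b₁))
      rwa [hn, inv_mul_cancel_left] at h
    exact hb₁σ p hp hpd ((sigma_conj_iff hG hM a).mp (ha ▸ hLσ p hp (hpd.trans hbdvd)))

/-- A product `x b` in a member of a pair, conjugate into `Ẑ`. -/
theorem IsKappaPair.tilde_or_zHat (hG : IsMinSimpleOddOrder G) (h : IsKappaPair A J B) {c : G}
    (hMc : M = MulAut.conj c • A) {x b : G} (hx : x ∈ sigmaCore M) (hx1 : x ≠ 1)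
    (hb : b ∈ M ⊓ centralizer ({x} : Set G)) (hb1 : b ≠ 1) (hbσ : PiElem (sigma M)ᶜ b) :
    InTilde (x * b) ∨ ∃ y : G, y * (x * b) * y⁻¹ ∈
      (↑(J ⊔ (sigmaCore A ⊓ centralizer (J : Set G))) : Set G) \ ((J : Set G) ∪ ↑(sigmaCore A ⊓ centralizer (J : Set G))) := by
  have hA := h.coatomM
  have hAM : A = MulAut.conj c⁻¹ • M := by rw [hMc, map_inv, inv_smul_smul]
  have hMc' : IsCoatom M := hMc ▸ coatom_smul c hA
  set x₁ := c⁻¹ * x * c with hx₁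
  set b₁ := c⁻¹ * b * c with hb₁
  have hx₁σ : x₁ ∈ sigmaCore A := by
    have h1 := conj_mem_sigmaCore hG hMc' hx c⁻¹
    rwa [← hAM, inv_inv] at h1
  have hx₁1 : x₁ ≠ 1 := fun e => hx1 (conj_eq_one_iff.mp (show c⁻¹ * x * c⁻¹⁻¹ = 1 by rwa [inv_inv]))
  have hb₁1 : b₁ ≠ 1 := fun e => hb1 (conj_eq_one_iff.mp (show c⁻¹ * b * c⁻¹⁻¹ = 1 by rwa [inv_inv]))
  have hbA : b₁ ∈ A := by
    rw [hAM, Coprime.mem_conj_smul]
    rw [show c⁻¹⁻¹ * b₁ * c⁻¹ = b by rw [hb₁]; group]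
    exact hb.1
  have hbC : b₁ ∈ centralizer ({x₁} : Set G) := mem_centralizer_singleton_iff.mpr (by
    rw [hb₁, hx₁, show c⁻¹ * b * c * (c⁻¹ * x * c) = c⁻¹ * (b * x) * c by group,
      mem_centralizer_singleton_iff.mp hb.2]
    group)
  have hbσ₁ : ∀ p : ℕ, p.Prime → p ∣ orderOf b₁ → p ∉ sigma A := fun p hp hd hσ => by
    rw [hb₁, show c⁻¹ * b * c = c⁻¹ * b * c⁻¹⁻¹ by group,
      show c⁻¹ * b * c⁻¹⁻¹ = MulAut.conj c⁻¹ b from rfl, MulEquiv.orderOf_eq] at hd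
    exact hbσ p hp hd (by rw [hMc]; exact (sigma_conj_iff hG hA c).mpr hσ)
  rcases S1432.result hG A hA x₁ hx₁σ hx₁1 b₁ ⟨hbA, hbC⟩ hb₁1 hbσ₁ with ⟨hκ, -⟩ | ⟨-, h2⟩
  swap
  · refine Or.inl (InTilde.of_conj (y := c⁻¹) ?_)
    rw [show c⁻¹ * (x * b) * c⁻¹⁻¹ = x₁ * b₁ by rw [hx₁, hb₁]; group]
    exact inTilde_of_tau_two hG hx₁σ ⟨hbA, hbC⟩ hb₁1 hbσ₁ h2 hA
  refine Or.inr ?_
  haveI := solvable_of_ne_top hG hA.1
  obtain ⟨m, hm⟩ := Hall.exists_le_conj (H := J.subgroupOf A) (by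
    rw [Coprime.card_subgroupOf h.hallM.1]
    exact Nat.coprime_of_dvd fun p hp h1 h2 => h.hallM.2.2 p hp (h.hallM.2.1 p hp h1) h2)
    (K := zpowers (⟨b₁, hbA⟩ : A)) (by
    rw [Nat.card_zpowers, Subgroup.orderOf_mk]
    exact Nat.coprime_of_dvd fun p hp h1 h2 => h.hallM.2.2 p hp (hκ p hp h1) h2)
  obtain ⟨w, hw, hwb⟩ := hm (mem_zpowers _)
  have hwb' : (m : G) * (w : G) * (m : G)⁻¹ = b₁ := congrArg Subtype.val hwb
  set d := (m : G)⁻¹ with hd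
  have hwd : d * b₁ * d⁻¹ = w := by rw [← hwb', hd]; group
  set x₂ := d * x₁ * d⁻¹ with hx₂
  have hx₂σ : x₂ ∈ sigmaCore A :=
    (mem_normalizer_iff.mp (OddLocal.le_normalizer_piCoreOf (sigma A) A (A.inv_mem m.2)) x₁).mp hx₁σ
  have hx₂1 : x₂ ≠ 1 := fun e => hx₁1 (conj_eq_one_iff.mp e)
  have hw1 : (w : G) ≠ 1 := fun e => hb₁1 (by rw [← hwb', e, mul_one, hd, mul_inv_cancel])
  have hx₂S : x₂ ∈ sigmaCore A ⊓ centralizer (J : Set G) := by
    rw [← (kappa_structure hG hA h.hallM h.K_ne).1 w hw hw1]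
    refine ⟨hx₂σ, mem_centralizer_singleton_iff.mpr ?_⟩
    rw [← hwd, hx₂, show d * x₁ * d⁻¹ * (d * b₁ * d⁻¹) = d * (x₁ * b₁) * d⁻¹ by group,
      ← mem_centralizer_singleton_iff.mp hbC]
    group
  refine ⟨d * c⁻¹, ?_⟩
  have he : d * c⁻¹ * (x * b) * (d * c⁻¹)⁻¹ = x₂ * w := by rw [← hwd, hx₂, hx₁, hb₁]; group
  rw [he]
  refine ⟨mul_mem (mem_sup_right hx₂S) (mem_sup_left hw), ?_⟩
  have hbot : J ⊓ sigmaCore A = ⊥ := Coprime.inf_eq_bot_of_coprime (Nat.coprime_of_dvd fun p hp h1 h2 =>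
    (h.hallM.2.1 p hp h1).2.2.1 (OddLocal.piCoreOf_isPi (sigma A) A p hp h2))
  rintro (h' | h')
  · have : x₂ ∈ J ⊓ sigmaCore A := ⟨by simpa using J.mul_mem h' (J.inv_mem hw), hx₂σ⟩
    rw [hbot, mem_bot] at this
    exact hx₂1 this
  · have h'' : (w : G) ∈ sigmaCore A := by
      simpa using (sigmaCore A).mul_mem ((sigmaCore A).inv_mem hx₂σ) h'.1
    have : (w : G) ∈ J ⊓ sigmaCore A := ⟨hw, h''⟩
    rw [hbot, mem_bot] at this
    exact hw1 this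

/-- BG 14.8: the covering. -/
theorem IsKappaPair.covering (hG : IsMinSimpleOddOrder G) (h : IsKappaPair M K N) {g : G} (hg : g ≠ 1) :
    InTilde g ∨ ∃ y : G, ∃ z ∈ ((↑(K ⊔ (sigmaCore M ⊓ centralizer (K : Set G))) : Set G) \
      ((K : Set G) ∪ ↑(sigmaCore M ⊓ centralizer (K : Set G)))), g = y * z * y⁻¹ := by
  rcases tilde_or_kappa hG hg with h' | ⟨y, A, x, b, hA, hx, hx1, hb, hb1, hbσ, hbκ, he⟩
  · exact Or.inl h'
  obtain ⟨J, hJ, hbJ⟩ := OddLocal.SigmaPrimeElem.exists_kappa_hall hG hA hb.1 hbκ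
  obtain ⟨L, hL⟩ := exists_pair hG hA hJ fun e => hb1 (by rw [e] at hbJ; exact mem_bot.mp hbJ)
  have back : ∀ {w : G}, (∃ u : G, u * (x * b) * u⁻¹ = w) → ∃ v : G, g = v * w * v⁻¹ := by
    rintro w ⟨u, rfl⟩
    exact ⟨y⁻¹ * u⁻¹, by rw [← he]; group⟩
  obtain ⟨c, hc | hc⟩ := h.exists_conj hG hL
  · rcases h.tilde_or_zHat hG hc hx hx1 hb hb1 hbσ with h' | ⟨u, hu⟩
    · exact Or.inl (InTilde.of_conj (y := y) (he ▸ h'))
    · obtain ⟨v, hv⟩ := back ⟨u, rfl⟩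
      exact Or.inr ⟨v, _, hu, hv⟩
  · rcases (h.symm hG).tilde_or_zHat hG hc hx hx1 hb hb1 hbσ with h' | ⟨u, hu⟩
    · exact Or.inl (InTilde.of_conj (y := y) (he ▸ h'))
    · obtain ⟨v, hv⟩ := back ⟨u, rfl⟩
      rw [h.fixed, sup_comm, Set.union_comm] at hu
      exact Or.inr ⟨v, _, hu, hv⟩

end Cfsg.Agent.Lib.Uniq
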