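import Cfsg.Agent.Lib.Uniq.Fitting
import Cfsg.Agent.Lib.Uniq.Alperin
set_option autoImplicit false

/-! BG 9.4: abelian subgroups of rank 3 when a Fitting subgroup has rank 3. -/

namespace Cfsg.Agent.Lib.Uniq

open Subgroup
open scoped Pointwise commutatorElement
open Cfsg.Agent.Lib.OddLocal

variable {G : Type*} [Group G] [Finite G] {p : ℕ} [hp : Fact p.Prime]

lemma not_pRankLE_mono {X Y : Subgroup G} {k : ℕ} (h : X ≤ Y) (hX : ¬ PRankLE p k X) :
    ¬ PRankLE p k Y := by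
  obtain ⟨E, hEX, hE, hEc⟩ := elem_of_not_pRankLE hX
  exact not_pRankLE_of_elem (hEX.trans h) hE (hEc ▸ Nat.pow_lt_pow_right hp.out.one_lt (Nat.lt_succ_self k))

omit [Finite G] hp in
lemma pRankLE_succ [Fact p.Prime] {X : Subgroup G} {k : ℕ} (h : PRankLE p k X) : PRankLE p (k + 1) X :=
  fun E hE hEp => (h E hE hEp).trans (Nat.pow_le_pow_right (Fact.out : p.Prime).pos (Nat.le_succ k))

lemma ne_two_of_rank (hG : IsMinSimpleOddOrder G) {X : Subgroup G} {k : ℕ} (h : ¬ PRankLE p k X) :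
    p ≠ 2 := by
  obtain ⟨E, -, hE, hEc⟩ := elem_of_not_pRankLE h
  refine ne_two_of_pgroup hG (elem_isPGroup hE) fun e => ?_
  rw [e, card_bot] at hEc
  exact (Nat.one_lt_pow (Nat.succ_ne_zero k) hp.out.one_lt).ne hEc

lemma goodSylow_of_rank (hG : IsMinSimpleOddOrder G) {X : Subgroup G} (hr : ¬ PRankLE p 2 X)
    (P : Sylow p G) : GoodSylow P := by
  obtain ⟨E, hEX, hE, hEc⟩ := elem_of_not_pRankLE hr
  obtain ⟨Q, hQ⟩ := (elem_isPGroup hE).exists_le_sylow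
  obtain ⟨A, hA, hA3⟩ := exists_scn_three' (ne_two_of_rank hG hr) Q.2
    (not_pRankLE_of_elem hQ hE (hEc ▸ Nat.pow_lt_pow_right hp.out.one_lt (by norm_num)))
  exact goodSylow_of_scn hA hA3 P

lemma not_isCyclic_two (hp2 : p ≠ 2) {B : Subgroup G} (hB : IsPGroup p B) (hnc : ¬ IsCyclic B) :
    ¬ PRankLE p 1 B := by
  obtain ⟨U, hUB, -, hU, hUc, -, -⟩ := exists_normal_pair hp2 hB hnc
  exact not_pRankLE_one hUB hU hUc.ge

/-- BG 9.3 without side condition. -/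
theorem unique_of_rank_three' (hG : IsMinSimpleOddOrder G) {A B : Subgroup G} (hAp : IsPGroup p A)
    (hAc : IsMulCommutative A) (hA3 : ¬ PRankLE p 2 A) (hAU : InUniqueMaximal A)
    (hB2 : ¬ PRankLE p 1 B) (hB3 : ¬ PRankLE p 2 ↥(centralizer (B : Set G))) : InUniqueMaximal B :=
  unique_of_rank_three hG hAp hAc hA3 hAU hB2 hB3 (goodSylow_of_rank hG hA3)

/-- BG 9.4. -/
theorem unique_of_fitting_rank (hG : IsMinSimpleOddOrder G) {M : Subgroup G} (hM : IsCoatom M)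
    (hF : ¬ PRankLE p 2 ↥(fittingOf M)) {A : Subgroup G} (hAp : IsPGroup p A)
    (hAc : IsMulCommutative A) (hA3 : ¬ PRankLE p 2 A) : InUniqueMaximal A := by
  have hgood := goodSylow_of_rank hG hA3
  obtain ⟨A₀, hA₀F, hA₀, hA₀c⟩ := elem_of_not_pRankLE hF
  have hA₀3 : ¬ PRankLE p 2 A₀ :=
    not_pRankLE_of_elem le_rfl hA₀ (hA₀c ▸ Nat.pow_lt_pow_right hp.out.one_lt (by norm_num))
  obtain ⟨B, hBp, hBc, hB3, hBU⟩ : ∃ B : Subgroup G, IsPGroup p B ∧ IsMulCommutative B ∧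
      ¬ PRankLE p 2 B ∧ InUniqueMaximal B := by
    by_cases hnp : IsPGroup p ↥(fittingOf M)
    · obtain ⟨S, hS⟩ := (elem_isPGroup hA₀).of_equiv
        (subgroupOfEquivOfLe (hA₀F.trans (fittingOf_le M))).symm |>.exists_le_sylow
      obtain ⟨T, hT⟩ : ∃ T : Subgroup G, T = (S : Subgroup M).map M.subtype := ⟨_, rfl⟩
      have hA₀T : A₀ ≤ T := by
        rw [hT, ← map_subgroupOf_eq_of_le (hA₀F.trans (fittingOf_le M))]
        exact map_mono hS
      obtain ⟨A', hA', hA'3⟩ := exists_scn_three' (ne_two_of_rank hG hF) (hT ▸ S.2.map _ : IsPGroup p T)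
        (not_pRankLE_mono hA₀T hA₀3)
      have hF1 : fittingOf M ≠ ⊥ := fun h => by
        rw [h, le_bot_iff] at hA₀F
        rw [hA₀F, card_bot] at hA₀c
        exact (Nat.one_lt_pow (by norm_num) hp.out.one_lt).ne hA₀c
      obtain ⟨hAF, hU⟩ := (fitting_pGroup hG hM hnp hF1 S).2 A' (hT ▸ hA') hA'3
      exact ⟨A', hnp.to_le hAF, le_centralizer_iff_isMulCommutative.mp (hA'.2.2.ge.trans inf_le_right),
        hA'3, hU⟩
    · have hU := unique_of_fitting hG hM hA₀F hA₀ hA₀c.ge hnp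
      refine ⟨A₀, elem_isPGroup hA₀, hA₀.1, hA₀3, ?_⟩
      refine unique_of_centralizes hG hU (le_centralizer_iff.mp inf_le_right)
        (fun h => hA₀3 (pRankLE_succ h)) hgood
  exact unique_of_rank_three' hG hBp hBc hB3 hBU (fun h => hA3 (pRankLE_succ h))
    (not_pRankLE_mono (comm_le_centralizer hAc) hA3)

end Cfsg.Agent.Lib.Uniq
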