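import Cfsg.Agent.Lib.Uniq.TauTwoRegular
set_option autoImplicit false

/-! Invariant homocyclic lifts of lines, for the abelian `τ₂`-case of BG 12.16. -/

namespace Cfsg.Agent.Lib.Uniq

open Subgroup
open scoped Pointwise commutatorElement

universe u

/-- For a periodic endomorphism of period prime to the group order, the fixed points and the image of
`x ↦ (τ x) x⁻¹` meet trivially and together give everything. -/
theorem periodic_fix_decomp {T : Type*} [CommGroup T] [Finite T] (τ : T →* T) {K : ℕ}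
    (hK : ∀ x, (⇑τ)^[K] x = x) (hco : K.Coprime (Nat.card T)) :
    (∀ x, τ (τ x * x⁻¹) = τ x * x⁻¹ → τ x = x) ∧
      ∀ t, ∃ c x, τ c = c ∧ t = c * (τ x * x⁻¹) := by
  have h1 : ∀ x, τ (τ x * x⁻¹) = τ x * x⁻¹ → τ x = x := by
    intro x hx
    set d := τ x * x⁻¹ with hd
    have hi : ∀ i : ℕ, (⇑τ)^[i] x = d ^ i * x := by
      intro i
      induction i with
      | zero => simp
      | succ i ih =>
        rw [Function.iterate_succ_apply', ih, map_mul, map_pow, hx, pow_succ, mul_assoc]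
        congr 1
        rw [hd, inv_mul_cancel_right]
    have h := hi K
    rw [hK] at h
    have hdK : d ^ K = 1 := right_eq_mul.mp h
    have hd1 : d = 1 := orderOf_eq_one_iff.mp
      (Nat.eq_one_of_dvd_coprimes hco (orderOf_dvd_of_pow_eq_one hdK) (_root_.orderOf_dvd_natCard d))
    rwa [hd, mul_inv_eq_one] at hd1
  refine ⟨h1, fun t => ?_⟩
  let F : {c : T // τ c = c} × Set.range (fun x : T => τ x * x⁻¹) → T := fun u => u.1.1 * u.2.1
  let δ : T →* T := τ * (MonoidHom.id T)⁻¹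
  have hδ : ∀ x, δ x = τ x * x⁻¹ := fun x => rfl
  have hker : ∀ c, c ∈ δ.ker ↔ τ c = c := fun c => by rw [MonoidHom.mem_ker, hδ, mul_inv_eq_one]
  have hdisj : Disjoint δ.ker δ.range := by
    rw [disjoint_def]
    rintro c hc ⟨x, rfl⟩
    rw [hker, hδ] at hc
    rw [hδ, mul_inv_eq_one]
    exact h1 x hc
  have hcard : Nat.card T ≤ Nat.card δ.ker * Nat.card δ.range :=
    le_of_eq (by rw [← Subgroup.index_ker, card_mul_index])
  obtain ⟨⟨c, ⟨d, hd⟩⟩, hu⟩ := (isComplement'_of_card_mul_and_disjoint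
    (le_antisymm (by rw [← Subgroup.index_ker, card_mul_index]) hcard) hdisj).2 t
  obtain ⟨x, hx⟩ := hd
  exact ⟨c, x, (hker _).mp c.2, by rw [← hδ, hx]; exact hu.symm⟩

/-- A periodic endomorphism of a finite abelian `p`-group centralising `Ω₁` is trivial. -/
theorem periodic_eq_id_of_omega {T : Type*} [CommGroup T] [Finite T] {p : ℕ} [hp : Fact p.Prime]
    (hT : IsPGroup p T) (τ : T →* T) {K : ℕ} (hK : ∀ x, (⇑τ)^[K] x = x) (hco : K.Coprime (Nat.card T))
    (hΩ : ∀ x, x ^ p = 1 → τ x = x) (x : T) : τ x = x := by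
  obtain ⟨h1, -⟩ := periodic_fix_decomp τ hK hco
  by_contra hne
  set d := τ x * x⁻¹ with hd
  have hd1 : d ≠ 1 := fun e => hne (mul_inv_eq_one.mp e)
  obtain ⟨k, hk⟩ := IsPGroup.iff_orderOf.mp hT d
  have hk0 : k ≠ 0 := fun e => hd1 (orderOf_eq_one_iff.mp (by rw [hk, e, pow_zero]))
  set y := x ^ p ^ (k - 1)
  have hy : τ y * y⁻¹ = d ^ p ^ (k - 1) := by rw [map_pow, ← inv_pow, ← mul_pow]
  have hp' : (d ^ p ^ (k - 1)) ^ p = 1 := by
    rw [← pow_mul, ← pow_succ, show k - 1 + 1 = k by omega, ← hk, pow_orderOf_eq_one]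
  have h := h1 y (by rw [hy]; exact hΩ _ hp')
  rw [h, mul_inv_cancel] at hy
  have := Nat.le_of_dvd (pow_pos hp.out.pos _) (hk ▸ orderOf_dvd_of_pow_eq_one hy.symm)
  exact (Nat.pow_lt_pow_right hp.out.one_lt (by omega : k - 1 < k)).not_ge this

/-- In an abelian `p`-group of rank two acted on by an abelian `p'`-group of automorphisms, an invariant line at
the bottom of an element of maximal order is the bottom of an invariant subgroup containing such an element. -/
theorem exists_invariant_lift {T : Type u} [CommGroup T] [Finite T] {p : ℕ} [hp : Fact p.Prime]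
    (hT : IsPGroup p T) {ι : Type*} (φ : ι → T ≃* T) (hco : ∀ i, (orderOf (φ i : MulAut T)).Coprime p)
    (hcomm : ∀ i j x, φ i (φ j x) = φ j (φ i x)) (hΩ : Nat.card {x : T // x ^ p = 1} = p ^ 2)
    {n : ℕ} (hexp : ∀ x : T, x ^ p ^ n = 1) {t : T} (ht : (t ^ p ^ (n - 1)) ^ p = 1) (ht1 : t ^ p ^ (n - 1) ≠ 1)
    (hinv : ∀ i, φ i (t ^ p ^ (n - 1)) ∈ zpowers (t ^ p ^ (n - 1))) :
    ∃ C : Subgroup T, (∀ i, ∀ x ∈ C, φ i x ∈ C) ∧ (∀ x ∈ C, x ^ p = 1 → x ∈ zpowers (t ^ p ^ (n - 1))) ∧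
      ∃ c ∈ C, orderOf c = p ^ n := by
  classical
  set v := t ^ p ^ (n - 1) with hv
  have hvo : orderOf v = p := orderOf_eq_prime ht ht1
  have hn0 : n ≠ 0 := fun e => ht1 (by
    have h := hexp t
    rw [e, pow_zero, pow_one] at h
    rw [hv, h, one_pow])
  have hord : ∀ c : T, c ^ p ^ (n - 1) ≠ 1 → orderOf c = p ^ n := fun c hc => by
    obtain ⟨k, rfl⟩ : ∃ k, n = k + 1 := Nat.exists_eq_succ_of_ne_zero hn0
    exact orderOf_eq_prime_pow (by simpa using hc) (hexp c)
  obtain ⟨j, hj⟩ := IsPGroup.iff_card.mp hT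
  -- twist each automorphism so that it fixes `v`
  have htw : ∀ i, ∃ μ K : ℕ, φ i v ^ μ = v ∧ K.Coprime (Nat.card T) ∧
      ∀ x, (⇑((powMonoidHom μ).comp (φ i).toMonoidHom))^[K] x = x := by
    intro i
    obtain ⟨a, ha⟩ := Submonoid.mem_powers_iff _ _ |>.mp (mem_powers_iff_mem_zpowers.mpr (hinv i))
    have hap : a.Coprime p := Nat.Coprime.symm (hp.out.coprime_iff_not_dvd.mpr fun ⟨b, hb⟩ => ht1 (by
      rw [hb, pow_mul, ht, one_pow] at ha
      exact (φ i).injective (ha.symm.trans (map_one _).symm)))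
    have hapn : a.Coprime (p ^ n) := hap.pow_right n
    obtain ⟨b, hb⟩ : ∃ b : ℕ, a * b ≡ 1 [MOD p] := by
      obtain ⟨b, -, hb⟩ := Nat.exists_mul_mod_eq_one_of_coprime hap hp.out.one_lt
      exact ⟨b, by rw [Nat.ModEq, hb, Nat.one_mod_eq_one.mpr hp.out.ne_one]⟩
    set μ := b ^ p ^ (n - 1)
    have hbp : b.Coprime p := by
      refine Nat.Coprime.symm (hp.out.coprime_iff_not_dvd.mpr fun ⟨c, hc⟩ => ?_)
      have h := hb
      rw [Nat.ModEq, hc, show a * (p * c) = p * (a * c) by ring, Nat.mul_mod_right,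
        Nat.one_mod_eq_one.mpr hp.out.ne_one] at h
      exact zero_ne_one h
    have hμb : μ ≡ b [MOD p] := by
      rw [← ZMod.natCast_eq_natCast_iff, Nat.cast_pow, ZMod.pow_card_pow]
    have hμn : μ ^ (p - 1) ≡ 1 [MOD p ^ n] := by
      rw [← pow_mul]
      have h := Nat.ModEq.pow_totient (hbp.pow_right n)
      rwa [Nat.totient_prime_pow hp.out (Nat.pos_of_ne_zero hn0)] at h
    refine ⟨μ, orderOf (φ i : MulAut T) * (p - 1), ?_, ?_, ?_⟩
    · rw [← ha, ← pow_mul]
      conv_rhs => rw [← pow_one v]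
      rw [pow_eq_pow_iff_modEq, hvo]
      exact (hμb.mul_left a).trans hb
    · rw [hj]
      refine Nat.Coprime.pow_right j ((hco i).mul_left (Nat.Coprime.symm (hp.out.coprime_iff_not_dvd.mpr
        fun h => ?_)))
      have h2 := hp.out.two_le
      have := Nat.le_of_dvd (show 0 < p - 1 by omega) h
      omega
    · intro x
      have hit : ∀ m y, (⇑((powMonoidHom μ).comp (φ i).toMonoidHom))^[m] y = ((φ i : MulAut T) ^ m) y ^ μ ^ m := by
        intro m
        induction m with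
        | zero => intro y; simp
        | succ m ih =>
          intro y
          rw [Function.iterate_succ_apply', ih, pow_succ' (φ i : MulAut T), pow_succ, pow_mul]
          simp [MulAut.mul_apply]
      rw [hit, pow_mul, pow_orderOf_eq_one, one_pow, MulAut.one_apply]
      conv_rhs => rw [← pow_one x]
      have h1 : μ ^ (orderOf (φ i : MulAut T) * (p - 1)) ≡ 1 [MOD p ^ n] := by
        rw [mul_comm, pow_mul]
        simpa using hμn.pow (orderOf (φ i : MulAut T))
      rw [pow_eq_pow_iff_modEq]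
      exact h1.of_dvd (orderOf_dvd_of_pow_eq_one (hexp x))
  choose μ K hμv hKco hKid using htw
  let τ : ι → T →* T := fun i => (powMonoidHom (μ i)).comp (φ i).toMonoidHom
  have hτ : ∀ i x, τ i x = φ i x ^ μ i := fun i x => rfl
  have hvfix : ∀ (i : ι) (m : ℤ), τ i (v ^ m) = v ^ m := fun i m => by rw [map_zpow, hτ, hμv]
  by_cases hall : ∀ i x, x ^ p = 1 → τ i x = x
  · -- every automorphism is a power map
    refine ⟨zpowers t, fun i x hx => ?_, fun x hx hxp => ?_, t, mem_zpowers t, hord t ht1⟩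
    · obtain ⟨m, rfl⟩ := mem_zpowers_iff.mp hx
      have h := periodic_eq_id_of_omega hT (τ i) (hKid i) (hKco i) (hall i) t
      rw [hτ] at h
      rw [map_zpow]
      refine zpow_mem ?_ m
      have ho : orderOf (φ i t) = orderOf t := (φ i).orderOf_eq t
      have hle : zpowers t ≤ zpowers (φ i t) := zpowers_le.mpr (mem_zpowers_iff.mpr ⟨μ i, by rw [zpow_natCast, h]⟩)
      exact (eq_of_le_of_card_ge hle (by rw [Nat.card_zpowers, Nat.card_zpowers, ho])).ge (mem_zpowers _)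
    · obtain ⟨m, rfl⟩ := Submonoid.mem_powers_iff _ _ |>.mp (mem_powers_iff_mem_zpowers.mpr hx)
      have hd : orderOf t ∣ m * p := orderOf_dvd_of_pow_eq_one (by rw [pow_mul, hxp])
      rw [hord t ht1, show p ^ n = p ^ (n - 1) * p by rw [← pow_succ, show n - 1 + 1 = n by omega]] at hd
      obtain ⟨r, rfl⟩ := Nat.dvd_of_mul_dvd_mul_right hp.out.pos hd
      exact mem_zpowers_iff.mpr ⟨r, by rw [zpow_natCast, hv, ← pow_mul]⟩
  push Not at hall
  obtain ⟨i₀, a₀, ha₀, hne⟩ := hall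
  obtain ⟨h1, h2⟩ := periodic_fix_decomp (τ i₀) (hKid i₀) (hKco i₀)
  let C : Subgroup T :=
    { carrier := {x | τ i₀ x = x}
      one_mem' := map_one _
      mul_mem' := fun {a b} (ha : τ i₀ a = a) (hb : τ i₀ b = b) =>
        show τ i₀ (a * b) = a * b by rw [map_mul, ha, hb]
      inv_mem' := fun {a} (ha : τ i₀ a = a) => show τ i₀ a⁻¹ = a⁻¹ by rw [map_inv, ha] }
  have hCmem : ∀ x, x ∈ C ↔ τ i₀ x = x := fun x => Iff.rfl
  refine ⟨C, fun i x hx => ?_, fun x hx hxp => ?_, ?_⟩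
  · rw [hCmem] at hx ⊢
    rw [hτ, hcomm, ← map_pow, ← hτ, hx]
  · let Ω : Subgroup T := (powMonoidHom p).ker
    have hΩc : Nat.card Ω = p ^ 2 := hΩ
    set Z := C ⊓ Ω
    have hvZ : zpowers v ≤ Z := zpowers_le.mpr
      ⟨by have := hvfix i₀ 1; rwa [zpow_one] at this, ht⟩
    have hlt : Z < Ω := lt_of_le_of_ne inf_le_right fun e =>
      hne ((e.ge (show a₀ ∈ Ω from ha₀)).1)
    obtain ⟨i, hi, hie⟩ := (Nat.dvd_prime_pow hp.out).mp (hΩc ▸ card_dvd_of_le (inf_le_right : Z ≤ Ω))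
    have hi2 : i ≠ 2 := fun e => hlt.ne (eq_of_le_of_card_ge inf_le_right (by rw [hie, e, hΩc]))
    have hZv : zpowers v = Z := eq_of_le_of_card_ge hvZ (by
      rw [hie, Nat.card_zpowers, hvo]
      exact (Nat.pow_le_pow_right hp.out.pos (by omega : i ≤ 1)).trans (pow_one p).le)
    exact hZv.ge ⟨hx, hxp⟩
  · obtain ⟨c, x, hc, htc⟩ := h2 t
    refine ⟨c, hc, hord c fun hc1 => ?_⟩
    set y := x ^ p ^ (n - 1)
    have hy : τ i₀ y * y⁻¹ = v := by
      rw [hv, htc, mul_pow, hc1, one_mul, map_pow, ← inv_pow, ← mul_pow]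
    have h := h1 y (by rw [hy]; simpa using hvfix i₀ 1)
    rw [h, mul_inv_cancel] at hy
    exact ht1 hy.symm

end Cfsg.Agent.Lib.Uniq
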