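import Cfsg.Agent.Lib.Uniq.RegularLift
set_option autoImplicit false

/-! The `τ₂`-parts of the regular subgroup of BG 12.16. -/

namespace Cfsg.Agent.Lib.Uniq

open Subgroup
open scoped Pointwise commutatorElement

universe u

variable {G : Type u} [Group G] [Finite G] {M E : Subgroup G} {p : ℕ}

/-- Primes of a complement of `M_σ` lie in `τ₁ ∪ τ₂ ∪ τ₃`. -/
theorem tau_cases (hG : IsMinSimpleOddOrder G) (hM : IsCoatom M) (hE : IsComplIn E (sigmaCore M) M)
    (hp : p.Prime) (hd : p ∣ Nat.card E) : p ∈ tau2 M ∨ p ∈ tau1 M ∪ tau3 M := by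
  haveI := Fact.mk hp
  have hσ := compl_not_sigma hG hM hE hd
  by_cases h1 : PRankLE p 1 M
  · refine Or.inr ?_
    by_cases h3 : p ∣ Nat.card ↥⁅M, M⁆
    · exact Or.inr ⟨hp, hσ, h3, h1⟩
    · exact Or.inl ⟨hp, hσ, hd.trans (card_dvd_of_le hE.1), h3, h1⟩
  · exact Or.inl ⟨hp, hσ, rank_two_of_not_sigma hG hM hp hσ, h1⟩

/-- A `τ₂`-line inside the complement. -/
theorem exists_elem_compl (hG : IsMinSimpleOddOrder G) (hM : IsCoatom M) (hE : IsComplIn E (sigmaCore M) M)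
    [hp : Fact p.Prime] (hpτ : p ∈ tau2 M) :
    ∃ A : Subgroup G, A ≤ E ∧ IsElementaryAbelian p A ∧ Nat.card A = p ^ 2 := by
  obtain ⟨B, hBM, hB, hBc⟩ := elem_of_not_pRankLE hpτ.2.2.2
  obtain ⟨m, -, hmB⟩ := exists_conj_le_compl hG hM hE hpτ.2.1 (elem_isPGroup hB) hBM
  exact ⟨_, hmB, elem_of_conj m hB, (Coprime.card_conj_smul _ _).trans hBc⟩

variable [hp : Fact p.Prime]

omit hp in
/-- A `p`-element of `E` lies in a normal Sylow `p`-subgroup of `G` inside `E`. -/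
theorem mem_sylow_of_normal [hp : Fact p.Prime] (T : Sylow p G) (hTE : (T : Subgroup G) ≤ E)
    (hET : E ≤ normalizer ((T : Subgroup G) : Set G)) {z : G} (hz : z ∈ E) {k : ℕ} (hk : z ^ p ^ k = 1) :
    z ∈ (T : Subgroup G) := by
  haveI : ((T : Subgroup G).subgroupOf E).Normal := (normal_subgroupOf_iff_le_normalizer hTE).mpr hET
  show (⟨z, hz⟩ : E) ∈ (T : Subgroup G).subgroupOf E
  refine le_of_coprime_index (H := zpowers (⟨z, hz⟩ : E)) ?_ (mem_zpowers _)
  rw [Nat.card_zpowers]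
  refine Nat.Coprime.coprime_dvd_left (orderOf_dvd_of_pow_eq_one (n := p ^ k) (Subtype.ext hk))
    (Nat.Coprime.pow_left k (hp.out.coprime_iff_not_dvd.mpr fun hd => T.not_dvd_index (hd.trans ?_)))
  exact dvd_of_mul_right_eq _ (relIndex_mul_index hTE)

/-- The invariant regular subgroup for an abelian `τ₂`-Sylow subgroup. -/
theorem exists_regular_part (hG : IsMinSimpleOddOrder G) (hM : IsCoatom M) (hE : IsComplIn E (sigmaCore M) M)
    (hpτ : p ∈ tau2 M) (hS : ∀ S : Sylow p G, IsMulCommutative (S : Subgroup G))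
    (hτ : ∀ q ∈ tau2 M, ∀ S : Sylow q G, IsMulCommutative (S : Subgroup G))
    (h : ∀ e ∈ E, e ≠ 1 → (∀ q : ℕ, q.Prime → q ∣ orderOf e → q ∈ tau1 M ∪ tau3 M) →
      sigmaCore M ⊓ centralizer ({e} : Set G) = ⊥) :
    ∃ (C : Subgroup G) (n : ℕ), C ≤ E ∧ E ≤ normalizer (C : Set G) ∧ IsPGroup p C ∧ (∃ c ∈ C, orderOf c = p ^ n) ∧
      C ≤ (fittingSubgroup ↥E).map E.subtype ∧
      (∀ x ∈ C, x ^ p = 1 → x ≠ 1 → sigmaCore M ⊓ centralizer ({x} : Set G) = ⊥) ∧
      ∀ g ∈ E, ∀ k, g ^ p ^ k = 1 → g ^ p ^ n = 1 ∧ g ∈ (fittingSubgroup ↥E).map E.subtype := by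
  classical
  have hpσ := hpτ.2.1
  have hp2 : p ≠ 2 := fun e => hG.1.not_two_dvd_nat (e ▸ by
    obtain ⟨B, -, -, hBc⟩ := elem_of_not_pRankLE hpτ.2.2.2
    exact (dvd_pow_self p two_ne_zero).trans (hBc.symm.dvd.trans B.card_subgroup_dvd_card))
  obtain ⟨A, hAE, hA, hAc⟩ := exists_elem_compl hG hM hE hpτ
  have hAM := hAE.trans hE.1
  obtain ⟨T, hAT, hTE, hET, hTC, hTA, hTF, g, hgN, hgA, hgM⟩ :=
    exists_normal_sylow hG hM hE hpσ hS hA hAE hAc
  have hEA := (le_normalizer_compl hG hM hE hpσ hAE hA hAc).1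
  obtain ⟨X₀, hX₀⟩ := exists_exc hG hM hpσ hAM hA hAc
  have hA1 : A ≠ ⊥ := fun e => by
    rw [e, card_bot] at hAc
    exact (Nat.one_lt_pow two_ne_zero hp.out.one_lt).ne hAc
  set L := normalizer ((T : Subgroup G) : Set G) with hL
  have hT1 : (T : Subgroup G) ≠ ⊥ := ne_bot_of_le_ne_bot hA1 hAT
  have hLne : L ≠ ⊤ := fun e => by
    rcases hG.2.1.eq_bot_or_eq_top_of_normal (T : Subgroup G) (normalizer_eq_top_iff.mp e) with h1 | h1
    · exact hT1 h1
    · exact ne_top_of_le hM (hTE.trans hE.1) h1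
  haveI := solvable_of_ne_top hG hLne
  letI : CommGroup (T : Subgroup G) :=
    { (inferInstance : Group (T : Subgroup G)) with mul_comm := fun a b => (hS T).is_comm.comm a b }
  let f : L →* MulAut (T : Subgroup G) := Coprime.conjHom le_rfl
  have hf : ∀ (z : L) (w : (T : Subgroup G)), ((f z w : (T : Subgroup G)) : G) = z * w * (z : G)⁻¹ :=
    fun z w => rfl
  -- the automorphism group induced on `T` is an abelian `p'`-group
  have hco : ∀ z, (orderOf (f z)).Coprime p := by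
    intro z
    refine Nat.Coprime.symm (hp.out.coprime_iff_not_dvd.mpr fun hd => T.not_dvd_index ?_)
    refine hd.trans ((Subgroup.orderOf_dvd_natCard f.range (MonoidHom.mem_range.mpr ⟨z, rfl⟩)).trans ?_)
    rw [← Subgroup.index_ker]
    have hle : (T : Subgroup G).subgroupOf L ≤ f.ker := fun t ht => MulEquiv.ext fun w => Subtype.ext (by
      rw [hf, MulAut.one_apply,
        show (t : G) * (w : G) = (w : G) * (t : G) from
          congrArg Subtype.val (mul_comm (⟨(t : G), ht⟩ : (T : Subgroup G)) w),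
        mul_inv_cancel_right])
    exact (index_dvd_of_le hle).trans (dvd_of_mul_right_eq _ (relIndex_mul_index (H := (T : Subgroup G)) le_normalizer))
  have hr : PRankLE p 2 ↥(T : Subgroup G) := Hall.prankLE_of_injective (inclusion (hTE.trans hE.1))
    (inclusion_injective _) (rank_two_of_not_sigma hG hM hp.out hpσ)
  have hcomm : ∀ a b, Commute (f a) (f b) := by
    intro a b
    have hd : ⁅a, b⁆ ∈ commutator L := commutator_mem_commutator (mem_top a) (mem_top b)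
    obtain ⟨k, hk⟩ := Hall.commutator_act_pPow hp2 T.2 hr (hG.1.of_dvd_nat L.card_subgroup_dvd_card) f _ hd
    have h1 : f ⁅a, b⁆ = 1 := orderOf_eq_one_iff.mp
      (Nat.eq_one_of_dvd_coprimes ((hco _).pow_right k) dvd_rfl (orderOf_dvd_of_pow_eq_one hk))
    rw [map_commutatorElement] at h1
    exact commutatorElement_eq_one_iff_mul_comm.mp h1
  -- an element of maximal order
  obtain ⟨t, ht⟩ := Finite.exists_max fun x : (T : Subgroup G) => orderOf x
  obtain ⟨n, hn⟩ := IsPGroup.iff_orderOf.mp T.2 t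
  have hexp : ∀ x : (T : Subgroup G), x ^ p ^ n = 1 := fun x => by
    obtain ⟨k, hk⟩ := IsPGroup.iff_orderOf.mp T.2 x
    have hkn : p ^ k ≤ p ^ n := hk ▸ hn ▸ ht x
    exact orderOf_dvd_iff_pow_eq_one.mp (hk ▸ pow_dvd_pow p ((Nat.pow_le_pow_iff_right hp.out.one_lt).mp hkn))
  have hn0 : n ≠ 0 := fun e => hA1 (eq_bot_iff.mpr fun a ha => mem_bot.mpr (by
    have := hexp ⟨a, hAT ha⟩
    rw [e, pow_zero, pow_one] at this
    exact congrArg Subtype.val this))
  -- `V₀ = T ^ p ^ (n - 1)`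
  let V₀ : Subgroup G := ((powMonoidHom (p ^ (n - 1))).range : Subgroup ↥(T : Subgroup G)).map
    (T : Subgroup G).subtype
  have hV₀m : ∀ y, y ∈ V₀ ↔ ∃ x : (T : Subgroup G), ((x ^ p ^ (n - 1) : (T : Subgroup G)) : G) = y := by
    intro y
    simp only [V₀, mem_map, MonoidHom.mem_range, powMonoidHom_apply]
    exact ⟨fun ⟨_, ⟨x, rfl⟩, hx⟩ => ⟨x, hx⟩, fun ⟨x, hx⟩ => ⟨_, ⟨x, rfl⟩, hx⟩⟩
  have hn1 : n - 1 + 1 = n := by omega
  have hV₀A : V₀ ≤ A := fun y hy => by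
    obtain ⟨x, rfl⟩ := (hV₀m y).mp hy
    refine hTA _ (x ^ p ^ (n - 1)).2 ?_
    rw [← coe_pow, ← pow_mul, ← pow_succ, hn1, hexp, coe_one]
  have hV₀1 : V₀ ≠ ⊥ := fun e => by
    have h1 : ((t ^ p ^ (n - 1) : (T : Subgroup G)) : G) ∈ V₀ := (hV₀m _).mpr ⟨t, rfl⟩
    rw [e, mem_bot, OneMemClass.coe_eq_one] at h1
    have h2 := Nat.le_of_dvd (pow_pos hp.out.pos _) (hn ▸ orderOf_dvd_of_pow_eq_one h1)
    exact (Nat.pow_lt_pow_right hp.out.one_lt (by omega : n - 1 < n)).not_ge h2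
  have hgood : ∀ Y : Subgroup G, Y ≤ A → Nat.card Y = p → g ∈ normalizer (Y : Set G) →
      sigmaCore M ⊓ centralizer (Y : Set G) = ⊥ := fun Y hY hYc hg =>
    good_of_normalized hG hM hpσ hAM hA hAc hY (fun e => by rw [e, card_bot] at hYc; exact hp.out.ne_one hYc.symm)
      hg hgM
  -- an invariant good line in `V₀`
  obtain ⟨V, hVV₀, hVc, hEV, hVgood⟩ : ∃ V : Subgroup G, V ≤ V₀ ∧ Nat.card V = p ∧
      E ≤ normalizer (V : Set G) ∧ sigmaCore M ⊓ centralizer (V : Set G) = ⊥ := by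
    by_cases hV₀ : V₀ = A
    swap
    · have hV₀c : Nat.card V₀ = p := by
        obtain ⟨i, hi, hie⟩ := (Nat.dvd_prime_pow hp.out).mp (hAc ▸ card_dvd_of_le hV₀A)
        have hi0 : i ≠ 0 := fun e => hV₀1 (card_eq_one.mp (by rw [hie, e, pow_zero]))
        have hi2 : i ≠ 2 := fun e => hV₀ (eq_of_le_of_card_ge hV₀A (by rw [hie, e, hAc]))
        rw [hie, show i = 1 by omega, pow_one]
      have hLV : L ≤ normalizer (V₀ : Set G) := fun z hz => by
        refine Coprime.mem_normalizer_of_conj_smul_eq (eq_of_le_of_card_ge ?_ (Coprime.card_conj_smul _ _).ge)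
        rintro y ⟨w, hw, rfl⟩
        obtain ⟨x, rfl⟩ := (hV₀m w).mp hw
        exact (hV₀m _).mpr ⟨f ⟨z, hz⟩ x, by rw [← map_pow, hf]; rfl⟩
      exact ⟨V₀, le_rfl, hV₀c, hET.trans hLV, hgood V₀ hV₀A hV₀c (hLV hgN)⟩
    rw [hV₀]
    -- the elements fixing every line
    set Sc : Subgroup G := ⨅ (Y : Subgroup G) (_ : Y ≤ A ∧ Nat.card Y = p), normalizer (Y : Set G) with hSc
    have hScm : ∀ e, e ∈ Sc ↔ ∀ Y : Subgroup G, Y ≤ A → Nat.card Y = p → e ∈ normalizer (Y : Set G) := by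
      intro e; simp [hSc, mem_iInf]
    by_cases hESc : E ≤ Sc
    · obtain ⟨-, t₁, -, ht₁, -, ht₁1, -, -, hfp, -⟩ := hX₀.exists_fpf hG
      have ho : orderOf t₁ = p := orderOf_eq_prime (hA.2 t₁ ht₁) ht₁1
      refine ⟨zpowers t₁, zpowers_le.mpr ht₁, by rw [Nat.card_zpowers, ho],
        fun e he => (hScm e).mp (hESc he) _ (zpowers_le.mpr ht₁) (by rw [Nat.card_zpowers, ho]), ?_⟩
      rw [centralizer_zpowers, eq_bot_iff]
      rintro c ⟨hc, hct⟩
      exact mem_bot.mpr (hfp c hc (mem_centralizer_singleton_iff.mp hct).symm)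
    obtain ⟨e, he, heSc⟩ := SetLike.not_le_iff_exists.mp hESc
    -- a prime power part moving some line
    obtain ⟨q, k, hq, hqk, hy⟩ : ∃ q k : ℕ, q.Prime ∧ q ^ k ∣ orderOf e ∧ e ^ (orderOf e / q ^ k) ∉ Sc := by
      by_contra hcon
      push Not at hcon
      exact heSc (abelian_of_prime_pow_parts hcon)
    set y := e ^ (orderOf e / q ^ k) with hyd
    haveI := Fact.mk hq
    have hyE : y ∈ E := pow_mem he _
    have hyo : orderOf y = q ^ k := orderOf_pow_orderOf_div (orderOf_pos e).ne' hqk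
    have hypow : y ^ q ^ k = 1 := hyo ▸ pow_orderOf_eq_one y
    have hyC : y ∉ centralizer (A : Set G) := fun hc => hy ((hScm y).mpr fun Y hY _ =>
      centralizer_le_normalizer _ (centralizer_le (SetLike.coe_subset_coe.mpr hY) hc))
    have hk0 : k ≠ 0 := fun e0 => hyC (by
      rw [orderOf_eq_one_iff.mp (hyo.trans (by rw [e0, pow_zero]))]; exact one_mem _)
    have hyp : IsPGroup q (zpowers y) := IsPGroup.of_card (n := k) (by rw [Nat.card_zpowers, hyo])
    have hqE : q ∣ Nat.card E :=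
      (dvd_pow_self q hk0).trans (hyo ▸ Subgroup.orderOf_dvd_natCard E hyE)
    have hqp : q ≠ p := fun e0 => hyC (hTC (mem_sylow_of_normal T hTE hET hyE (k := k) (e0 ▸ hypow)))
    obtain ⟨hqσ, hq1, hfpf⟩ : q ∉ sigma M ∧ PRankLE q 1 M ∧
        ∀ z ∈ E, z ≠ 1 → (∃ i, z ^ q ^ i = 1) → sigmaCore M ⊓ centralizer ({z} : Set G) = ⊥ := by
      rcases tau_cases hG hM hE hq hqE with hq2 | hq13
      · exfalso
        obtain ⟨A', hAE', hA', hAc'⟩ := exists_elem_compl hG hM hE hq2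
        obtain ⟨T', -, hTE', hET', -, -, hTF', -⟩ :=
          exists_normal_sylow hG hM hE hq2.2.1 (hτ q hq2) hA' hAE' hAc'
        have hyT : (⟨y, hyE⟩ : E) ∈ (T' : Subgroup G).subgroupOf E :=
          mem_sylow_of_normal T' hTE' hET' hyE hypow
        haveI : Group.IsNilpotent ↥(fittingSubgroup ↥E) := Hall.fittingSubgroup_isNilpotent
        refine hyC (mem_centralizer_iff.mpr fun a ha => ?_)
        have haT : (⟨a, hAE ha⟩ : E) ∈ (T : Subgroup G).subgroupOf E := hAT ha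
        have hcomm' := nilpotent_comm_of_not_sigma hG hM
          (N := (fittingSubgroup ↥E).map E.subtype) ((map_subtype_le _).trans hE.1)
          ((Group.isNilpotent_congr (equivMapOfInjective _ E.subtype E.subtype_injective)).mp inferInstance)
          fun r hr hd => by
            haveI := Fact.mk hr
            exact compl_not_sigma hG hM hE (hd.trans (card_dvd_of_le (map_subtype_le _)))
        exact congrArg Subtype.val (hcomm'.is_comm.comm
          (⟨a, mem_map_of_mem E.subtype (hTF haT)⟩ : ↥((fittingSubgroup ↥E).map E.subtype))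
          ⟨y, mem_map_of_mem E.subtype (hTF' hyT)⟩)
      · refine ⟨hq13.elim (·.2.1) (·.2.1), hq13.elim (·.2.2.2.2) (·.2.2.2), fun z hz hz1 ⟨i, hi⟩ => h z hz hz1 ?_⟩
        intro r hr hd
        rw [(Nat.prime_dvd_prime_iff_eq hr hq).mp (hr.dvd_of_dvd_pow (hd.trans (orderOf_dvd_of_pow_eq_one hi)))]
        exact hq13
    obtain ⟨Y, hYA, hYc, hyY⟩ := exists_invariant_line hG hM hE hpσ hS hA hAE hAc hqp hqσ hq1 hfpf hyE hypow hyC
    obtain ⟨Y', hY'A, hY'c, hyY'⟩ : ∃ Y', Y' ≤ A ∧ Nat.card Y' = p ∧ y ∉ normalizer (Y' : Set G) := by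
      by_contra hcon
      push Not at hcon
      exact hy ((hScm y).mpr hcon)
    obtain ⟨w, hwgen⟩ := (Subgroup.isCyclic_iff_exists_zpowers_eq_top Y).mp (isCyclic_of_prime_card hYc)
    have hw : w ∈ Y := hwgen.le (mem_zpowers w)
    obtain ⟨l, hl⟩ := mem_zpowers_iff.mp (hwgen.ge ((mem_normalizer_iff.mp hyY w).mp hw))
    -- every element of `N(T)` fixes `Y`
    have hLY : L ≤ normalizer (Y : Set G) := by
      intro z hz
      have hzA : ∀ a ∈ A, z * a * z⁻¹ ∈ A := fun a ha =>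
        hTA _ ((mem_normalizer_iff.mp hz a).mp (hAT ha)) (by rw [conj_pow, hA.2 a ha]; group)
      let Z : Subgroup G :=
        { carrier := {a | a ∈ A ∧ y * a * y⁻¹ = a ^ l}
          one_mem' := ⟨one_mem _, by simp⟩
          mul_mem' := fun {a b} ha hb => ⟨A.mul_mem ha.1 hb.1, by
            rw [(show Commute a b from elem_comm hA ha.1 hb.1).mul_zpow, ← ha.2, ← hb.2]; group⟩
          inv_mem' := fun {a} ha => ⟨A.inv_mem ha.1, by rw [inv_zpow, ← ha.2]; group⟩ }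
      have hYZ : Y ≤ Z := by rw [← hwgen, zpowers_le]; exact ⟨hYA hw, hl.symm⟩
      have hZne : Z ≠ A := fun eZ => hyY' (by
        refine Coprime.mem_normalizer_of_conj_smul_eq (eq_of_le_of_card_ge ?_ (Coprime.card_conj_smul _ _).ge)
        rintro x ⟨a, ha, rfl⟩
        show y * a * y⁻¹ ∈ Y'
        rw [(eZ.ge (hY'A ha)).2]
        exact zpow_mem ha l)
      have hZY : Y = Z := by
        refine eq_of_le_of_card_ge hYZ ?_
        have hZA : Z ≤ A := fun a ha => ha.1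
        obtain ⟨i, hi, hie⟩ := (Nat.dvd_prime_pow hp.out).mp (hAc ▸ card_dvd_of_le hZA)
        have hi2 : i ≠ 2 := fun e0 => hZne (eq_of_le_of_card_ge hZA (by rw [hie, e0, hAc]))
        rw [hie, hYc]
        exact (Nat.pow_le_pow_right hp.out.pos (by omega : i ≤ 1)).trans (pow_one p).le
      refine Coprime.mem_normalizer_of_conj_smul_eq (eq_of_le_of_card_ge ?_ (Coprime.card_conj_smul _ _).ge)
      rw [show MulAut.conj z • Y = Y.map (MulAut.conj z).toMonoidHom from rfl, ← hwgen,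
        MonoidHom.map_zpowers, zpowers_le, hwgen, hZY]
      refine ⟨hzA w (hYA hw), ?_⟩
      show y * (z * w * z⁻¹) * y⁻¹ = (z * w * z⁻¹) ^ l
      rw [conj_zpow, hl]
      have hc := congrArg (fun φ : MulAut (T : Subgroup G) => ((φ ⟨w, hAT (hYA hw)⟩ : (T : Subgroup G)) : G))
        (hcomm ⟨y, hET hyE⟩ ⟨z, hz⟩).eq
      simpa only [MulAut.mul_apply, hf] using hc
    exact ⟨Y, hYA, hYc, hET.trans hLY, hgood Y hYA hYc (hLY hgN)⟩
  -- lift `V`
  obtain ⟨v, hv⟩ := V.bot_or_exists_ne_one.resolve_left fun e => by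
    rw [e, card_bot] at hVc; exact hp.out.ne_one hVc.symm
  obtain ⟨x, hx⟩ := (hV₀m v).mp (hVV₀ hv.1)
  have hvV : zpowers v = V := eq_of_le_of_card_ge (zpowers_le.mpr hv.1) (by
    rw [hVc, Nat.card_zpowers, orderOf_eq_prime (hA.2 v (hV₀A (hVV₀ hv.1))) hv.2])
  have hxp : (x ^ p ^ (n - 1)) ^ p = 1 := by rw [← pow_mul, ← pow_succ, hn1, hexp]
  have hx1 : x ^ p ^ (n - 1) ≠ 1 := fun e => hv.2 (by rw [← hx, e, coe_one])
  have hΩ : Nat.card {x : (T : Subgroup G) // x ^ p = 1} = p ^ 2 := by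
    rw [← hAc]
    exact Nat.card_congr
      { toFun := fun z => ⟨(z.1 : G), hTA _ z.1.2 (by rw [← coe_pow, z.2, coe_one])⟩
        invFun := fun a => ⟨⟨a, hAT a.2⟩, Subtype.ext (hA.2 a a.2)⟩
        left_inv := fun z => rfl
        right_inv := fun a => rfl }
  obtain ⟨C, hCinv, hCΩ, c, hc, hco'⟩ := exists_invariant_lift T.2
    (fun e : E => f ⟨e, hET e.2⟩) (fun e => hco _)
    (fun e e' w => DFunLike.congr_fun (hcomm ⟨e, hET e.2⟩ ⟨e', hET e'.2⟩).eq w) hΩ hexp hxp hx1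
    (fun e => by
      have hfv : ((f ⟨e, hET e.2⟩ (x ^ p ^ (n - 1)) : (T : Subgroup G)) : G) ∈ V := by
        rw [hf, hx]; exact (mem_normalizer_iff.mp (hEV e.2) v).mp hv.1
      rw [← hvV, ← hx] at hfv
      obtain ⟨m, hm⟩ := mem_zpowers_iff.mp hfv
      exact mem_zpowers_iff.mpr ⟨m, Subtype.ext (by simpa using hm)⟩)
  refine ⟨C.map (T : Subgroup G).subtype, n, (map_subtype_le _).trans hTE, ?_, T.2.to_le (map_subtype_le _),
    ⟨c, mem_map_of_mem _ hc, by rw [orderOf_coe, hco']⟩,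
    (map_subtype_le _).trans fun z hz => ⟨⟨z, hTE hz⟩, hTF (show (⟨z, hTE hz⟩ : E) ∈ (T : Subgroup G).subgroupOf E from hz), rfl⟩,
    ?_, ?_⟩
  · intro e he
    refine Coprime.mem_normalizer_of_conj_smul_eq (eq_of_le_of_card_ge ?_ (Coprime.card_conj_smul _ _).ge)
    rintro z ⟨w, ⟨w', hw', rfl⟩, rfl⟩
    exact ⟨_, hCinv ⟨e, he⟩ w' hw', hf _ w'⟩
  · rintro z ⟨z', hz', rfl⟩ hzp hz1
    obtain ⟨m, hm⟩ := mem_zpowers_iff.mp (hCΩ z' hz' (Subtype.ext (by simpa using hzp)))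
    have hzV : (z' : G) ∈ V := by
      rw [← hm, coe_zpow, hx]; exact zpow_mem hv.1 m
    have hzV' : zpowers (z' : G) = V := eq_of_le_of_card_ge (zpowers_le.mpr hzV) (by
      rw [hVc, Nat.card_zpowers, orderOf_eq_prime (x := (z' : G)) hzp hz1])
    rw [← centralizer_zpowers]
    show sigmaCore M ⊓ centralizer (zpowers (z' : G) : Set G) = ⊥
    rw [hzV', hVgood]
  · intro z hz k hk
    have hzT := mem_sylow_of_normal T hTE hET hz hk
    exact ⟨congrArg Subtype.val (hexp ⟨z, hzT⟩),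
      ⟨⟨z, hz⟩, hTF (show (⟨z, hz⟩ : E) ∈ (T : Subgroup G).subgroupOf E from hzT), rfl⟩⟩

end Cfsg.Agent.Lib.Uniq
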