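import Cfsg.Agent.Lib.Uniq.TauTwoUnique
import Cfsg.Agent.Lib.OddLocal.CyclicSub
set_option autoImplicit false

/-! BG 12.15 (d), (e) in the form needed for BG 12.16, and the conjugation of `σ(M)`-subgroups into `M_σ`. -/

namespace Cfsg.Agent.Lib.Uniq

open Subgroup
open scoped Pointwise commutatorElement

universe u

variable {G : Type u} [Group G] [Finite G] {M H : Subgroup G} {q : ℕ}

/-- The derived group of a maximal subgroup is nilpotent modulo its `β`-core. -/
theorem derived_mod_beta_nilpotent (hG : IsMinSimpleOddOrder G) (hH : IsCoatom H) :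
    Group.IsNilpotent ↥((commutator ↥H).map (QuotientGroup.mk' (piCore (beta H) ↥H))) := by
  classical
  have hne : ⁅H, H⁆ ≠ ⊤ := ne_top_of_le hH (commutator_le_self H)
  obtain ⟨J, ⟨hJD, -, hJi⟩, hJnil⟩ := exists_nilpotent_hall hG hH le_rfl hne
  obtain ⟨-, -, hβrel⟩ := (beta_core_hall hG hH).1
  set π := QuotientGroup.mk' (piCore (beta H) ↥H) with hπ
  set D := commutator ↥H with hD
  have hDmap : D.map H.subtype = ⁅H, H⁆ := by rw [hD, map_subtype_commutator]
  set J' := J.subgroupOf H with hJ'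
  have hJH : J ≤ H := hJD.trans (commutator_le_self H)
  haveI : Group.IsNilpotent J := hJnil
  haveI : Group.IsNilpotent J' :=
    (Group.isNilpotent_congr (subgroupOfEquivOfLe hJH)).mpr inferInstance
  set f := π.subgroupMap D with hf
  have hsurj : Function.Surjective f := π.subgroupMap_surjective D
  have htop : (J'.subgroupOf D).map f = ⊤ := by
    rw [← index_eq_one]
    by_contra hne1
    obtain ⟨r, hr, hrd⟩ := Nat.exists_prime_and_dvd hne1
    have h1 : r ∣ (J'.subgroupOf D).index := hrd.trans (index_map_dvd _ hsurj)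
    have hrel : (J'.subgroupOf D).index = J.relIndex ⁅H, H⁆ := by
      rw [← hDmap, ← Subgroup.relIndex_comap, comap_subtype]
      rfl
    rw [hrel] at h1
    have h2 : r ∣ Nat.card (↥H ⧸ piCore (beta H) ↥H) :=
      (hrd.trans (index_dvd_card _)).trans (card_subgroup_dvd_card _)
    rw [← index_eq_card] at h2
    refine hJi r hr ⟨hr, fun hrβ => hβrel r hr hrβ ?_⟩ h1
    rwa [piCoreOf, relIndex, ← comap_subtype, comap_map_eq_self_of_injective H.subtype_injective]
  haveI : Group.IsNilpotent (J'.subgroupOf D) := Group.nilpotent_of_mulEquiv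
    (subgroupOfEquivOfLe (show J' ≤ D by
      rw [hJ', hD, ← comap_map_eq_self_of_injective H.subtype_injective (commutator ↥H), map_subtype_commutator]
      exact comap_mono hJD)).symm
  haveI : Group.IsNilpotent ↥((J'.subgroupOf D).map f) :=
    Group.nilpotent_of_surjective (f.subgroupMap (J'.subgroupOf D)) (f.subgroupMap_surjective _)
  exact (Group.isNilpotent_congr ((MulEquiv.subgroupCongr htop).trans topEquiv)).mp inferInstance

variable [hq : Fact q.Prime]

/-- For `q ∈ σ(H) ∖ β(H)`, a Sylow subgroup of `G` in `H` is normalised by a supplement of `H_β`. -/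
theorem coatom_eq_normalizer_sup_beta (hG : IsMinSimpleOddOrder G) (hH : IsCoatom H) (hσ : q ∈ sigma H)
    (T : Sylow q G) (hTH : (T : Subgroup G) ≤ H) :
    (H ⊓ normalizer ((T : Subgroup G) : Set G)) ⊔ piCoreOf (beta H) H = H := by
  classical
  set K := piCore (beta H) ↥H with hK
  set π := QuotientGroup.mk' K with hπ
  set D := commutator ↥H with hD
  set S : Sylow q ↥H := T.subtype hTH with hSd
  have hSD : (S : Subgroup ↥H) ≤ D := fun z hz => by
    have h := sigmaCore_le_derived hG hH (pgroup_le_sigmaCore hG hH hσ T.2 hTH (show (z : G) ∈ (T : Subgroup G) from by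
      rw [hSd, Sylow.coe_subtype] at hz; exact hz))
    rw [← map_subtype_commutator] at h
    obtain ⟨z', hz', hzz⟩ := h
    rwa [show z = z' from Subtype.ext hzz.symm]
  haveI hnil := derived_mod_beta_nilpotent hG hH
  set Dq := D.map π with hDq
  haveI : Dq.Normal := Subgroup.Normal.map inferInstance π (QuotientGroup.mk'_surjective K)
  set P := S.mapSurjective (QuotientGroup.mk'_surjective K) with hP
  have hPD : (P : Subgroup (↥H ⧸ K)) ≤ Dq := by
    rw [hP, Sylow.coe_mapSurjective]; exact map_mono hSD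
  haveI hPn : (P : Subgroup (↥H ⧸ K)).Normal := by
    have hn : ((P.subtype hPD : Sylow q Dq) : Subgroup Dq).Normal :=
      Sylow.normal_of_normalizerCondition Group.normalizerCondition_of_isNilpotent _
    haveI := Sylow.characteristic_of_normal (P.subtype hPD) hn
    have h := ConjAct.normal_of_characteristic_of_normal (H := Dq) (K := ((P.subtype hPD : Sylow q Dq) : Subgroup Dq))
    rwa [Sylow.coe_subtype, map_subgroupOf_eq_of_le hPD] at h
  set N := (S : Subgroup ↥H) ⊔ K with hN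
  haveI hNn : N.Normal := by
    have : N = (P : Subgroup (↥H ⧸ K)).comap π := by
      rw [hP, Sylow.coe_mapSurjective, comap_map_eq, QuotientGroup.ker_mk']
    rw [this]; infer_instance
  have h := Sylow.normalizer_sup_eq_top' S (le_sup_left (b := K))
  have htop : normalizer ((S : Subgroup ↥H) : Set ↥H) ⊔ K = ⊤ := by
    refine eq_top_iff.mpr (h.ge.trans (sup_le le_sup_left (sup_le ((le_normalizer (H := (S : Subgroup ↥H))).trans le_sup_left) le_sup_right)))
  have h2 := congrArg (Subgroup.map H.subtype) htop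
  rw [Subgroup.map_sup, ← MonoidHom.range_eq_map, range_subtype] at h2
  refine le_antisymm (sup_le inf_le_left (OddLocal.piCoreOf_le _ _)) (le_trans (le_of_eq h2.symm) (sup_le_sup ?_ le_rfl))
  rintro z ⟨w, hw, rfl⟩
  refine ⟨w.2, ?_⟩
  have h3 := le_normalizer_map H.subtype (mem_map_of_mem H.subtype hw)
  rwa [hSd, Sylow.coe_subtype, map_subgroupOf_eq_of_le hTH] at h3

/-- A maximal subgroup `H` not conjugate to `M` with a Sylow `q`-subgroup `S` whose normaliser lies in `M`, as in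
BG 12.15: `H` is `(M ∩ H) K` for a normal `σ(M)'`-subgroup `K`. -/
theorem exists_factor (hG : IsMinSimpleOddOrder G) (hM : IsCoatom M) (hH : IsCoatom H) (hqM : q ∈ sigma M)
    (hnc : ∀ g : G, H ≠ MulAut.conj g • M) {X : Subgroup G} (hX1 : X ≠ ⊥) (hNX : normalizer (X : Set G) ≤ H)
    (S : Sylow q H) (hXS : X ≤ (S : Subgroup H).map H.subtype)
    (hSM : (S : Subgroup H).map H.subtype ≤ M)
    (hNS : normalizer (((S : Subgroup H).map H.subtype : Subgroup G) : Set G) ≤ M) :
    ∃ K : Subgroup G, K ≤ H ∧ H ≤ normalizer (K : Set G) ∧ (M ⊓ H) ⊔ K = H ∧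
      (∀ r : ℕ, r.Prime → r ∣ Nat.card K → r ∉ sigma M) ∧
      (q ∈ sigma H ∧ K = piCoreOf (beta H) H ∨ q ∈ tau2 H ∧ K = sigmaCore H) := by
  classical
  set R := (S : Subgroup H).map H.subtype with hR
  have hRp : IsPGroup q R := S.2.map _
  have hRH : R ≤ H := map_subtype_le _
  have hβ : ∀ r : ℕ, r.Prime → r ∈ beta H → r ∉ sigma M := fun r hr hrβ hrM => by
    haveI := Fact.mk hr
    obtain ⟨g, hg⟩ := conj_of_alpha_sigma hG hH hM hrβ.1 hrM
    exact hnc g⁻¹ (by rw [hg, map_inv, inv_smul_smul])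
  by_cases hqH : q ∈ sigma H
  · obtain ⟨T, hTH, -⟩ := exists_sigma_sylow hqH
    obtain ⟨h, hh⟩ := MulAction.exists_smul_eq ↥H (T.subtype hTH) S
    set T' := (h : G) • T with hT'
    have hT'R : (T' : Subgroup G) = R := by
      rw [hR, ← hh, Sylow.smul_subtype, Sylow.coe_subtype, map_subgroupOf_eq_of_le]
      · rfl
      exact (pointwise_smul_le_pointwise_smul_iff.mpr hTH).trans
        (Coprime.conj_smul_eq_self (le_normalizer h.2)).le
    refine ⟨piCoreOf (beta H) H, OddLocal.piCoreOf_le _ _, OddLocal.le_normalizer_piCoreOf _ _, ?_,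
      fun r hr hd => hβ r hr (OddLocal.piCoreOf_isPi _ _ r hr hd), Or.inl ⟨hqH, rfl⟩⟩
    refine le_antisymm (sup_le inf_le_right (OddLocal.piCoreOf_le _ _))
      (le_trans (coatom_eq_normalizer_sup_beta hG hH hqH T' (hT'R ▸ hRH)).ge (sup_le_sup ?_ le_rfl))
    rw [hT'R]
    exact fun z hz => ⟨hNS hz.2, hz.1⟩
  · -- `q ∈ τ₂(H)`
    have hr2 := rank_two_of_not_sigma hG hH hq.out hqH
    have hR1 : R ≠ ⊥ := ne_bot_of_le_ne_bot hX1 hXS
    have hr1 : ¬ PRankLE q 1 H := by
      intro hr1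
      refine hqH ⟨hq.out, ?_, S, ?_⟩
      · obtain ⟨j, hj⟩ := IsPGroup.iff_card.mp hRp
        rcases Nat.eq_zero_or_pos j with h0 | h0
        · exact absurd (card_eq_one.mp (hj.trans (by rw [h0, pow_zero]))) hR1
        · exact ((dvd_pow_self q h0.ne').trans hj.symm.dvd).trans (card_dvd_of_le hRH)
      -- `X` is characteristic in the cyclic group `R`
      haveI : IsZGroup ↥R := rank_one_zgroup hG hRH fun s hs hd => isPGroup_ne_dvd hRp hs hd ▸ hr1
      haveI : Group.IsNilpotent ↥R := hRp.isNilpotent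
      haveI : IsCyclic ↥R := inferInstance
      refine le_trans (fun z hz => ?_) hNX
      refine Coprime.mem_normalizer_of_conj_smul_eq ?_
      have hXR : MulAut.conj z • X ≤ R := fun w hw => by
        obtain ⟨v, hv, rfl⟩ := hw
        exact (mem_normalizer_iff.mp hz v).mp (hXS hv)
      exact OddLocal.eq_of_card_eq_of_le_cyclic (W := R) hXR hXS (Coprime.card_conj_smul _ _)
    have hqτ : q ∈ tau2 H := ⟨hq.out, hqH, hr2, hr1⟩
    obtain ⟨B, hBH, hB, hBc⟩ := elem_of_not_pRankLE hr1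
    obtain ⟨S', hS'⟩ := ((elem_isPGroup hB).comap_subtype (K := H)).exists_le_sylow
    obtain ⟨m, hm⟩ := MulAction.exists_smul_eq (↥H) S' S
    set A := MulAut.conj (m : G) • B
    have hAR : A ≤ R := by
      rintro x ⟨w, hw, rfl⟩
      refine ⟨m * ⟨w, hBH hw⟩ * m⁻¹, ?_, rfl⟩
      rw [← hm, Sylow.coe_subgroup_smul]
      exact Coprime.conj_mem_conj_smul (hS' hw)
    have hA : IsElementaryAbelian q A := elem_of_conj (m : G) hB
    have hAc : Nat.card A = q ^ 2 := (Coprime.card_conj_smul _ _).trans hBc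
    have hNA : normalizer (A : Set G) ≤ M := normalizer_noncyclic_le hG hM hqM (elem_isPGroup hA)
      (hAR.trans hSM) fun hc => by
        haveI := hc
        have h2 : Monoid.exponent A ∣ q := Monoid.exponent_dvd.mpr fun a =>
          orderOf_dvd_of_pow_eq_one (Subtype.ext (hA.2 a a.2))
        rw [IsCyclic.exponent_eq_card, hAc] at h2
        exact (Nat.pow_lt_pow_right hq.out.one_lt (show 1 < 2 by omega)).not_ge
          (by rw [pow_one]; exact Nat.le_of_dvd hq.out.pos h2)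
    obtain ⟨E, hE, hAE⟩ := exists_compl_ge hG hH hqH (elem_isPGroup hA) (hAR.trans hRH)
    obtain ⟨hEA, -⟩ := le_normalizer_compl hG hH hE hqH hAE hA hAc
    obtain ⟨X', hX'⟩ := exists_exc hG hH hqH (hAR.trans hRH) hA hAc
    have hnil := hX'.sigmaCore_nilpotent hG
    refine ⟨sigmaCore H, hE.2.1, piCoreOf_sigma H ▸ OddLocal.le_normalizer_piCoreOf (sigma H) H, ?_, ?_,
      Or.inr ⟨hqτ, rfl⟩⟩
    · refine le_antisymm (sup_le inf_le_right hE.2.1) fun z hz => ?_
      obtain ⟨a, ha, b, hb, rfl⟩ := hE.2.2.2 z hz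
      exact mul_mem (mem_sup_left ⟨hEA.trans hNA ha, hE.1 ha⟩) (mem_sup_right hb)
    intro r hr hd hrM
    haveI := Fact.mk hr
    have hrH : r ∈ sigma H := OddLocal.piCoreOf_isPi (sigma H) H r hr hd
    obtain ⟨Q, hQH, -⟩ := exists_sigma_sylow hrH
    obtain ⟨Q₁, hQ₁M, -⟩ := exists_sigma_sylow hrM
    obtain ⟨g, hg⟩ := MulAction.exists_smul_eq G Q₁ Q
    have hQ : (Q : Subgroup G) = MulAut.conj g • (Q₁ : Subgroup G) := by rw [← hg]; rfl
    have hN : normalizer ((Q : Subgroup G) : Set G) ≤ MulAut.conj g • M := by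
      intro z hz
      refine mem_pointwise_smul_iff_inv_smul_mem.mpr (sylow_normalizer_le hG hM hrM Q₁ hQ₁M ?_)
      refine Coprime.mem_normalizer_of_conj_smul_eq ?_
      rw [show (MulAut.conj g)⁻¹ • z = g⁻¹ * z * g by simp [MulAut.smul_def],
        map_mul, map_mul, mul_smul, mul_smul, ← hQ, Coprime.conj_smul_eq_self hz, hQ, map_inv, inv_smul_smul]
    have hle : H ≤ MulAut.conj g • M := (le_normalizer_sylow_nilpotent hG hH hrH hnil Q hQH).trans hN
    exact hnc g ((hH.le_iff.mp hle).resolve_left (coatom_smul g hM).1).symm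

/-- BG 12.15 (a), (b), (c). -/
theorem sylow_inter_props (hG : IsMinSimpleOddOrder G) (hM : IsCoatom M) (hqM : q ∈ sigma M) {X : Subgroup G}
    (hXq : IsPGroup q X) (hX1 : X ≠ ⊥) (hXM : X ≤ M) (hH : IsCoatom H) (hne : H ≠ M)
    (hNX : normalizer (X : Set G) ≤ H) {R : Subgroup G} (hRp : IsPGroup q R) (hRM : R ≤ M ⊓ H) (hXR : X ≤ R)
    (hmax : ∀ Q : Subgroup G, IsPGroup q Q → Q ≤ M ⊓ H → R ≤ Q → Q = R) :
    (∀ g : G, H ≠ MulAut.conj g • M) ∧ normalizer (R : Set G) ≤ M ∧
      ∀ Q : Subgroup G, IsPGroup q Q → Q ≤ H → R ≤ Q → Q = R := by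
  classical
  have hstep : ∀ Q : Subgroup G, IsPGroup q Q → R ≤ Q → Q ⊓ normalizer (R : Set G) ≤ M ⊓ H → Q = R := by
    intro Q hQ hRQ hle
    refine le_antisymm ?_ hRQ
    by_contra hnot
    have hlt : R.subgroupOf Q < ⊤ := lt_top_iff_ne_top.mpr fun e => hnot (subgroupOf_eq_top.mp e)
    haveI : Group.IsNilpotent ↥Q := hQ.isNilpotent
    obtain ⟨z, hz, hzR⟩ := SetLike.exists_of_lt (Group.normalizerCondition_of_isNilpotent _ hlt)
    have hzN : (z : G) ∈ normalizer (R : Set G) := by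
      have h := le_normalizer_map Q.subtype (mem_map_of_mem Q.subtype hz)
      rwa [map_subgroupOf_eq_of_le hRQ] at h
    have := hmax (Q ⊓ normalizer (R : Set G)) (hQ.to_le inf_le_left) hle (le_inf hRQ le_normalizer)
    exact hzR (this.le ⟨z.2, hzN⟩)
  have hnc : ∀ g : G, H ≠ MulAut.conj g • M := by
    intro g hg
    obtain ⟨m, hm, c, hc, hmc⟩ := (S1404.result hG M hM q hqM X hXq hX1 hXM).1 g⁻¹ (by
      rw [show X.map (MulAut.conj g⁻¹).toMonoidHom = MulAut.conj g⁻¹ • X from rfl, map_inv,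
        pointwise_smul_subset_iff, inv_inv, ← hg]
      exact hXR.trans (hRM.trans inf_le_right))
    have hg' : g = c⁻¹ * m⁻¹ := by rw [← mul_inv_rev, ← hmc, inv_inv]
    have hcH : c ∈ H := hNX (centralizer_le_normalizer _ hc)
    refine hne ?_
    rw [← Coprime.conj_smul_eq_self (le_normalizer hcH : c ∈ normalizer (H : Set G)), hg, ← mul_smul, ← map_mul,
      hg', mul_inv_cancel_left, Coprime.conj_smul_eq_self (le_normalizer (M.inv_mem hm))]
  have hNR : normalizer (R : Set G) ≤ M := by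
    by_cases hcyc : IsCyclic R
    swap
    · exact normalizer_noncyclic_le hG hM hqM hRp (hRM.trans inf_le_left) hcyc
    have hNRH : normalizer (R : Set G) ≤ H := by
      intro z hz
      haveI := hcyc
      refine hNX (Coprime.mem_normalizer_of_conj_smul_eq
        (OddLocal.eq_of_card_eq_of_le_cyclic (W := R) ?_ hXR (Coprime.card_conj_smul _ _)))
      rintro w ⟨v, hv, rfl⟩
      exact (mem_normalizer_iff.mp hz v).mp (hXR hv)
    obtain ⟨P, hP⟩ := (hRp.comap_subtype (K := M)).exists_le_sylow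
    obtain ⟨T, hTM, -⟩ := exists_sigma_sylow hqM
    have hPR : (P : Subgroup M).map M.subtype = R := hstep _ (P.2.map _)
      (fun z hz => ⟨⟨z, (hRM hz).1⟩, hP hz, rfl⟩)
      (le_inf (inf_le_left.trans (map_subtype_le _)) (inf_le_right.trans hNRH))
    obtain ⟨m, hm⟩ := MulAction.exists_smul_eq ↥M (T.subtype hTM) P
    have hT : (((m : G) • T : Sylow q G) : Subgroup G) = R := by
      rw [← hPR, ← hm, Sylow.smul_subtype, Sylow.coe_subtype, map_subgroupOf_eq_of_le]
      · rfl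
      exact (pointwise_smul_le_pointwise_smul_iff.mpr hTM).trans
        (Coprime.conj_smul_eq_self (le_normalizer m.2)).le
    rw [← hT]
    exact sylow_normalizer_le hG hM hqM _ (hT.le.trans (hRM.trans inf_le_left))
  exact ⟨hnc, hNR, fun Q hQ hQH hRQ => hstep Q hQ hRQ (le_inf (inf_le_right.trans hNR) (inf_le_left.trans hQH))⟩

/-- BG 12.16: `σ(M)`-subgroups are conjugate into `M_σ`. -/
theorem exists_conj_le_sigmaCore (hG : IsMinSimpleOddOrder G) (hM : IsCoatom M) {Y : Subgroup G} (hY1 : Y ≠ ⊥)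
    (hY : ∀ r : ℕ, r.Prime → r ∣ Nat.card Y → r ∈ sigma M) : ∃ g : G, MulAut.conj g • Y ≤ sigmaCore M := by
  classical
  have hYne : Y ≠ ⊤ := by
    rintro rfl
    have hcop : (Nat.card G).Coprime (sigmaCore M).index := Nat.coprime_of_dvd fun r hr h1 h2 => by
      haveI := Fact.mk hr
      exact (sigmaCore_hall hG hM (hY r hr (by rwa [card_top]))).2 h2
    have htop := index_eq_one.mp (Nat.eq_one_of_dvd_coprimes hcop (index_dvd_card _) dvd_rfl)
    exact hM.1 (top_le_iff.mp (htop.ge.trans (map_subtype_le _)))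
  haveI := solvable_of_ne_top hG hYne
  haveI : Nontrivial Y := (nontrivial_iff_ne_bot Y).mpr hY1
  obtain ⟨r, hr, hcore⟩ : ∃ r : ℕ, r.Prime ∧ pCore r ↥Y ≠ ⊥ := by
    by_contra hcon
    push Not at hcon
    have hF : fittingSubgroup ↥Y = ⊥ := by
      rw [Hall.fittingSubgroup_eq_iSup_pCore, iSup_eq_bot]
      exact fun q => hcon q q.2
    have h := Hall.centralizer_fittingSubgroup_le (G := ↥Y)
    rw [hF] at h
    have htop : (⊤ : Subgroup ↥Y) ≤ ⊥ := le_trans (fun z _ => mem_centralizer_iff.mpr fun y hy => by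
      rw [SetLike.mem_coe, mem_bot] at hy
      rw [hy, one_mul, mul_one]) h
    exact hY1 (eq_bot_iff.mpr fun y hy => mem_bot.mpr (congrArg Subtype.val (mem_bot.mp (htop (mem_top ⟨y, hy⟩)))))
  haveI := Fact.mk hr
  set X₀ := (pCore r ↥Y).map Y.subtype with hX₀
  have hX₀p : IsPGroup r X₀ := (Hall.isPGroup_pCore r).map _
  have hX₀1 : X₀ ≠ ⊥ := fun e => hcore ((map_eq_bot_iff_of_injective _ Y.subtype_injective).mp e)
  have hX₀Y : X₀ ≤ Y := map_subtype_le _
  have hYX₀ : Y ≤ normalizer (X₀ : Set G) := by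
    refine (normal_subgroupOf_iff_le_normalizer hX₀Y).mp ?_
    rw [hX₀, subgroupOf, comap_map_eq_self_of_injective Y.subtype_injective]
    infer_instance
  have hrσ : r ∈ sigma M := by
    obtain ⟨j, hj⟩ := IsPGroup.iff_card.mp hX₀p
    rcases Nat.eq_zero_or_pos j with h | h
    · exact absurd (card_eq_one.mp (hj.trans (by rw [h, pow_zero]))) hX₀1
    · exact hY r hr (((dvd_pow_self r h.ne').trans hj.symm.dvd).trans (card_dvd_of_le hX₀Y))
  obtain ⟨T, hXT⟩ := hX₀p.exists_le_sylow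
  obtain ⟨P, hPM, -⟩ := exists_sigma_sylow hrσ
  obtain ⟨g, hg⟩ := MulAction.exists_smul_eq G T P
  set X := MulAut.conj g • X₀ with hX
  set Y' := MulAut.conj g • Y with hY'
  have hXM : X ≤ M := le_trans (pointwise_smul_le_pointwise_smul_iff.mpr hXT) (by
    rw [← hg] at hPM; exact hPM)
  have hXp : IsPGroup r X := hX₀p.map _
  have hX1 : X ≠ ⊥ := fun e => hX₀1 (card_eq_one.mp (by rw [← Coprime.card_conj_smul g X₀, ← hX, e, card_bot]))
  have hY'σ : ∀ s : ℕ, s.Prime → s ∣ Nat.card Y' → s ∈ sigma M := fun s hs hd =>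
    hY s hs (by rwa [hY', Coprime.card_conj_smul] at hd)
  have hY'X : Y' ≤ normalizer (X : Set G) := by
    rintro z ⟨w, hw, rfl⟩
    refine Coprime.mem_normalizer_of_conj_smul_eq ?_
    show MulAut.conj (g * w * g⁻¹) • X = X
    rw [hX, ← mul_smul, ← map_mul, inv_mul_cancel_right, map_mul, mul_smul,
      Coprime.conj_smul_eq_self (hYX₀ hw)]
  by_cases hNM : normalizer (X : Set G) ≤ M
  · exact ⟨g, le_sigmaCore hG hM (hY'X.trans hNM) hY'σ⟩
  have hXne : normalizer (X : Set G) ≠ ⊤ := fun e => by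
    rcases hG.2.1.eq_bot_or_eq_top_of_normal X (normalizer_eq_top_iff.mp e) with h1 | h1
    · exact hX1 h1
    · exact hM.1 (top_le_iff.mp (h1.ge.trans hXM))
  obtain ⟨H, hH, hNH⟩ := exists_coatom_ge hXne
  have hne : H ≠ M := fun e => hNM (e ▸ hNH)
  obtain ⟨S₀, hS₀⟩ := (hXp.comap_subtype (K := M ⊓ H)).exists_le_sylow
  set R := (S₀ : Subgroup ↥(M ⊓ H)).map (M ⊓ H).subtype with hR
  have hXR : X ≤ R := fun z hz => ⟨⟨z, hXM hz, hNH (le_normalizer hz)⟩, hS₀ hz, rfl⟩
  have hmax : ∀ Q : Subgroup G, IsPGroup r Q → Q ≤ M ⊓ H → R ≤ Q → Q = R := fun Q hQ hQle hRQ => by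
    have h := S₀.3 (hQ.comap_subtype (K := M ⊓ H)) (fun z hz => hRQ (mem_map_of_mem _ hz))
    rw [hR, ← h]
    exact (map_subgroupOf_eq_of_le hQle).symm
  obtain ⟨hnc, hNR, hsyl⟩ := sylow_inter_props hG hM hrσ hXp hX1 hXM hH hne hNH (S₀.2.map _)
    (map_subtype_le _) hXR hmax
  obtain ⟨S, hS⟩ := ((S₀.2.map (M ⊓ H).subtype).comap_subtype (K := H)).exists_le_sylow
  have hSR : (S : Subgroup H).map H.subtype = R := hsyl _ (S.2.map _) (map_subtype_le _)
    fun z hz => ⟨⟨z, ((map_subtype_le _ : R ≤ M ⊓ H) hz).2⟩, hS hz, rfl⟩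
  obtain ⟨K, hKH, hHK, hMHK, hKπ, -⟩ := exists_factor hG hM hH hrσ hnc hX1 hNH S (hSR ▸ hXR)
    (hSR ▸ (map_subtype_le _ : R ≤ M ⊓ H).trans inf_le_left) (hSR ▸ hNR)
  haveI := solvable_of_ne_top hG hH.1
  haveI := solvable_of_ne_top hG (ne_top_of_le hH (inf_le_right : M ⊓ H ≤ H))
  obtain ⟨J, hJ, hJi⟩ := Hall.exists_piHall (G := ↥(M ⊓ H)) (sigma M)
  set J' := J.map (M ⊓ H).subtype with hJ'
  have hJ'le : J' ≤ M ⊓ H := map_subtype_le _
  have hcard : Nat.card (J'.subgroupOf H) = Nat.card J := by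
    rw [Coprime.card_subgroupOf (hJ'le.trans inf_le_right), hJ', card_map_of_injective (M ⊓ H).subtype_injective]
  have hidx : ∀ s : ℕ, s.Prime → s ∈ sigma M → ¬ s ∣ (J'.subgroupOf H).index := by
    intro s hs hsσ hd
    rw [← relIndex, ← relIndex_mul_relIndex J' (M ⊓ H) H hJ'le inf_le_right] at hd
    rcases hs.dvd_mul.mp hd with h | h
    · rw [hJ', relIndex, subgroupOf, comap_map_eq_self_of_injective (M ⊓ H).subtype_injective] at h
      exact hJi s hs hsσ h
    · refine hKπ s hs (h.trans ?_) hsσ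
      haveI : (K.subgroupOf H).Normal := (normal_subgroupOf_iff_le_normalizer hKH).mpr hHK
      have htop : (M ⊓ H).subgroupOf H ⊔ K.subgroupOf H = ⊤ := by
        rw [← subgroupOf_sup inf_le_right hKH, hMHK, subgroupOf_self]
      rw [relIndex, ← Coprime.card_subgroupOf hKH]
      set A₁ := (M ⊓ H).subgroupOf H
      set K₁ := K.subgroupOf H
      refine Dvd.intro (Nat.card (K₁.subgroupOf A₁)) (mul_left_cancel₀ (show K₁.index ≠ 0 from index_ne_zero_of_finite) ?_)
      have h1 : K₁.index = (K₁.subgroupOf A₁).index := by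
        rw [← relIndex_top_right K₁, ← htop, relIndex_sup_right]; rfl
      rw [index_mul_card]
      conv_rhs => rw [← index_mul_card A₁, ← index_mul_card (K₁.subgroupOf A₁), ← h1]
      ring
  obtain ⟨h, hh⟩ := Hall.exists_le_conj (H := J'.subgroupOf H) (K := Y'.subgroupOf H)
    (Nat.coprime_of_dvd fun s hs h1 h2 => hidx s hs (hJ s hs (hcard ▸ h1)) h2)
    (Nat.coprime_of_dvd fun s hs h1 h2 => hidx s hs
      (hY'σ s hs (by rwa [Coprime.card_subgroupOf (hY'X.trans hNH)] at h1)) h2)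
  refine ⟨(h : G)⁻¹ * g, le_sigmaCore hG hM ?_ fun s hs hd => hY s hs (by rwa [Coprime.card_conj_smul] at hd)⟩
  rw [map_mul, mul_smul, ← hY', map_inv, pointwise_smul_subset_iff, inv_inv]
  intro z hz
  obtain ⟨w, hw, hwz⟩ := hh (show (⟨z, hNH (hY'X hz)⟩ : H) ∈ Y'.subgroupOf H from hz)
  exact ⟨(w : G), (hJ'le hw).1, congrArg Subtype.val hwz⟩

end Cfsg.Agent.Lib.Uniq
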