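import Cfsg.Agent.Lib.Uniq.SupportPair
set_option autoImplicit false

/-! A cyclic group of operators of odd order on `p^(1+2)` fixing the centre and no line above it has order
dividing `p + 1`. -/

namespace Cfsg.Agent.Lib.Uniq.SupportCase

open Subgroup
open scoped Pointwise

universe u

variable {G : Type u} [Group G] [Finite G] {P K : Subgroup G} {z : G} {p : ℕ}

/-- The subgroups of order `p²` of `P` above `⟨z⟩`. -/
abbrev LineSet (P : Subgroup G) (z : G) (p : ℕ) : Type u :=
  {L : Subgroup G // z ∈ L ∧ L ≤ P ∧ Nat.card L = p ^ 2}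

variable [hp : Fact p.Prime]

theorem line_sup (hzo : orderOf z = p) (hzc : ∀ g ∈ P, Commute g z) (hexp : ∀ g ∈ P, g ^ p = 1)
    {g : G} (hg : g ∈ P) (hgz : g ∉ zpowers z) : Nat.card ↥(zpowers g ⊔ zpowers z) = p ^ 2 := by
  have hgo : orderOf g = p := orderOf_eq_prime (hexp g hg) fun e => hgz (e ▸ one_mem _)
  have hn : zpowers g ≤ normalizer ((zpowers z : Subgroup G) : Set G) := by
    refine (zpowers_le.mpr ?_).trans (centralizer_le_normalizer _)
    rw [centralizer_zpowers, mem_centralizer_singleton_iff]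
    exact (hzc g hg).eq
  have h1 := Coprime.card_sup_mul_card_inf_of_le_normalizer hn
  have h2 : zpowers g ⊓ zpowers z = ⊥ := by
    by_contra hne
    obtain ⟨y, hy, hy1⟩ := (bot_or_exists_ne_one _).resolve_left hne
    have e1 : zpowers y = zpowers g := eq_of_le_of_card_ge (zpowers_le.mpr hy.1) (by
      have hyp : y ^ p = 1 := by
        obtain ⟨i, rfl⟩ := mem_zpowers_iff.mp hy.1
        rw [← zpow_natCast, ← zpow_mul, mul_comm, zpow_mul, zpow_natCast, hexp g hg, one_zpow]
      rw [Nat.card_zpowers, Nat.card_zpowers, hgo, orderOf_eq_prime hyp hy1])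
    exact hgz (zpowers_le.mpr hy.2 (e1 ▸ mem_zpowers g))
  rw [h2, card_bot, mul_one, Nat.card_zpowers, Nat.card_zpowers, hgo, hzo] at h1
  rw [h1, pow_two]

/-- There are `p + 1` subgroups of order `p²` above the centre of `p^(1+2)`. -/
theorem card_lineSet (hPc : Nat.card P = p ^ 3) (hzP : z ∈ P) (hzo : orderOf z = p)
    (hzc : ∀ g ∈ P, Commute g z) (hexp : ∀ g ∈ P, g ^ p = 1) : Nat.card (LineSet P z p) = p + 1 := by
  classical
  let S := {g : G // g ∈ P ∧ g ∉ zpowers z}
  let f : S → LineSet P z p := fun g => ⟨zpowers g.1 ⊔ zpowers z, mem_sup_right (mem_zpowers z),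
    sup_le (zpowers_le.mpr g.2.1) (zpowers_le.mpr hzP), line_sup hzo hzc hexp g.2.1 g.2.2⟩
  haveI := Fintype.ofFinite (LineSet P z p)
  have hsub : ∀ L : Subgroup G, z ∈ L → Nat.card {g : G // g ∈ L ∧ g ∉ zpowers z} + p = Nat.card L := by
    intro L hzL
    have h := Set.ncard_sdiff_add_ncard_of_subset (s := ((zpowers z : Subgroup G) : Set G)) (t := (L : Set G))
      (SetLike.coe_subset_coe.mpr (zpowers_le.mpr hzL))
    rw [← Nat.card_coe_set_eq, ← Nat.card_coe_set_eq, ← Nat.card_coe_set_eq] at h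
    simp only [SetLike.coe_sort_coe, Nat.card_zpowers, hzo] at h
    exact h
  have hfib : ∀ L : LineSet P z p, Nat.card {g : S // f g = L} + p = p ^ 2 := by
    intro L
    rw [← L.2.2.2, ← hsub L.1 L.2.1]
    congr 1
    refine Nat.card_congr ⟨fun g => ⟨g.1.1, ?_, g.1.2.2⟩, fun g => ⟨⟨g.1, L.2.2.1 g.2.1, g.2.2⟩, ?_⟩,
      fun g => rfl, fun g => rfl⟩
    · exact (congrArg Subtype.val g.2) ▸ mem_sup_left (mem_zpowers g.1.1)
    · refine Subtype.ext (eq_of_le_of_card_ge (sup_le (zpowers_le.mpr g.2.1) (zpowers_le.mpr L.2.1)) ?_)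
      exact (L.2.2.2.trans (line_sup hzo hzc hexp (L.2.2.1 g.2.1) g.2.2).symm).le
  have hS : Nat.card S + p = p ^ 3 := hPc ▸ hsub P hzP
  have hsum : Nat.card S = ∑ L : LineSet P z p, Nat.card {g : S // f g = L} := by
    rw [← Nat.card_sigma]
    exact Nat.card_congr (Equiv.sigmaFiberEquiv f).symm
  have hp2 : p ≤ p ^ 2 := Nat.le_self_pow two_ne_zero p
  have hc : ∀ L : LineSet P z p, Nat.card {g : S // f g = L} = p ^ 2 - p := fun L => by
    have := hfib L; omega
  simp only [hc, Finset.sum_const, Finset.card_univ, smul_eq_mul, ← Nat.card_eq_fintype_card] at hsum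
  have hpp : 0 < p ^ 2 - p := by
    have := Nat.lt_pow_self (n := 1) hp.out.one_lt
    have : p < p ^ 2 := by nlinarith [hp.out.two_le]
    omega
  refine Nat.eq_of_mul_eq_mul_right hpp ?_
  rw [← hsum]
  have e : (p + 1) * (p ^ 2 - p) + p = p ^ 3 := by
    obtain ⟨q, rfl⟩ : ∃ q, p = q + 1 := ⟨p - 1, by have := hp.out.one_le; omega⟩
    have e2 : (q + 1) ^ 2 - (q + 1) = (q + 1) * q := by
      rw [Nat.sub_eq_iff_eq_add (by nlinarith)]; ring
    rw [e2]; ring
  omega

/-- A group acting on the lines without fixed ones has order dividing `p + 1`. -/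
theorem card_dvd_succ (hPc : Nat.card P = p ^ 3) (hzP : z ∈ P) (hzo : orderOf z = p)
    (hzc : ∀ g ∈ P, Commute g z) (hexp : ∀ g ∈ P, g ^ p = 1) (hKP : K ≤ normalizer (P : Set G))
    (hKz : ∀ k ∈ K, Commute k z)
    (hfree : ∀ k ∈ K, k ≠ 1 → ∀ L : Subgroup G, z ∈ L → L ≤ P → Nat.card L = p ^ 2 →
      k ∉ normalizer (L : Set G)) :
    Nat.card K ∣ p + 1 := by
  letI : MulAction ↥K (LineSet P z p) :=
    { smul := fun k L => ⟨MulAut.conj (k : G) • L.1,
        ⟨z, L.2.1, by
          show (k : G) * z * (k : G)⁻¹ = z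
          rw [(hKz k k.2).eq, mul_inv_cancel_right]⟩,
        fun y hy => by
          obtain ⟨v, hv, rfl⟩ := hy
          exact (mem_normalizer_iff.mp (hKP k.2) v).mp (L.2.2.1 hv),
        (Coprime.card_conj_smul _ _).trans L.2.2.2⟩
      one_smul := fun L => Subtype.ext (by
        show MulAut.conj ((1 : K) : G) • L.1 = L.1
        rw [coe_one, map_one, one_smul])
      mul_smul := fun a b L => Subtype.ext (by
        show MulAut.conj ((a * b : K) : G) • L.1 = MulAut.conj (a : G) • (MulAut.conj (b : G) • L.1)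
        rw [coe_mul, map_mul, mul_smul]) }
  have hst : ∀ L : LineSet P z p, MulAction.stabilizer (↥K) L = ⊥ := fun L => by
    refine (eq_bot_iff_forall _).mpr fun k hk => ?_
    by_contra hk1
    exact hfree k k.2 (fun e => hk1 (Subtype.ext e)) L.1 L.2.1 L.2.2.1 L.2.2.2
      (Coprime.mem_normalizer_of_conj_smul_eq (congrArg Subtype.val (MulAction.mem_stabilizer_iff.mp hk)))
  rw [← card_lineSet hPc hzP hzo hzc hexp, Nat.card_congr (MulAction.selfEquivOrbitsQuotientProd hst), Nat.card_prod]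
  exact Dvd.intro_left _ rfl

end Cfsg.Agent.Lib.Uniq.SupportCase
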