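import Cfsg.Agent.Lib.Uniq.SupportTrichotomy
import Cfsg.Agent.Lib.OddLocal.CoprimeOdd
set_option autoImplicit false

/-! Elementary facts on commutators into a central line and actions on pairs `⟨w, z⟩` (for BG 15.8). -/

namespace Cfsg.Agent.Lib.Uniq.SupportCase

open Subgroup
open scoped Pointwise

universe u

variable {G : Type u} [Group G] {z : G}

/-- The elements of `P` whose commutators with `P` lie in the line `⟨z⟩` centralised by `P`. -/
def centralMod (P : Subgroup G) (z : G) (hz : ∀ g ∈ P, Commute g z) : Subgroup G where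
  carrier := {w | w ∈ P ∧ ∀ g ∈ P, g * w * g⁻¹ * w⁻¹ ∈ zpowers z}
  one_mem' := ⟨one_mem P, fun g _ => by simp⟩
  mul_mem' := fun {a b} ha hb => ⟨mul_mem ha.1 hb.1, fun g hg => by
    obtain ⟨i, hi⟩ := mem_zpowers_iff.mp (hb.2 g hg)
    have e : g * (a * b) * g⁻¹ * (a * b)⁻¹ = (g * a * g⁻¹ * a⁻¹) * (a * (g * b * g⁻¹ * b⁻¹) * a⁻¹) := by group
    rw [e, ← hi, ((hz a ha.1).zpow_right i).eq, mul_inv_cancel_right]
    exact mul_mem (ha.2 g hg) (zpow_mem (mem_zpowers z) i)⟩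
  inv_mem' := fun {a} ha => ⟨inv_mem ha.1, fun g hg => by
    obtain ⟨i, hi⟩ := mem_zpowers_iff.mp (ha.2 g hg)
    have e : g * a⁻¹ * g⁻¹ * a⁻¹⁻¹ = a⁻¹ * (g * a * g⁻¹ * a⁻¹)⁻¹ * a := by group
    rw [e, ← hi, ((hz a ha.1).inv_left.zpow_right i).inv_right.eq, inv_mul_cancel_right]
    exact inv_mem (zpow_mem (mem_zpowers z) i)⟩

variable {P : Subgroup G}

theorem mem_centralMod {hz : ∀ g ∈ P, Commute g z} {w : G} :
    w ∈ centralMod P z hz ↔ w ∈ P ∧ ∀ g ∈ P, g * w * g⁻¹ * w⁻¹ ∈ zpowers z := Iff.rfl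

/-- `w ↦ [g, w]` is multiplicative on `centralMod`. -/
theorem comm_mul {hz : ∀ g ∈ P, Commute g z} {g a b : G} (hg : g ∈ P) (ha : a ∈ centralMod P z hz)
    (hb : b ∈ centralMod P z hz) :
    g * (a * b) * g⁻¹ * (a * b)⁻¹ = (g * a * g⁻¹ * a⁻¹) * (g * b * g⁻¹ * b⁻¹) := by
  obtain ⟨i, hi⟩ := mem_zpowers_iff.mp (hb.2 g hg)
  have e : g * (a * b) * g⁻¹ * (a * b)⁻¹ = (g * a * g⁻¹ * a⁻¹) * (a * (g * b * g⁻¹ * b⁻¹) * a⁻¹) := by group
  rw [e, ← hi, ((hz a ha.1).zpow_right i).eq, mul_inv_cancel_right]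

theorem comm_pow {hz : ∀ g ∈ P, Commute g z} {g a : G} (hg : g ∈ P) (ha : a ∈ centralMod P z hz) (n : ℕ) :
    g * a ^ n * g⁻¹ * (a ^ n)⁻¹ = (g * a * g⁻¹ * a⁻¹) ^ n := by
  induction n with
  | zero => simp
  | succ n ih => rw [pow_succ, comm_mul hg (pow_mem ha n) ha, ih, pow_succ]

/-- Products of elements of order `p` of `centralMod` have order dividing `p`. -/
theorem mul_pow_prime {p : ℕ} [hp : Fact p.Prime] (hp2 : p ≠ 2) {hz : ∀ g ∈ P, Commute g z}
    (hzp : z ^ p = 1) {a b : G} (ha : a ∈ centralMod P z hz) (hb : b ∈ P)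
    (hap : a ^ p = 1) (hbp : b ^ p = 1) : (a * b) ^ p = 1 := by
  obtain ⟨i, hi⟩ := mem_zpowers_iff.mp (ha.2 b hb)
  have h := (OddLocal.mul_pow_of_central_commutator (x := a) (y := b) (z := z ^ i)
    ((hz a ha.1).zpow_right i).symm ((hz b hb).zpow_right i).symm (by rw [hi]; group) p).2
  have hd : p ∣ p.choose 2 := hp.out.dvd_choose_self (by norm_num)
    (lt_of_le_of_ne hp.out.two_le (Ne.symm hp2))
  obtain ⟨c, hc⟩ := hd
  rw [h, hap, hbp, hc, pow_mul, ← zpow_natCast (z ^ i), ← zpow_mul, mul_comm, zpow_mul, zpow_natCast, hzp,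
    one_zpow, one_pow]
  group

/-- Conjugation by a coprime element that shifts `w` by a power of a fixed `z` fixes `w`. -/
theorem commute_of_shift [Finite G] {p : ℕ} [hp : Fact p.Prime] {u w : G} (hzp : z ^ p = 1) (huz : Commute u z)
    (hu : ¬ p ∣ orderOf u) {c : ℤ} (h : u * w * u⁻¹ = w * z ^ c) : Commute u w := by
  have hit : ∀ n : ℕ, u ^ n * w * (u ^ n)⁻¹ = w * (z ^ c) ^ n := by
    intro n
    induction n with
    | zero => simp
    | succ n ih =>
      rw [pow_succ', show u * u ^ n * w * (u * u ^ n)⁻¹ = u * (u ^ n * w * (u ^ n)⁻¹) * u⁻¹ by group, ih,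
        ← conj_mul, h, (((huz.zpow_right c).pow_right n)).eq, mul_inv_cancel_right, mul_assoc, ← pow_succ']
  have h0 := hit (orderOf u)
  rw [pow_orderOf_eq_one, inv_one, one_mul, mul_one, left_eq_mul] at h0
  have hzc : z ^ c = 1 := orderOf_eq_one_iff.mp (Nat.eq_one_of_dvd_coprimes (hp.out.coprime_iff_not_dvd.mpr hu)
    (orderOf_dvd_of_pow_eq_one (by rw [← zpow_natCast, ← zpow_mul, mul_comm, zpow_mul, zpow_natCast, hzp, one_zpow]))
    (orderOf_dvd_of_pow_eq_one h0))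
  rw [hzc, mul_one] at h
  exact mul_inv_eq_iff_eq_mul.mp h

variable {p : ℕ} [hp : Fact p.Prime] {L : Subgroup G}

/-- An elementary abelian `L` of order `p²` is spanned by any `w ∈ L ∖ ⟨z⟩` and `z`. -/
theorem exists_coord [Finite G] (hL : IsElementaryAbelian p L) (hLc : Nat.card L = p ^ 2) (hzL : z ∈ L)
    (hzo : orderOf z = p) {w : G} (hw : w ∈ L) (hwz : w ∉ zpowers z) {v : G} (hv : v ∈ L) :
    ∃ a b : ℕ, v = w ^ a * z ^ b := by
  have hle : zpowers z ⊔ zpowers w ≤ L := sup_le (zpowers_le.mpr hzL) (zpowers_le.mpr hw)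
  have hwo : orderOf w = p := orderOf_eq_prime (hL.2 w hw) fun e => hwz (e ▸ one_mem _)
  have hn : zpowers w ≤ normalizer ((zpowers z : Subgroup G) : Set G) := by
    refine (zpowers_le.mpr ?_).trans (centralizer_le_normalizer _)
    rw [centralizer_zpowers, mem_centralizer_singleton_iff]
    exact elem_comm hL hw hzL
  have heq : zpowers w ⊔ zpowers z = L := by
    refine eq_of_le_of_card_ge (by rwa [sup_comm]) ?_
    have h1 := Coprime.card_sup_mul_card_inf_of_le_normalizer hn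
    have h2 : zpowers w ⊓ zpowers z = ⊥ := by
      by_contra hne
      obtain ⟨y, hy, hy1⟩ := (bot_or_exists_ne_one _).resolve_left hne
      have e1 : zpowers y = zpowers w := eq_of_le_of_card_ge (zpowers_le.mpr hy.1) (by
        rw [Nat.card_zpowers, Nat.card_zpowers, hwo, orderOf_eq_prime (hL.2 y (hle (mem_sup_right hy.1))) hy1])
      exact hwz (zpowers_le.mpr hy.2 (e1 ▸ mem_zpowers w))
    rw [h2, card_bot, mul_one, Nat.card_zpowers, Nat.card_zpowers, hwo, hzo] at h1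
    rw [h1, hLc, pow_two]
  rw [← heq] at hv
  obtain ⟨a, ha, b, hb, rfl⟩ := (Coprime.mem_sup_of_le_normalizer hn).mp hv
  obtain ⟨i, rfl⟩ := (orderOf_pos_iff.mp (orderOf_pos w)).mem_powers_iff_mem_zpowers.mpr ha
  obtain ⟨j, rfl⟩ := (orderOf_pos_iff.mp (orderOf_pos z)).mem_powers_iff_mem_zpowers.mpr hb
  exact ⟨i, j, rfl⟩

/-- An element normalising `L` and fixing `z` acts on `L / ⟨z⟩` by a power. -/
theorem pair_conj [Finite G] (hL : IsElementaryAbelian p L) (hLc : Nat.card L = p ^ 2) (hzL : z ∈ L)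
    (hzo : orderOf z = p) {w : G} (hw : w ∈ L) (hwz : w ∉ zpowers z) {g : G}
    (hg : g ∈ normalizer (L : Set G)) (hgz : Commute g z) :
    ∃ a : ℕ, ¬ p ∣ a ∧ ∀ n : ℕ, ∃ b : ℕ, g ^ n * w * (g ^ n)⁻¹ = w ^ (a ^ n) * z ^ b := by
  obtain ⟨a, b, hab⟩ := exists_coord hL hLc hzL hzo hw hwz ((mem_normalizer_iff.mp hg w).mp hw)
  refine ⟨a, fun hd => hwz ?_, fun n => ?_⟩
  · obtain ⟨c, rfl⟩ := hd
    rw [pow_mul, hL.2 w hw, one_pow, one_mul, mul_inv_eq_iff_eq_mul, ← (hgz.pow_right b).eq] at hab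
    exact mul_left_cancel hab ▸ pow_mem (mem_zpowers z) b
  induction n with
  | zero => exact ⟨0, by simp⟩
  | succ n ih =>
    obtain ⟨c, hc⟩ := ih
    refine ⟨b * a ^ n + c, ?_⟩
    rw [pow_succ', show g * g ^ n * w * (g * g ^ n)⁻¹ = g * (g ^ n * w * (g ^ n)⁻¹) * g⁻¹ by group, hc,
      ← conj_mul, ← conj_pow, hab, (hgz.pow_right c).eq, mul_inv_cancel_right,
      (((Commute.pow_pow (elem_comm hL hw hzL) a b))).mul_pow, ← pow_mul, ← pow_mul, ← pow_succ', mul_assoc,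
      ← pow_add]

/-- `g ^ (p - 1)` centralises `L` when `g` is a `p'`-element normalising `L` and fixing `z`. -/
theorem pow_pred_fixes [Finite G] (hL : IsElementaryAbelian p L) (hLc : Nat.card L = p ^ 2) (hzL : z ∈ L)
    (hzo : orderOf z = p) {w : G} (hw : w ∈ L) (hwz : w ∉ zpowers z) {g : G}
    (hg : g ∈ normalizer (L : Set G)) (hgz : Commute g z) (hgp : ¬ p ∣ orderOf g) :
    Commute (g ^ (p - 1)) w := by
  obtain ⟨a, ha, h⟩ := pair_conj hL hLc hzL hzo hw hwz hg hgz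
  obtain ⟨b, hb⟩ := h (p - 1)
  have hm : a ^ (p - 1) ≡ 1 [MOD orderOf w] := by
    rw [orderOf_eq_prime (hL.2 w hw) fun e => hwz (e ▸ one_mem _), ← Nat.totient_prime hp.out]
    exact Nat.ModEq.pow_totient (hp.out.coprime_iff_not_dvd.mpr ha).symm
  rw [pow_eq_pow_iff_modEq.mpr hm, pow_one] at hb
  exact commute_of_shift (c := (b : ℤ)) (hzo ▸ pow_orderOf_eq_one z) (hgz.pow_left _)
    (fun hd => hgp (hd.trans (orderOf_pow_dvd _))) (by rw [hb, zpow_natCast])

end Cfsg.Agent.Lib.Uniq.SupportCase
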