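import Cfsg.Agent.Lib.Uniq.SupportLines
import Cfsg.Agent.Lib.Uniq.StarFitting
import Cfsg.Agent.S1412
import Cfsg.Agent.S1426
import Cfsg.Agent.S1431
set_option autoImplicit false

/-! BG 15.8, `U = 1`: a non-TI `M_F = M_σ` has `|K| ∣ p - 1`, or order-`p³` Sylow and `|K| ∣ p + 1`. -/

namespace Cfsg.Agent.Lib.Uniq.SupportCase

open Subgroup
open Data (sylSub)
open scoped Pointwise commutatorElement

universe u

variable {G : Type u} [Group G] [Finite G] {M K : Subgroup G} {p : ℕ} {x z : G}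

namespace Data

variable [hp : Fact p.Prime] (S : Sylow p ↥(sigmaCore M))

/-- `z` is centralised by `M_σ` and its line is normalised by `M`. -/
theorem conj_central (hG : IsMinSimpleOddOrder G) (h : Data M p x) (hPna : ¬ IsMulCommutative (sylSub S))
    (hzP : z ∈ sylSub S) (hzo : orderOf z = p) (hzc : ∀ w ∈ sylSub S, Commute w z) {g : G} (hg : g ∈ M) :
    g * z * g⁻¹ ∈ zpowers z := by
  have hn := h.normal_sylow S hg
  refine h.central_unique S hG hPna hzP hzo hzc ((mem_normalizer_iff.mp hn z).mp hzP) ?_ fun y hy => ?_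
  · rw [conj_pow, ← hzo, pow_orderOf_eq_one, mul_one, mul_inv_cancel]
  · have h1 := hzc (g⁻¹ * y * g) ((mem_normalizer_iff.mp hn (g⁻¹ * y * g)).mpr (by
      rwa [show g * (g⁻¹ * y * g) * g⁻¹ = y by group]))
    have h2 := h1.map (MulAut.conj g).toMonoidHom
    simpa [mul_assoc] using h2

/-- If `x` is not central modulo `⟨z⟩`, the pair normal in the Sylow `p`-subgroup is normalised by every
automorphism fixing `z`. -/
theorem exists_invariant_pair (hG : IsMinSimpleOddOrder G) (h : Data M p x)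
    (hPna : ¬ IsMulCommutative (sylSub S)) (hzP : z ∈ sylSub S) (hzo : orderOf z = p)
    (hzc : ∀ w ∈ sylSub S, Commute w z) (hx : x ∉ centralMod (sylSub S) z hzc) :
    ∃ W : Subgroup G, W ≤ sylSub S ∧ IsElementaryAbelian p W ∧ Nat.card W = p ^ 2 ∧ z ∈ W ∧
      ∀ k : G, k ∈ normalizer (sylSub S : Set G) → Commute k z → k ∈ normalizer (W : Set G) := by
  have hPp : IsPGroup p (sylSub S) := S.2.map _
  have hp2 : p ≠ 2 := ne_two_of_pgroup hG hPp fun e => h.ne_one (mem_bot.mp (e ▸ h.x_mem S))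
  have hzp : z ^ p = 1 := hzo ▸ pow_orderOf_eq_one z
  have hnc : ¬ IsCyclic (sylSub S) := fun hc => by
    haveI := hc
    exact hPna ⟨⟨fun a b => (IsCyclic.commGroup (α := sylSub S)).mul_comm a b⟩⟩
  obtain ⟨W, hWP, hPW, hW, hWc, -, -⟩ := exists_normal_pair hp2 hPp hnc
  have hzW : z ∈ W := by
    haveI : (W.subgroupOf (sylSub S)).Normal := (normal_subgroupOf_iff_le_normalizer hWP).mpr hPW
    obtain ⟨c, hc, hc1, hcc⟩ := exists_central_mem hPp (W.subgroupOf (sylSub S)) fun e => by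
      have h1 : Nat.card W = 1 := by rw [← Coprime.card_subgroupOf hWP, e, card_bot]
      rw [hWc] at h1
      exact hp.out.ne_one (by nlinarith [hp.out.two_le])
    have hcp : (c : G) ^ p = 1 := hW.2 _ hc
    have hcz := h.central_unique S hG hPna hzP hzo hzc c.2 hcp fun y hy =>
      congrArg Subtype.val (mem_center_iff.mp hcc ⟨y, hy⟩)
    have hc1' : (c : G) ≠ 1 := fun e => hc1 (Subtype.ext e)
    have e : zpowers (c : G) = zpowers z := eq_of_le_of_card_ge (zpowers_le.mpr hcz) (by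
      rw [Nat.card_zpowers, Nat.card_zpowers, hzo, orderOf_eq_prime hcp hc1'])
    exact zpowers_le.mpr (show (c : G) ∈ W from hc) (e ▸ mem_zpowers z)
  obtain ⟨w₁, hw₁, hw₁z⟩ : ∃ w ∈ W, w ∉ zpowers z := by
    by_contra hne
    push_neg at hne
    have := card_dvd_of_le (show W ≤ zpowers z from hne)
    rw [hWc, Nat.card_zpowers, hzo] at this
    have := Nat.le_of_dvd hp.out.pos this
    nlinarith [hp.out.two_le]
  -- `W` is central modulo `⟨z⟩`
  have hWZ : W ≤ centralMod (sylSub S) z hzc := by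
    refine fun w hw => ⟨hWP hw, fun g hg => ?_⟩
    obtain ⟨a, -, ha⟩ := pair_conj hW hWc hzW hzo hw₁ hw₁z (hPW hg) (hzc g hg)
    obtain ⟨b, hb⟩ := ha 1
    rw [pow_one, pow_one] at hb
    obtain ⟨j, hj⟩ := hPp ⟨g, hg⟩
    have hgj : g ^ p ^ j = 1 := congrArg Subtype.val hj
    obtain ⟨c, hc⟩ := ha (p ^ j)
    rw [hgj, inv_one, one_mul, mul_one] at hc
    have hw₁o : orderOf w₁ = p := orderOf_eq_prime (hW.2 w₁ hw₁) fun e => hw₁z (e ▸ one_mem _)
    have hz0 : z ^ c ∈ zpowers z := pow_mem (mem_zpowers z) c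
    have hap : a ^ p ^ j ≡ a [MOD p] := by
      have key : ∀ i : ℕ, a ^ p ^ i ≡ a [MOD p] := by
        intro i
        induction i with
        | zero => rw [pow_zero, pow_one]
        | succ i ih =>
          rw [pow_succ, pow_mul]
          refine (ih.pow p).trans ?_
          rw [← ZMod.natCast_eq_natCast_iff, Nat.cast_pow, ZMod.pow_card]
      exact key j
    have hwa : w₁ ^ a = w₁ ^ a ^ p ^ j := pow_eq_pow_iff_modEq.mpr (hw₁o.symm ▸ hap.symm)
    have h1 : g * w₁ * g⁻¹ * w₁⁻¹ ∈ zpowers z := by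
      have hbz : z ^ b * (z ^ c)⁻¹ ∈ zpowers z := mul_mem (pow_mem (mem_zpowers z) b) (inv_mem hz0)
      have e : w₁ ^ a = w₁ * (z ^ c)⁻¹ := by rw [hwa, eq_mul_inv_iff_mul_eq, ← hc]
      rw [hb, e, mul_assoc w₁, show (z ^ c)⁻¹ * z ^ b = z ^ b * (z ^ c)⁻¹ from
        ((Commute.refl z).pow_pow b c).inv_right.eq.symm]
      obtain ⟨i, hi⟩ := mem_zpowers_iff.mp hbz
      rw [← hi, ((hzc w₁ (hWP hw₁)).zpow_right i).eq, mul_inv_cancel_right]
      exact zpow_mem (mem_zpowers z) i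
    obtain ⟨i, k, rfl⟩ := exists_coord hW hWc hzW hzo hw₁ hw₁z hw
    obtain ⟨r, hr⟩ := mem_zpowers_iff.mp h1
    have hgw : g * w₁ * g⁻¹ = z ^ r * w₁ := by rw [hr]; group
    have hc1 : Commute (z ^ r) w₁ := ((hzc w₁ (hWP hw₁)).zpow_right r).symm
    have e : g * (w₁ ^ i * z ^ k) * g⁻¹ * (w₁ ^ i * z ^ k)⁻¹ = (z ^ r) ^ i := by
      rw [← conj_mul, ← conj_pow, hgw, ((hzc g hg).pow_right k).eq, mul_inv_cancel_right, hc1.mul_pow]
      group
    rw [e]
    exact pow_mem (zpow_mem (mem_zpowers z) r) i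
  have hxc : ∀ y : G, y ∈ zpowers x ⊔ zpowers z → y ∈ centralMod (sylSub S) z hzc → y ∈ zpowers z := by
    intro y hy hyc
    have hn : zpowers x ≤ normalizer ((zpowers z : Subgroup G) : Set G) := by
      refine (zpowers_le.mpr ?_).trans (centralizer_le_normalizer _)
      rw [centralizer_zpowers, mem_centralizer_singleton_iff]
      exact (hzc x (h.x_mem S)).eq
    obtain ⟨a, ha, b, hb, rfl⟩ := (Coprime.mem_sup_of_le_normalizer hn).mp hy
    have hzZ : zpowers z ≤ centralMod (sylSub S) z hzc := zpowers_le.mpr ⟨hzP, fun g hg => by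
      rw [(hzc g hg).eq, mul_inv_cancel_right, mul_inv_cancel]; exact one_mem _⟩
    have haZ : a ∈ centralMod (sylSub S) z hzc := by
      have := mul_mem hyc (inv_mem (hzZ hb))
      rwa [mul_inv_cancel_right] at this
    suffices a = 1 by rw [this, one_mul]; exact hb
    by_contra ha1
    have hap : a ^ p = 1 := by
      obtain ⟨i, rfl⟩ := mem_zpowers_iff.mp ha
      rw [← zpow_natCast, ← zpow_mul, mul_comm, zpow_mul, zpow_natCast, ← h.order, pow_orderOf_eq_one, one_zpow]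
    have e : zpowers a = zpowers x := eq_of_le_of_card_ge (zpowers_le.mpr ha) (by
      rw [Nat.card_zpowers, Nat.card_zpowers, h.order, orderOf_eq_prime hap ha1])
    exact hx (zpowers_le.mpr haZ (e ▸ mem_zpowers x))
  -- the elements of order `p` central modulo `⟨z⟩` lie in `W`
  have huniq : ∀ w ∈ centralMod (sylSub S) z hzc, w ^ p = 1 → w ∈ W := by
    intro w hw hwp
    set c₁ := x * w₁ * x⁻¹ * w₁⁻¹ with hc₁
    have hc₁z : c₁ ∈ zpowers z := (hWZ hw₁).2 x (h.x_mem S)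
    have hc₁1 : c₁ ≠ 1 := fun e => hw₁z (hxc w₁ (h.mem_pair S hG hPna hzP hzo hzc (hWP hw₁) (by
      rw [hc₁, mul_inv_eq_one, mul_inv_eq_iff_eq_mul] at e
      exact e.symm) (hW.2 w₁ hw₁)) (hWZ hw₁))
    have hc₁p : c₁ ^ p = 1 := by
      obtain ⟨i, hi⟩ := mem_zpowers_iff.mp hc₁z
      rw [← hi, ← zpow_natCast, ← zpow_mul, mul_comm, zpow_mul, zpow_natCast, hzp, one_zpow]
    have e : zpowers c₁ = zpowers z := eq_of_le_of_card_ge (zpowers_le.mpr hc₁z) (by
      rw [Nat.card_zpowers, Nat.card_zpowers, hzo, orderOf_eq_prime hc₁p hc₁1])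
    have hcw : (x * w * x⁻¹ * w⁻¹)⁻¹ ∈ zpowers c₁ := e ▸ inv_mem (hw.2 x (h.x_mem S))
    obtain ⟨j, hj⟩ := (orderOf_pos_iff.mp (orderOf_pos c₁)).mem_powers_iff_mem_zpowers.mpr hcw
    have hwj : w₁ ^ j ∈ centralMod (sylSub S) z hzc := pow_mem (hWZ hw₁) j
    have hmem : w * w₁ ^ j ∈ centralMod (sylSub S) z hzc := mul_mem hw hwj
    have hcomm : Commute (w * w₁ ^ j) x := by
      have h0 := comm_mul (h.x_mem S) hw hwj
      rw [comm_pow (h.x_mem S) (hWZ hw₁) j, ← hc₁, show c₁ ^ j = _ from hj, mul_inv_cancel, mul_inv_eq_one,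
        mul_inv_eq_iff_eq_mul] at h0
      exact h0.symm
    have hpw : (w * w₁ ^ j) ^ p = 1 := mul_pow_prime hp2 hzp hw hwj.1 hwp (by
      rw [← pow_mul, mul_comm, pow_mul, hW.2 w₁ hw₁, one_pow])
    have := hxc _ (h.mem_pair S hG hPna hzP hzo hzc hmem.1 hcomm hpw) hmem
    have h2 := mul_mem (zpowers_le.mpr hzW this) (inv_mem (pow_mem hw₁ j))
    rwa [mul_inv_cancel_right] at h2
  refine ⟨W, hWP, hW, hWc, hzW, fun k hk hkz => Coprime.mem_normalizer_of_conj_smul_eq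
    (eq_of_le_of_card_ge ?_ (Coprime.card_conj_smul k W).ge)⟩
  rintro _ ⟨w, hw, rfl⟩
  show k * w * k⁻¹ ∈ W
  refine huniq _ ⟨(mem_normalizer_iff.mp hk w).mp (hWP hw), fun g hg => ?_⟩ (by
    rw [conj_pow, hW.2 w hw, mul_one, mul_inv_cancel])
  have hg' : k⁻¹ * g * k ∈ sylSub S := by
    refine (mem_normalizer_iff.mp hk _).mpr ?_
    rwa [show k * (k⁻¹ * g * k) * k⁻¹ = g by group]
  obtain ⟨i, hi⟩ := mem_zpowers_iff.mp ((hWZ hw).2 _ hg')
  have e : g * (k * w * k⁻¹) * g⁻¹ * (k * w * k⁻¹)⁻¹ =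
      k * ((k⁻¹ * g * k) * w * (k⁻¹ * g * k)⁻¹ * w⁻¹) * k⁻¹ := by group
  rw [e, ← hi, (hkz.zpow_right i).eq, mul_inv_cancel_right]
  exact zpow_mem (mem_zpowers z) i

/-- If `x` is central modulo `⟨z⟩`, the Sylow `p`-subgroup has rank `2`. -/
theorem rank_two (hG : IsMinSimpleOddOrder G) (h : Data M p x)
    (hPna : ¬ IsMulCommutative (sylSub S)) (hzP : z ∈ sylSub S) (hzo : orderOf z = p)
    (hzc : ∀ w ∈ sylSub S, Commute w z) (hx : x ∈ centralMod (sylSub S) z hzc) :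
    PRankLE p 2 (sylSub S) := by
  by_contra hr
  obtain ⟨B, hBP, hB, hBc⟩ := elem_of_not_pRankLE hr
  have hzp : z ^ p = 1 := hzo ▸ pow_orderOf_eq_one z
  set A := zpowers x ⊔ zpowers z
  have hn : zpowers x ≤ normalizer ((zpowers z : Subgroup G) : Set G) := by
    refine (zpowers_le.mpr ?_).trans (centralizer_le_normalizer _)
    rw [centralizer_zpowers, mem_centralizer_singleton_iff]
    exact (hzc x (h.x_mem S)).eq
  have hA : Nat.card A ≤ p * p := by
    refine (Nat.le_mul_of_pos_right _ (Nat.card_pos (α := ↥(zpowers x ⊓ zpowers z)))).trans ?_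
    rw [Coprime.card_sup_mul_card_inf_of_le_normalizer hn, Nat.card_zpowers, Nat.card_zpowers, h.order, hzo]
  have hBA : B ⊓ centralizer ({x} : Set G) ≤ A := fun b hb =>
    h.mem_pair S hG hPna hzP hzo hzc (hBP hb.1) (mem_centralizer_singleton_iff.mp hb.2) (hB.2 b hb.1)
  have hlt : p ^ 2 < Nat.card B := by rw [hBc]; exact Nat.pow_lt_pow_right hp.out.one_lt (by norm_num)
  by_cases hxB : x ∈ B
  · have : B ≤ A := fun b hb => hBA ⟨hb, mem_centralizer_singleton_iff.mpr (elem_comm hB hb hxB)⟩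
    have := (card_le_of_le this).trans hA
    rw [← pow_two] at this
    omega
  · have hAp := h.pair_elem S hzo hzc
    have hlt' : Nat.card ↥(B ⊓ centralizer ({x} : Set G)) < p ^ 2 := by
      refine lt_of_lt_of_le ((Set.toFinite _).card_lt_card (SetLike.coe_ssubset_coe.2
        (lt_of_le_of_ne hBA fun e => hxB ?_))) (hA.trans_eq (pow_two p).symm)
      exact ((e.ge : A ≤ _) (mem_sup_left (mem_zpowers x))).1
    obtain ⟨i, hi⟩ := IsPGroup.iff_card.mp ((elem_isPGroup hB).to_le (inf_le_left (b := centralizer ({x} : Set G))))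
    have hle : Nat.card ↥(B ⊓ centralizer ({x} : Set G)) ≤ p := by
      rw [hi] at hlt' ⊢
      have := (Nat.pow_lt_pow_iff_right hp.out.one_lt).mp hlt'
      exact (Nat.pow_le_pow_right hp.out.pos (Nat.lt_succ_iff.mp this)).trans_eq (pow_one p)
    have hrel := relIndex_centralizer_le (P := B) hzp (fun g hg => (hzc g (hBP hg)).eq)
      (fun g hg => hx.2 g (hBP hg))
    have he : Nat.card B = Nat.card ↥(B ⊓ centralizer ({x} : Set G)) * (centralizer ({x} : Set G)).relIndex B := by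
      have h1 := card_mul_index ((centralizer ({x} : Set G)).subgroupOf B)
      rw [show (centralizer ({x} : Set G)).subgroupOf B = (B ⊓ centralizer ({x} : Set G)).subgroupOf B from
        (inf_subgroupOf_left _ _).symm, Coprime.card_subgroupOf inf_le_left] at h1
      rw [← h1]
      congr 1
      show ((B ⊓ centralizer ({x} : Set G)).subgroupOf B).index = _
      rw [inf_subgroupOf_left]
      rfl
    have := Nat.mul_le_mul hle hrel
    rw [← he, ← pow_two] at this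
    omega

/-- The order-`p³` case. -/
theorem card_cube (hG : IsMinSimpleOddOrder G) (h : Data M p x) {E : Subgroup G}
    (hPna : ¬ IsMulCommutative (sylSub S)) (hzP : z ∈ sylSub S) (hzo : orderOf z = p)
    (hzc : ∀ w ∈ sylSub S, Commute w z) (hx : x ∈ centralMod (sylSub S) z hzc)
    (hE : IsComplIn E (sigmaCore M) M) (hEz : z ∈ centralizer (E : Set G))
    (hT : sigmaCore M ⊓ centralizer (E : Set G) ≤ sylSub S) :
    Nat.card (sylSub S) = p ^ 3 ∧ (∀ g ∈ sylSub S, g ^ p = 1) ∧ sylSub S ≤ centralMod (sylSub S) z hzc ∧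
      sigmaCore M ⊓ centralizer (E : Set G) ≤ zpowers z := by
  have hσ : p ∈ sigma M := OddLocal.piCoreOf_isPi (sigma M) M p hp.out
    (h.order ▸ Subgroup.orderOf_dvd_natCard _ h.mem)
  have hidx : ¬ p ∣ (sylSub S).index := by
    rw [index_map_subtype]
    exact hp.out.not_dvd_mul S.not_dvd_index (sigmaCore_hall hG h.coatom hσ).2
  have hPp : IsPGroup p (sylSub S) := S.2.map _
  have hr2 := h.rank_two S hG hPna hzP hzo hzc hx
  have hp2 : p ≠ 2 := ne_two_of_pgroup hG hPp fun e => h.ne_one (mem_bot.mp (e ▸ h.x_mem S))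
  obtain hab | ⟨P₁, P₂, hsup, hcomm, hna, hc3, hexp, hcyc, hcl⟩ := S1412.result hG p (hPp.toSylow hidx) hr2
  · exact absurd hab hPna
  change P₁ ⊔ P₂ = sylSub S at hsup
  have hP₁ : P₁ ≤ sylSub S := hsup ▸ le_sup_left
  have hP₂ : P₂ ≤ sylSub S := hsup ▸ le_sup_right
  have hP2c : ∀ a ∈ P₂, ∀ g ∈ sylSub S, Commute g a := by
    intro a ha g hg
    have hle : sylSub S ≤ centralizer ({a} : Set G) := hsup ▸ sup_le
      (fun b hb => mem_centralizer_singleton_iff.mpr (hcomm b hb a ha))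
      (fun b hb => mem_centralizer_singleton_iff.mpr (congrArg Subtype.val
        ((IsCyclic.commGroup (α := P₂)).mul_comm (⟨b, hb⟩ : P₂) ⟨a, ha⟩)))
    exact mem_centralizer_singleton_iff.mp (hle hg)
  have hcent : P₁ ⊓ centralizer (P₁ : Set G) ≤ zpowers z := by
    rw [← hcl, closure_le]
    rintro y ⟨hy, hyp⟩
    exact h.central_unique S hG hPna hzP hzo hzc (hP₂ hy) hyp (hP2c y hy)
  have hPmod : sylSub S ≤ centralMod (sylSub S) z hzc := by
    have h2 : P₂ ≤ centralMod (sylSub S) z hzc := fun a ha => ⟨hP₂ ha, fun g hg => by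
      rw [(hP2c a ha g hg).eq, mul_inv_cancel_right, mul_inv_cancel]; exact one_mem _⟩
    have hP1p : IsPGroup p P₁ := IsPGroup.of_card hc3
    haveI : Nontrivial ↥P₁ := by
      refine Finite.one_lt_card_iff_nontrivial.mp ?_
      rw [hc3]; exact Nat.one_lt_pow (by norm_num) hp.out.one_lt
    haveI := hP1p.center_nontrivial
    have hcz : (center ↥P₁).map P₁.subtype ≤ zpowers z := by
      rintro _ ⟨c, hc, rfl⟩
      exact hcent ⟨c.2, mem_centralizer_iff.mpr fun g hg => congrArg Subtype.val (mem_center_iff.mp hc ⟨g, hg⟩)⟩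
    have hcc : Nat.card (center ↥P₁) = p := by
      have h1 : Nat.card (center ↥P₁) ∣ p := by
        rw [← card_map_of_injective P₁.subtype_injective, ← hzo, ← Nat.card_zpowers]
        exact card_dvd_of_le hcz
      exact ((Nat.dvd_prime hp.out).mp h1).resolve_left (Finite.one_lt_card (α := center ↥P₁)).ne'
    have hq : Nat.card (↥P₁ ⧸ center ↥P₁) = p ^ 2 := by
      have h1 := (center ↥P₁).card_mul_index
      rw [hcc, hc3] at h1
      rw [← index_eq_card]
      exact Nat.eq_of_mul_eq_mul_left hp.out.pos (h1.trans (by ring))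
    have hquot := IsPGroup.isMulCommutative_of_card_eq_prime_sq hq
    have h1 : P₁ ≤ centralMod (sylSub S) z hzc := fun a ha => ⟨hP₁ ha, fun g hg => by
      have hn : P₁ ≤ normalizer (P₂ : Set G) :=
        (le_centralizer_iff.mp fun b hb => mem_centralizer_iff.mpr fun c hc => hcomm c hc b hb).trans
          (centralizer_le_normalizer _)
      obtain ⟨g₁, hg₁, g₂, hg₂, rfl⟩ := (Coprime.mem_sup_of_le_normalizer hn).mp (hsup ▸ hg)
      have e : g₁ * g₂ * a * (g₁ * g₂)⁻¹ = g₁ * a * g₁⁻¹ := by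
        rw [show g₁ * g₂ * a * (g₁ * g₂)⁻¹ = g₁ * (g₂ * a * g₂⁻¹) * g₁⁻¹ by group,
          ← (hP2c g₂ hg₂ a (hP₁ ha)).eq, mul_inv_cancel_right]
      rw [e]
      refine hcz ⟨⟨g₁, hg₁⟩ * ⟨a, ha⟩ * ⟨g₁, hg₁⟩⁻¹ * ⟨a, ha⟩⁻¹, ?_, rfl⟩
      refine (QuotientGroup.eq_one_iff _).mp ?_
      simp only [QuotientGroup.mk_mul, QuotientGroup.mk_inv]
      rw [hquot.is_comm.comm ((⟨g₁, hg₁⟩ : ↥P₁) : ↥P₁ ⧸ center ↥P₁), mul_inv_cancel_right, mul_inv_cancel]⟩
    exact hsup.ge.trans (sup_le h1 h2)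
  -- `M_σ' ≤ ⟨z⟩`
  haveI := h.core_cyclic S hG hPna
  have hD : IsMulCommutative ↥(pPrimeCore p ↥(sigmaCore M)) :=
    ⟨⟨fun a b => (IsCyclic.commGroup (α := ↥(pPrimeCore p ↥(sigmaCore M)))).mul_comm a b⟩⟩
  set D := (pPrimeCore p ↥(sigmaCore M)).map (sigmaCore M).subtype
  have hPD : ∀ a ∈ sylSub S, ∀ d ∈ D, Commute d a := by
    haveI := h.nil
    rintro a ha _ ⟨d, hd, rfl⟩
    obtain ⟨j, hj⟩ := IsPGroup.iff_orderOf.mp hPp ⟨a, ha⟩
    rw [orderOf_mk] at hj
    have hcop : Nat.Coprime (orderOf d) (p ^ j) :=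
      ((hp.out.coprime_iff_not_dvd.mpr fun hd' => Hall.not_dvd_card_pPrimeCore hp.out
        (hd'.trans (Subgroup.orderOf_dvd_natCard _ hd))).symm).pow_right j
    have hS : (S : Subgroup ↥(sigmaCore M)).Normal :=
      Sylow.normal_of_normalizerCondition Group.normalizerCondition_of_isNilpotent S
    obtain ⟨a', ha', rfl⟩ := ha
    haveI : (pPrimeCore p ↥(sigmaCore M)).Normal := Subgroup.sSup_normal _ fun _ hN => hN.1
    have hdis : Disjoint (pPrimeCore p ↥(sigmaCore M)) (S : Subgroup ↥(sigmaCore M)) := by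
      rw [disjoint_iff]
      obtain ⟨i, hi⟩ := IsPGroup.iff_card.mp S.2
      refine Coprime.inf_eq_bot_of_coprime ?_
      rw [hi]
      exact (hp.out.coprime_iff_not_dvd.mpr (Hall.not_dvd_card_pPrimeCore hp.out)).symm.pow_right i
    exact (commute_of_normal_of_disjoint _ _ inferInstance hS hdis d a' hd ha').map (sigmaCore M).subtype
  have hH : sigmaCore M ≤ sylSub S ⊔ D := by
    classical
    haveI := h.nil
    have htop : (⊤ : Subgroup ↥(sigmaCore M)) ≤ (sylSub S ⊔ D).comap (sigmaCore M).subtype := by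
      refine (Hall.le_iSup_pCore (N := (⊤ : Subgroup ↥(sigmaCore M))) inferInstance).trans (iSup_le fun s => ?_)
      haveI := Fact.mk s.2
      rw [← map_le_iff_le_comap]
      by_cases hs : (s : ℕ) = p
      · refine le_sup_of_le_left (h.le_sylow S ?_ (map_subtype_le _))
        exact hs ▸ (Hall.isPGroup_pCore (s : ℕ)).map _
      · refine le_sup_of_le_right (map_mono (le_sSup ⟨?_, ?_⟩))
        · infer_instance
        · obtain ⟨i, hi⟩ := IsPGroup.iff_card.mp (Hall.isPGroup_pCore (G := ↥(sigmaCore M)) (s : ℕ))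
          rw [hi]
          exact ((Nat.coprime_primes s.2 hp.out).mpr hs).pow_left i
    exact fun y hy => htop (mem_top (⟨y, hy⟩ : sigmaCore M))
  have hder : ⁅sigmaCore M, sigmaCore M⁆ ≤ zpowers z := by
    rw [commutator_le]
    intro a ha b hb
    have hn : sylSub S ≤ normalizer (D : Set G) :=
      (show sylSub S ≤ centralizer (D : Set G) from fun a ha =>
        mem_centralizer_iff.mpr fun d hd => (hPD a ha d hd).eq).trans (centralizer_le_normalizer _)
    obtain ⟨a₁, ha₁, d₁, hd₁, rfl⟩ := (Coprime.mem_sup_of_le_normalizer hn).mp (hH ha)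
    obtain ⟨b₁, hb₁, d₂, hd₂, rfl⟩ := (Coprime.mem_sup_of_le_normalizer hn).mp (hH hb)
    have hdd : Commute d₁ d₂ := by
      obtain ⟨u, hu, rfl⟩ := hd₁
      obtain ⟨v, hv, rfl⟩ := hd₂
      haveI := hD
      exact congrArg (sigmaCore M).subtype (congrArg Subtype.val
        (mul_comm' (⟨u, hu⟩ : pPrimeCore p ↥(sigmaCore M)) ⟨v, hv⟩))
    have e : ⁅a₁ * d₁, b₁ * d₂⁆ = a₁ * b₁ * a₁⁻¹ * b₁⁻¹ := by
      have c1 : Commute d₁ (b₁ * d₂) := (hPD b₁ hb₁ d₁ hd₁).mul_right hdd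
      have c2 : Commute a₁ d₂ := (hPD a₁ ha₁ d₂ hd₂).symm
      rw [commutatorElement_def,
        show a₁ * d₁ * (b₁ * d₂) * (a₁ * d₁)⁻¹ * (b₁ * d₂)⁻¹ =
          a₁ * (d₁ * (b₁ * d₂) * d₁⁻¹) * a₁⁻¹ * (b₁ * d₂)⁻¹ by group,
        c1.eq, mul_inv_cancel_right,
        show a₁ * (b₁ * d₂) * a₁⁻¹ * (b₁ * d₂)⁻¹ = a₁ * b₁ * a₁⁻¹ * (a₁ * d₂ * a₁⁻¹) * d₂⁻¹ * b₁⁻¹ by group,
        c2.eq, mul_inv_cancel_right, mul_inv_cancel_right]
    rw [e]
    exact (hPmod hb₁).2 a₁ ha₁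
  have hTz : sigmaCore M ⊓ centralizer (E : Set G) ≤ zpowers z :=
    (S1426.result hG M h.coatom E hE).1.trans hder
  -- the centre of the Sylow subgroup lies in `⟨z⟩`
  set Zc := sylSub S ⊓ centralizer (sylSub S : Set G) with hZc
  have hEP : E ≤ normalizer (sylSub S : Set G) := hE.1.trans (h.normal_sylow S)
  have hEZ : E ≤ normalizer (Zc : Set G) := fun e he => by
    refine Coprime.mem_normalizer_of_conj_smul_eq (eq_of_le_of_card_ge ?_ (Coprime.card_conj_smul e Zc).ge)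
    rintro _ ⟨y, hy, rfl⟩
    refine ⟨(mem_normalizer_iff.mp (hEP he) y).mp hy.1, mem_centralizer_iff.mpr fun w hw => ?_⟩
    have hw' : e⁻¹ * w * e ∈ sylSub S := by
      refine (mem_normalizer_iff.mp (hEP he) _).mpr ?_
      rwa [show e * (e⁻¹ * w * e) * e⁻¹ = w by group]
    have h1 := mem_centralizer_iff.mp hy.2 _ hw'
    show w * (e * y * e⁻¹) = e * y * e⁻¹ * w
    calc w * (e * y * e⁻¹) = e * ((e⁻¹ * w * e) * y) * e⁻¹ := by group
      _ = e * y * e⁻¹ * w := by rw [h1]; group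
  have hcop : (Nat.card E).Coprime p :=
    (hp.out.coprime_iff_not_dvd.mpr fun hd => compl_not_sigma hG h.coatom hE hd hσ).symm
  have hfix := OddLocal.le_centralizer_of_fix_order_p p hp2 hcop (hPp.to_le inf_le_left) hEZ fun y hy hyp a ha => by
    have hyz := h.central_unique S hG hPna hzP hzo hzc hy.1 hyp fun w hw => mem_centralizer_iff.mp hy.2 w hw
    obtain ⟨i, rfl⟩ := mem_zpowers_iff.mp hyz
    exact ((show Commute a z from mem_centralizer_iff.mp hEz a ha).zpow_right i).eq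
  have hP21 : P₂ ≤ P₁ := fun a ha => by
    have haz : a ∈ zpowers z := hTz ⟨(show sylSub S ≤ sigmaCore M from map_subtype_le _) (hP₂ ha),
      le_centralizer_iff.mp hfix ⟨hP₂ ha, mem_centralizer_iff.mpr fun w hw => (hP2c a ha w hw).eq⟩⟩
    refine zpowers_le.mpr ?_ haz
    have hzmem : z ∈ P₁ ⊓ centralizer (P₁ : Set G) := by
      haveI : Nontrivial ↥P₁ := by
        refine Finite.one_lt_card_iff_nontrivial.mp ?_
        rw [hc3]; exact Nat.one_lt_pow (by norm_num) hp.out.one_lt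
      haveI := (IsPGroup.of_card hc3).center_nontrivial
      obtain ⟨c, hc1⟩ := exists_ne (1 : center ↥P₁)
      have hc' : ((c : ↥P₁) : G) ∈ P₁ ⊓ centralizer (P₁ : Set G) :=
        ⟨(c : ↥P₁).2, mem_centralizer_iff.mpr fun g hg => congrArg Subtype.val (mem_center_iff.mp c.2 ⟨g, hg⟩)⟩
      have hcp : ((c : ↥P₁) : G) ^ p = 1 := by
        have := Monoid.pow_exponent_eq_one (c : ↥P₁)
        rw [hexp] at this
        exact congrArg Subtype.val this
      have e : zpowers ((c : ↥P₁) : G) = zpowers z := eq_of_le_of_card_ge (zpowers_le.mpr (hcent hc')) (by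
        rw [Nat.card_zpowers, Nat.card_zpowers, hzo, orderOf_eq_prime hcp fun e => hc1 (Subtype.ext (Subtype.ext e))])
      exact zpowers_le.mpr hc' (e ▸ mem_zpowers z)
    exact hzmem.1
  have hPeq : sylSub S = P₁ := hsup.symm.trans (sup_eq_left.mpr hP21)
  refine ⟨hPeq ▸ hc3, fun g hg => ?_, hPmod, hTz⟩
  have := Monoid.pow_exponent_eq_one (⟨g, hPeq ▸ hg⟩ : ↥P₁)
  rw [hexp] at this
  exact congrArg Subtype.val this

end Data

/-- BG 15.8, Type V: `κ(M) ≠ ∅`, `U = 1`, `M_F = M_σ` not TI. -/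
theorem trichotomy_five (hG : IsMinSimpleOddOrder G) (hM : IsCoatom M) {U : Subgroup G}
    (hKU : IsSigmaDecomposition M K U) (hK1 : K ≠ ⊥) (hU : U = ⊥) (hF : fittingHallOf M = sigmaCore M)
    (hTI : ¬ IsTISubset (fittingHallOf M : Set G)) :
    ∃ p : ℕ, p.Prime ∧ p ∣ Nat.card (fittingHallOf M) ∧
      ((Nat.card K ∣ p - 1 ∧ IsCyclic (pPrimeCore p (fittingHallOf M))) ∨
        (Nat.card (pCore p (fittingHallOf M)) = p ^ 3 ∧ Nat.card K ∣ p + 1 ∧
          IsCyclic (pPrimeCore p (fittingHallOf M)))) := by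
  classical
  obtain ⟨p, x, h⟩ := exists_data hG hM hF hTI
  haveI := Fact.mk h.prime
  obtain ⟨S⟩ : Nonempty (Sylow p ↥(sigmaCore M)) := inferInstance
  have hpd : p ∣ Nat.card (sigmaCore M) := h.order ▸ Subgroup.orderOf_dvd_natCard _ h.mem
  refine ⟨p, h.prime, hF.symm ▸ hpd, ?_⟩
  rw [hF]
  subst hU
  have hSM : sigmaCore M ≤ M := map_subtype_le _
  have hKM : K ≤ M := hKU.hall.1
  have hσ' : ∀ r : ℕ, r.Prime → r ∣ Nat.card K → r ∉ sigma M := fun r hr hd => (hKU.hall.2.1 r hr hd).2.2.1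
  have hpσ : p ∈ sigma M := OddLocal.piCoreOf_isPi (sigma M) M p h.prime hpd
  have hcompl : IsComplIn K (sigmaCore M) M := by
    refine ⟨hKM, hSM, Coprime.inf_eq_bot_of_coprime (Nat.coprime_of_dvd fun r hr h1 h2 =>
      hσ' r hr h1 (OddLocal.piCoreOf_isPi (sigma M) M r hr h2)), fun m hm => ?_⟩
    obtain ⟨a, ha, b, hb, rfl⟩ := hKU.compl.2.2.2 m hm
    obtain ⟨k, hk, s, hs, rfl⟩ := (Coprime.mem_sup_of_le_normalizer
      (hKM.trans (OddLocal.le_normalizer_piCoreOf (sigma M) M))).mp hb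
    exact ⟨k, hk, s, hs, by rw [mem_bot.mp ha, one_mul]⟩
  set T := sigmaCore M ⊓ centralizer (K : Set G) with hT
  obtain ⟨hTcyc, hT1, -, -⟩ := star_cyclic_fitting hG hM hKU hK1
  obtain ⟨-, -, h3, -⟩ := S1431.result hG M hM K hKU.hall hK1
  have hTprime : ∀ r : ℕ, r.Prime → r ∣ Nat.card T → r = p := by
    intro r hr hd
    haveI := Fact.mk hr
    by_contra hne
    obtain ⟨R⟩ : Nonempty (Sylow r ↥(sigmaCore M)) := inferInstance
    obtain ⟨hu, hle, -⟩ := h3 r hr hd R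
    exact h.no_unique hG hle (h.sylow_le_centralizer hne R) hu
  have hTP : T ≤ sylSub S :=
    h.le_sylow S (IsPGroup.of_card (n := (Nat.card T).primeFactorsList.length)
      (Nat.eq_prime_pow_of_unique_prime_dvd Nat.card_pos.ne' fun {r} hr hd => hTprime r hr hd)) inf_le_left
  obtain ⟨r, hr, hrd⟩ := Nat.exists_prime_and_dvd (fun e => hT1 (T.eq_bot_of_card_eq e))
  obtain rfl := hTprime r hr hrd
  obtain ⟨hu, hle, -⟩ := h3 r hr hrd S
  have hPna : ¬ IsMulCommutative (sylSub S) := fun hc => h.no_unique hG hle (fun y hy =>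
    mem_centralizer_singleton_iff.mpr (congrArg Subtype.val
      (hc.is_comm.comm (⟨y, hy⟩ : sylSub S) ⟨x, h.x_mem S⟩))) hu
  have hcyc := h.core_cyclic S hG hPna
  obtain ⟨z, hzP, hzo, hzc⟩ := h.exists_central S
  have hzS : z ∈ sigmaCore M := (show sylSub S ≤ sigmaCore M from map_subtype_le _) hzP
  haveI := hKU.cyclic
  obtain ⟨k, hk⟩ := IsCyclic.exists_generator (α := K)
  have hko : orderOf (k : G) = Nat.card K := by
    rw [Subgroup.orderOf_coe, orderOf_eq_card_of_forall_mem_zpowers hk]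
  by_cases hk1 : (k : G) ^ (r - 1) = 1
  · exact Or.inl ⟨hko ▸ orderOf_dvd_of_pow_eq_one hk1, hcyc⟩
  obtain ⟨hpr, -, -⟩ := kappa_structure hG hM hKU.hall hK1
  have hcopK : ∀ g ∈ K, ¬ r ∣ orderOf g := fun g hg hd => hσ' r hr (hd.trans (K.orderOf_dvd_natCard hg)) hpσ
  -- an element of `M_σ` fixed by a nontrivial element of `K` lies in `K*`
  have hfix : ∀ g ∈ K, g ≠ 1 → ∀ y ∈ sigmaCore M, Commute g y → y ∈ T := fun g hg hg1 y hy hc =>
    (hpr g hg hg1).le ⟨hy, mem_centralizer_singleton_iff.mpr hc.eq.symm⟩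
  have hzT : z ∈ T := hfix _ (pow_mem k.2 _) hk1 z hzS
    (pow_pred_commute hr hzo (h.conj_central S hG hPna hzP hzo hzc (hKM k.2)))
  have hKz : ∀ g ∈ K, Commute g z := fun g hg => mem_centralizer_iff.mp hzT.2 g hg
  have hKP : K ≤ normalizer (sylSub S : Set G) := hKM.trans (h.normal_sylow S)
  -- no pair above `z` is invariant under `k`
  have hnopair : ∀ L : Subgroup G, L ≤ sylSub S → IsElementaryAbelian r L → Nat.card L = r ^ 2 → z ∈ L →
      (k : G) ∉ normalizer (L : Set G) := by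
    intro L hLP hL hLc hzL hkL
    obtain ⟨w, hw, hwz⟩ : ∃ w ∈ L, w ∉ zpowers z := by
      by_contra hne
      push_neg at hne
      have := card_dvd_of_le (show L ≤ zpowers z from hne)
      rw [hLc, Nat.card_zpowers, hzo] at this
      have := Nat.le_of_dvd hr.pos this
      nlinarith [hr.two_le]
    have hwT : w ∈ T := hfix _ (pow_mem k.2 _) hk1 w ((map_subtype_le _) (hLP hw))
      (pow_pred_fixes hL hLc hzL hzo hw hwz hkL (hKz k k.2) (hcopK k k.2))
    haveI := hTcyc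
    have e : zpowers w = zpowers z := OddLocal.eq_of_card_eq_of_le_cyclic (W := T) (zpowers_le.mpr hwT)
      (zpowers_le.mpr hzT) (by rw [Nat.card_zpowers, Nat.card_zpowers, hzo,
        orderOf_eq_prime (hL.2 w hw) fun e => hwz (e ▸ one_mem _)])
    exact hwz (e ▸ mem_zpowers w)
  by_cases hx : x ∈ centralMod (sylSub S) z hzc
  swap
  · obtain ⟨W, hWP, hW, hWc, hzW, hWn⟩ := h.exists_invariant_pair S hG hPna hzP hzo hzc hx
    exact absurd (hWn k (hKP k.2) (hKz k k.2)) (hnopair W hWP hW hWc hzW)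
  obtain ⟨hPc, hexp, hmod, hTz⟩ := h.card_cube S hG hPna hzP hzo hzc hx hcompl hzT.2 hTP
  have hzp : z ^ r = 1 := hzo ▸ pow_orderOf_eq_one z
  have hr2 := h.rank_two S hG hPna hzP hzo hzc hx
  refine Or.inr ⟨?_, ?_, hcyc⟩
  · haveI := h.nil
    haveI hn : (S : Subgroup ↥(sigmaCore M)).Normal :=
      Sylow.normal_of_normalizerCondition Group.normalizerCondition_of_isNilpotent S
    have he : pCore r ↥(sigmaCore M) = (S : Subgroup ↥(sigmaCore M)) :=
      S.3 (Hall.isPGroup_pCore r) (le_sSup ⟨hn, S.2⟩)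
    rw [he, ← hPc, card_map_of_injective (sigmaCore M).subtype_injective]
  refine card_dvd_succ hPc hzP hzo hzc hexp hKP hKz fun g hg hg1 L hzL hLP hLc hgL => ?_
  have hL : IsElementaryAbelian r L :=
    ⟨⟨⟨fun a b => by
      haveI := IsPGroup.isMulCommutative_of_card_eq_prime_sq hLc
      exact mul_comm' a b⟩⟩, fun y hy => hexp y (hLP hy)⟩
  obtain ⟨a, ha, haz⟩ : ∃ a ∈ L, a ∉ zpowers z := by
    by_contra hne
    push_neg at hne
    have := card_dvd_of_le (show L ≤ zpowers z from hne)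
    rw [hLc, Nat.card_zpowers, hzo] at this
    have := Nat.le_of_dvd hr.pos this
    nlinarith [hr.two_le]
  set b := (k : G) * a * (k : G)⁻¹ with hb
  have haP : a ∈ sylSub S := hLP ha
  have hbP : b ∈ sylSub S := (mem_normalizer_iff.mp (hKP k.2) a).mp haP
  have hbL : b ∉ L := fun hbL => hnopair L hLP hL hLc hzL (Coprime.mem_normalizer_of_conj_smul_eq (by
    refine eq_of_le_of_card_ge ?_ (Coprime.card_conj_smul (k : G) L).ge
    rintro _ ⟨y, hy, rfl⟩
    obtain ⟨i, j, rfl⟩ := exists_coord hL hLc hzL hzo ha haz hy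
    show (k : G) * (a ^ i * z ^ j) * (k : G)⁻¹ ∈ L
    rw [← conj_mul, ← conj_pow, ← hb, ((hKz k k.2).pow_right j).eq, mul_inv_cancel_right]
    exact mul_mem (pow_mem hbL i) (pow_mem hzL j)))
  obtain ⟨α, -, hα⟩ := pair_conj hL hLc hzL hzo ha haz hgL (hKz g hg)
  obtain ⟨e₁, he₁⟩ := hα 1
  rw [pow_one, pow_one] at he₁
  have hkg : Commute (k : G) g := congrArg Subtype.val
    ((IsCyclic.commGroup (α := K)).mul_comm k ⟨g, hg⟩)
  have hgb : g * b * g⁻¹ = b ^ α * z ^ e₁ := by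
    have e : g * b * g⁻¹ = (k : G) * (g * a * g⁻¹) * (k : G)⁻¹ := by
      rw [hb, show g * ((k : G) * a * (k : G)⁻¹) * g⁻¹ = (g * k) * a * ((k : G)⁻¹ * g⁻¹) by group, ← hkg.eq,
        ← mul_inv_rev g k, ← hkg.eq]
      group
    rw [e, he₁, ← conj_mul, ← conj_pow, ← hb, ((hKz k k.2).pow_right e₁).eq, mul_inv_cancel_right]
  set c := a * b * a⁻¹ * b⁻¹ with hc
  have hcz : c ∈ zpowers z := (hmod hbP).2 a haP
  have hc1 : c ≠ 1 := fun hc1 => by
    have hab : Commute a b := mul_inv_eq_iff_eq_mul.mp (mul_inv_eq_one.mp hc1)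
    have hB := elem_sup_zpowers hL (hexp b hbP) fun y hy => by
      obtain ⟨i, j, rfl⟩ := exists_coord hL hLc hzL hzo ha haz hy
      exact (hab.symm.pow_right i).mul_right ((hzc b hbP).pow_right j)
    refine not_pRankLE_of_elem (sup_le hLP (zpowers_le.mpr hbP)) hB ?_ hr2
    refine hLc ▸ (Set.toFinite _).card_lt_card (SetLike.coe_ssubset_coe.2
      (lt_of_le_of_ne le_sup_left fun e => hbL (e ▸ mem_sup_right (mem_zpowers b))))
  have hcg : g * c * g⁻¹ = c := by
    obtain ⟨i, hi⟩ := mem_zpowers_iff.mp hcz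
    rw [← hi, ((hKz g hg).zpow_right i).eq, mul_inv_cancel_right]
  have hcp : c ^ r = 1 := by
    obtain ⟨i, hi⟩ := mem_zpowers_iff.mp hcz
    rw [← hi, ← zpow_natCast, ← zpow_mul, mul_comm, zpow_mul, zpow_natCast, hzp, one_zpow]
  have hcα : c ^ (α * α) = c := by
    have e : g * c * g⁻¹ = a ^ α * b ^ α * (a ^ α)⁻¹ * (b ^ α)⁻¹ := by
      rw [hc, show g * (a * b * a⁻¹ * b⁻¹) * g⁻¹ =
        (g * a * g⁻¹) * (g * b * g⁻¹) * (g * a * g⁻¹)⁻¹ * (g * b * g⁻¹)⁻¹ by group, he₁, hgb]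
      have cz : ∀ w ∈ sylSub S, Commute w (z ^ e₁) := fun w hw => (hzc w hw).pow_right e₁
      have c1 := (cz _ (pow_mem hbP α)).eq
      have c2 := (cz _ (pow_mem haP α)).eq
      calc a ^ α * z ^ e₁ * (b ^ α * z ^ e₁) * (a ^ α * z ^ e₁)⁻¹ * (b ^ α * z ^ e₁)⁻¹
          = a ^ α * (z ^ e₁ * b ^ α) * (a ^ α)⁻¹ * (z ^ e₁)⁻¹ * (b ^ α)⁻¹ := by group
        _ = a ^ α * b ^ α * (z ^ e₁ * (a ^ α)⁻¹) * (z ^ e₁)⁻¹ * (b ^ α)⁻¹ := by rw [← c1]; group
        _ = a ^ α * b ^ α * (a ^ α)⁻¹ * (b ^ α)⁻¹ := by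
          rw [(cz _ (inv_mem (pow_mem haP α))).eq.symm]; group
    rw [hcg] at e
    have l1 := comm_pow (pow_mem haP α) (hmod hbP) α
    have l2 : a ^ α * b * (a ^ α)⁻¹ * b⁻¹ = c ^ α := by
      have l3 := comm_pow hbP (hmod haP) α
      have e3 : b * a * b⁻¹ * a⁻¹ = c⁻¹ := by rw [hc]; group
      rw [e3, inv_pow] at l3
      rw [show a ^ α * b * (a ^ α)⁻¹ * b⁻¹ = (b * a ^ α * b⁻¹ * (a ^ α)⁻¹)⁻¹ by group, l3, inv_inv]
    rw [l1, l2, ← pow_mul] at e
    exact e.symm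
  have hα2 : α * α ≡ 1 [MOD r] := by
    rw [← orderOf_eq_prime hcp hc1]
    exact pow_eq_pow_iff_modEq.mp (by rw [hcα, pow_one])
  obtain ⟨e₂, he₂⟩ := hα 2
  have hg2 : g ^ 2 ≠ 1 := fun e => by
    have hd := orderOf_dvd_of_pow_eq_one e
    rcases (Nat.dvd_prime Nat.prime_two).mp hd with h1 | h1
    · exact hg1 (orderOf_eq_one_iff.mp h1)
    · exact (odd_card hG K).not_two_dvd_nat (h1 ▸ K.orderOf_dvd_natCard hg)
  have hcomm : Commute (g ^ 2) a := by
    refine commute_of_shift (c := (e₂ : ℤ)) hzp ((hKz g hg).pow_left 2)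
      (fun hd => hcopK g hg (hd.trans (orderOf_pow_dvd _))) ?_
    rw [he₂, zpow_natCast]
    congr 1
    conv_rhs => rw [← pow_one a]
    refine pow_eq_pow_iff_modEq.mpr ?_
    rw [orderOf_eq_prime (hL.2 a ha) fun e => haz (e ▸ one_mem _), pow_two]
    exact hα2
  exact haz (hTz (hfix _ (pow_mem hg 2) hg2 a ((map_subtype_le _) haP) hcomm))

end Cfsg.Agent.Lib.Uniq.SupportCase
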