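import Cfsg.Agent.Lib.Uniq.TauOneSigma
import Cfsg.Agent.Lib.Hall.CoprimeProduct
set_option autoImplicit false

/-! BG 13.4. -/

namespace Cfsg.Agent.Lib.Uniq

open Subgroup
open scoped Pointwise commutatorElement

universe u

variable {G : Type u} [Group G] [Finite G] {M H E : Subgroup G} {p q r : ℕ}
  [hp : Fact p.Prime] [hq : Fact q.Prime] [hr : Fact r.Prime]

omit hq hr in
/-- A Sylow subgroup for an ideal prime has rank three. -/
theorem not_prankLE_two_of_ideal (hid : IsIdealPrime p G) {U : Subgroup G} (hUp : IsPGroup p U)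
    (hUidx : ¬ p ∣ U.index) : ¬ PRankLE p 2 U := by
  intro h
  refine hid.2.1 fun B hBc hBx => ?_
  have hBp : IsPGroup p B := fun b => ⟨1, Subtype.ext (by rw [pow_one]; exact hBx b b.2)⟩
  obtain ⟨T, hT⟩ := hBp.exists_le_sylow
  obtain ⟨g, hg⟩ := MulAction.exists_smul_eq G T (hUp.toSylow hUidx)
  set B' := B.map (MulAut.conj g).toMonoidHom with hB'
  have hle : B' ≤ U := (map_mono hT).trans (le_of_eq (congrArg Sylow.toSubgroup hg))
  have hel : IsElementaryAbelian p B' := elem_map _ ⟨hBc, hBx⟩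
  have := h (B'.subgroupOf U) ⟨⟨fun a b => Subtype.ext (Subtype.ext (elem_comm hel a.2 b.2))⟩⟩
    fun a ha => Subtype.ext (hel.2 _ ha)
  rwa [Coprime.card_subgroupOf hle, hB', card_map_of_injective (MulAut.conj g).injective] at this

omit hq hr in
/-- The `σ`-Sylow subgroups of a maximal subgroup containing a `p`-subgroup are Sylow subgroups of `G`. -/
theorem exists_sylow_ge_sigma (hσ : p ∈ sigma H) {R : Subgroup G} (hR : IsPGroup p R) (hRH : R ≤ H) :
    ∃ T : Sylow p G, R ≤ (T : Subgroup G) ∧ (T : Subgroup G) ≤ H := by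
  obtain ⟨T₀, hT₀H, -⟩ := exists_sigma_sylow hσ
  obtain ⟨m, hm, hle⟩ := exists_conj_le_sylow T₀ hT₀H hR hRH
  have hTH : ∀ g ∈ H, MulAut.conj g • (T₀ : Subgroup G) ≤ H := fun g hg =>
    (pointwise_smul_le_pointwise_smul_iff.mpr hT₀H).trans (Coprime.conj_smul_eq_self (le_normalizer hg)).le
  refine ⟨(m : G) • T₀, ?_, by rw [Sylow.coe_subgroup_smul]; exact hTH m hm⟩
  intro x hx
  rw [Sylow.coe_subgroup_smul, Coprime.mem_conj_smul]
  simpa [mul_assoc] using hle _ hx

omit hp hr in
/-- The witness excluded for an element of `σ(M)`: an elementary `p²`-group centralising it. -/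
theorem no_centralized_elem (hG : IsMinSimpleOddOrder G) (hM : IsCoatom M) {p : ℕ} [hp : Fact p.Prime]
    (hpτ : p ∈ tau1 M) (hid : ¬ IsIdealPrime p G) (hqM : q ∈ sigma M) {d : G} (hdM : d ∈ M) (hdo : orderOf d = q)
    {P A : Subgroup G} (hP : Nat.card P = p) (hPM : P ≤ M) (hPA : P ≤ A) (hA : IsElementaryAbelian p A)
    (hAc : Nat.card A = p ^ 2) (hAd : A ≤ centralizer ({d} : Set G)) : False := by
  have hX1 : (zpowers d : Subgroup G) ≠ ⊥ := fun e => hq.out.ne_one (by
    rw [← hdo, ← Nat.card_zpowers, e, card_bot])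
  have hNne : normalizer ((zpowers d : Subgroup G) : Set G) ≠ ⊤ := fun e => by
    rcases hG.2.1.eq_bot_or_eq_top_of_normal _ (normalizer_eq_top_iff.mp e) with h1 | h1
    · exact hX1 h1
    · exact hM.1 (top_le_iff.mp (h1.ge.trans (zpowers_le.mpr hdM)))
  obtain ⟨H', hH', hNH'⟩ := exists_coatom_ge hNne
  have h := (tau_one_in_normalizer hG hM hpτ hid hqM hdM hdo hP hPM (hPA.trans hAd) hH' hNH').1
  exact not_pRankLE_one (hAd.trans ((centralizer_zpowers d).ge.trans ((centralizer_le_normalizer _).trans hNH')))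
    hA hAc.ge h

/-- The main step of BG 13.4. -/
theorem centralizes_fixed_qgroup (hG : IsMinSimpleOddOrder G) (hM : IsCoatom M) (hpτ : p ∈ tau1 M)
    {P : Subgroup G} (hP : Nat.card P = p) (hPM : P ≤ M) {R : Subgroup G} (hR : Nat.card R = r) (hRM : R ≤ M)
    (hRP : R ≤ centralizer (P : Set G)) (hrσ : r ∉ sigma M) (hrp : r ≠ p) {Q : Subgroup G} (hQ : IsPGroup q Q)
    (hQC : Q ≤ sigmaCore M ⊓ centralizer (P : Set G)) (hRQ : R ≤ normalizer (Q : Set G)) :
    R ≤ centralizer (Q : Set G) := by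
  classical
  by_contra hne
  set Q₁ := ⁅Q, R⁆ with hQ₁
  have hQ₁1 : Q₁ ≠ ⊥ := fun e => hne (commutator_eq_bot_iff_le_centralizer.mp (by rw [commutator_comm]; exact e))
  have hQ₁Q : Q₁ ≤ Q := Coprime.commutator_le_of_le_normalizer' hRQ
  have hQ₁p : IsPGroup q Q₁ := hQ.to_le hQ₁Q
  have hqM : q ∈ sigma M := by
    obtain ⟨j, hj⟩ := IsPGroup.iff_card.mp hQ₁p
    rcases Nat.eq_zero_or_pos j with h | h
    · exact absurd (card_eq_one.mp (hj.trans (by rw [h, pow_zero]))) hQ₁1
    · exact OddLocal.piCoreOf_isPi (sigma M) M q hq.out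
        (((dvd_pow_self q h.ne').trans hj.symm.dvd).trans (card_dvd_of_le ((hQ₁Q.trans hQC).trans inf_le_left)))
  obtain ⟨-, hpσ, -, hpd, hr1M⟩ := id hpτ
  have hqp : q ≠ p := fun e => hpσ (e ▸ hqM)
  have hqr : q ≠ r := fun e => hrσ (e ▸ hqM)
  have hPp : IsPGroup p P := IsPGroup.of_card (n := 1) (by rw [hP, pow_one])
  have hRp : IsPGroup r R := IsPGroup.of_card (n := 1) (by rw [hR, pow_one])
  haveI : Group.IsNilpotent R := hRp.isNilpotent
  haveI : Group.IsSolvable R := inferInstance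
  have hcopRQ : (Nat.card R).Coprime (Nat.card Q) := (coprime_pgroups (Ne.symm hqr) hQ hRp).symm
  have hQ₁R : ⁅Q₁, R⁆ = Q₁ := Coprime.commutator_commutator hRQ hcopRQ (Or.inl inferInstance)
  have hQP : Q ≤ centralizer (P : Set G) := hQC.trans inf_le_right
  have hQM : Q ≤ M := hQC.trans (inf_le_left.trans (map_subtype_le _))
  -- the maximal subgroup over `N(P)`
  have hP1 : P ≠ ⊥ := fun e => hp.out.ne_one (by rw [← hP, e, card_bot])
  have hNM : ¬ normalizer (P : Set G) ≤ M := fun hle => (S1409.result hG M hM p hpσ P hP hle).1.2 hr1M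
  have hNne : normalizer (P : Set G) ≠ ⊤ := fun e => by
    rcases hG.2.1.eq_bot_or_eq_top_of_normal P (normalizer_eq_top_iff.mp e) with h1 | h1
    · exact hP1 h1
    · exact hM.1 (top_le_iff.mp (h1.ge.trans hPM))
  obtain ⟨H, hH, hNH⟩ := exists_coatom_ge hNne
  have hHM : H ≠ M := fun e => hNM (e ▸ hNH)
  have hnc := not_conj_of_normalizer hM hH hHM hr1M hP hPM hNH
  have hCH : centralizer (P : Set G) ≤ H := (centralizer_le_normalizer _).trans hNH
  have hQH : Q ≤ H := hQP.trans hCH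
  have hQ₁H : Q₁ ≤ H := hQ₁Q.trans hQH
  have hRH : R ≤ H := hRP.trans hCH
  have hPH : P ≤ H := le_normalizer.trans hNH
  have hqβ := not_beta_of_not_conj hG hM hH hnc hqM
  have hrH : r ∉ sigma H := fun hrH => hne (centralizes_of_sigma hG hH hqr hrH hRp hRH hqβ hQ hQH hRQ)
  obtain ⟨a₀, ha₀⟩ := Q₁.bot_or_exists_ne_one.resolve_left hQ₁1
  obtain ⟨d, hd, hdo⟩ : ∃ d ∈ Q₁, orderOf d = q := by
    obtain ⟨j, hj⟩ := IsPGroup.iff_card.mp hQ₁p
    have hj0 : j ≠ 0 := fun e => hQ₁1 (card_eq_one.mp (hj.trans (by rw [e, pow_zero])))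
    obtain ⟨d, hd⟩ := exists_prime_orderOf_dvd_card' q (show q ∣ Nat.card Q₁ from hj ▸ dvd_pow_self q hj0)
    exact ⟨d, d.2, by rw [orderOf_coe, hd]⟩
  have hdM : d ∈ M := hQM (hQ₁Q hd)
  obtain ⟨gP, hgP⟩ := (Subgroup.isCyclic_iff_exists_zpowers_eq_top P).mp (isCyclic_of_prime_card hP)
  by_cases hpH : p ∈ sigma H
  swap
  · -- `p ∈ τ₂(H)`
    obtain ⟨⟨hr2H, hr1H⟩, -, -⟩ := S1409.result hG H hH p hpH P hP hNH
    obtain ⟨hid, -⟩ := S1408.result hG H hH p hpH hr2H hr1H
    obtain ⟨B, hBH, hB, hBc⟩ := elem_of_not_pRankLE hr1H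
    obtain ⟨XB, hXB⟩ := exists_exc hG hH hpH hBH hB hBc
    have hqH : q ∉ sigma H := fun hqH => by
      obtain ⟨g, hg⟩ := conj_of_sigma_nilpotent hG hM hH (hXB.sigmaCore_nilpotent hG) hqM hqH
      exact hnc g hg
    have hRPN : R ⊔ P ≤ normalizer (Q : Set G) :=
      sup_le hRQ ((le_centralizer_iff.mp hQP).trans (centralizer_le_normalizer _))
    obtain ⟨E₀, hE₀, -⟩ := exists_compl_ge hG hH hpH (IsPGroup.of_bot (p := p)) bot_le
    obtain ⟨EH, hEH, hYE⟩ := exists_compl_ge_pi hG hH hE₀ (Y := (R ⊔ P) ⊔ Q) (fun s hs hd => by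
      rcases prime_dvd_sup hRPN hs hd with h | h
      · rcases prime_dvd_sup (hRP.trans (centralizer_le_normalizer _)) hs h with h | h
        · exact isPGroup_ne_dvd hRp hs h ▸ hrH
        · exact isPGroup_ne_dvd hPp hs h ▸ hpH
      · exact isPGroup_ne_dvd hQ hs h ▸ hqH) (sup_le (sup_le hRH hPH) hQH)
    obtain ⟨A, hAE, hA, hAc⟩ := exists_elem_compl hG hH hEH ⟨hp.out, hpH, hr2H, hr1H⟩
    obtain ⟨hEA, hlines⟩ := le_normalizer_compl hG hH hEH hpH hAE hA hAc
    have hPA : P ≤ A := hlines P ((le_sup_right.trans le_sup_left).trans hYE) hP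
    have hp2 : p ≠ 2 := fun e => hG.1.not_two_dvd_nat (e ▸ hP.symm.dvd.trans P.card_subgroup_dvd_card)
    haveI := solvable_of_ne_top hG (ne_top_of_le hH hEH.1)
    let f : EH →* MulAut A := Coprime.conjHom hEA
    have hQ₁A : Q₁ ≤ centralizer (A : Set G) := by
      rw [hQ₁, commutator_le]
      intro a ha b hb
      have haE : a ∈ EH := hYE (mem_sup_right ha)
      have hbE : b ∈ EH := hYE (mem_sup_left (mem_sup_left hb))
      set c := ⁅(⟨a, haE⟩ : EH), (⟨b, hbE⟩ : EH)⁆ with hc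
      obtain ⟨k, hk⟩ := Hall.commutator_act_pPow hp2 (elem_isPGroup hA)
        (Hall.prankLE_of_injective (inclusion (hAE.trans hEH.1)) (inclusion_injective _) hr2H)
        (hG.1.of_dvd_nat EH.card_subgroup_dvd_card) f c (commutator_mem_commutator (mem_top _) (mem_top _))
      obtain ⟨j, hj⟩ := IsPGroup.iff_orderOf.mp hQ₁p ⟨⁅a, b⁆, commutator_mem_commutator ha hb⟩
      rw [Subgroup.orderOf_mk] at hj
      have hco : orderOf c = q ^ j := by rw [← hj, ← orderOf_coe c]; rfl
      have hone : f c = 1 := orderOf_eq_one_iff.mp (Nat.eq_one_of_dvd_coprimes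
        (((Nat.coprime_primes hp.out hq.out).mpr (Ne.symm hqp)).pow k j)
        (orderOf_dvd_of_pow_eq_one hk) (hco ▸ orderOf_map_dvd f c))
      refine mem_centralizer_iff.mpr fun w hw => ?_
      have h3 := congrArg (fun φ : MulAut A => ((φ ⟨w, hw⟩ : A) : G)) hone
      simp only [f, Coprime.coe_conjHom_apply, MulAut.one_apply] at h3
      exact (mul_inv_eq_iff_eq_mul.mp h3).symm
    exact no_centralized_elem hG hM hpτ hid hqM hdM hdo hP hPM hPA hA hAc fun a ha =>
      mem_centralizer_singleton_iff.mpr (mem_centralizer_iff.mp (hQ₁A hd) a ha)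
  have hp2 : p ≠ 2 := fun e => hG.1.not_two_dvd_nat (e ▸ hP.symm.dvd.trans P.card_subgroup_dvd_card)
  have hPσ : P ≤ sigmaCore H := pgroup_le_sigmaCore hG hH hpH hPp hPH
  -- `p` is ideal
  have hid : IsIdealPrime p G := by
    by_contra hid
    set Γ := ⁅H, H⁆ ⊓ centralizer (P : Set G) with hΓ
    have hPΓ : P ≤ Γ := le_inf (hPσ.trans (sigmaCore_le_derived hG hH))
      (fun a ha => mem_centralizer_iff.mpr fun b hb => by
        rw [← hgP] at ha hb
        obtain ⟨i, rfl⟩ := mem_zpowers_iff.mp ha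
        obtain ⟨j, rfl⟩ := mem_zpowers_iff.mp hb
        exact zpow_mul_comm gP j i)
    have hQ₁Γ : Q₁ ≤ Γ := le_inf (commutator_mono hQH hRH) (hQ₁Q.trans hQP)
    haveI := solvable_of_ne_top hG (ne_top_of_le hH (inf_le_right.trans hCH : Γ ≤ H))
    obtain ⟨J₀, hJπ, hJi⟩ := Hall.exists_piHall (G := ↥Γ) {t | t = p ∨ t = q}
    have hJhall : (Nat.card J₀).Coprime J₀.index :=
      Nat.coprime_of_dvd fun t ht h1 h2 => hJi t ht (hJπ t ht h1) h2
    have hin : ∀ {X : Subgroup G}, X ≤ Γ → (∀ t : ℕ, t.Prime → t ∣ Nat.card X → t = p ∨ t = q) →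
        ∃ g : Γ, X.subgroupOf Γ ≤ MulAut.conj g • J₀ := fun hX hπ => Hall.exists_le_conj hJhall
      (Nat.coprime_of_dvd fun t ht h1 h2 => hJi t ht (hπ t ht (by rwa [Coprime.card_subgroupOf hX] at h1)) h2)
    obtain ⟨g, hg⟩ := hin hQ₁Γ fun t ht hd' => Or.inr (isPGroup_ne_dvd hQ₁p ht hd')
    set J₁ := MulAut.conj g • J₀ with hJ₁
    obtain ⟨g', hg'⟩ := hin hPΓ fun t ht hd' => Or.inl (isPGroup_ne_dvd hPp ht hd')
    have hPn : (P.subgroupOf Γ).Normal := (normal_subgroupOf_iff_le_normalizer hPΓ).mpr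
      (inf_le_right.trans (centralizer_le_normalizer _))
    have hPJ : P.subgroupOf Γ ≤ J₁ := by
      have h1 : P.subgroupOf Γ = MulAut.conj (g * g'⁻¹) • P.subgroupOf Γ :=
        (Coprime.conj_smul_eq_self (by rw [normalizer_eq_top]; exact mem_top _)).symm
      rw [h1, map_mul, mul_smul, hJ₁]
      refine pointwise_smul_le_pointwise_smul_iff.mpr ?_
      rw [map_inv, pointwise_smul_subset_iff, inv_inv]
      exact hg'
    set J := J₁.map Γ.subtype with hJ
    have hJΓ : J ≤ Γ := map_subtype_le _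
    have hJc : Nat.card J = Nat.card J₀ := by
      rw [hJ, card_map_of_injective Γ.subtype_injective, hJ₁, Coprime.card_conj_smul]
    have hpβ : p ∉ beta H := fun h => hid h.2
    have hJnil : Group.IsNilpotent J := isNilpotent_derived hG hH (hJΓ.trans inf_le_left) fun t ht hd' => by
      rcases hJπ t ht (hJc ▸ hd') with h | h
      · rw [h]; exact hpβ
      · rw [h]; exact hqβ
    have hPJ' : P ≤ J := fun a ha => ⟨⟨a, hPΓ ha⟩, hPJ ha, rfl⟩
    have hQJ : Q₁ ≤ J := fun a ha => ⟨⟨a, hQ₁Γ ha⟩, hg ha, rfl⟩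
    obtain ⟨Sp, hSp⟩ := (hPp.comap_subtype (K := J)).exists_le_sylow
    set Jp := (Sp : Subgroup J).map J.subtype with hJp
    have hJpp : IsPGroup p Jp := Sp.2.map _
    have hJpJ : Jp ≤ J := map_subtype_le _
    have hPJp : P ≤ Jp := fun a ha => ⟨⟨a, hPJ' ha⟩, hSp ha, rfl⟩
    have hJpcent : ∀ a ∈ Jp, ∀ b ∈ Q₁, a * b = b * a := fun a ha b hb => by
      haveI := hJnil
      refine congrArg Subtype.val (Transfer.commute_of_coprime_orderOf (x := (⟨a, hJpJ ha⟩ : J)) (y := (⟨b, hQJ hb⟩ : J)) ?_).eq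
      obtain ⟨i, hi⟩ := IsPGroup.iff_orderOf.mp hJpp ⟨a, ha⟩
      obtain ⟨j, hj⟩ := IsPGroup.iff_orderOf.mp hQ₁p ⟨b, hb⟩
      rw [Subgroup.orderOf_mk] at hi hj
      rw [Subgroup.orderOf_mk, Subgroup.orderOf_mk, hi, hj]
      exact ((Nat.coprime_primes hp.out hq.out).mpr (Ne.symm hqp)).pow i j
    -- it is a Sylow subgroup of `Γ`
    have hJpidx : ¬ p ∣ Jp.relIndex Γ := by
      rw [← relIndex_mul_relIndex Jp J Γ hJpJ hJΓ]
      intro hd'
      rcases hp.out.dvd_mul.mp hd' with h | h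
      · rw [hJp, relIndex, subgroupOf, comap_map_eq_self_of_injective J.subtype_injective] at h
        exact Sp.not_dvd_index h
      · rw [hJ, relIndex, subgroupOf, comap_map_eq_self_of_injective Γ.subtype_injective] at h
        refine hJi p hp.out (Or.inl rfl) ?_
        have h1 := card_mul_index J₁
        rw [← card_mul_index J₀, show Nat.card J₁ = Nat.card J₀ from Coprime.card_conj_smul _ _] at h1
        rwa [mul_left_cancel₀ Nat.card_pos.ne' h1] at h
    obtain ⟨T, hJpT, hTH⟩ := exists_sylow_ge_sigma hpH hJpp (hJpJ.trans (hJΓ.trans (inf_le_right.trans hCH)))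
    have hTΓ : (T : Subgroup G) ⊓ centralizer (P : Set G) = Jp := by
      set X := (T : Subgroup G) ⊓ centralizer (P : Set G)
      have hXp : IsPGroup p X := T.2.to_le inf_le_left
      have hXΓ : X ≤ Γ := le_inf (inf_le_left.trans ((pgroup_le_sigmaCore hG hH hpH T.2 hTH).trans
        (sigmaCore_le_derived hG hH))) inf_le_right
      refine le_antisymm ?_ (le_inf hJpT (hJpJ.trans (hJΓ.trans inf_le_right)))
      have hJX : Jp ≤ X := le_inf hJpT (hJpJ.trans (hJΓ.trans inf_le_right))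
      by_contra hnle
      obtain ⟨i, hi⟩ := IsPGroup.iff_card.mp hXp
      obtain ⟨j, -, hj⟩ := (Nat.dvd_prime_pow hp.out).mp
        (show Jp.relIndex X ∣ p ^ i from hi ▸ relIndex_dvd_card _ _)
      rcases Nat.eq_zero_or_pos j with h0 | h0
      · exact hnle (relIndex_eq_one.mp (by rw [hj, h0, pow_zero]))
      · exact hJpidx (((dvd_pow_self p h0.ne').trans hj.symm.dvd).trans
          ⟨X.relIndex Γ, (relIndex_mul_relIndex Jp X Γ hJX hXΓ).symm⟩)
    have hPT : P ≤ (T : Subgroup G) := hPJp.trans hJpT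
    by_cases hTc : IsCyclic (T : Subgroup G)
    swap
    · -- an elementary subgroup of order `p²` of `T` containing `P`
      obtain ⟨A, hPA, hAT, hA, hAc⟩ : ∃ A : Subgroup G, P ≤ A ∧ A ≤ (T : Subgroup G) ∧
          IsElementaryAbelian p A ∧ Nat.card A = p ^ 2 := by
        have hT1 : ¬ PRankLE p 1 (T : Subgroup G) := not_isCyclic_two hp2 T.2 hTc
        obtain ⟨B, hBT, hB, hBc⟩ := elem_of_not_pRankLE hT1
        haveI : Nontrivial (T : Subgroup G) := nontrivial_iff_ne_bot _ |>.mpr (ne_bot_of_le_ne_bot hP1 hPT)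
        haveI := T.2.center_nontrivial
        obtain ⟨j, hj⟩ := IsPGroup.iff_card.mp (T.2.to_subgroup (center (T : Subgroup G)))
        have hj0 : j ≠ 0 := fun e => by
          rw [e, pow_zero] at hj
          exact (Finite.one_lt_card (α := center (T : Subgroup G))).ne' hj
        obtain ⟨c, hc⟩ := exists_prime_orderOf_dvd_card' p
          (show p ∣ Nat.card (center (T : Subgroup G)) from hj ▸ dvd_pow_self p hj0)
        set w : G := ((c : (T : Subgroup G)) : G) with hw
        have hwo : orderOf w = p := by rw [hw, orderOf_coe, orderOf_coe, hc]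
        have hwc : ∀ b ∈ (T : Subgroup G), b * w = w * b := fun b hb =>
          congrArg Subtype.val (mem_center_iff.mp c.2 ⟨b, hb⟩)
        have hmk : ∀ x ∈ (T : Subgroup G), x ^ p = 1 → x ∉ P → (∀ a ∈ P, a * x = x * a) →
            ∃ A : Subgroup G, P ≤ A ∧ A ≤ (T : Subgroup G) ∧ IsElementaryAbelian p A ∧ Nat.card A = p ^ 2 := by
          intro x hx hxp hxP hxc
          refine ⟨P ⊔ zpowers x, le_sup_left, sup_le hPT (zpowers_le.mpr hx),
            elem_sup_zpowers (elem_of_card_prime hP) hxp hxc, ?_⟩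
          have hxn : zpowers x ≤ normalizer (P : Set G) := zpowers_le.mpr (centralizer_le_normalizer _
            (mem_centralizer_iff.mpr hxc))
          have hcm := Coprime.card_sup_mul_card_inf_of_le_normalizer hxn
          suffices hbot : zpowers x ⊓ P = ⊥ by
            rw [hbot, card_bot, mul_one, sup_comm] at hcm
            rw [hcm, Nat.card_zpowers, orderOf_eq_prime hxp (fun e => hxP (e ▸ one_mem _)), hP, sq]
          rw [eq_bot_iff]
          intro y hy
          by_contra hy1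
          have hy' : zpowers y = zpowers x := eq_of_le_of_card_ge (zpowers_le.mpr hy.1) (by
            have h1 : orderOf y = p := orderOf_eq_prime
              (orderOf_dvd_iff_pow_eq_one.mp (hP ▸ Subgroup.orderOf_dvd_natCard P hy.2))
              (fun e => hy1 (mem_bot.mpr e))
            rw [Nat.card_zpowers, Nat.card_zpowers, h1, orderOf_eq_prime hxp (fun e => hxP (e ▸ one_mem _))])
          exact hxP (zpowers_le.mpr hy.2 (hy'.ge (mem_zpowers x)))
        by_cases hwP : w ∈ P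
        · obtain ⟨b, hb, hbP⟩ := SetLike.not_le_iff_exists.mp (fun hle : B ≤ P => by
            have := card_dvd_of_le hle
            rw [hBc, hP] at this
            exact (Nat.pow_lt_pow_right hp.out.one_lt (show 1 < 1 + 1 by omega)).not_ge
              (by rw [pow_one]; exact Nat.le_of_dvd hp.out.pos this))
          refine hmk b (hBT hb) (hB.2 b hb) hbP fun a ha => ?_
          have hPw : zpowers w = P := eq_of_le_of_card_ge (zpowers_le.mpr hwP) (by
            rw [Nat.card_zpowers, hwo, hP])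
          obtain ⟨i, rfl⟩ := mem_zpowers_iff.mp (hPw.ge ha)
          exact ((show Commute b w from hwc b (hBT hb)).zpow_right i).symm.eq
        · exact hmk w (c : (T : Subgroup G)).2 (hwo ▸ pow_orderOf_eq_one w) hwP fun a ha => hwc a (hPT ha)
      refine no_centralized_elem hG hM hpτ hid hqM hdM hdo hP hPM hPA hA hAc fun a ha => ?_
      refine mem_centralizer_singleton_iff.mpr (hJpcent a (hTΓ.le ⟨hAT ha, ?_⟩) d hd)
      exact mem_centralizer_iff.mpr fun b hb => elem_comm hA (hPA hb) ha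
    -- cyclic Sylow subgroups
    have hTC : (T : Subgroup G) ≤ centralizer (P : Set G) := fun a ha => mem_centralizer_iff.mpr fun b hb =>
      congrArg Subtype.val ((IsCyclic.commGroup (α := (T : Subgroup G))).mul_comm ⟨b, hPT hb⟩ ⟨a, ha⟩)
    have hTJ : (T : Subgroup G) = Jp := by rw [← hTΓ, inf_eq_left.mpr hTC]
    set C := centralizer ((T : Subgroup G) : Set G) with hC
    have hQ₁C : Q₁ ≤ C := fun b hb => mem_centralizer_iff.mpr fun a ha => hJpcent a (hTJ ▸ ha) b hb
    set N := normalizer ((T : Subgroup G) : Set G) with hN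
    obtain ⟨n, hn, hnC⟩ : ∃ n ∈ N, n ∉ C := by
      by_contra hcon
      push Not at hcon
      refine hP1 (le_bot_iff.mp ((hPT.trans (sylow_le_commutator_self hG T)).trans ?_))
      rw [commutator_comm]
      exact (commutator_eq_bot_iff_le_centralizer.mpr hcon).le
    obtain ⟨S₁₀, hS₁₀⟩ := (hQ₁p.comap_subtype (K := C)).exists_le_sylow
    set S₁ := (S₁₀ : Subgroup C).map C.subtype with hS₁
    have hQS₁ : Q₁ ≤ S₁ := fun b hb => ⟨⟨b, hQ₁C hb⟩, hS₁₀ hb, rfl⟩
    have hS₁C : S₁ ≤ C := map_subtype_le _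
    have hnS : MulAut.conj n • S₁ ≤ C := (pointwise_smul_le_pointwise_smul_iff.mpr hS₁C).trans
      (Coprime.conj_smul_eq_self (Coprime.normalizer_le_normalizer_centralizer _ hn)).le
    obtain ⟨c, hc, hcS⟩ := Coprime.exists_mem_conj_eq_of_sylow (K := C) S₁₀ (U := MulAut.conj n • S₁) hnS
      (by rw [Coprime.card_conj_smul, hS₁, card_map_of_injective C.subtype_injective])
    set v := c⁻¹ * n with hv
    have hvN : v ∈ N := mul_mem (inv_mem (centralizer_le_normalizer _ hc)) hn
    have hvC : v ∉ C := fun h => hnC (by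
      have := C.mul_mem hc h
      rwa [hv, mul_inv_cancel_left] at this)
    have hvS : v ∈ normalizer (S₁ : Set G) := by
      refine Coprime.mem_normalizer_of_conj_smul_eq ?_
      rw [hv, map_mul, mul_smul, ← hcS, map_inv, inv_smul_smul]
    refine hvC ?_
    by_cases hS₁c : IsCyclic S₁
    · have hvd : v ∈ normalizer ((zpowers d : Subgroup G) : Set G) := by
        haveI := hS₁c
        refine Coprime.mem_normalizer_of_conj_smul_eq (OddLocal.eq_of_card_eq_of_le_cyclic (W := S₁) ?_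
          (zpowers_le.mpr (hQS₁ hd)) (Coprime.card_conj_smul _ _))
        exact (pointwise_smul_le_pointwise_smul_iff.mpr (zpowers_le.mpr (hQS₁ hd))).trans
          (Coprime.conj_smul_eq_self hvS).le
      have hTd : (T : Subgroup G) ≤ centralizer ({d} : Set G) := fun a ha =>
        mem_centralizer_singleton_iff.mpr (hJpcent a (hTJ ▸ ha) d hd)
      have hX1 : (zpowers d : Subgroup G) ≠ ⊥ := fun e => hq.out.ne_one (by
        rw [← hdo, ← Nat.card_zpowers, e, card_bot])
      have hNne' : normalizer ((zpowers d : Subgroup G) : Set G) ≠ ⊤ := fun e => by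
        rcases hG.2.1.eq_bot_or_eq_top_of_normal _ (normalizer_eq_top_iff.mp e) with h1 | h1
        · exact hX1 h1
        · exact hM.1 (top_le_iff.mp (h1.ge.trans (zpowers_le.mpr hdM)))
      obtain ⟨H', hH', hNH'⟩ := exists_coatom_ge hNne'
      have h := (tau_one_in_normalizer hG hM hpτ hid hqM hdM hdo hP hPM (hPT.trans hTd) hH' hNH').2
      exact centralizes_of_tau_one h T.2
        (hTd.trans ((centralizer_zpowers d).ge.trans ((centralizer_le_normalizer _).trans hNH')))
        ⟨hNH' hvd, hvN⟩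
    · obtain ⟨g, hg⟩ := exists_conj_le_sigmaCore hG hM (Y := S₁) (ne_bot_of_le_ne_bot hQ₁1 hQS₁)
        fun t ht hd' => isPGroup_ne_dvd (S₁₀.2.map C.subtype) ht hd' ▸ hqM
      have hN' : normalizer ((MulAut.conj g • S₁ : Subgroup G) : Set G) ≤ M := normalizer_noncyclic_le hG hM hqM
        ((S₁₀.2.map C.subtype).map _) (hg.trans (map_subtype_le _))
        fun h => hS₁c ((S₁.equivMapOfInjective (MulAut.conj g).toMonoidHom (MulAut.conj g).injective).isCyclic.mpr h)
      have key : ∀ z ∈ normalizer (S₁ : Set G), g * z * g⁻¹ ∈ normalizer ((MulAut.conj g • S₁ : Subgroup G) : Set G) :=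
        fun z hz => le_normalizer_map (MulAut.conj g).toMonoidHom (mem_map_of_mem _ hz)
      have hTg : MulAut.conj g • (T : Subgroup G) ≤ M := by
        rintro _ ⟨a, ha, rfl⟩
        exact hN' (key a (centralizer_le_normalizer _ ((le_centralizer_iff.mp hS₁C) ha)))
      have h := centralizes_of_tau_one hpd (T.2.map (MulAut.conj g).toMonoidHom) hTg
        ⟨hN' (key v hvS), le_normalizer_map (MulAut.conj g).toMonoidHom (mem_map_of_mem _ hvN)⟩
      refine mem_centralizer_iff.mpr fun a ha => ?_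
      have h2 := mem_centralizer_iff.mp h (g * a * g⁻¹) ⟨a, ha, rfl⟩
      calc a * v = g⁻¹ * (g * a * g⁻¹ * (g * v * g⁻¹)) * g := by group
        _ = v * a := by rw [h2]; group
  -- `p ∈ β(H)`
  have hpα : p ∈ alpha H := by
    refine ⟨hp.out, fun h => ?_⟩
    obtain ⟨T, -, hTH⟩ := exists_sylow_ge_sigma hpH hPp hPH
    exact not_prankLE_two_of_ideal hid T.2 T.not_dvd_index
      (Hall.prankLE_of_injective (inclusion hTH) (inclusion_injective _) h)
  have hpβ : p ∈ beta H := ⟨hpα, hid⟩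
  -- `r` has rank one in `H`
  have hr1H : PRankLE r 1 H := by
    by_contra hr1
    have hrτ : r ∈ tau2 H := ⟨hr.out, hrH, rank_two_of_not_sigma hG hH hr.out hrH, hr1⟩
    obtain ⟨B, hBH, hB, hBc⟩ := elem_of_not_pRankLE hr1
    obtain ⟨XB, hXB⟩ := exists_exc hG hH hrH hBH hB hBc
    have hqH : q ∉ sigma H := fun hqH => by
      obtain ⟨g, hg⟩ := conj_of_sigma_nilpotent hG hM hH (hXB.sigmaCore_nilpotent hG) hqM hqH
      exact hnc g hg
    obtain ⟨E₀, hE₀, -⟩ := exists_compl_ge hG hH hrH (IsPGroup.of_bot (p := r)) bot_le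
    obtain ⟨EH, hEH, hYE⟩ := exists_compl_ge_pi hG hH hE₀ (Y := R ⊔ Q) (fun s hs hd => by
      rcases prime_dvd_sup hRQ hs hd with h | h
      · exact isPGroup_ne_dvd hRp hs h ▸ hrH
      · exact isPGroup_ne_dvd hQ hs h ▸ hqH) (sup_le hRH hQH)
    obtain ⟨A, hAE, hA, hAc⟩ := exists_elem_compl hG hH hEH hrτ
    refine hQ₁1 (le_bot_iff.mp ?_)
    by_cases hab : ∀ T : Sylow r G, IsMulCommutative (T : Subgroup G)
    · obtain ⟨T, -, hTE, hET, -, -, -, -⟩ := exists_normal_sylow hG hH hEH hrH hab hA hAE hAc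
      have hRT : R ≤ (T : Subgroup G) := fun z hz =>
        mem_sylow_of_normal T hTE hET (hYE (mem_sup_left hz)) (k := 1) (by
          rw [pow_one]; exact orderOf_dvd_iff_pow_eq_one.mp (hR ▸ Subgroup.orderOf_dvd_natCard R hz))
      exact (le_inf hQ₁Q ((commutator_comm Q R).le.trans ((commutator_mono hRT le_rfl).trans
        (Coprime.commutator_le_of_le_normalizer' ((le_sup_right.trans hYE).trans hET))))).trans
        (Coprime.inf_eq_bot_of_coprime (coprime_pgroups (Ne.symm hqr) hQ T.2)).le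
    · obtain ⟨-, -, hline⟩ := tau_two_nonabelian hG hH hEH hrH (sylow_comm_dichotomy hab) hA hAE hAc
      have hX₀ : R = A ⊓ centralizer (sigmaCore H : Set G) := by
        by_contra hne'
        refine hP1 (le_bot_iff.mp (((le_inf hPσ (le_centralizer_iff.mp hRP)).trans ?_)))
        exact (hline R (le_sup_left.trans hYE) hR hne').1.le
      obtain ⟨hEA, -⟩ := le_normalizer_compl hG hH hEH hrH hAE hA hAc
      have hER : EH ≤ normalizer (R : Set G) := fun e he => by
        rw [hX₀]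
        exact inf_normalizer_le_normalizer_inf ⟨hEA he, Coprime.normalizer_le_normalizer_centralizer _
          (OddLocal.le_normalizer_piCoreOf (sigma H) H (hEH.1 he))⟩
      exact (le_inf hQ₁Q ((commutator_comm Q R).le.trans
        (Coprime.commutator_le_of_le_normalizer' ((le_sup_right.trans hYE).trans hER)))).trans
        (Coprime.inf_eq_bot_of_coprime (coprime_pgroups (Ne.symm hqr) hQ hRp)).le
  -- `Q₁` centralises an invariant Sylow `p`-subgroup of `H_β`
  obtain ⟨⟨-, -, hβH⟩, -, hβG⟩ := beta_core_hall hG hH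
  set Kβ := piCoreOf (beta H) H with hKβ
  have hKH : Kβ ≤ H := OddLocal.piCoreOf_le _ _
  have hPK : P ≤ Kβ := by
    haveI : (Kβ.subgroupOf H).Normal :=
      (normal_subgroupOf_iff_le_normalizer hKH).mpr (OddLocal.le_normalizer_piCoreOf _ _)
    have h1 : P.subgroupOf H ≤ Kβ.subgroupOf H := by
      refine le_of_coprime_index ?_
      rw [Coprime.card_subgroupOf hPH, hP]
      exact hp.out.coprime_iff_not_dvd.mpr (hβH p hp.out hpβ)
    intro a ha
    exact h1 (show (⟨a, hPH ha⟩ : H) ∈ P.subgroupOf H from ha)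
  have hRQ₁ : R ≤ normalizer (Q₁ : Set G) := Coprime.right_le_normalizer_commutator Q R
  set J := R ⊔ Q₁ with hJ
  have hJH : J ≤ H := sup_le hRH hQ₁H
  haveI := solvable_of_ne_top hG (ne_top_of_le hH hJH)
  have hcop : (Nat.card J).Coprime (Nat.card Kβ) := Nat.coprime_of_dvd fun t ht h1 h2 => by
    have htβ := OddLocal.piCoreOf_isPi _ _ t ht h2
    rcases prime_dvd_sup hRQ₁ ht h1 with h | h
    · exact hrH (isPGroup_ne_dvd hRp ht h ▸ alpha_subset_sigma hG hH htβ.1)
    · exact hqβ (isPGroup_ne_dvd hQ₁p ht h ▸ htβ)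
  obtain ⟨U₀, hPU, hJU⟩ := Coprime.exists_invariant_sylow_ge (hJH.trans (OddLocal.le_normalizer_piCoreOf _ _))
    hcop (Or.inl inferInstance) hPK hPp
    (sup_le (hRP.trans (centralizer_le_normalizer _)) ((hQ₁Q.trans hQP).trans (centralizer_le_normalizer _)))
  set U := (U₀ : Subgroup Kβ).map Kβ.subtype with hU
  have hUp : IsPGroup p U := U₀.2.map _
  have hUK : U ≤ Kβ := map_subtype_le _
  have hUα : U ≤ alphaCore H := hUK.trans (OddLocal.le_piCoreOf hKH (OddLocal.le_normalizer_piCoreOf _ _)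
    fun s hs hd => (OddLocal.piCoreOf_isPi _ _ s hs hd).1)
  have hUidx : ¬ p ∣ U.index := by
    rw [← relIndex_mul_index hUK]
    intro hd'
    rcases hp.out.dvd_mul.mp hd' with h | h
    · rw [hU, relIndex, subgroupOf, comap_map_eq_self_of_injective Kβ.subtype_injective] at h
      exact U₀.not_dvd_index h
    · exact hβG p hp.out hpβ h
  have hQ₁c : IsMulCommutative Q₁ := by
    by_contra hna
    exact hHM ((nonabelian_unique hG hQ₁p hna).unique ⟨hH, hQ₁H⟩ ⟨hM, hQ₁Q.trans hQM⟩)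
  obtain ⟨x, hx⟩ := (Subgroup.isCyclic_iff_exists_zpowers_eq_top R).mp (isCyclic_of_prime_card hR)
  have hxo : orderOf x = r := by rw [← Nat.card_zpowers, hx, hR]
  have hxR : x ∈ R := hx.le (mem_zpowers x)
  have hUcent : U ≤ centralizer (Q₁ : Set G) := le_centralizer_of_fixed_prime hp2 hUp hr.out
    (v := x) (hxo ▸ pow_orderOf_eq_one x) hQ₁c (hJU (mem_sup_left hxR)) (le_sup_right.trans hJU) (hRQ₁ hxR)
    (by rw [hx]; exact hQ₁R)
    (by
      obtain ⟨j, hj⟩ := IsPGroup.iff_card.mp hQ₁p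
      rw [hj]
      exact ((Nat.coprime_primes hr.out hq.out).mpr (Ne.symm hqr)).pow_right j)
    (by
      obtain ⟨j, hj⟩ := IsPGroup.iff_card.mp hQ₁p
      rw [hj]
      exact ((Nat.coprime_primes hq.out hp.out).mpr hqp).pow_left j)
    hrp
    (fun z hzU hzp hzc => le_centralizer_iff.mp (hQ₁Q.trans hQP)
      (fixed_line_eq hG hH hrH hr1H (hRH hxR) hxo hUp hUα hP hPU
        (fun a ha => (mem_centralizer_iff.mp (hRP hxR) a ha).symm) hzU hzp hzc))
  -- `N(⟨d⟩) ≤ H`
  have hUu := inUnique_of_rank_three hG hUp (not_prankLE_two_of_ideal hid hUp hUidx)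
  have hX1 : (zpowers d : Subgroup G) ≠ ⊥ := fun e => hq.out.ne_one (by
    rw [← hdo, ← Nat.card_zpowers, e, card_bot])
  have hNne' : normalizer ((zpowers d : Subgroup G) : Set G) ≠ ⊤ := fun e => by
    rcases hG.2.1.eq_bot_or_eq_top_of_normal _ (normalizer_eq_top_iff.mp e) with h1 | h1
    · exact hX1 h1
    · exact hM.1 (top_le_iff.mp (h1.ge.trans (zpowers_le.mpr hdM)))
  obtain ⟨L, hL, hNL⟩ := exists_coatom_ge hNne'
  have hLH : L = H := hUu.unique ⟨hL, fun a ha => hNL (centralizer_le_normalizer _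
    (centralizer_le (SetLike.coe_subset_coe.mpr (zpowers_le.mpr hd)) (hUcent ha)))⟩ ⟨hH, hUK.trans hKH⟩
  subst hLH
  obtain ⟨-, K, -, -, -, -, -, -, hcase⟩ := exists_factor_of_normalizer hG hM hqM (X := zpowers d)
    (IsPGroup.of_card (n := 1) (by rw [Nat.card_zpowers, hdo, pow_one])) hX1 (zpowers_le.mpr hdM) hL hHM hNL
  have hqL : q ∈ sigma L := by
    rcases hcase with h | ⟨-, -, hbot⟩
    · exact h.1
    · exact absurd (le_bot_iff.mp ((le_inf hPσ hPM).trans hbot.le)) hP1
  -- a `P`-invariant Sylow subgroup of `M ∩ L` containing `Q₁`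
  set D := sigmaCore M ⊓ L with hD
  have hPD : P ≤ normalizer (D : Set G) := fun a ha => inf_normalizer_le_normalizer_inf
    ⟨OddLocal.le_normalizer_piCoreOf (sigma M) M (hPM ha), le_normalizer (hPH ha)⟩
  have hcopD : (Nat.card P).Coprime (Nat.card D) := Nat.coprime_of_dvd fun t ht h1 h2 =>
    hpσ (isPGroup_ne_dvd hPp ht h1 ▸ OddLocal.piCoreOf_isPi (sigma M) M t ht (h2.trans (card_dvd_of_le inf_le_left)))
  haveI : Group.IsNilpotent P := hPp.isNilpotent
  obtain ⟨S₀, hQS, hPS⟩ := Coprime.exists_invariant_sylow_ge hPD hcopD (Or.inl inferInstance) (U := Q₁)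
    (le_inf ((hQ₁Q.trans hQC).trans inf_le_left) hQ₁H) hQ₁p
    ((le_centralizer_iff.mp (hQ₁Q.trans hQP)).trans (centralizer_le_normalizer _))
  set S := (S₀ : Subgroup D).map D.subtype with hS
  have hSp : IsPGroup q S := S₀.2.map _
  have hSle : S ≤ M ⊓ L :=
    (map_subtype_le _ : S ≤ D).trans (inf_le_inf_right _ (map_subtype_le _))
  have hmax : ∀ Z : Subgroup G, IsPGroup q Z → Z ≤ M ⊓ L → S ≤ Z → Z = S := fun Z hZ hZle hSZ => by
    have hZD : Z ≤ D := le_inf (pgroup_le_sigmaCore hG hM hqM hZ (hZle.trans inf_le_left)) (hZle.trans inf_le_right)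
    have h := S₀.3 (hZ.comap_subtype (K := D)) (fun z hz => hSZ (mem_map_of_mem _ hz))
    rw [hS, ← h]
    exact (map_subgroupOf_eq_of_le hZD).symm
  obtain ⟨-, -, hsyl⟩ := sylow_inter_props hG hM hqM (X := zpowers d)
    (IsPGroup.of_card (n := 1) (by rw [Nat.card_zpowers, hdo, pow_one])) hX1 (zpowers_le.mpr hdM) hL hHM hNL
    hSp hSle (zpowers_le.mpr (hQS hd)) hmax
  obtain ⟨T, hST, hTL⟩ := exists_sylow_ge_sigma hqL hSp (hSle.trans inf_le_right)
  have hTS : (T : Subgroup G) = S := hsyl _ T.2 hTL hST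
  refine not_sigma_of_centralized hG hM hL hnc hpτ hpβ hqM hqL T (hTS ▸ hSle.trans inf_le_left) hTL hP hPM hPH ?_
  rw [hTS]
  have hbot : ⁅S, P⁆ = ⊥ := le_bot_iff.mp ((le_inf (Coprime.commutator_le_of_le_normalizer' hPS)
    (commutator_comm S P ▸ (commutator_mono hPK le_rfl).trans
      (Coprime.commutator_le_of_le_normalizer' ((hSle.trans inf_le_right).trans
        (OddLocal.le_normalizer_piCoreOf _ _))))).trans
    (Coprime.inf_eq_bot_of_coprime (Nat.coprime_of_dvd fun t ht h1 h2 =>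
      hqβ (isPGroup_ne_dvd hSp ht h1 ▸ OddLocal.piCoreOf_isPi _ _ t ht h2))).le)
  rw [commutator_comm] at hbot
  exact commutator_eq_bot_iff_le_centralizer.mp hbot

omit hq in
/-- BG 13.4. -/
theorem tau_one_prime_action (hG : IsMinSimpleOddOrder G) (hM : IsCoatom M)
    (hE : IsComplIn E (sigmaCore M) M) (hpτ : p ∈ tau1 M) {P : Subgroup G} (hPE : P ≤ E) (hP : Nat.card P = p)
    {R : Subgroup G} (hRE : R ≤ E ⊓ centralizer (P : Set G)) (hR : Nat.card R = r) :
    sigmaCore M ⊓ centralizer (P : Set G) ≤ centralizer (R : Set G) := by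
  classical
  by_cases hrp : r = p
  · subst hrp
    have hPR : R ≤ P := by
      intro z hz
      obtain ⟨a, haP, ha1⟩ := P.bot_or_exists_ne_one.resolve_left fun e => by
        rw [e, card_bot] at hP; exact hp.out.ne_one hP.symm
      exact zpowers_le.mpr haP (eq_of_rank_one hpτ.2.2.2.2 (hE.1 (hRE hz).1) (hE.1 (hPE haP))
        (orderOf_dvd_iff_pow_eq_one.mp (hR ▸ Subgroup.orderOf_dvd_natCard R hz))
        (orderOf_dvd_iff_pow_eq_one.mp (hP ▸ Subgroup.orderOf_dvd_natCard P haP)) ha1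
        (mem_centralizer_iff.mp (hRE hz).2 a haP).symm)
    exact inf_le_right.trans (centralizer_le (SetLike.coe_subset_coe.mpr hPR))
  have hrσ : r ∉ sigma M := compl_not_sigma hG hM hE (hR ▸ card_dvd_of_le (hRE.trans inf_le_left))
  have hRM : R ≤ M := (hRE.trans inf_le_left).trans hE.1
  set C := sigmaCore M ⊓ centralizer (P : Set G) with hC
  have hRC : R ≤ normalizer (C : Set G) := fun z hz => inf_normalizer_le_normalizer_inf
    ⟨OddLocal.le_normalizer_piCoreOf (sigma M) M (hRM hz),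
      Coprime.normalizer_le_normalizer_centralizer _ (centralizer_le_normalizer _ (hRE hz).2)⟩
  have hcop : (Nat.card R).Coprime (Nat.card C) := Nat.Coprime.coprime_dvd_right (card_dvd_of_le inf_le_left)
    (Nat.Coprime.coprime_dvd_left (card_dvd_of_le (hRE.trans inf_le_left)) (coprime_sigmaCore_compl hG hM hE))
  haveI := solvable_of_ne_top hG (ne_top_of_le hM hRM)
  set D := C ⊓ centralizer (R : Set G) with hD
  have hCD : Nat.card C ∣ Nat.card D := by
    refine (Nat.dvd_iff_prime_pow_dvd_dvd _ _).mpr fun q i hq hqi => ?_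
    haveI := Fact.mk hq
    obtain ⟨Q, hQ⟩ := Coprime.exists_invariant_sylow hRC hcop (Or.inl inferInstance) q
    have hcent := centralizes_fixed_qgroup hG hM hpτ hP (hPE.trans hE.1) hR hRM (hRE.trans inf_le_right) hrσ hrp
      (Q.2.map C.subtype) (map_subtype_le _) hQ
    refine dvd_trans ?_ (card_dvd_of_le (le_inf (map_subtype_le _) (le_centralizer_iff.mp hcent) :
      (Q : Subgroup C).map C.subtype ≤ D))
    rw [card_map_of_injective C.subtype_injective]
    exact Q.pow_dvd_card_of_pow_dvd_card hqi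
  have heq : D = C := eq_of_le_of_card_ge inf_le_left (Nat.le_of_dvd Nat.card_pos hCD)
  exact heq.ge.trans inf_le_right

end Cfsg.Agent.Lib.Uniq
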