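import Cfsg.Agent.Lib.Uniq.TauOneLemmas
set_option autoImplicit false

/-! The step of BG 13.4 using the focal subgroup of a common Sylow subgroup. -/

namespace Cfsg.Agent.Lib.Uniq

open Subgroup
open scoped Pointwise commutatorElement

universe u

variable {G : Type u} [Group G] [Finite G] {M H E : Subgroup G} {p q : ℕ} [hp : Fact p.Prime] [hq : Fact q.Prime]

omit hp in
/-- A Sylow subgroup of a minimal simple group is generated by its commutators with its normaliser. -/
theorem sylow_le_commutator_self (hG : IsMinSimpleOddOrder G) (S : Sylow q G) :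
    (S : Subgroup G) ≤ ⁅(S : Subgroup G), normalizer ((S : Subgroup G) : Set G)⁆ := by
  set N := normalizer ((S : Subgroup G) : Set G)
  set S₀ := (S : Subgroup G).subgroupOf N with hS₀
  have hSN : (S : Subgroup G) ≤ N := le_normalizer
  haveI : S₀.Normal := normal_subgroupOf_iff_le_normalizer hSN |>.mpr le_rfl
  have hcop : (Nat.card S₀).Coprime S₀.index := by
    obtain ⟨j, hj⟩ := IsPGroup.iff_card.mp S.2
    rw [Coprime.card_subgroupOf hSN, hj]
    exact Nat.Coprime.pow_left j (hq.out.coprime_iff_not_dvd.mpr fun h =>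
      S.not_dvd_index (h.trans (Subgroup.relIndex_dvd_index_of_le hSN)))
  obtain ⟨V, hV⟩ := Subgroup.exists_right_complement'_of_coprime hcop
  have hVc : IsComplIn (S : Subgroup G) (V.map N.subtype) N := by
    refine ⟨hSN, map_subtype_le _, ?_, fun n hn => ?_⟩
    · rw [← map_subgroupOf_eq_of_le hSN, ← Subgroup.map_inf _ _ _ N.subtype_injective, disjoint_iff.mp hV.disjoint,
        Subgroup.map_bot]
    · obtain ⟨⟨⟨a, ha⟩, ⟨b, hb⟩⟩, hab⟩ := hV.2 (⟨n, hn⟩ : N)
      exact ⟨a, ha, b, mem_map_of_mem _ hb, (congrArg Subtype.val hab).symm⟩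
  calc (S : Subgroup G) = ⁅(S : Subgroup G), V.map N.subtype⁆ := sylow_eq_commutator_compl hG S hVc
    _ ≤ _ := commutator_mono le_rfl (map_subtype_le _)

/-- Elements of order `p` of an `α`-core fixed by an element of order `t` from a rank one prime outside `σ(H)` form
a single line. -/
theorem fixed_line_eq (hG : IsMinSimpleOddOrder G) (hH : IsCoatom H) {t : ℕ} [ht : Fact t.Prime] (htH : t ∉ sigma H)
    (hr1 : PRankLE t 1 H) {x : G} (hxH : x ∈ H) (hxo : orderOf x = t) {U : Subgroup G} (hU : IsPGroup p U)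
    (hUα : U ≤ alphaCore H) {P : Subgroup G} (hP : Nat.card P = p) (hPU : P ≤ U) (hPx : ∀ a ∈ P, Commute x a)
    {z : G} (hzU : z ∈ U) (hzp : z ^ p = 1) (hzx : Commute x z) : z ∈ P := by
  classical
  set X := zpowers x
  have hXc : Nat.card X = t := by rw [Nat.card_zpowers, hxo]
  have hNX : ¬ normalizer (X : Set G) ≤ H := fun hle => (S1409.result hG H hH t htH X hXc hle).1.2 hr1
  have hr : RankLE 1 ↥(alphaCore H ⊓ centralizer (X : Set G)) := by
    by_contra hr
    have hU' := S1406.result hG H hH X (zpowers_le.mpr hxH) (fun r hr' hd => by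
      rw [hXc] at hd
      rw [(Nat.prime_dvd_prime_iff_eq hr' ht.out).mp hd]
      exact fun h => htH (alpha_subset_sigma hG hH h)) hr
    have hX1 : X ≠ ⊥ := fun e => ht.out.ne_one (by rw [← hXc, e, card_bot])
    have hNne : normalizer (X : Set G) ≠ ⊤ := fun e => by
      rcases hG.2.1.eq_bot_or_eq_top_of_normal X (normalizer_eq_top_iff.mp e) with h1 | h1
      · exact hX1 h1
      · exact hH.1 (top_le_iff.mp (h1.ge.trans (zpowers_le.mpr hxH)))
    obtain ⟨L, hL, hNL⟩ := exists_coatom_ge hNne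
    exact hNX ((hU'.unique ⟨hL, inf_le_right.trans ((centralizer_le_normalizer _).trans hNL)⟩
      ⟨hH, inf_le_left⟩) ▸ hNL)
  have hC : ∀ a : G, Commute x a → a ∈ centralizer (X : Set G) := fun a ha => by
    rw [centralizer_zpowers, mem_centralizer_singleton_iff]; exact ha.symm.eq
  set Q₀ := U ⊓ centralizer (X : Set G) with hQ₀
  have hr1' : PRankLE p 1 ↥Q₀ := Hall.prankLE_of_injective
    (inclusion (le_inf (inf_le_left.trans hUα) inf_le_right)) (inclusion_injective _) (hr p hp.out)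
  have hzQ : z ∈ Q₀ := ⟨hzU, hC z hzx⟩
  obtain ⟨a, haP, ha1⟩ := P.bot_or_exists_ne_one.resolve_left fun e => by
    rw [e, card_bot] at hP; exact hp.out.ne_one hP.symm
  have hap : a ^ p = 1 := orderOf_dvd_iff_pow_eq_one.mp (hP ▸ Subgroup.orderOf_dvd_natCard P haP)
  have haQ : a ∈ Q₀ := ⟨hPU haP, hC a (hPx a haP)⟩
  haveI : Nontrivial Q₀ := nontrivial_of_ne (⟨a, haQ⟩ : Q₀) 1 fun e => ha1 (congrArg Subtype.val e)
  have hQp : IsPGroup p Q₀ := hU.to_le inf_le_left
  haveI := hQp.center_nontrivial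
  obtain ⟨j, hj⟩ := IsPGroup.iff_card.mp (hQp.to_subgroup (center Q₀))
  have hj0 : j ≠ 0 := fun e => by
    rw [e, pow_zero] at hj
    exact (Finite.one_lt_card (α := center Q₀)).ne' hj
  obtain ⟨c, hc⟩ := exists_prime_orderOf_dvd_card' p (show p ∣ Nat.card (center Q₀) from hj ▸ dvd_pow_self p hj0)
  set w : G := ((c : Q₀) : G) with hw
  have hwo : orderOf w = p := by rw [hw, orderOf_coe, orderOf_coe, hc]
  have key : ∀ b ∈ Q₀, b ^ p = 1 → b ∈ zpowers w := fun b hb hbp =>
    eq_of_rank_one hr1' hb (c : Q₀).2 hbp (hwo ▸ pow_orderOf_eq_one w)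
      (fun e => hp.out.ne_one (by rw [← hwo, e, orderOf_one]))
      (congrArg Subtype.val (mem_center_iff.mp c.2 ⟨b, hb⟩))
  have hPw : P = zpowers w := by
    refine eq_of_le_of_card_ge (fun b hb => ?_) (by rw [Nat.card_zpowers, hwo, hP])
    exact key b ⟨hPU hb, hC b (hPx b hb)⟩
      (orderOf_dvd_iff_pow_eq_one.mp (hP ▸ Subgroup.orderOf_dvd_natCard P hb))
  rw [hPw]
  exact key z hzQ hzp

/-- A `σ(M) ∩ σ(H)` Sylow subgroup centralised by a line for a prime in `τ₁(M) ∩ β(H)` cannot exist. -/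
theorem not_sigma_of_centralized (hG : IsMinSimpleOddOrder G) (hM : IsCoatom M) (hH : IsCoatom H)
    (hnc : ∀ g : G, H ≠ MulAut.conj g • M) (hpτ : p ∈ tau1 M) (hpH : p ∈ beta H) (hqM : q ∈ sigma M)
    (hqH : q ∈ sigma H) (S : Sylow q G) (hSM : (S : Subgroup G) ≤ M) (hSH : (S : Subgroup G) ≤ H) {P : Subgroup G}
    (hP : Nat.card P = p) (hPM : P ≤ M) (hPH : P ≤ H) (hPS : P ≤ centralizer ((S : Subgroup G) : Set G)) :
    False := by
  classical
  obtain ⟨-, -, -, hpd, hr1⟩ := hpτ
  have hp2 : p ≠ 2 := fun e => hG.1.not_two_dvd_nat (e ▸ hP.symm.dvd.trans P.card_subgroup_dvd_card)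
  have hqβ := not_beta_of_not_conj hG hM hH hnc hqM
  have hNM : normalizer ((S : Subgroup G) : Set G) ≤ M := sylow_normalizer_le hG hM hqM S hSM
  have hNH : normalizer ((S : Subgroup G) : Set G) ≤ H := sylow_normalizer_le hG hH hqH S hSH
  have hSc : IsMulCommutative (S : Subgroup G) := by
    by_contra hna
    exact hnc 1 (by rw [map_one, one_smul]; exact (nonabelian_unique hG S.2 hna).unique ⟨hH, hSH⟩ ⟨hM, hSM⟩)
  set N := normalizer ((S : Subgroup G) : Set G) with hN
  set C := centralizer ((S : Subgroup G) : Set G) with hC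
  set V₁ := N ⊓ centralizer (P : Set G) with hV₁
  have hCN : C ≤ N := centralizer_le_normalizer _
  have hSC : (S : Subgroup G) ≤ C := fun a ha => mem_centralizer_iff.mpr fun b hb =>
    congrArg Subtype.val (hSc.is_comm.comm (⟨b, hb⟩ : (S : Subgroup G)) ⟨a, ha⟩)
  -- `N = C V₁`
  have hNCV : ∀ n ∈ N, ∃ c ∈ C, c * n ∈ V₁ := by
    intro n hn
    have hP' : MulAut.conj n • P ≤ C := (pointwise_smul_le_pointwise_smul_iff.mpr hPS).trans
      (Coprime.conj_smul_eq_self (Coprime.normalizer_le_normalizer_centralizer _ hn)).le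
    obtain ⟨c, hc, hcP⟩ := exists_conj_prime_eq (Z := C)
      (Hall.prankLE_of_injective (inclusion (hCN.trans hNM)) (inclusion_injective _) hr1) hP' hPS
      ((Coprime.card_conj_smul _ _).trans hP) hP
    rw [← mul_smul, ← map_mul] at hcP
    exact ⟨c, hc, mul_mem (hCN hc) hn, centralizes_of_tau_one hpd (IsPGroup.of_card (n := 1) (by rw [hP, pow_one]))
      hPM ⟨M.mul_mem (hNM (hCN hc)) (hNM hn), Coprime.mem_normalizer_of_conj_smul_eq hcP⟩⟩
  have hV₁H : V₁ ≤ H := inf_le_left.trans hNH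
  haveI := solvable_of_ne_top hG (ne_top_of_le hH hV₁H)
  obtain ⟨J₀, hJπ, hJi⟩ := Hall.exists_piHall (G := ↥V₁) {t | t = q ∨ t ∉ sigma H}
  set J := J₀.map V₁.subtype with hJ
  have hJV : J ≤ V₁ := map_subtype_le _
  have hJH : J ≤ H := hJV.trans hV₁H
  have hJc : ∀ t : ℕ, t.Prime → t ∣ Nat.card J → t = q ∨ t ∉ sigma H := fun t ht hd => by
    rw [hJ, card_map_of_injective V₁.subtype_injective] at hd
    exact hJπ t ht hd
  -- an invariant Sylow `p`-subgroup of `H_β`
  set Kβ := piCoreOf (beta H) H with hKβ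
  have hKH : Kβ ≤ H := OddLocal.piCoreOf_le _ _
  have hJK : J ≤ normalizer (Kβ : Set G) := hJH.trans (OddLocal.le_normalizer_piCoreOf _ _)
  obtain ⟨⟨-, -, hβH⟩, -, hβG⟩ := beta_core_hall hG hH
  have hPK : P ≤ Kβ := by
    haveI : (Kβ.subgroupOf H).Normal :=
      (normal_subgroupOf_iff_le_normalizer hKH).mpr (OddLocal.le_normalizer_piCoreOf _ _)
    have h1 : P.subgroupOf H ≤ Kβ.subgroupOf H := by
      refine le_of_coprime_index ?_
      rw [Coprime.card_subgroupOf hPH, hP]
      exact hp.out.coprime_iff_not_dvd.mpr (hβH p hp.out hpH)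
    intro a ha
    exact h1 (show (⟨a, hPH ha⟩ : H) ∈ P.subgroupOf H from ha)
  have hcop : (Nat.card J).Coprime (Nat.card Kβ) := Nat.coprime_of_dvd fun t ht h1 h2 => by
    have htβ := OddLocal.piCoreOf_isPi _ _ t ht h2
    rcases hJc t ht h1 with h | h
    · exact hqβ (h ▸ htβ)
    · exact h (alpha_subset_sigma hG hH htβ.1)
  haveI := solvable_of_ne_top hG (ne_top_of_le hH hJH)
  obtain ⟨U₀, hPU, hJU⟩ := Coprime.exists_invariant_sylow_ge hJK hcop (Or.inl inferInstance) hPK
    (IsPGroup.of_card (n := 1) (by rw [hP, pow_one]) : IsPGroup p P)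
    (hJV.trans (inf_le_right.trans (centralizer_le_normalizer _)))
  set U := (U₀ : Subgroup Kβ).map Kβ.subtype with hU
  have hUp : IsPGroup p U := U₀.2.map _
  have hUK : U ≤ Kβ := map_subtype_le _
  have hUα : U ≤ alphaCore H := hUK.trans (OddLocal.le_piCoreOf hKH (OddLocal.le_normalizer_piCoreOf _ _)
    fun r hr hd => (OddLocal.piCoreOf_isPi _ _ r hr hd).1)
  have hUidx : ¬ p ∣ U.index := by
    rw [← relIndex_mul_index hUK]
    intro hd
    rcases hp.out.dvd_mul.mp hd with h | h
    · rw [hU, relIndex, subgroupOf, comap_map_eq_self_of_injective Kβ.subtype_injective] at h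
      exact U₀.not_dvd_index h
    · exact hβG p hp.out hpH h
  have hU3 : ¬ PRankLE p 2 U := by
    intro h
    refine hpH.2.2.1 fun B hBc hBx => ?_
    have hBp : IsPGroup p B := fun b => ⟨1, Subtype.ext (by rw [pow_one]; exact hBx b b.2)⟩
    obtain ⟨T, hT⟩ := hBp.exists_le_sylow
    obtain ⟨g, hg⟩ := MulAction.exists_smul_eq G T (hUp.toSylow hUidx)
    set B' := B.map (MulAut.conj g).toMonoidHom with hB'
    have hle : B' ≤ U := (map_mono hT).trans (le_of_eq (congrArg Sylow.toSubgroup hg))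
    have hel : IsElementaryAbelian p B' := elem_map _ ⟨hBc, hBx⟩
    have := h (B'.subgroupOf U) ⟨⟨fun a b => Subtype.ext (Subtype.ext (elem_comm hel a.2 b.2))⟩⟩
      fun a ha => Subtype.ext (hel.2 _ ha)
    rwa [Coprime.card_subgroupOf hle, hB', card_map_of_injective (MulAut.conj g).injective] at this
  have hUu := inUnique_of_rank_three hG hUp hU3
  -- the commutators land in `C(U)`
  set S₁ := (S : Subgroup G) ⊓ centralizer (U : Set G) with hS₁
  let W : Subgroup G :=
    { carrier := {n | n ∈ N ⊓ normalizer (S₁ : Set G) ∧ ∀ s ∈ (S : Subgroup G), ⁅n, s⁆ ∈ S₁}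
      one_mem' := ⟨one_mem _, fun s _ => by rw [commutatorElement_one_left]; exact one_mem _⟩
      mul_mem' := fun {a b} ha hb => ⟨mul_mem ha.1 hb.1, fun s hs => by
        rw [show ⁅a * b, s⁆ = a * ⁅b, s⁆ * a⁻¹ * ⁅a, s⁆ by simp only [commutatorElement_def]; group]
        exact mul_mem ((mem_normalizer_iff.mp ha.1.2 _).mp (hb.2 s hs)) (ha.2 s hs)⟩
      inv_mem' := fun {a} ha => ⟨inv_mem ha.1, fun s hs => by
        rw [show ⁅a⁻¹, s⁆ = a⁻¹ * ⁅a, s⁆⁻¹ * a⁻¹⁻¹ by simp only [commutatorElement_def]; group]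
        exact (mem_normalizer_iff.mp (inv_mem ha.1.2) _).mp (inv_mem (ha.2 s hs))⟩ }
  have hWm : ∀ n, n ∈ W ↔ n ∈ N ⊓ normalizer (S₁ : Set G) ∧ ∀ s ∈ (S : Subgroup G), ⁅n, s⁆ ∈ S₁ := fun n => Iff.rfl
  have hCW : C ≤ W := fun c hc => (hWm c).mpr ⟨⟨hCN hc, centralizer_le_normalizer _
    (centralizer_le (SetLike.coe_subset_coe.mpr (inf_le_left : S₁ ≤ _)) hc)⟩, fun s hs => by
      rw [commutatorElement_eq_one_iff_mul_comm.mpr (mem_centralizer_iff.mp hc s hs).symm]; exact one_mem _⟩
  have hJS₁ : J ≤ N ⊓ normalizer (S₁ : Set G) := fun x hx => ⟨(hJV hx).1,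
    inf_normalizer_le_normalizer_inf ⟨(hJV hx).1, Coprime.normalizer_le_normalizer_centralizer _ (hJU hx)⟩⟩
  have hJW : J ≤ W := by
    intro x hx
    refine abelian_of_prime_pow_parts fun t k ht htk => ?_
    haveI := Fact.mk ht
    rcases Nat.eq_zero_or_pos k with rfl | hk
    · rw [pow_zero, Nat.div_one, pow_orderOf_eq_one]; exact one_mem _
    set y := x ^ (orderOf x / t ^ k)
    have hyJ : y ∈ J := pow_mem hx _
    have hyo : orderOf y = t ^ k := orderOf_pow_orderOf_div (orderOf_pos x).ne' htk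
    have hyp : IsPGroup t (zpowers y) := IsPGroup.of_card (n := k) (by rw [Nat.card_zpowers, hyo])
    have hyN : y ∈ N := (hJV hyJ).1
    by_cases htq : t = q
    · subst htq
      refine hCW (hSC ?_)
      haveI : ((S : Subgroup G).subgroupOf N).Normal := normal_subgroupOf_iff_le_normalizer le_normalizer |>.mpr le_rfl
      exact mem_sylow_of_normal S le_normalizer le_rfl hyN (hyo ▸ pow_orderOf_eq_one y)
    have htJ : t ∣ Nat.card J := (dvd_pow_self t hk.ne').trans (hyo ▸ Subgroup.orderOf_dvd_natCard J hyJ)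
    have htH : t ∉ sigma H := (hJc t ht htJ).resolve_left htq
    by_cases htr : PRankLE t 1 H
    swap
    · -- `H_σ` would be nilpotent
      exfalso
      obtain ⟨B, hBH, hB, hBc⟩ := elem_of_not_pRankLE htr
      obtain ⟨XB, hXB⟩ := exists_exc hG hH htH hBH hB hBc
      obtain ⟨g, hg⟩ := conj_of_sigma_nilpotent hG hM hH (hXB.sigmaCore_nilpotent hG) hqM hqH
      exact hnc g hg
    set x₀ := y ^ t ^ (k - 1) with hx₀
    have hx₀o : orderOf x₀ = t := by
      rw [hx₀, orderOf_pow, hyo, Nat.gcd_eq_right (pow_dvd_pow t (by omega)), Nat.pow_div (by omega) ht.pos,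
        show k - (k - 1) = 1 by omega, pow_one]
    have hx₀J : x₀ ∈ J := pow_mem hyJ _
    set Y := ⁅(S : Subgroup G), zpowers x₀⁆ with hY
    have hx₀S : zpowers x₀ ≤ normalizer ((S : Subgroup G) : Set G) := zpowers_le.mpr (hJV hx₀J).1
    have hcS : (Nat.card (zpowers x₀)).Coprime (Nat.card (S : Subgroup G)) := by
      obtain ⟨j, hj⟩ := IsPGroup.iff_card.mp S.2
      rw [Nat.card_zpowers, hx₀o, hj]
      exact ((Nat.coprime_primes ht hq.out).mpr htq).pow_right j
    have hYS : Y ≤ (S : Subgroup G) := Coprime.commutator_le_of_le_normalizer' hx₀S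
    have hYc : IsMulCommutative Y := ⟨⟨fun a b => Subtype.ext
      (congrArg Subtype.val (hSc.is_comm.comm (⟨a, hYS a.2⟩ : (S : Subgroup G)) ⟨b, hYS b.2⟩) :)⟩⟩
    have hSJ : (S : Subgroup G) ≤ J := by
      have hSV : (S : Subgroup G) ≤ V₁ := le_inf le_normalizer (le_centralizer_iff.mp hPS)
      haveI : ((S : Subgroup G).subgroupOf V₁).Normal :=
        (normal_subgroupOf_iff_le_normalizer hSV).mpr inf_le_left
      intro s hs
      obtain ⟨g, hg⟩ := Hall.exists_le_conj (H := J₀) (K := (S : Subgroup G).subgroupOf V₁)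
        (Nat.coprime_of_dvd fun r hr h1 h2 => hJi r hr (hJπ r hr h1) h2)
        (Nat.coprime_of_dvd fun r hr h1 h2 => by
          rw [Coprime.card_subgroupOf hSV] at h1
          exact hJi r hr (Or.inl (isPGroup_ne_dvd S.2 hr h1)) h2)
      have h1 : MulAut.conj g⁻¹ • (S : Subgroup G).subgroupOf V₁ ≤ J₀ := by
        rw [map_inv, pointwise_smul_subset_iff, inv_inv]; exact hg
      rw [Coprime.conj_smul_eq_self (show g⁻¹ ∈ normalizer (((S : Subgroup G).subgroupOf V₁ : Subgroup V₁) : Set V₁) by rw [normalizer_eq_top]; exact mem_top _)] at h1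
      exact ⟨⟨s, hSV hs⟩, h1 hs, rfl⟩
    have hYU : U ≤ centralizer (Y : Set G) := by
      refine le_centralizer_of_fixed_prime hp2 hUp ht (v := x₀) (by rw [← hx₀o, pow_orderOf_eq_one]) hYc
        (hJU hx₀J) ((hYS.trans hSJ).trans hJU) (Coprime.right_le_normalizer_commutator _ _ (mem_zpowers x₀))
        (Coprime.commutator_commutator hx₀S hcS (Or.inl (Group.isSolvable_of_comm fun a b => mul_comm' a b)))
        ?_ ?_ (fun e => htH (e ▸ alpha_subset_sigma hG hH hpH.1)) ?_
      · rw [← hx₀o, ← Nat.card_zpowers]; exact hcS.coprime_dvd_right (card_dvd_of_le hYS)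
      · refine Nat.Coprime.coprime_dvd_left (card_dvd_of_le hYS) ?_
        obtain ⟨j, hj⟩ := IsPGroup.iff_card.mp S.2
        rw [hj]
        exact ((Nat.coprime_primes hq.out hp.out).mpr fun e => hqβ (e ▸ hpH)).pow_left j
      · intro z hzU hzp hzc
        exact le_centralizer_iff.mp ((hYS.trans le_rfl).trans (le_centralizer_iff.mp hPS))
          (fixed_line_eq hG hH htH htr (hJH hx₀J) hx₀o hUp hUα hP hPU
            (fun a ha => (mem_centralizer_iff.mp (hJV hx₀J).2 a ha).symm) hzU hzp hzc)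
    have hYS₁ : Y ≤ S₁ := le_inf hYS (le_centralizer_iff.mp hYU)
    refine (hWm y).mpr ⟨hJS₁ hyJ, fun s hs => hYS₁ ?_⟩
    -- `y` centralises the fixed points of `x₀`
    have hdec := Coprime.commutator_sup_centralizer hx₀S hcS (Or.inl (Group.isSolvable_of_comm fun a b => mul_comm' a b))
    rw [← hY] at hdec
    have hyY : y ∈ normalizer (Y : Set G) := by
      refine Coprime.mem_normalizer_of_conj_smul_eq ?_
      show (⁅(S : Subgroup G), zpowers x₀⁆).map (MulAut.conj y).toMonoidHom = _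
      rw [map_commutator, MonoidHom.map_zpowers]
      refine congrArg₂ (fun a b => ⁅a, b⁆) (Coprime.conj_smul_eq_self hyN) (congrArg zpowers ?_)
      show y * x₀ * y⁻¹ = x₀
      rw [((Commute.refl y).pow_right _).eq, mul_inv_cancel_right]
    have hmul : s ∈ Y ⊔ ((S : Subgroup G) ⊓ centralizer (zpowers x₀ : Set G)) := hdec.ge hs
    rw [← SetLike.mem_coe, coe_mul_of_right_le_normalizer_left _ _
      (inf_le_left.trans (Coprime.left_le_normalizer_commutator _ _))] at hmul
    obtain ⟨a, ha, c, hc, rfl⟩ := hmul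
    have hyc : ⁅y, c⁆ = 1 := by
      obtain ⟨EH, hEH, hyE⟩ := exists_compl_ge hG hH htH hyp (zpowers_le.mpr (hJH hyJ))
      obtain ⟨T, hT⟩ := (hyp.comap_subtype (K := EH)).exists_le_sylow
      have hTz : IsCyclic (T : Subgroup EH) := by
        have hTp : IsPGroup t ((T : Subgroup EH).map EH.subtype) := T.2.map _
        haveI : IsZGroup ↥((T : Subgroup EH).map EH.subtype) := rank_one_zgroup hG ((map_subtype_le _).trans hEH.1)
          fun r hr hd => isPGroup_ne_dvd hTp hr hd ▸ htr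
        haveI : Group.IsNilpotent ↥((T : Subgroup EH).map EH.subtype) := hTp.isNilpotent
        exact ((T : Subgroup EH).equivMapOfInjective _ EH.subtype_injective).isCyclic.mpr inferInstance
      have hyT : y ∈ (T : Subgroup EH).map EH.subtype :=
        ⟨⟨y, hyE (mem_zpowers y)⟩, hT (mem_zpowers y), rfl⟩
      have hact := cyclic_sylow_prime_action hG hH hEH T hTz (x := x₀) (pow_mem hyT _)
        (fun e => ht.ne_one (by rw [← hx₀o, e, orderOf_one]))
      have hcK : c ∈ sigmaCore H ⊓ centralizer ({x₀} : Set G) :=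
        ⟨pgroup_le_sigmaCore hG hH hqH S.2 hSH hc.1, (centralizer_zpowers x₀).le hc.2⟩
      exact commutatorElement_eq_one_iff_mul_comm.mpr (mem_centralizer_iff.mp (hact.le hcK).2 y hyT)
    rw [show ⁅y, a * c⁆ = ⁅y, a⁆ * (a * ⁅y, c⁆ * a⁻¹) by simp only [commutatorElement_def]; group, hyc]
    simp only [mul_one, mul_inv_cancel]
    rw [commutatorElement_def]
    exact Y.mul_mem ((mem_normalizer_iff.mp hyY a).mp ha) (Y.inv_mem ha)
  have hVW : V₁ ≤ W := by
    have hrel : (W.subgroupOf V₁).index = 1 := by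
      by_contra hne
      obtain ⟨t, ht, htd⟩ := Nat.exists_prime_and_dvd hne
      haveI := Fact.mk ht
      by_cases htπ : t = q ∨ t ∉ sigma H
      · refine hJi t ht htπ (htd.trans (index_dvd_of_le ?_))
        intro z hz
        exact hJW (mem_map_of_mem _ hz)
      · push Not at htπ
        obtain ⟨T⟩ : Nonempty (Sylow t V₁) := inferInstance
        refine T.not_dvd_index (htd.trans (index_dvd_of_le fun z hz => hCW ?_))
        have hcent := centralizes_of_sigma hG hH (p := t) (q := q) (Ne.symm htπ.1) htπ.2 (T.2.map V₁.subtype)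
          ((map_subtype_le _).trans hV₁H) hqβ S.2 hSH ((map_subtype_le _).trans inf_le_left)
        exact hcent (mem_map_of_mem _ hz)
    exact subgroupOf_eq_top.mp (index_eq_one.mp hrel)
  have hNW : N ≤ W := fun n hn => by
    obtain ⟨c, hc, hcn⟩ := hNCV n hn
    have := mul_mem (inv_mem (hCW hc)) (hVW hcn)
    rwa [inv_mul_cancel_left] at this
  have hSU : (S : Subgroup G) ≤ centralizer (U : Set G) := by
    refine (sylow_le_commutator_self hG S).trans ((commutator_comm _ _).le.trans ?_)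
    rw [commutator_le]
    exact fun n hn s hs => (((hWm n).mp (hNW hn)).2 s hs).2
  have hUM : U ≤ M := (le_centralizer_iff.mp hSU).trans (hCN.trans hNM)
  exact hU3 (Hall.prankLE_of_injective (inclusion hUM) (inclusion_injective _)
    (fun A hA hAp => (hr1 A hA hAp).trans (Nat.pow_le_pow_right hp.out.pos (by omega))))

end Cfsg.Agent.Lib.Uniq
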