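import Cfsg.Agent.Lib.Uniq.TauOneFixed
import Cfsg.Agent.S1418
import Cfsg.Agent.S1420
set_option autoImplicit false

/-! BG 13.12: the maximal subgroup over the normaliser of a nonregular line. -/

namespace Cfsg.Agent.Lib.Uniq

open Subgroup
open scoped Pointwise commutatorElement

universe u

variable {G : Type u} [Group G] [Finite G] {M H : Subgroup G} {p q : ℕ} [hp : Fact p.Prime]

theorem normalizer_line_ne_top (hG : IsMinSimpleOddOrder G) {X : Subgroup G} (hX : IsPGroup p X) (hX1 : X ≠ ⊥) :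
    normalizer (X : Set G) ≠ ⊤ := fun e => by
  rcases hG.2.1.eq_bot_or_eq_top_of_normal X (normalizer_eq_top_iff.mp e) with h1 | h1
  · exact hX1 h1
  · exact pgroup_ne_top hG hX h1

/-- A `p`-rank is invariant under conjugation. -/
theorem prankLE_conj {g : G} {k : ℕ} (h : H = MulAut.conj g • M) (hr : PRankLE p k M) : PRankLE p k H := by
  subst h
  exact Hall.prankLE_of_injective ((M.equivMapOfInjective _ (MulAut.conj g).injective).symm.toMonoidHom)
    (M.equivMapOfInjective _ (MulAut.conj g).injective).symm.injective hr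

/-- If a fixed point `x` of a line `P` of rank one has `C(x) ≤ M`, the prime of `P` lies in `σ` of every maximal
subgroup over `N(P)`. -/
theorem sigma_of_normalizer_line (hG : IsMinSimpleOddOrder G) (hM : IsCoatom M) (hpσ : p ∉ sigma M)
    (hr1 : PRankLE p 1 M) {P : Subgroup G} (hP : Nat.card P = p) (hPM : P ≤ M) [hq : Fact q.Prime] {x : G}
    (hx : x ∈ sigmaCore M) (hxP : x ∈ centralizer (P : Set G)) (hxo : orderOf x = q)
    (hCx : centralizer ({x} : Set G) ≤ M) (hH : IsCoatom H) (hNH : normalizer (P : Set G) ≤ H) : p ∈ sigma H := by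
  classical
  by_contra hpH
  have hqσ : q ∈ sigma M :=
    OddLocal.piCoreOf_isPi (sigma M) M q hq.out (hxo ▸ Subgroup.orderOf_dvd_natCard (sigmaCore M) hx)
  have hqp : q ≠ p := fun e => hpσ (e ▸ hqσ)
  have hxM : x ∈ M := OddLocal.piCoreOf_le _ M hx
  obtain ⟨⟨h2, h1⟩, hid, A₀, hA₀, hA₀c, hPA₀⟩ := S1409.result hG H hH p hpH P hP hNH
  have hτ2 : p ∈ tau2 H := ⟨hp.out, hpH, h2, h1⟩
  have hPH : P ≤ H := le_normalizer.trans hNH
  have hA₀H : A₀ ≤ H :=
    ((comm_le_centralizer hA₀.1).trans (centralizer_le hPA₀)).trans ((centralizer_le_normalizer _).trans hNH)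
  have hxH : x ∈ H := hNH (centralizer_le_normalizer _ hxP)
  have hqH : q ∉ sigma H := fun hqH => by
    obtain ⟨g, hg⟩ := conj_of_sigma_nilpotent hG hM hH (S1417.result hG H hH p hτ2 A₀ ⟨hA₀H, hA₀, hA₀c⟩).1 hqσ hqH
    exact h1 (prankLE_conj hg hr1)
  have hXc : Nat.card (zpowers x) = q := by rw [Nat.card_zpowers, hxo]
  have hXP : P ≤ normalizer ((zpowers x : Subgroup G) : Set G) := by
    refine le_trans ?_ (centralizer_le_normalizer _)
    rw [centralizer_zpowers]
    exact fun a ha => mem_centralizer_singleton_iff.mpr (mem_centralizer_iff.mp hxP a ha)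
  obtain ⟨E₀, hE₀, -⟩ := exists_compl_ge hG hH hpH (IsPGroup.of_card (n := 1) (by rw [hP, pow_one])) hPH
  obtain ⟨E, hE, hYE⟩ := exists_compl_ge_pi hG hH hE₀ (Y := P ⊔ zpowers x) (fun r hr hd => by
      rcases prime_dvd_sup hXP hr hd with h | h
      · exact not_sigma_of_prime_group hp.out hP hpH r hr h
      · exact not_sigma_of_prime_group hq.out hXc hqH r hr h)
    (sup_le hPH (zpowers_le.mpr hxH))
  obtain ⟨A, hAE, hA, hAc⟩ := exists_elem_compl hG hH hE hτ2
  obtain ⟨⟨hEA, hlines⟩, ⟨hCA, -, hNA⟩, -⟩ := S1418.result hG H hH E hE p hτ2 A ⟨hAE, hA, hAc⟩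
  have hPA : P ≤ A := hlines P (le_sup_left.trans hYE) hP
  have hxA : x ∈ normalizer (A : Set G) := hEA (hYE (mem_sup_right (mem_zpowers x)))
  have hAnC : ¬ A ≤ centralizer ({x} : Set G) := fun h => not_pRankLE_one (h.trans hCx) hA hAc.ge hr1
  have hAp : IsPGroup p A := elem_isPGroup hA
  have hA1 : A ≠ ⊥ := fun e => by
    rw [e, card_bot] at hAc
    exact (Nat.one_lt_pow two_ne_zero hp.out.one_lt).ne hAc
  obtain ⟨J, hJ, hNJ⟩ := exists_coatom_ge (normalizer_line_ne_top hG hAp hA1)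
  have hJH : J ≠ H := fun e => hNA (e ▸ hNJ)
  have hAJ : A ≤ J := le_normalizer.trans hNJ
  -- `p ∈ σ(J)`
  have hpJ : p ∈ sigma J := by
    by_contra hpJ
    have hAH : A ≤ H := hAE.trans hE.1
    obtain ⟨S₀, hS₀⟩ := (hAp.comap_subtype (K := H)).exists_le_sylow
    set T := (S₀ : Subgroup ↥H).map H.subtype with hT
    have hAT : A ≤ T := fun a ha => ⟨⟨a, hAH ha⟩, hS₀ ha, rfl⟩
    obtain ⟨-, hP', -⟩ := S1417.result hG H hH p hτ2 A ⟨hAH, hA, hAc⟩
    obtain ⟨hiff, -⟩ := (hP' S₀).2 hAT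
    have hTp : IsPGroup p T := S₀.2.map _
    have hNT : normalizer (T : Set G) ≤ normalizer (A : Set G) := by
      intro z hz
      refine mem_normalizer_iff.mpr fun a => ⟨fun ha => ?_, fun ha => ?_⟩
      · refine (hiff _ ((mem_normalizer_iff.mp hz a).mp (hAT ha))).mp ?_
        rw [conj_pow, hA.2 a ha, mul_one, mul_inv_cancel]
      · refine (hiff _ ((mem_normalizer_iff.mp hz a).mpr (hAT ha))).mp ?_
        have h := hA.2 _ ha
        rw [conj_pow] at h
        simpa [mul_assoc] using congrArg (fun v => z⁻¹ * v * z) h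
    obtain ⟨S, hTS⟩ := hTp.exists_le_sylow
    have hR : ∀ R : Subgroup G, IsPGroup p R → T ≤ R → R ≤ normalizer (T : Set G) → R ≤ H := by
      intro R hR hTR hRN r hr
      refine (hCA.trans inf_le_left) (mem_centralizer_iff.mpr fun a ha => ?_)
      exact pgroup_comm_of_not_sigma hG hJ hpJ hR (hRN.trans (hNT.trans hNJ)) a (hTR (hAT ha)) r hr
    have hTS' : T = (S : Subgroup G) := by
      by_contra hne
      have hlt := exists_normalizer_gt S.2 (lt_of_le_of_ne hTS hne)
      have hle := hR _ (S.2.to_le inf_le_left) hlt.le inf_le_right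
      refine hlt.ne ?_
      have h := S₀.3 ((S.2.to_le inf_le_left).comap_subtype (K := H))
        (fun z hz => hlt.le (mem_map_of_mem _ hz))
      rw [hT]
      conv_lhs => rw [← h]
      exact map_subgroupOf_eq_of_le hle
    have hTJ : T ≤ J := le_normalizer.trans (hNT.trans hNJ)
    refine hpJ ⟨hp.out, ?_, S.subtype (hTS' ▸ hTJ), ?_⟩
    · exact (dvd_pow_self p two_ne_zero).trans (hAc.symm.dvd.trans (card_dvd_of_le hAJ))
    · rw [Sylow.coe_subtype, map_subgroupOf_eq_of_le (hTS' ▸ hTJ), ← hTS']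
      exact hNT.trans hNJ
  have hPJ : P ≤ J := hPA.trans hAJ
  have hxJ : x ∈ J := hNJ hxA
  have hMJ : M ≠ J := fun e => hpσ (e ▸ hpJ)
  have hβ : p ∉ beta J := fun h => hid h.2
  have hxD : x ∉ ⁅J, J⁆ := fun hxD => by
    refine hAnC (fun a ha => mem_centralizer_singleton_iff.mpr ?_)
    have h := centralizes_of_derived hG hJ (Ne.symm hqp)
      (IsPGroup.of_card (n := 1) (by rw [hXc, pow_one]) : IsPGroup q (zpowers x)) (zpowers_le.mpr hxD) hβ hAp hAJ
      (zpowers_le.mpr hxA) (mem_zpowers x)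
    exact mem_centralizer_iff.mp h a ha
  have hqJ : q ∉ sigma J := fun h => hxD (le_derived_of_sigma hG hJ h
    (IsPGroup.of_card (n := 1) (by rw [hXc, pow_one])) (zpowers_le.mpr hxJ) (mem_zpowers x))
  obtain ⟨a, haP, ha1⟩ := P.bot_or_exists_ne_one.resolve_left fun e => by
    rw [e, card_bot] at hP; exact hp.out.ne_one hP.symm
  have hao : orderOf a = p := ((Nat.dvd_prime hp.out).mp (hP ▸ Subgroup.orderOf_dvd_natCard P haP)).resolve_left
    fun h => ha1 (orderOf_eq_one_iff.mp h)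
  have haσ : a ∈ sigmaCore J :=
    pgroup_le_sigmaCore hG hJ hpJ (IsPGroup.of_card (n := 1) (by rw [hP, pow_one])) hPJ haP
  have hxa : a * x = x * a := mem_centralizer_iff.mp hxP a haP
  by_cases hr : PRankLE q 1 J
  · -- `q ∈ τ₁(J)`
    have hqd : ¬ q ∣ Nat.card ↥⁅J, J⁆ := fun hd => by
      obtain ⟨d, hd⟩ := exists_prime_orderOf_dvd_card' q hd
      have hdc : Nat.card (zpowers (d : G)) = q := by rw [Nat.card_zpowers, orderOf_coe, hd]
      obtain ⟨z, hz, hzX⟩ := exists_conj_prime_eq hr (zpowers_le.mpr (derived_le J d.2)) (zpowers_le.mpr hxJ) hdc hXc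
      refine hxD ?_
      have hle : MulAut.conj z • zpowers (d : G) ≤ ⁅J, J⁆ :=
        (pointwise_smul_le_pointwise_smul_iff.mpr (zpowers_le.mpr d.2)).trans
          (Coprime.conj_smul_eq_self (Coprime.left_le_normalizer_commutator J J hz)).le
      rw [hzX] at hle
      exact hle (mem_zpowers x)
    have hxτ : q ∈ tau1 J :=
      ⟨hq.out, hqJ, (hxo ▸ Subgroup.orderOf_dvd_natCard J hxJ), hqd, hr⟩
    have hac : a ∈ centralizer ((zpowers x : Subgroup G) : Set G) := by
      rw [centralizer_zpowers]; exact mem_centralizer_singleton_iff.mpr hxa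
    obtain ⟨-, -, hu⟩ := tau_one_fixed_unique hG hJ hxτ (zpowers_le.mpr hxJ) hXc haσ hac hao
    refine hJH (hu H hH ?_).symm
    have he : zpowers a = P := eq_of_le_of_card_ge (zpowers_le.mpr haP) (by rw [Nat.card_zpowers, hao, hP])
    rw [← centralizer_zpowers, he]
    exact (centralizer_le_normalizer _).trans hNH
  · -- `q ∈ τ₂(J)`
    obtain ⟨E', hE', -⟩ := exists_compl_ge hG hJ hqJ
      (IsPGroup.of_card (n := 1) (by rw [hXc, pow_one]) : IsPGroup q (zpowers x)) (zpowers_le.mpr hxJ)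
    obtain ⟨-, -, -, hu⟩ := S1420.result hG J hJ E' hE'
    obtain ⟨-, hu'⟩ := hu x hxJ (fun e => hq.out.ne_one (by rw [← hxo, e, orderOf_one]))
      (fun r hr' hd => by
        rw [hxo] at hd
        exact (Nat.prime_dvd_prime_iff_eq hr' hq.out).mp hd ▸
          ⟨hq.out, hqJ, rank_two_of_not_sigma hG hJ hq.out hqJ, hr⟩)
      ⟨hxJ, a, haσ, ha1, hxa.symm⟩
    exact hMJ (hu' M hM hCx)

/-- BG 13.12 for `τ₁`. -/
theorem tau_one_sigma (hG : IsMinSimpleOddOrder G) (hM : IsCoatom M) (hpτ : p ∈ tau1 M)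
    {P : Subgroup G} (hP : Nat.card P = p) (hPM : P ≤ M) (hne : sigmaCore M ⊓ centralizer (P : Set G) ≠ ⊥)
    (hH : IsCoatom H) (hNH : normalizer (P : Set G) ≤ H) : p ∈ sigma H ∧ P ≤ sigmaCore H := by
  obtain ⟨q, hq, hd⟩ := Nat.exists_prime_and_dvd (mt card_eq_one.mp hne)
  haveI := Fact.mk hq
  obtain ⟨x, hx⟩ := exists_prime_orderOf_dvd_card' q hd
  obtain ⟨-, hCx, -⟩ := tau_one_fixed_unique hG hM hpτ hPM hP (q := q) x.2.1 x.2.2 (by rw [orderOf_coe, hx])
  have hσ := sigma_of_normalizer_line hG hM hpτ.2.1 hpτ.2.2.2.2 hP hPM (q := q) x.2.1 x.2.2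
    (by rw [orderOf_coe, hx]) hCx hH hNH
  exact ⟨hσ, pgroup_le_sigmaCore hG hH hσ (IsPGroup.of_card (n := 1) (by rw [hP, pow_one]))
    (le_normalizer.trans hNH)⟩

end Cfsg.Agent.Lib.Uniq
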