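import Cfsg.Agent.Lib.Uniq.TauThreeSetup
set_option autoImplicit false

/-! BG 13.10, 13.11: nonregular `τ₃`-lines. -/

namespace Cfsg.Agent.Lib.Uniq

open Subgroup
open scoped Pointwise commutatorElement

universe u

variable {G : Type u} [Group G] [Finite G] {M H E R : Subgroup G} {p q r : ℕ}

/-- A `τ₃`-line is not centralised by `M_β`. -/
theorem not_beta_le_centralizer (hG : IsMinSimpleOddOrder G) (hM : IsCoatom M)
    (hE : IsComplIn E (sigmaCore M) M) [hr : Fact r.Prime] (hr3 : r ∈ tau3 M) (hRE : R ≤ E)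
    (hR : Nat.card R = r) : ¬ piCoreOf (beta M) M ≤ centralizer (R : Set G) := by
  classical
  intro hβR
  have hEM := hE.1
  set K := sigmaCore M with hK
  have hKM : K ≤ M := hE.2.1
  have hRM : R ≤ M := hRE.trans hEM
  have hMK : M ≤ normalizer (K : Set G) := OddLocal.le_normalizer_piCoreOf (sigma M) M
  obtain ⟨a, ha, ha1⟩ := R.bot_or_exists_ne_one.resolve_left fun e => by
    rw [e, card_bot] at hR; exact hr.out.ne_one hR.symm
  have hao : orderOf a = r := ((Nat.dvd_prime hr.out).mp (hR ▸ Subgroup.orderOf_dvd_natCard R ha)).resolve_left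
    fun h => ha1 (orderOf_eq_one_iff.mp h)
  have hRa : zpowers a = R := eq_of_le_of_card_ge (zpowers_le.mpr ha) (by rw [Nat.card_zpowers, hao, hR])
  have hEN : E ≤ normalizer (R : Set G) := hRa ▸ le_normalizer_tau_three_line hG hM hE hr3 (hRE ha) hao
  obtain ⟨E₃, hE₃, haE₃⟩ := exists_hall_ge hG (ne_top_of_le hM hEM) (zpowers_le.mpr (hRE ha)) (tau3 M)
    (fun t ht hd => by
      rw [Nat.card_zpowers, hao] at hd
      exact (Nat.prime_dvd_prime_iff_eq ht hr.out).mp hd ▸ hr3)
  have haD : a ∈ ⁅M, M⁆ :=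
    ((tau3_struct hG hM hE hE₃).2.1.trans (commutator_mono hEM hEM)) (haE₃ (mem_zpowers a))
  have hnil := derived_mod_beta_nilpotent hG hM
  set π := QuotientGroup.mk' (piCore (beta M) ↥M)
  have hKR : ⁅K, R⁆ ≤ piCoreOf (beta M) M := by
    rw [commutator_le]
    intro k hk z hz
    have hkD : k ∈ ⁅M, M⁆ := sigmaCore_le_derived hG hM hk
    have hzD : z ∈ ⁅M, M⁆ := (zpowers_le.mpr haD) (hRa.ge hz)
    rw [← map_subtype_commutator] at hkD hzD
    obtain ⟨k', hk', rfl⟩ := hkD
    obtain ⟨z', hz', rfl⟩ := hzD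
    haveI := hnil
    have hcop' : (orderOf (π k')).Coprime (orderOf (π z')) := by
      refine Nat.Coprime.coprime_dvd_left (orderOf_map_dvd π k') (Nat.Coprime.coprime_dvd_right (orderOf_map_dvd π z') ?_)
      rw [← Subgroup.orderOf_coe k', ← Subgroup.orderOf_coe z']
      exact (Nat.Coprime.coprime_dvd_left (Subgroup.orderOf_dvd_natCard K hk)
        (Nat.Coprime.coprime_dvd_right (Subgroup.orderOf_dvd_natCard E (hRE hz))
          (coprime_sigmaCore_compl hG hM hE).symm))
    have hc : π k' * π z' = π z' * π k' := congrArg Subtype.val (Transfer.commute_of_coprime_orderOf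
      (x := (⟨π k', mem_map_of_mem π hk'⟩ : (commutator ↥M).map π))
      (y := (⟨π z', mem_map_of_mem π hz'⟩ : (commutator ↥M).map π))
      (by rwa [Subgroup.orderOf_mk, Subgroup.orderOf_mk])).eq
    refine ⟨⁅k', z'⁆, (QuotientGroup.eq_one_iff _).mp (show π ⁅k', z'⁆ = 1 from ?_), map_commutatorElement M.subtype k' z'⟩
    rw [map_commutatorElement, commutatorElement_eq_one_iff_mul_comm]
    exact hc
  have hRK : R ≤ normalizer (K : Set G) := hRM.trans hMK
  have hcop : (Nat.card R).Coprime (Nat.card K) :=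
    (coprime_sigmaCore_compl hG hM hE).coprime_dvd_left (card_dvd_of_le hRE)
  haveI := solvable_of_ne_top hG (ne_top_of_le hM hRM)
  have hKR0 : ⁅K, R⁆ = ⊥ := by
    rw [← Coprime.commutator_commutator hRK hcop (Or.inl inferInstance), commutator_eq_bot_iff_le_centralizer]
    exact hKR.trans hβR
  rw [commutator_eq_bot_iff_le_centralizer] at hKR0
  have hMN : M ≤ normalizer (R : Set G) := fun m hm => by
    obtain ⟨b, hb, k, hk, rfl⟩ := hE.2.2.2 m hm
    exact mul_mem (hEN hb) (centralizer_le_normalizer _ (hKR0 hk))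
  have hR1 : R ≠ ⊥ := fun e => hr.out.ne_one (by rw [← hR, e, card_bot])
  exact (S1409.result hG M hM r hr3.2.1 R hR (normalizer_eq_of_normal hG hM hR1 hRM hMN).le).1.2 hr3.2.2.2

/-- An element of prime order moving a `τ₃`-line fixes an element of `M_β` of prime order moved by the line. -/
theorem exists_beta_fixed (hG : IsMinSimpleOddOrder G) (hM : IsCoatom M)
    (hE : IsComplIn E (sigmaCore M) M) [hr : Fact r.Prime] (hr3 : r ∈ tau3 M) (hRE : R ≤ E) (hR : Nat.card R = r)
    [hp : Fact p.Prime] {P : Subgroup G} (hPM : P ≤ M) (hP : Nat.card P = p) (hPσ : p ∉ sigma M)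
    (hPR : P ≤ normalizer (R : Set G)) (hnot : ¬ P ≤ centralizer (R : Set G)) :
    ∃ x ∈ piCoreOf (beta M) M, (orderOf x).Prime ∧ x ∈ centralizer (P : Set G) ∧ x ∉ centralizer (R : Set G) := by
  by_contra h
  push Not at h
  haveI : IsCyclic R := isCyclic_of_prime_card hR
  have hpr : p ≠ r := by
    intro e
    subst e
    refine hnot ?_
    have hj : IsPGroup p ↥(R ⊔ P) := (IsPGroup.of_card (n := 1) (by rw [hR, pow_one])).to_sup_of_normal_left'
      (IsPGroup.of_card (n := 1) (by rw [hP, pow_one])) hPR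
    intro z hz
    refine mem_centralizer_iff.mpr fun a ha => ?_
    exact pgroup_comm_of_not_sigma hG hM hPσ hj (sup_le (hRE.trans hE.1) hPM) a (mem_sup_left ha) z (mem_sup_right hz)
  have hQP : ⁅R, P⁆ = R := by
    have hle := Coprime.commutator_le_of_le_normalizer' hPR
    refine eq_of_le_of_card_ge hle ?_
    rcases (Nat.dvd_prime hr.out).mp (hR ▸ card_dvd_of_le hle) with h1 | h1
    · exact absurd (le_centralizer_iff.mp (commutator_eq_bot_iff_le_centralizer.mp (card_eq_one.mp h1))) hnot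
    · rw [h1, hR]
  refine not_beta_le_centralizer hG hM hE hr3 hRE hR (beta_le_centralizer hG hM ⟨⟨fun a b => ?_⟩⟩
    (hRE.trans hE.1) hPM hP hPR hQP (hR ▸ (Nat.coprime_primes hp.out hr.out).mpr hpr)
    (fun hb => hPσ (alpha_subset_sigma hG hM hb.1))
    (fun t ht hd => fun hb => not_sigma_of_prime_group hr.out hR hr3.2.1 t ht hd (alpha_subset_sigma hG hM hb.1))
    (fun x hx hxo hxP => h x hx hxo hxP))
  exact (IsCyclic.commGroup (α := R)).mul_comm a b

/-- BG 13.10: a nonregular `τ₃`-line is centralised by a nonregular `τ₁`-line with the same fixed points, whose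
prime lies in `σ` of the maximal subgroup over the normaliser of the `τ₃`-line. -/
theorem tau_three_structure (hG : IsMinSimpleOddOrder G) (hM : IsCoatom M)
    (hE : IsComplIn E (sigmaCore M) M) [hr : Fact r.Prime] (hr3 : r ∈ tau3 M) (hRE : R ≤ E) (hR : Nat.card R = r)
    (hX : sigmaCore M ⊓ centralizer (R : Set G) ≠ ⊥) (hH : IsCoatom H) (hNH : normalizer (R : Set G) ≤ H)
    {Y : Subgroup G} (hYE : Y ≤ E) (hY : ∀ t : ℕ, t.Prime → t ∣ Nat.card Y → t ∈ tau1 M) :
    ∃ (s : ℕ) (A : Subgroup G), s.Prime ∧ s ∈ tau1 M ∧ s ∈ sigma H ∧ A ≤ E ∧ Nat.card A = s ∧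
      A ≤ centralizer (R : Set G) ∧ Y ≤ centralizer (A : Set G) ∧
      sigmaCore M ⊓ centralizer (A : Set G) = sigmaCore M ⊓ centralizer (R : Set G) := by
  classical
  set X := sigmaCore M ⊓ centralizer (R : Set G) with hXdef
  obtain ⟨hEN, hne, hncσ, hτ2⟩ := tau_three_setup hG hM hE hr3 hRE hR hX hH hNH
  obtain ⟨hσ, hRσ⟩ := tau_three_sigma hG hM hE hr3 hRE hR hX hH hNH
  have hnc : ∀ g : G, H ≠ MulAut.conj g • M := fun g => hncσ g hσ
  have hEH : E ≤ H := hEN.trans hNH
  have hRH : R ≤ H := hRE.trans hEH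
  have hXH : X ≤ H := inf_le_right.trans ((centralizer_le_normalizer _).trans hNH)
  have hRM : R ≤ M := hRE.trans hE.1
  obtain ⟨c, hc, hc1⟩ := R.bot_or_exists_ne_one.resolve_left fun e => by
    rw [e, card_bot] at hR; exact hr.out.ne_one hR.symm
  have hcyc : ∀ (t : ℕ) (Q : Subgroup G), t.Prime → IsPGroup t Q → Q ≤ X →
      E ≤ normalizer (Q : Set G) → IsCyclic Q := by
    intro t Q ht hQp hQX _
    haveI := Fact.mk ht
    by_contra hnc'
    obtain ⟨B, hBQ, hB, hBc⟩ := exists_elem_of_not_cyclic hG hQp hnc'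
    have hBσ : B ≤ sigmaCore M := hBQ.trans (hQX.trans inf_le_left)
    have htM : t ∈ sigma M := OddLocal.piCoreOf_isPi (sigma M) M t ht
      ((dvd_pow_self t two_ne_zero).trans (hBc.symm.dvd.trans (card_dvd_of_le hBσ)))
    have htH : t ∉ sigma H := fun h => by obtain ⟨g, hg⟩ := conj_of_sigma_sigma hG hM hH htM h; exact hnc g hg
    have hBH : B ≤ H := hBQ.trans (hQX.trans hXH)
    have hτ : t ∈ tau2 H := ⟨ht, htH, rank_two_of_not_sigma hG hH ht htH, not_pRankLE_one hBH hB hBc.ge⟩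
    obtain ⟨-, -, -, -, hstar, -⟩ := S1417.result hG H hH t hτ B ⟨hBH, hB, hBc⟩
    have h1 : c ∈ sigmaCore H ⊓ M := ⟨hRσ hc, hRM hc⟩
    rw [hstar M hM hne.symm (hBσ.trans hE.2.1), mem_bot] at h1
    exact hc1 h1
  obtain ⟨y, q, hq, hyo, hyσ, hyR, hEy, -⟩ := exists_invariant_fixed_line hG hM hE hEN hX hcyc
  haveI := Fact.mk hq
  have hqM : q ∈ sigma M :=
    OddLocal.piCoreOf_isPi (sigma M) M q hq (hyo ▸ Subgroup.orderOf_dvd_natCard (sigmaCore M) hyσ)
  have hqH : q ∉ sigma H := fun h => by obtain ⟨g, hg⟩ := conj_of_sigma_sigma hG hM hH hqM h; exact hnc g hg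
  have hyM : y ∈ M := hE.2.1 hyσ
  have hyH : y ∈ H := hXH ⟨hyσ, hyR⟩
  have hy1 : y ≠ 1 := fun e => hq.ne_one (by rw [← hyo, e, orderOf_one])
  have hyc : Nat.card (zpowers y) = q := by rw [Nat.card_zpowers, hyo]
  have hyp : IsPGroup q (zpowers y) := IsPGroup.of_card (n := 1) (by rw [hyc, pow_one])
  haveI : IsCyclic (zpowers y : Subgroup G) := isCyclic_of_prime_card hyc
  obtain ⟨E₁, e, s, k, hE₁, hYE₁, hE₁c, he, hs1, heo, heR⟩ :=
    exists_tau_one_moving hG hM hE hr3 hRE hR hτ2 hYE hY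
  haveI := Fact.mk hs1.1
  have heE : e ∈ E := hE₁.1 he
  set a := e ^ s ^ k with ha
  have hao : orderOf a = s := by
    rw [ha, orderOf_pow_of_dvd (pow_ne_zero _ hs1.1.ne_zero) (heo ▸ pow_dvd_pow s (Nat.le_succ k)), heo,
      Nat.pow_div (Nat.le_succ k) hs1.1.pos, Nat.succ_sub (le_refl k), Nat.sub_self, pow_one]
  set A := zpowers a with hAdef
  have hAc : Nat.card A = s := by rw [Nat.card_zpowers, hao]
  have haE : a ∈ E := E.pow_mem heE _
  have hAE : A ≤ E := zpowers_le.mpr haE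
  have hAM : A ≤ M := hAE.trans hE.1
  have hAH : A ≤ H := hAE.trans hEH
  have hAp : IsPGroup s A := IsPGroup.of_card (n := 1) (by rw [hAc, pow_one])
  have hA1 : A ≠ ⊥ := fun h => hs1.1.ne_one (by rw [← hAc, h, card_bot])
  have hAR : A ≤ normalizer (R : Set G) := hAE.trans hEN
  have hYA : Y ≤ centralizer (A : Set G) := fun z hz => mem_centralizer_iff.mpr fun w hw => by
    have hw' : w ∈ E₁ := (zpowers_le.mpr (E₁.pow_mem he _) : A ≤ E₁) hw
    exact congrArg Subtype.val ((IsCyclic.commGroup (α := E₁)).mul_comm (⟨w, hw'⟩ : E₁) ⟨z, hYE₁ hz⟩)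
  -- fixed points in `M_σ ∩ H` commute with `R`
  have hfixR : ∀ v ∈ sigmaCore M, v ∈ H → v ∈ centralizer (R : Set G) := fun v hv hvH =>
    mem_centralizer_iff.mpr fun z hz => ((commute_cores hG hM hH hnc hv hvH (hRσ hz) (hRM hz)).eq).symm
  by_cases hsH : s ∈ sigma H
  · have heσ : e ∈ sigmaCore H := pgroup_le_sigmaCore hG hH hsH
      (IsPGroup.of_card (n := k + 1) (by rw [Nat.card_zpowers, heo]) : IsPGroup s (zpowers e))
      (zpowers_le.mpr (hEH heE)) (mem_zpowers e)
    have hXA : X ≤ centralizer (A : Set G) := by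
      intro v hv
      rw [hAdef, centralizer_zpowers]
      exact mem_centralizer_singleton_iff.mpr
        ((commute_cores hG hM hH hnc hv.1 (hXH hv) heσ (hE.1 heE)).pow_right _).eq
    obtain ⟨H₁, hH₁, hNH₁⟩ := exists_coatom_ge (normalizer_line_ne_top hG hAp hA1)
    have hσ₁ : s ∈ sigma H₁ := (tau_one_sigma hG hM hs1 hAc hAM (fun h => hX (le_bot_iff.mp
      (le_trans (le_inf (inf_le_left : X ≤ sigmaCore M) hXA) h.le))) hH₁ hNH₁).1
    obtain ⟨g, hg⟩ := conj_of_sigma_sigma hG hH₁ hH hσ₁ hsH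
    have hCA : centralizer (A : Set G) ≤ H₁ := (centralizer_le_normalizer _).trans hNH₁
    have hgH₁ : g⁻¹ ∈ H₁ := by
      refine mem_of_fixed_conj hG hH₁ hσ₁ (le_normalizer.trans hNH₁ (mem_zpowers a)) hao ?_ ?_
      · rw [← centralizer_zpowers]; exact hCA
      · have h := hAH (mem_zpowers a)
        rw [hg, Coprime.mem_conj_smul] at h
        simpa using h
    have hHeq : H = H₁ := by
      rw [hg]
      exact Coprime.conj_smul_eq_self (le_normalizer (by simpa using H₁.inv_mem hgH₁))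
    have hVX : sigmaCore M ⊓ centralizer (A : Set G) = X :=
      le_antisymm (fun v hv => ⟨hv.1, hfixR v hv.1 (hHeq ▸ hCA hv.2)⟩) (le_inf inf_le_left hXA)
    refine ⟨s, A, hs1.1, hs1, hsH, hAE, hAc, ?_, hYA, hVX⟩
    by_contra hnot
    obtain ⟨x, hx, -, hxP, hxR⟩ := exists_beta_fixed hG hM hE hr3 hRE hR hAM hAc hs1.2.1 hAR hnot
    refine hxR (hVX.le ⟨?_, hxP⟩).2
    exact le_sigmaCore hG hM (OddLocal.piCoreOf_le _ M)
      (fun t ht hd => alpha_subset_sigma hG hM (OddLocal.piCoreOf_isPi (beta M) M t ht hd).1) hx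
  exfalso
  have hep : IsPGroup s (zpowers e) := IsPGroup.of_card (n := k + 1) (by rw [Nat.card_zpowers, heo])
  have heY : zpowers e ≤ normalizer ((zpowers y : Subgroup G) : Set G) := (zpowers_le.mpr heE).trans hEy
  obtain ⟨F₀, hF₀, -⟩ := exists_compl_ge hG hH hsH hAp hAH
  obtain ⟨F, hF, hYF⟩ := exists_compl_ge_pi hG hH hF₀ (Y := zpowers e ⊔ zpowers y) (fun t ht hd => by
      rcases prime_dvd_sup heY ht hd with h | h
      · exact isPGroup_ne_dvd hep ht h ▸ hsH
      · exact isPGroup_ne_dvd hyp ht h ▸ hqH)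
    (sup_le (zpowers_le.mpr (hEH heE)) (zpowers_le.mpr hyH))
  have heF : e ∈ F := hYF (mem_sup_left (mem_zpowers e))
  have hyF : y ∈ F := hYF (mem_sup_right (mem_zpowers y))
  have haF : a ∈ F := F.pow_mem heF _
  have hAF : A ≤ F := zpowers_le.mpr haF
  have hAy : A ≤ normalizer ((zpowers y : Subgroup G) : Set G) := hAE.trans hEy
  -- `q` has rank one in `H`
  have hq1 : PRankLE q 1 H := by
    by_contra hr2
    obtain ⟨-, -, -, hu⟩ := S1420.result hG H hH F hF
    obtain ⟨hCyH, huH⟩ := hu y hyH hy1 (fun t ht hd => by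
        rw [hyo] at hd
        exact (Nat.prime_dvd_prime_iff_eq ht hq).mp hd ▸ ⟨hq, hqH, rank_two_of_not_sigma hG hH hq hqH, hr2⟩)
      ⟨hyH, c, hRσ hc, hc1, (mem_centralizer_iff.mp hyR c hc).symm⟩
    have hy1' : zpowers y ≠ ⊥ := zpowers_ne_bot.mpr hy1
    obtain ⟨H', hH', hNH'⟩ := exists_coatom_ge (normalizer_line_ne_top hG hyp hy1')
    have hC' : centralizer ({y} : Set G) ≤ H' := by
      rw [← centralizer_zpowers]; exact (centralizer_le_normalizer _).trans hNH'
    have hH'H : H' = H := huH H' hH' hC'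
    obtain ⟨S, K, -, -, -, -, -, hnc', hcase⟩ := exists_factor_of_normalizer hG hM hqM hyp hy1'
      (zpowers_le.mpr hyM) hH' (fun h => hne (hH'H.symm.trans h)) hNH'
    rcases hcase with ⟨hqH', -⟩ | ⟨-, -, hbot⟩
    · exact hqH (hH'H ▸ hqH')
    · have h1 : c ∈ sigmaCore H' ⊓ M := ⟨hH'H ▸ hRσ hc, hRM hc⟩
      rw [hbot, mem_bot] at h1
      exact hc1 h1
  have hsq : s ≠ q := fun h => hs1.2.1 (h ▸ hqM)
  have hA2 : ∀ B : Subgroup G, s ∈ tau2 H → B ≤ F → IsElementaryAbelian s B → Nat.card B = s ^ 2 →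
      Commute a y := by
    intro B hτ hBF hB hBc
    have hlines := (S1418.result hG H hH F hF s hτ B ⟨hBF, hB, hBc⟩).1
    have hAB : A ≤ B := hlines.2 A hAF hAc
    have h1 : ⁅a, y⁆ ∈ B ⊓ zpowers y := by
      refine ⟨?_, ?_⟩
      · rw [show ⁅a, y⁆ = a * (y * a⁻¹ * y⁻¹) by group]
        exact B.mul_mem (hAB (mem_zpowers a)) ((mem_normalizer_iff.mp (hlines.1 hyF) _).mp (B.inv_mem (hAB (mem_zpowers a))))
      · rw [commutatorElement_def]
        exact (zpowers y).mul_mem ((mem_normalizer_iff.mp (hAy (mem_zpowers a)) y).mp (mem_zpowers y))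
          ((zpowers y).inv_mem (mem_zpowers y))
    rw [Coprime.inf_eq_bot_of_coprime (coprime_pgroups hsq.symm (elem_isPGroup hB) hyp), mem_bot] at h1
    exact commutatorElement_eq_one_iff_mul_comm.mp h1
  by_cases hAR' : A ≤ centralizer (R : Set G)
  · by_cases hs1H : PRankLE s 1 H
    · obtain ⟨S, hS⟩ := (hep.comap_subtype (K := F)).exists_le_sylow
      have hSc : IsCyclic (S : Subgroup F) := by
        haveI : IsZGroup ↥((S : Subgroup F).map F.subtype) := rank_one_zgroup hG ((map_subtype_le _).trans hF.1)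
          fun t ht hd => isPGroup_ne_dvd (S.2.map F.subtype) ht hd ▸ hs1H
        haveI := (S.2.map F.subtype).isNilpotent
        haveI : IsCyclic ↥((S : Subgroup F).map F.subtype) := inferInstance
        exact isCyclic_of_surjective _ ((S : Subgroup F).equivMapOfInjective F.subtype F.subtype_injective).symm.surjective
      have heS : e ∈ (S : Subgroup F).map F.subtype := ⟨⟨e, heF⟩, hS (mem_zpowers e), rfl⟩
      have h2 := cyclic_sylow_prime_action hG hH hF S hSc (pow_mem heS (s ^ k))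
        (fun h => hs1.1.ne_one (by rw [← hao, ha, h, orderOf_one]))
      refine heR (mem_centralizer_iff.mpr fun z hz => ?_)
      have h3 : z ∈ sigmaCore H ⊓ centralizer ({a} : Set G) := ⟨hRσ hz,
        mem_centralizer_singleton_iff.mpr (mem_centralizer_iff.mp (hAR' (mem_zpowers a)) z hz)⟩
      rw [ha, h2] at h3
      exact (mem_centralizer_iff.mp h3.2 e heS).symm
    · have hτ : s ∈ tau2 H := ⟨hs1.1, hsH, rank_two_of_not_sigma hG hH hs1.1 hsH, hs1H⟩
      obtain ⟨B, hBF, hB, hBc⟩ := exists_elem_compl hG hH hF hτ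
      have hay := hA2 B hτ hBF hB hBc
      obtain ⟨H₁, hH₁, hNH₁⟩ := exists_coatom_ge (normalizer_line_ne_top hG hAp hA1)
      have hσ₁ : s ∈ sigma H₁ := (tau_one_sigma hG hM hs1 hAc hAM (fun h => hy1 (mem_bot.mp (h ▸
        (⟨hyσ, by rw [hAdef, centralizer_zpowers]; exact mem_centralizer_singleton_iff.mpr hay.symm.eq⟩ :
          y ∈ sigmaCore M ⊓ centralizer (A : Set G))))) hH₁ hNH₁).1
      obtain ⟨-, -, -, hu⟩ := S1420.result hG H hH F hF
      obtain ⟨-, huH⟩ := hu a (hAH (mem_zpowers a)) (fun h => hs1.1.ne_one (by rw [← hao, h, orderOf_one]))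
        (fun t ht hd => by
          rw [hao] at hd
          exact (Nat.prime_dvd_prime_iff_eq ht hs1.1).mp hd ▸ hτ)
        ⟨hAH (mem_zpowers a), c, hRσ hc, hc1, (mem_centralizer_iff.mp (hAR' (mem_zpowers a)) c hc).symm⟩
      have hH₁H : H₁ = H := huH H₁ hH₁ (by
        rw [← centralizer_zpowers]; exact (centralizer_le_normalizer _).trans hNH₁)
      exact hsH (hH₁H ▸ hσ₁)
  -- `A` moves `R`
  obtain ⟨x, hxβ, hxo, hxA, hxR⟩ := exists_beta_fixed hG hM hE hr3 hRE hR hAM hAc hs1.2.1 hAR hAR'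
  have hxσ : x ∈ sigmaCore M := le_sigmaCore hG hM (OddLocal.piCoreOf_le _ M)
    (fun t ht hd => alpha_subset_sigma hG hM (OddLocal.piCoreOf_isPi (beta M) M t ht hd).1) hxβ
  by_cases hay : Commute a y
  · have hyA : y ∈ centralizer (A : Set G) := by
      rw [hAdef, centralizer_zpowers]; exact mem_centralizer_singleton_iff.mpr hay.symm.eq
    obtain ⟨hNy, -, -⟩ := tau_one_fixed_unique hG hM hs1 hAM hAc hyσ hyA hyo
    have hAy' : A ≤ F ⊓ centralizer ((zpowers y : Subgroup G) : Set G) := by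
      refine le_inf hAF ?_
      rw [centralizer_zpowers]
      exact zpowers_le.mpr (mem_centralizer_singleton_iff.mpr hay.eq)
    by_cases hqd : q ∣ Nat.card ↥⁅H, H⁆
    · have hq3 : q ∈ tau3 H := ⟨hq, hqH, hqd, hq1⟩
      have hFN : F ≤ normalizer ((zpowers y : Subgroup G) : Set G) :=
        le_normalizer_tau_three_line hG hH hF hq3 hyF hyo
      have hXy : sigmaCore H ⊓ centralizer ((zpowers y : Subgroup G) : Set G) ≠ ⊥ := fun h => hc1 (mem_bot.mp (h ▸
        (⟨hRσ hc, by rw [centralizer_zpowers]; exact mem_centralizer_singleton_iff.mpr (mem_centralizer_iff.mp hyR c hc)⟩ :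
          c ∈ sigmaCore H ⊓ centralizer ((zpowers y : Subgroup G) : Set G))))
      obtain ⟨-, -, -, hτH⟩ := tau_three_setup hG hH hF hq3 (zpowers_le.mpr hyF) hyc hXy hM hNy
      have hsH1 : s ∈ tau1 H := by
        have hsd : s ∣ Nat.card F := hao ▸ Subgroup.orderOf_dvd_natCard F haF
        rcases tau_cases hG hH hF hs1.1 hsd with h | h | h
        · exact (hτH s h).elim
        · exact h
        · exfalso
          obtain ⟨F₃, hF₃, haF₃⟩ := exists_hall_ge hG (ne_top_of_le hH hF.1) hAF (tau3 H) (fun t ht hd =>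
            isPGroup_ne_dvd hAp ht hd ▸ h)
          have hFM : F ≤ M := hFN.trans hNy
          have haD : a ∈ ⁅M, M⁆ :=
            ((tau3_struct hG hH hF hF₃).2.1.trans (commutator_mono hFM hFM)) (haF₃ (mem_zpowers a))
          exact hs1.2.2.2.1 (hao ▸ Subgroup.orderOf_dvd_natCard _ haD)
      obtain ⟨E₁', e', s', k', hE₁', hAE₁', hE₁c', he', hs', heo', hey'⟩ := exists_tau_one_moving hG hH hF hq3
        (zpowers_le.mpr hyF) hyc hτH hAF (fun t ht hd => isPGroup_ne_dvd hAp ht hd ▸ hsH1)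
      haveI := Fact.mk hs'.1
      have he'F : e' ∈ F := hE₁'.1 he'
      have he'M : e' ∈ M := hNy (hFN he'F)
      have he'A : ∀ b ∈ A, Commute e' b := fun b hb =>
        congrArg Subtype.val ((IsCyclic.commGroup (α := E₁')).mul_comm (⟨e', he'⟩ : E₁') ⟨b, hAE₁' hb⟩)
      have hep' : IsPGroup s' (zpowers e') := IsPGroup.of_card (n := k' + 1) (by rw [Nat.card_zpowers, heo'])
      by_cases hs'M : s' ∈ sigma M
      · have he'σ : e' ∈ sigmaCore M :=
          pgroup_le_sigmaCore hG hM hs'M hep' (zpowers_le.mpr he'M) (mem_zpowers e')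
        set a' := e' ^ s' ^ k' with ha'
        have hao' : orderOf a' = s' := by
          rw [ha', orderOf_pow_of_dvd (pow_ne_zero _ hs'.1.ne_zero) (heo' ▸ pow_dvd_pow s' (Nat.le_succ k')), heo',
            Nat.pow_div (Nat.le_succ k') hs'.1.pos, Nat.succ_sub (le_refl k'), Nat.sub_self, pow_one]
        have hRa' : R ≤ centralizer ((zpowers a' : Subgroup G) : Set G) := by
          intro z hz
          rw [centralizer_zpowers]
          exact mem_centralizer_singleton_iff.mpr
            ((commute_cores hG hM hH hnc he'σ (hF.1 he'F) (hRσ hz) (hRM hz)).pow_left _).eq.symm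
        have h13 := tau_one_prime_action hG hH hF hs' (P := zpowers a') (zpowers_le.mpr (F.pow_mem he'F _))
          (by rw [Nat.card_zpowers, hao']) (R := A) (r := s) (le_inf hAF (by
            rw [centralizer_zpowers]
            exact fun b hb => mem_centralizer_singleton_iff.mpr ((he'A b hb).pow_left _).eq.symm)) hAc
        exact hAR' (le_centralizer_iff.mp fun z hz => h13 ⟨hRσ hz, hRa' hz⟩)
      · have heA' : A ≤ normalizer ((zpowers e' : Subgroup G) : Set G) := by
          refine le_trans ?_ (centralizer_le_normalizer _)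
          rw [centralizer_zpowers]
          exact fun b hb => mem_centralizer_singleton_iff.mpr (he'A b hb).eq.symm
        obtain ⟨F', hF', hYF'⟩ := exists_compl_ge_pi hG hM hE (Y := A ⊔ zpowers e') (fun t ht hd => by
            rcases prime_dvd_sup heA' ht hd with h | h
            · exact isPGroup_ne_dvd hAp ht h ▸ hs1.2.1
            · exact isPGroup_ne_dvd hep' ht h ▸ hs'M)
          (sup_le hAM (zpowers_le.mpr he'M))
        have hs'1 : PRankLE s' 1 M := by_contra fun h =>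
          hτ2 s' ⟨hs'.1, hs'M, rank_two_of_not_sigma hG hM hs'.1 hs'M, h⟩
        have h := centralizes_of_commute hG hM hF' hs1 (le_sup_left.trans hYF') hAc hs'1
          (hYF' (mem_sup_right (mem_zpowers e'))) he'A (heo' ▸ pow_orderOf_eq_one e') ⟨hyσ, hyA⟩
        refine hey' ?_
        rw [centralizer_zpowers]
        exact mem_centralizer_singleton_iff.mpr (mem_centralizer_singleton_iff.mp h).symm
    · have hqτ : q ∈ tau1 H := ⟨hq, hqH, hyo ▸ Subgroup.orderOf_dvd_natCard H hyH, hqd, hq1⟩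
      have h13 := tau_one_prime_action hG hH hF hqτ (zpowers_le.mpr hyF) hyc (r := s) hAy' hAc
      refine hAR' (le_centralizer_iff.mp fun z hz => h13 ⟨hRσ hz, ?_⟩)
      rw [centralizer_zpowers]
      exact mem_centralizer_singleton_iff.mpr (mem_centralizer_iff.mp hyR z hz)
  · -- `A` moves `y`
    have hcy : ⁅a, y⁆ ∈ zpowers y := by
      rw [commutatorElement_def]
      exact (zpowers y).mul_mem ((mem_normalizer_iff.mp (hAy (mem_zpowers a)) y).mp (mem_zpowers y))
        ((zpowers y).inv_mem (mem_zpowers y))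
    have hcy1 : ⁅a, y⁆ ≠ 1 := fun h => hay (commutatorElement_eq_one_iff_mul_comm.mp h)
    have hcyo : orderOf ⁅a, y⁆ = q := ((Nat.dvd_prime hq).mp (hyc ▸ Subgroup.orderOf_dvd_natCard _ hcy)).resolve_left
      fun h => hcy1 (orderOf_eq_one_iff.mp h)
    have hqd : q ∣ Nat.card ↥⁅H, H⁆ :=
      hcyo ▸ Subgroup.orderOf_dvd_natCard _ (commutator_mem_commutator (hF.1 haF) hyH)
    have hq3 : q ∈ tau3 H := ⟨hq, hqH, hqd, hq1⟩
    have hFN : F ≤ normalizer ((zpowers y : Subgroup G) : Set G) :=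
      le_normalizer_tau_three_line hG hH hF hq3 hyF hyo
    have hsH1 : s ∈ tau1 H := by
      have hsd : s ∣ Nat.card F := hao ▸ Subgroup.orderOf_dvd_natCard F haF
      rcases tau_cases hG hH hF hs1.1 hsd with h | h | h
      · obtain ⟨B, hBF, hB, hBc⟩ := exists_elem_compl hG hH hF h
        exact absurd (hA2 B h hBF hB hBc) hay
      · exact h
      · exfalso
        obtain ⟨F₃, hF₃, haF₃⟩ := exists_hall_ge hG (ne_top_of_le hH hF.1) hAF (tau3 H) (fun t ht hd =>
          isPGroup_ne_dvd hAp ht hd ▸ h)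
        exact hay (mem_centralizer_iff.mp (commutator_le_centralizer_of_cyclic hFN
          ((tau3_struct hG hH hF hF₃).2.1 (haF₃ (mem_zpowers a)))) y (mem_zpowers y)).symm
    obtain ⟨y', hy'β, hy'o, hy'A, -⟩ := exists_beta_fixed hG hH hF hq3 (zpowers_le.mpr hyF) hyc hAH hAc hsH hAy
      (fun h => hay (mem_centralizer_iff.mp (h (mem_zpowers a)) y (mem_zpowers y)).symm)
    haveI := Fact.mk hy'o
    have hxH := fixed_beta_le hG hM hH hnc hE hEH hs1 hsH1 hAE hAc (q := orderOf y') hy'β hy'A rfl ⟨hxβ, hxA⟩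
    exact hxR (hfixR x hxσ hxH)

end Cfsg.Agent.Lib.Uniq
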