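import Cfsg.Agent.Lib.Uniq.SigmaDisjoint
import Cfsg.Agent.Lib.Coprime.OmegaFixed
set_option autoImplicit false

/-! BG 13.12 for `τ₃`, with the preliminary facts about nonregular `τ₃`-lines. -/

namespace Cfsg.Agent.Lib.Uniq

open Subgroup
open scoped Pointwise commutatorElement

universe u

variable {G : Type u} [Group G] [Finite G] {M H E R : Subgroup G} {p q r : ℕ}

/-- A subgroup of rank one with elementary abelian `A` of order `p²` is impossible in a cyclic group. -/
theorem not_isCyclic_of_elem [hp : Fact p.Prime] {A : Subgroup G} (hA : IsElementaryAbelian p A)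
    (hAc : Nat.card A = p ^ 2) : ¬ IsCyclic A := fun h => by
  obtain ⟨a, ha⟩ := h.exists_ofOrder_eq_natCard
  have h1 : a ^ p = 1 := Subtype.ext (hA.2 a a.2)
  have h2 := orderOf_dvd_of_pow_eq_one h1
  rw [ha, hAc] at h2
  exact absurd (Nat.le_of_dvd hp.out.pos h2) (not_le.mpr (by nlinarith [hp.out.two_le]))

/-- A noncyclic `p`-subgroup contains an elementary abelian subgroup of order `p²`. -/
theorem exists_elem_of_not_cyclic (hG : IsMinSimpleOddOrder G) [hp : Fact p.Prime] {P : Subgroup G}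
    (hP : IsPGroup p P) (hnc : ¬ IsCyclic P) :
    ∃ B : Subgroup G, B ≤ P ∧ IsElementaryAbelian p B ∧ Nat.card B = p ^ 2 := by
  have hP1 : P ≠ ⊥ := fun e => hnc (by rw [e]; infer_instance)
  obtain ⟨B, -, -, hBe, hBc⟩ := Thompson.exists_elemAbelian_normal (ne_two_of_pgroup hG hP hP1) hP (⊤ : Subgroup ↥P)
    fun h => hnc (by haveI := h; exact isCyclic_of_surjective _ Subgroup.topEquiv.surjective)
  exact ⟨_, map_subtype_le B, elem_map _ hBe, by rw [card_map_of_injective P.subtype_injective, hBc]⟩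

/-- Elements of `σ(M)`- and `σ(H)`-cores in `M ∩ H` commute for non-conjugate `M`, `H`. -/
theorem commute_cores (hG : IsMinSimpleOddOrder G) (hM : IsCoatom M) (hH : IsCoatom H)
    (hnc : ∀ g : G, H ≠ MulAut.conj g • M) {a b : G} (ha : a ∈ sigmaCore M) (haH : a ∈ H) (hb : b ∈ sigmaCore H)
    (hbM : b ∈ M) : Commute a b := by
  have h1 : ⁅a, b⁆ ∈ sigmaCore M ⊓ sigmaCore H := by
    refine ⟨?_, ?_⟩
    · rw [show ⁅a, b⁆ = a * (b * a⁻¹ * b⁻¹) by group]
      exact (sigmaCore M).mul_mem ha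
        ((mem_normalizer_iff.mp (OddLocal.le_normalizer_piCoreOf _ M hbM) _).mp ((sigmaCore M).inv_mem ha))
    · rw [commutatorElement_def]
      exact (sigmaCore H).mul_mem ((mem_normalizer_iff.mp (OddLocal.le_normalizer_piCoreOf _ H haH) _).mp hb)
        ((sigmaCore H).inv_mem hb)
  rw [Coprime.inf_eq_bot_of_coprime (A := sigmaCore M) (N := sigmaCore H) (Nat.coprime_of_dvd fun t ht h1 h2 => by
    obtain ⟨g, hg⟩ := conj_of_sigma_sigma hG hM hH (OddLocal.piCoreOf_isPi (sigma M) M t ht h1)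
      (OddLocal.piCoreOf_isPi (sigma H) H t ht h2)
    exact hnc g hg), mem_bot] at h1
  exact commutatorElement_eq_one_iff_mul_comm.mp h1

/-- Commutators of elements normalising a cyclic group centralise it. -/
theorem commutator_le_centralizer_of_cyclic {C X : Subgroup G} [IsCyclic C] (h : X ≤ normalizer (C : Set G)) :
    ⁅X, X⁆ ≤ centralizer (C : Set G) := by
  rw [commutator_le]
  intro a ha b hb
  let f : normalizer (C : Set G) →* MulAut C := C.normalizerMonoidHom
  have hc : f ⁅(⟨a, h ha⟩ : normalizer (C : Set G)), (⟨b, h hb⟩ : normalizer (C : Set G))⁆ = 1 := by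
    rw [map_commutatorElement, commutatorElement_eq_one_iff_mul_comm]
    apply (IsCyclic.mulAutMulEquiv C).injective
    rw [map_mul, map_mul, mul_comm]
  refine mem_centralizer_iff.mpr fun c hc' => ?_
  have h2 := congrArg (fun φ : MulAut C => ((φ ⟨c, hc'⟩ : C) : G)) hc
  exact (mul_inv_eq_iff_eq_mul.mp h2).symm

open scoped IsMulCommutative in
/-- The cyclic normal `τ₃`-Sylow subgroup is not central in the complement: some element of the complement moves
each `τ₃`-line. -/
theorem not_le_centralizer_tau_three_line (hG : IsMinSimpleOddOrder G) (hM : IsCoatom M)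
    (hE : IsComplIn E (sigmaCore M) M) [hr : Fact r.Prime] (hr3 : r ∈ tau3 M) (hRE : R ≤ E)
    (hR : Nat.card R = r) : ¬ E ≤ centralizer (R : Set G) := by
  classical
  intro hcent
  have hRp : IsPGroup r R := IsPGroup.of_card (n := 1) (by rw [hR, pow_one])
  obtain ⟨S₀, hS₀⟩ := (hRp.comap_subtype (K := E)).exists_le_sylow
  set S := (S₀ : Subgroup ↥E).map E.subtype with hS
  have hSE : S ≤ E := map_subtype_le _
  obtain ⟨E₃, hE₃, hSE₃⟩ := exists_hall_ge hG (ne_top_of_le hM hE.1) hSE (tau3 M) (fun t ht hd =>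
    isPGroup_ne_dvd (S₀.2.map _) ht hd ▸ hr3)
  obtain ⟨hcyc, hle, hnorm⟩ := tau3_struct hG hM hE hE₃
  haveI := hcyc
  haveI : IsCyclic S := isCyclic_of_le hSE₃
  haveI : IsCyclic (S₀ : Subgroup ↥E) := isCyclic_of_surjective _
    ((S₀ : Subgroup ↥E).equivMapOfInjective E.subtype E.subtype_injective).symm.surjective
  have hEN : E ≤ normalizer (S : Set G) := fun e he => Coprime.mem_normalizer_of_conj_smul_eq
    (OddLocal.eq_of_card_eq_of_le_cyclic (W := E₃)
      ((pointwise_smul_le_pointwise_smul_iff.mpr hSE₃).trans (Coprime.conj_smul_eq_self (hnorm he)).le) hSE₃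
      (Coprime.card_conj_smul _ _))
  haveI hn : (S₀ : Subgroup ↥E).Normal := by
    have h := (normal_subgroupOf_iff_le_normalizer hSE).mpr hEN
    rwa [hS, subgroupOf, comap_map_eq_self_of_injective E.subtype_injective] at h
  obtain ⟨K, hK⟩ := exists_left_complement'_of_coprime S₀.card_coprime_index
  have hr2 : r ≠ 2 := fun e => hG.1.not_two_dvd_nat (e ▸ hR.symm.dvd.trans R.card_subgroup_dvd_card)
  have hKS : S ≤ centralizer ((K.map E.subtype : Subgroup G) : Set G) := by
    refine Coprime.le_centralizer_of_omega_fixed hr2 (E := (⊥ : Subgroup G)) IsPGroup.of_bot ?_ bot_le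
      (S₀.2.map _) bot_le ((map_subtype_le _).trans hEN) fun x hx hxr => ?_
    · rw [card_map_of_injective E.subtype_injective]
      refine Nat.Coprime.symm (hr.out.coprime_iff_not_dvd.mpr fun hd => S₀.not_dvd_index ?_)
      rwa [hK.index_eq_card]
    · by_cases hx1 : x = 1
      · rw [hx1]; exact one_mem _
      have hRS : R ≤ S := fun z hz => ⟨⟨z, hRE hz⟩, hS₀ hz, rfl⟩
      have hxR : zpowers x = R := OddLocal.eq_of_card_eq_of_le_cyclic (W := S) (zpowers_le.mpr hx.1) hRS
        (by rw [Nat.card_zpowers, orderOf_eq_prime hxr hx1, hR])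
      exact le_centralizer_iff.mp ((map_subtype_le _).trans hcent) (hxR ▸ mem_zpowers x)
  have hcen : normalizer ((S₀ : Subgroup ↥E) : Set ↥E) ≤ centralizer ((S₀ : Subgroup ↥E) : Set ↥E) := by
    rw [normalizer_eq_top]
    intro e _
    obtain ⟨⟨k, s⟩, hks, -⟩ := hK.existsUnique e
    refine mem_centralizer_iff.mpr fun z hz => ?_
    have h1 : (k : E) * z = z * (k : E) := Subtype.ext
      (mem_centralizer_iff.mp (hKS (mem_map_of_mem _ hz)) _ (mem_map_of_mem _ k.2))
    have h2 : (s : E) * z = z * (s : E) := by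
      haveI : IsMulCommutative ↥(S₀ : Subgroup ↥E) := IsCyclic.isMulCommutative
      exact congrArg Subtype.val (mul_comm' (⟨(s : E), s.2⟩ : ↥(S₀ : Subgroup ↥E)) ⟨z, hz⟩)
    rw [← hks]
    calc z * ((k : E) * s) = ((k : E) * z) * s := by rw [← mul_assoc, ← h1]
      _ = k * (s * z) := by rw [mul_assoc, ← h2]
      _ = _ := by rw [mul_assoc]
  haveI : IsMulCommutative ↥(S₀ : Subgroup ↥E) := IsCyclic.isMulCommutative
  have hnd : ¬ r ∣ Nat.card (commutator ↥E) := fun h => S₀.not_dvd_index (h.trans (by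
    rw [(MonoidHom.ker_transferSylow_isComplement' S₀ hcen).index_eq_card]
    exact card_dvd_of_le (Abelianization.commutator_subset_ker _)))
  refine hnd ?_
  rw [← card_map_of_injective E.subtype_injective, map_subtype_commutator]
  exact hR.symm.dvd.trans (card_dvd_of_le ((fun z hz => hle (hSE₃ ⟨⟨z, hRE hz⟩, hS₀ hz, rfl⟩)) : R ≤ ⁅E, E⁆))

/-- For a `τ₃`-line with fixed points, a maximal subgroup over its normaliser contains `E`, and `τ₂(M)` is empty. -/
theorem tau_three_setup (hG : IsMinSimpleOddOrder G) (hM : IsCoatom M)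
    (hE : IsComplIn E (sigmaCore M) M) [hr : Fact r.Prime] (hr3 : r ∈ tau3 M) (hRE : R ≤ E) (hR : Nat.card R = r)
    (hX : sigmaCore M ⊓ centralizer (R : Set G) ≠ ⊥) (hH : IsCoatom H) (hNH : normalizer (R : Set G) ≤ H) :
    E ≤ normalizer (R : Set G) ∧ H ≠ M ∧ (∀ g : G, r ∈ sigma H → H ≠ MulAut.conj g • M) ∧
      ∀ t, t ∉ tau2 M := by
  obtain ⟨a, ha, ha1⟩ := R.bot_or_exists_ne_one.resolve_left fun e => by
    rw [e, card_bot] at hR; exact hr.out.ne_one hR.symm
  have hao : orderOf a = r := ((Nat.dvd_prime hr.out).mp (hR ▸ Subgroup.orderOf_dvd_natCard R ha)).resolve_left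
    fun h => ha1 (orderOf_eq_one_iff.mp h)
  have hRa : zpowers a = R := eq_of_le_of_card_ge (zpowers_le.mpr ha) (by rw [Nat.card_zpowers, hao, hR])
  have hEN : E ≤ normalizer (R : Set G) := hRa ▸ le_normalizer_tau_three_line hG hM hE hr3 (hRE ha) hao
  have hne : H ≠ M := fun e => (S1409.result hG M hM r hr3.2.1 R hR (e ▸ hNH)).1.2 hr3.2.2.2
  refine ⟨hEN, hne, fun g hσ e => hr3.2.1 (sigma_conj hM hG e hσ), fun t ht => ?_⟩
  haveI := Fact.mk ht.1
  obtain ⟨A, hAE, hA, hAc⟩ := exists_elem_compl hG hM hE ht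
  obtain ⟨-, -, -, -, hstar, -⟩ := S1417.result hG M hM t ht A ⟨hAE.trans hE.1, hA, hAc⟩
  refine hX (le_bot_iff.mp ?_)
  rw [← hstar H hH hne (hAE.trans (hEN.trans hNH))]
  exact inf_le_inf_left _ ((centralizer_le_normalizer _).trans hNH)

/-- An element of prime power order in a cyclic `τ₁`-Hall subgroup over `P` moving a given `τ₃`-line. -/
theorem exists_tau_one_moving (hG : IsMinSimpleOddOrder G) (hM : IsCoatom M)
    (hE : IsComplIn E (sigmaCore M) M) [hr : Fact r.Prime] (hr3 : r ∈ tau3 M) (hRE : R ≤ E) (hR : Nat.card R = r)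
    (hτ2 : ∀ t, t ∉ tau2 M) {Y : Subgroup G} (hYE : Y ≤ E)
    (hY : ∀ t : ℕ, t.Prime → t ∣ Nat.card Y → t ∈ tau1 M) :
    ∃ (E₁ : Subgroup G) (e : G) (s k : ℕ), IsPiHallOf (tau1 M) E₁ E ∧ Y ≤ E₁ ∧ IsCyclic E₁ ∧ e ∈ E₁ ∧
      s ∈ tau1 M ∧ orderOf e = s ^ (k + 1) ∧ e ∉ centralizer (R : Set G) := by
  classical
  obtain ⟨a, ha, ha1⟩ := R.bot_or_exists_ne_one.resolve_left fun e => by
    rw [e, card_bot] at hR; exact hr.out.ne_one hR.symm
  have hao : orderOf a = r := ((Nat.dvd_prime hr.out).mp (hR ▸ Subgroup.orderOf_dvd_natCard R ha)).resolve_left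
    fun h => ha1 (orderOf_eq_one_iff.mp h)
  have hRa : zpowers a = R := eq_of_le_of_card_ge (zpowers_le.mpr ha) (by rw [Nat.card_zpowers, hao, hR])
  have hEN : E ≤ normalizer (R : Set G) := hRa ▸ le_normalizer_tau_three_line hG hM hE hr3 (hRE ha) hao
  haveI : IsCyclic R := isCyclic_of_prime_card hR
  have hD := commutator_le_centralizer_of_cyclic (C := R) hEN
  obtain ⟨E₁, hE₁, hYE₁⟩ := exists_hall_ge hG (ne_top_of_le hM hE.1) hYE (tau1 M) hY
  have hcyc : IsCyclic E₁ := tau1_cyclic hG hE hE₁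
  by_contra hno
  push Not at hno
  refine not_le_centralizer_tau_three_line hG hM hE hr3 hRE hR fun f hf => ?_
  refine abelian_of_prime_pow_parts fun s k hs hsk => ?_
  haveI := Fact.mk hs
  set y := f ^ (orderOf f / s ^ k)
  have hyE : y ∈ E := E.pow_mem hf _
  have hyo : orderOf y = s ^ k := orderOf_pow_orderOf_div (orderOf_pos f).ne' hsk
  rcases Nat.eq_zero_or_pos k with hk | hk
  · rw [orderOf_eq_one_iff.mp (by rw [hyo, hk, pow_zero] : orderOf y = 1)]
    exact one_mem _
  obtain ⟨k, rfl⟩ := Nat.exists_eq_succ_of_ne_zero hk.ne'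
  have hsE : s ∣ Nat.card E :=
    ((dvd_pow_self s (Nat.succ_ne_zero k)).trans hyo.symm.dvd).trans (Subgroup.orderOf_dvd_natCard E hyE)
  rcases tau_cases hG hM hE hs hsE with h2 | h1 | h3
  · exact (hτ2 s h2).elim
  · haveI := solvable_of_ne_top hG (ne_top_of_le hM hE.1)
    obtain ⟨hE₁E, hE₁p, hE₁i⟩ := hE₁
    have hco : (Nat.card (E₁.subgroupOf E)).Coprime (E₁.subgroupOf E).index := by
      rw [Coprime.card_subgroupOf hE₁E]
      exact Nat.coprime_of_dvd fun t ht ht1 ht2 => hE₁i t ht (hE₁p t ht ht1) ht2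
    obtain ⟨g, hg⟩ := Hall.exists_le_conj hco (K := zpowers (⟨y, hyE⟩ : E)) (by
      rw [Nat.card_zpowers, Subgroup.orderOf_mk, hyo]
      exact Nat.Coprime.pow_left _ (hs.coprime_iff_not_dvd.mpr (hE₁i s hs h1)))
    obtain ⟨w, hw, hwy⟩ := hg (mem_zpowers _)
    have hwy' : (g : G) * (w : G) * (g : G)⁻¹ = y := congrArg Subtype.val hwy
    have hwo : orderOf (w : G) = s ^ (k + 1) := by
      rw [← hyo, ← hwy']
      exact (orderOf_injective (MulAut.conj (g : G)).toMonoidHom (MulAut.conj (g : G)).injective (w : G)).symm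
    have hwR := hno E₁ (w : G) s k ⟨hE₁E, hE₁p, hE₁i⟩ hYE₁ hcyc hw h1 hwo
    have hc := hD (commutator_mem_commutator g.2 w.2)
    rw [← hwy']
    convert mul_mem hc hwR using 1
    group
  · obtain ⟨E₃, hE₃, hyE₃⟩ := exists_hall_ge hG (ne_top_of_le hM hE.1) (zpowers_le.mpr hyE) (tau3 M)
      (fun t ht hd => by
        rw [Nat.card_zpowers, hyo] at hd
        exact (Nat.prime_dvd_prime_iff_eq ht hs).mp (ht.dvd_of_dvd_pow hd) ▸ h3)
    exact hD ((tau3_struct hG hM hE hE₃).2.1 (hyE₃ (mem_zpowers y)))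

/-- The Sylow subgroups of the fixed points of a `τ₃`-line: an invariant subgroup of prime order. -/
theorem exists_invariant_fixed_line (hG : IsMinSimpleOddOrder G) (hM : IsCoatom M)
    (hE : IsComplIn E (sigmaCore M) M) (hEN : E ≤ normalizer (R : Set G))
    (hX : sigmaCore M ⊓ centralizer (R : Set G) ≠ ⊥)
    (hcyc : ∀ (t : ℕ) (Q : Subgroup G), t.Prime → IsPGroup t Q → Q ≤ sigmaCore M ⊓ centralizer (R : Set G) →
      E ≤ normalizer (Q : Set G) → IsCyclic Q) :
    ∃ (y : G) (q : ℕ), q.Prime ∧ orderOf y = q ∧ y ∈ sigmaCore M ∧ y ∈ centralizer (R : Set G) ∧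
      E ≤ normalizer ((zpowers y : Subgroup G) : Set G) ∧
      ∀ B : Subgroup G, IsElementaryAbelian q B → Nat.card B = q ^ 2 →
        ¬ B ≤ sigmaCore M ⊓ centralizer (R : Set G) := by
  classical
  set X := sigmaCore M ⊓ centralizer (R : Set G) with hXdef
  obtain ⟨q, hq, hqd⟩ := Nat.exists_prime_and_dvd (mt card_eq_one.mp hX)
  haveI := Fact.mk hq
  haveI := solvable_of_ne_top hG (ne_top_of_le hM hE.1)
  have hEX : E ≤ normalizer (X : Set G) := fun z hz => inf_normalizer_le_normalizer_inf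
    ⟨OddLocal.le_normalizer_piCoreOf (sigma M) M (hE.1 hz),
      Coprime.normalizer_le_normalizer_centralizer R (hEN hz)⟩
  obtain ⟨Q₀, hQ₀⟩ := Coprime.exists_invariant_sylow hEX
    ((coprime_sigmaCore_compl hG hM hE).coprime_dvd_right (card_dvd_of_le inf_le_left)) (Or.inl inferInstance) q
  set Q := (Q₀ : Subgroup X).map X.subtype with hQ
  have hQX : Q ≤ X := map_subtype_le _
  haveI hQc : IsCyclic Q := hcyc q Q hq (Q₀.2.map _) hQX hQ₀
  obtain ⟨y', hy'⟩ := exists_prime_orderOf_dvd_card' (G := Q) q (by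
    rw [hQ, card_map_of_injective X.subtype_injective]; exact Q₀.dvd_card_of_dvd_card hqd)
  have hyo : orderOf (y' : G) = q := by rw [orderOf_coe, hy']
  refine ⟨y', q, hq, hyo, (hQX y'.2).1, (hQX y'.2).2, fun z hz => ?_, fun B hB hBc hBX => ?_⟩
  · exact Coprime.mem_normalizer_of_conj_smul_eq (OddLocal.eq_of_card_eq_of_le_cyclic (W := Q)
      ((pointwise_smul_le_pointwise_smul_iff.mpr (zpowers_le.mpr y'.2)).trans
        (Coprime.conj_smul_eq_self (hQ₀ hz)).le) (zpowers_le.mpr y'.2) (Coprime.card_conj_smul _ _))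
  · obtain ⟨S, hS⟩ := ((elem_isPGroup hB).comap_subtype (K := X)).exists_le_sylow
    obtain ⟨x, hx⟩ := MulAction.exists_smul_eq (↥X) S Q₀
    have hle : MulAut.conj (x : G) • B ≤ Q := by
      rintro v ⟨w, hw, rfl⟩
      refine ⟨x * ⟨w, hBX hw⟩ * x⁻¹, ?_, rfl⟩
      rw [← hx, Sylow.coe_subgroup_smul]
      exact Coprime.conj_mem_conj_smul (hS hw)
    exact not_isCyclic_of_elem (elem_of_conj (x : G) hB) ((Coprime.card_conj_smul _ _).trans hBc) (isCyclic_of_le hle)

/-- BG 13.12 for `τ₃`. -/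
theorem tau_three_sigma (hG : IsMinSimpleOddOrder G) (hM : IsCoatom M)
    (hE : IsComplIn E (sigmaCore M) M) [hr : Fact r.Prime] (hr3 : r ∈ tau3 M) (hRE : R ≤ E) (hR : Nat.card R = r)
    (hX : sigmaCore M ⊓ centralizer (R : Set G) ≠ ⊥) (hH : IsCoatom H) (hNH : normalizer (R : Set G) ≤ H) :
    r ∈ sigma H ∧ R ≤ sigmaCore H := by
  classical
  obtain ⟨hEN, hne, -, hτ2⟩ := tau_three_setup hG hM hE hr3 hRE hR hX hH hNH
  have hRp : IsPGroup r R := IsPGroup.of_card (n := 1) (by rw [hR, pow_one])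
  have hRH : R ≤ H := le_normalizer.trans hNH
  suffices hσ : r ∈ sigma H from ⟨hσ, pgroup_le_sigmaCore hG hH hσ hRp hRH⟩
  by_contra hrH
  obtain ⟨⟨hr2, hr1⟩, -, -⟩ := S1409.result hG H hH r hrH R hR hNH
  have hτH : r ∈ tau2 H := ⟨hr.out, hrH, hr2, hr1⟩
  have hEH : E ≤ H := hEN.trans hNH
  have hXH : centralizer (R : Set G) ≤ H := (centralizer_le_normalizer _).trans hNH
  have hnc : ∀ g : G, H ≠ MulAut.conj g • M := fun g e => hr1 (prankLE_conj e hr3.2.2.2)
  have hcyc : ∀ (t : ℕ) (Q : Subgroup G), t.Prime → IsPGroup t Q → Q ≤ sigmaCore M ⊓ centralizer (R : Set G) →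
      E ≤ normalizer (Q : Set G) → IsCyclic Q := by
    intro t Q ht hQp hQX _
    haveI := Fact.mk ht
    by_contra hnc'
    obtain ⟨B, hBQ, hB, hBc⟩ := exists_elem_of_not_cyclic hG hQp hnc'
    have hBσ : B ≤ sigmaCore M := hBQ.trans (hQX.trans inf_le_left)
    have htM : t ∈ sigma M := OddLocal.piCoreOf_isPi (sigma M) M t ht
      ((dvd_pow_self t two_ne_zero).trans (hBc.symm.dvd.trans (card_dvd_of_le hBσ)))
    have htH : t ∉ sigma H := fun h => by obtain ⟨g, hg⟩ := conj_of_sigma_sigma hG hM hH htM h; exact hnc g hg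
    have hBH : B ≤ H := hBQ.trans (hQX.trans (inf_le_right.trans hXH))
    have hBR : R ≤ normalizer (B : Set G) :=
      (le_centralizer_iff.mp (hBQ.trans (hQX.trans inf_le_right))).trans (centralizer_le_normalizer _)
    have hBp : IsPGroup t B := elem_isPGroup hB
    obtain ⟨F₀, hF₀, -⟩ := exists_compl_ge hG hH hrH hRp hRH
    obtain ⟨F, hF, hYF⟩ := exists_compl_ge_pi hG hH hF₀ (Y := R ⊔ B) (fun s hs hd => by
        rcases prime_dvd_sup hBR hs hd with h | h
        · exact not_sigma_of_prime_group hr.out hR hrH s hs h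
        · exact isPGroup_ne_dvd hBp hs h ▸ htH)
      (sup_le hRH hBH)
    obtain ⟨A, hAF, hA, hAc⟩ := exists_elem_compl hG hH hF hτH
    have hFA := (le_normalizer_compl hG hH hF hrH hAF hA hAc).1
    have hBF : B ≤ F := le_sup_right.trans hYF
    have hFB := (le_normalizer_compl hG hH hF htH hBF hB hBc).1
    have htr : t ≠ r := fun e => hr3.2.1 (e ▸ htM)
    have hAB : A ≤ centralizer (B : Set G) := by
      rw [← commutator_eq_bot_iff_le_centralizer, ← le_bot_iff,
        ← Coprime.inf_eq_bot_of_coprime (coprime_pgroups htr (elem_isPGroup hA) hBp)]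
      refine le_inf (Coprime.commutator_le_of_le_normalizer' (hBF.trans hFA)) ?_
      rw [commutator_comm]
      exact Coprime.commutator_le_of_le_normalizer' (hAF.trans hFB)
    have hAM : A ≤ M := hAB.trans ((centralizer_le_normalizer _).trans
      (normalizer_noncyclic_le hG hM htM hBp (hBσ.trans hE.2.1) (not_isCyclic_of_elem hB hBc)))
    exact not_pRankLE_one hAM hA hAc.ge hr3.2.2.2
  obtain ⟨y, q, hq, hyo, hyσ, hyR, hEy, hnoB⟩ := exists_invariant_fixed_line hG hM hE hEN hX hcyc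
  haveI := Fact.mk hq
  have hqM : q ∈ sigma M := OddLocal.piCoreOf_isPi (sigma M) M q hq (hyo ▸ Subgroup.orderOf_dvd_natCard (sigmaCore M) hyσ)
  have hyc : Nat.card (zpowers y) = q := by rw [Nat.card_zpowers, hyo]
  have hyp : IsPGroup q (zpowers y) := IsPGroup.of_card (n := 1) (by rw [hyc, pow_one])
  have hy1 : zpowers y ≠ ⊥ := fun e => hq.ne_one (by rw [← hyc, e, card_bot])
  have hyM : y ∈ M := hE.2.1 hyσ
  have hNy : normalizer ((zpowers y : Subgroup G) : Set G) ≤ M := by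
    obtain ⟨H', hH', hNH'⟩ := exists_coatom_ge (normalizer_line_ne_top hG hyp hy1)
    by_contra hnot
    have hne' : H' ≠ M := fun e => hnot (e ▸ hNH')
    obtain ⟨S, K, -, -, -, hMK, -, hnc', hcase⟩ :=
      exists_factor_of_normalizer hG hM hqM hyp hy1 (zpowers_le.mpr hyM) hH' hne' hNH'
    rcases hcase with ⟨hqH', -⟩ | ⟨hqτ, rfl, hbot⟩
    · obtain ⟨g, hg⟩ := conj_of_sigma_sigma hG hM hH' hqM hqH'
      exact hnc' g hg
    have hRH' : R ≤ H' := by
      refine le_trans ?_ ((centralizer_le_normalizer _).trans hNH')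
      rw [centralizer_zpowers]
      exact fun z hz => mem_centralizer_singleton_iff.mpr (mem_centralizer_iff.mp hyR z hz)
    have hrH' : r ∉ sigma H' := fun h => by
      have h1 : R ≤ sigmaCore H' ⊓ M := le_inf (pgroup_le_sigmaCore hG hH' h hRp hRH') (hRE.trans hE.1)
      rw [hbot] at h1
      exact hr.out.ne_one (by rw [← hR, le_bot_iff.mp h1, card_bot])
    have hF : IsComplIn (M ⊓ H') (sigmaCore H') H' := by
      refine ⟨inf_le_right, OddLocal.piCoreOf_le _ _, ?_, fun z hz => ?_⟩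
      · rw [eq_bot_iff, ← hbot]; exact le_inf inf_le_right (inf_le_left.trans inf_le_left)
      · rw [← hMK, ← SetLike.mem_coe, coe_mul_of_left_le_normalizer_right (M ⊓ H') (sigmaCore H')
          (inf_le_right.trans (OddLocal.le_normalizer_piCoreOf (sigma H') H'))] at hz
        obtain ⟨a, ha, b, hb, hab⟩ := hz
        exact ⟨a, ha, b, hb, hab.symm⟩
    have hr1' : PRankLE r 1 H' := by
      by_contra h
      obtain ⟨A, hAF, hA, hAc⟩ :=
        exists_elem_compl hG hH' hF ⟨hr.out, hrH', rank_two_of_not_sigma hG hH' hr.out hrH', h⟩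
      exact not_pRankLE_one (hAF.trans inf_le_left) hA hAc.ge hr3.2.2.2
    have hEH' : E ≤ H' := hEy.trans hNH'
    have hrd : r ∣ Nat.card ↥⁅H', H'⁆ := by
      obtain ⟨E₁, e, s, k, hE₁, -, -, he, -, -, hnot'⟩ := exists_tau_one_moving hG hM hE hr3 hRE hR hτ2
        (Y := (⊥ : Subgroup G)) bot_le (fun t ht hd => by rw [card_bot] at hd; exact absurd hd ht.not_dvd_one)
      obtain ⟨a, ha, hnc2⟩ : ∃ a ∈ R, e * a ≠ a * e := by
        by_contra h
        push Not at h
        exact hnot' (mem_centralizer_iff.mpr fun a ha => (h a ha).symm)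
      have he' := hE₁.1 he
      have hc1 : ⁅e, a⁆ ∈ R := by
        rw [commutatorElement_def]
        exact R.mul_mem ((mem_normalizer_iff.mp (hEN he') a).mp ha) (R.inv_mem ha)
      have hc2 : ⁅e, a⁆ ≠ 1 := fun h => hnc2 (commutatorElement_eq_one_iff_mul_comm.mp h)
      have hco : orderOf ⁅e, a⁆ = r := ((Nat.dvd_prime hr.out).mp (hR ▸ Subgroup.orderOf_dvd_natCard R hc1)).resolve_left
        fun h => hc2 (orderOf_eq_one_iff.mp h)
      exact hco ▸ Subgroup.orderOf_dvd_natCard _ (commutator_mem_commutator (hEH' he') (hRH' ha))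
    obtain ⟨B₀, hB₀F, hB₀, hB₀c⟩ := exists_elem_compl hG hH' hF hqτ
    have hFB := (le_normalizer_compl hG hH' hF hqτ.2.1 hB₀F hB₀ hB₀c).1
    obtain ⟨a, ha, ha1⟩ := R.bot_or_exists_ne_one.resolve_left fun e => by
      rw [e, card_bot] at hR; exact hr.out.ne_one hR.symm
    have hao : orderOf a = r := ((Nat.dvd_prime hr.out).mp (hR ▸ Subgroup.orderOf_dvd_natCard R ha)).resolve_left
      fun h => ha1 (orderOf_eq_one_iff.mp h)
    have hRa : zpowers a = R := eq_of_le_of_card_ge (zpowers_le.mpr ha) (by rw [Nat.card_zpowers, hao, hR])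
    have hFR : M ⊓ H' ≤ normalizer (R : Set G) := hRa ▸ le_normalizer_tau_three_line hG hH' hF (q := r)
      ⟨hr.out, hrH', hrd, hr1'⟩ (⟨hE.1 (hRE ha), hRH' ha⟩) hao
    have hBR : B₀ ≤ centralizer (R : Set G) := by
      rw [← commutator_eq_bot_iff_le_centralizer, ← le_bot_iff]
      have htr : q ≠ r := fun e => hr3.2.1 (e ▸ hqM)
      rw [← Coprime.inf_eq_bot_of_coprime (coprime_pgroups htr hRp (elem_isPGroup hB₀))]
      refine le_inf ?_ (Coprime.commutator_le_of_le_normalizer' ((le_inf (hRE.trans hE.1) hRH').trans hFB))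
      rw [commutator_comm]
      exact Coprime.commutator_le_of_le_normalizer' (hB₀F.trans hFR)
    exact hnoB B₀ hB₀ hB₀c
      (le_inf (pgroup_le_sigmaCore hG hM hqM (elem_isPGroup hB₀) (hB₀F.trans inf_le_left)) hBR)
  refine hrH (sigma_of_normalizer_line hG hM hr3.2.1 hr3.2.2.2 hR (hRE.trans hE.1) (q := q) hyσ hyR hyo ?_ hH hNH)
  rw [← centralizer_zpowers]
  exact (centralizer_le_normalizer _).trans hNy

end Cfsg.Agent.Lib.Uniq
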