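import Cfsg.Agent.Lib.Uniq.Main
import Cfsg.Agent.Lib.Uniq.Good
set_option autoImplicit false

/-! The uniqueness theorem, given the structure of solvable groups of rank two. -/

namespace Cfsg.Agent.Lib.Uniq

open Subgroup
open scoped Pointwise commutatorElement
open Cfsg.Agent.Lib.OddLocal

variable {G : Type*} [Group G] [Finite G]

/-- An elementary abelian subgroup of rank three lies in a unique maximal subgroup. -/
theorem unique_elem_three (hG : IsMinSimpleOddOrder G) (hnar : NarrowFitting G) {p : ℕ} [hp : Fact p.Prime]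
    {E : Subgroup G} (hE : IsElementaryAbelian p E) (hEc : p ^ 3 ≤ Nat.card E) : InUniqueMaximal E := by
  have h2 : p ^ 2 < Nat.card E := lt_of_lt_of_le (Nat.pow_lt_pow_right hp.out.one_lt (by norm_num)) hEc
  have hE3 : ¬ PRankLE p 2 ↥E := not_pRankLE_of_elem le_rfl hE h2
  obtain ⟨P, hP⟩ := (elem_isPGroup hE).exists_le_sylow
  obtain ⟨A, hA, hA3⟩ := exists_scn_three' (ne_two_of_rank hG hE3) P.2 (not_pRankLE_of_elem hP hE h2)
  refine unique_of_rank_three' hG (P.2.to_le hA.1)
    (le_centralizer_iff_isMulCommutative.mp (hA.2.2.ge.trans inf_le_right)) hA3 (unique_scn hG hnar P hA hA3)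
    (fun h => hE3 (pRankLE_succ h)) (not_pRankLE_mono (comm_le_centralizer hE.1) hE3)

/-- BG 9.6: the uniqueness theorem. -/
theorem uniqueness_theorem (hG : IsMinSimpleOddOrder G) (hnar : NarrowFitting G) {K : Subgroup G} (hK : K ≠ ⊤)
    (hK2 : ¬ RankLE 1 K) (hK3 : ¬ RankLE 2 K ∨ ¬ RankLE 2 ↥(centralizer (K : Set G))) :
    InUniqueMaximal K := by
  rcases hK3 with h | h
  · obtain ⟨q, hq, hqK⟩ : ∃ q : ℕ, q.Prime ∧ ¬ PRankLE q 2 K := by
      simpa only [RankLE, not_forall, exists_prop] using h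
    haveI := Fact.mk hq
    obtain ⟨E, hEK, hE, hEc⟩ := elem_of_not_pRankLE hqK
    exact unique_mono (unique_elem_three hG hnar hE hEc.ge) hEK hK
  · obtain ⟨q, hq, hqK⟩ : ∃ q : ℕ, q.Prime ∧ ¬ PRankLE q 2 ↥(centralizer (K : Set G)) := by
      simpa only [RankLE, not_forall, exists_prop] using h
    obtain ⟨p, hp, hpK⟩ : ∃ p : ℕ, p.Prime ∧ ¬ PRankLE p 1 K := by
      simpa only [RankLE, not_forall, exists_prop] using hK2
    haveI := Fact.mk hq
    haveI := Fact.mk hp
    obtain ⟨E, hEK, hE, hEc⟩ := elem_of_not_pRankLE hqK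
    exact unique_of_centralizes hG (unique_elem_three hG hnar hE hEc.ge)
      (le_centralizer_iff.mp hEK) hpK fun P => goodSylow hG P

end Cfsg.Agent.Lib.Uniq
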