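import Cfsg.Agent.Lib.Uniq.FpfCentral
set_option autoImplicit false

/-! Primes outside `σ(M)` and elements acting on `M_σ` without fixed points. -/

namespace Cfsg.Agent.Lib.Uniq

open Subgroup
open scoped Pointwise commutatorElement

universe u

variable {G : Type u} [Group G] [Finite G] {M A : Subgroup G} {p q : ℕ}

theorem rankLE_two_quotient_sigma (hG : IsMinSimpleOddOrder G) (hM : IsCoatom M)
    (F : Subgroup (↥M ⧸ piCore (sigma M) ↥M)) : RankLE 2 ↥F := by
  intro r hr
  haveI := Fact.mk hr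
  refine Hall.prankLE_of_injective F.subtype F.subtype_injective ?_
  by_cases hd : r ∣ Nat.card (↥M ⧸ piCore (sigma M) ↥M)
  · have hσ : r ∉ sigma M := fun h =>
      not_dvd_index_piCore hG hM (alpha_subset_sigma hG hM) le_rfl h (by rwa [index_eq_card])
    refine pRankLE_quotient _ ?_ (rank_two_of_not_sigma hG hM hr hσ)
    refine (Nat.coprime_comm.mp (hr.coprime_iff_not_dvd.mpr fun h => hσ ?_))
    exact OddLocal.piCore_isPi (sigma M) r hr h
  · exact prankLE_of_not_dvd hd

/-- `M'/M_σ` is nilpotent. -/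
theorem commutator_quotient_sigma_nilpotent (hG : IsMinSimpleOddOrder G) (hM : IsCoatom M) :
    Group.IsNilpotent ↥(commutator (↥M ⧸ piCore (sigma M) ↥M)) := by
  haveI : Group.IsSolvable ↥M := solvable_of_ne_top hG hM.1
  haveI : Group.IsSolvable (↥M ⧸ piCore (sigma M) ↥M) :=
    Group.isSolvable_of_surjective (QuotientGroup.mk'_surjective _)
  exact Hall.commutator_isNilpotent ((odd_card hG M).of_dvd_nat (card_quotient_dvd_card _))
    (rankLE_two_quotient_sigma hG hM _)

/-- `C_{M'}(M_σ)`. -/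
noncomputable def derivedSigmaCentralizer (M : Subgroup G) : Subgroup ↥M :=
  commutator ↥M ⊓ centralizer (piCore (sigma M) ↥M : Set ↥M)

instance derivedSigmaCentralizer_normal (M : Subgroup G) : (derivedSigmaCentralizer M).Normal := by
  unfold derivedSigmaCentralizer
  infer_instance

theorem derivedSigmaCentralizer_nilpotent (hG : IsMinSimpleOddOrder G) (hM : IsCoatom M) :
    Group.IsNilpotent ↥(derivedSigmaCentralizer M) := by
  haveI := commutator_quotient_sigma_nilpotent hG hM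
  set K := piCore (sigma M) ↥M
  let f : ↥(derivedSigmaCentralizer M) →* ↥(commutator (↥M ⧸ K)) :=
    ((QuotientGroup.mk' K).comp (derivedSigmaCentralizer M).subtype).codRestrict _ fun x => by
      have h := mem_map_of_mem (QuotientGroup.mk' K) x.2.1
      rw [commutator_def, map_commutator] at h
      exact commutator_mono le_top le_top h
  refine Subgroup.isNilpotent_of_ker_le_center f fun x hx => mem_center_iff.mpr fun y => Subtype.ext ?_
  have hxK : (x : ↥M) ∈ K := (QuotientGroup.eq_one_iff _).mp (congrArg Subtype.val hx)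
  exact (mem_centralizer_iff.mp y.2.2 _ hxK).symm

/-- The `q`-part of `C_{M'}(M_σ)`, as a subgroup of `G`. -/
noncomputable def twistCore (q : ℕ) (M : Subgroup G) : Subgroup G :=
  ((pCore q ↥(derivedSigmaCentralizer M)).map (derivedSigmaCentralizer M).subtype).map M.subtype

omit [Finite G] in
theorem twistCore_le (q : ℕ) (M : Subgroup G) : twistCore q M ≤ M := map_subtype_le _

theorem twistCore_normal (q : ℕ) (M : Subgroup G) : M ≤ normalizer (twistCore q M : Set G) := by
  haveI : ((pCore q ↥(derivedSigmaCentralizer M)).map (derivedSigmaCentralizer M).subtype).Normal :=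
    inferInstance
  refine (normal_subgroupOf_iff_le_normalizer (twistCore_le q M)).mp ?_
  rw [twistCore, subgroupOf, comap_map_eq_self_of_injective M.subtype_injective]
  infer_instance

theorem twistCore_isPGroup (q : ℕ) (M : Subgroup G) : IsPGroup q (twistCore q M) :=
  ((Hall.isPGroup_pCore q).map _).map _

theorem twistCore_le_centralizer (q : ℕ) (M : Subgroup G) :
    twistCore q M ≤ centralizer (sigmaCore M : Set G) := by
  rintro _ ⟨_, ⟨x, -, rfl⟩, rfl⟩
  rintro _ ⟨k, hk, rfl⟩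
  exact congrArg Subtype.val (mem_centralizer_iff.mp x.2.2 k hk)

theorem mem_twistCore (hG : IsMinSimpleOddOrder G) (hM : IsCoatom M) [hq : Fact q.Prime] {x : G}
    (hxM : x ∈ ⁅M, M⁆) (hxC : x ∈ centralizer (sigmaCore M : Set G)) (hord : ∃ k, orderOf x = q ^ k) :
    x ∈ twistCore q M := by
  rw [← map_subtype_commutator] at hxM
  obtain ⟨x', hx', rfl⟩ := hxM
  have hd : x' ∈ derivedSigmaCentralizer M :=
    ⟨hx', mem_centralizer_iff.mpr fun k hk => Subtype.ext (hxC (k : G) (mem_map_of_mem _ hk))⟩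
  haveI := derivedSigmaCentralizer_nilpotent hG hM
  refine ⟨x', ⟨⟨x', hd⟩, Hall.mem_pCore_of_mem_fitting (by rw [Hall.fittingSubgroup_eq_top]; exact mem_top _) ?_,
    rfl⟩, rfl⟩
  obtain ⟨k, hk⟩ := hord
  refine ⟨k, ?_⟩
  rw [← hk, Subgroup.orderOf_mk]
  exact (orderOf_injective M.subtype M.subtype_injective x').symm

theorem rankLE_one_twistCore (hG : IsMinSimpleOddOrder G) (hM : IsCoatom M) (hM1 : M ≠ ⊥) [hq : Fact q.Prime]
    (hB : ∀ B : Subgroup G, B ≤ M → IsElementaryAbelian q B → Nat.card B = q ^ 2 →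
      sigmaCore M ⊓ centralizer (B : Set G) = ⊥) : RankLE 1 ↥(twistCore q M) := by
  intro r hr
  haveI := Fact.mk hr
  by_contra h
  obtain ⟨B, hBW, hBe, hBc⟩ := elem_of_not_pRankLE h
  have hrq : r = q := isPGroup_ne_dvd (twistCore_isPGroup q M) hr
    ((dvd_pow_self r (Nat.succ_ne_zero 1)).trans (hBc ▸ card_dvd_of_le hBW))
  subst hrq
  refine sigmaCore_ne_bot hG hM hM1 (le_bot_iff.mp ?_)
  rw [← hB B (hBW.trans (twistCore_le r M)) hBe hBc]
  exact le_inf le_rfl (le_centralizer_iff.mp (hBW.trans (twistCore_le_centralizer r M)))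

/-- The conclusions when `A` does not centralise an invariant `q`-subgroup of `M`. -/
theorem exists_twist (hG : IsMinSimpleOddOrder G) (hM : IsCoatom M) [hp : Fact p.Prime] [hq : Fact q.Prime]
    (hqp : q ≠ p) (hpσ : p ∉ sigma M) (hqσ : q ∉ sigma M) (hnil : Group.IsNilpotent (sigmaCore M))
    (hAM : A ≤ M) (hA : IsElementaryAbelian p A) {t₁ t₂ : G}
    (hgen : zpowers t₁ ⊔ zpowers t₂ = A) (h₁ : FpfOn M t₁) (h₂ : FpfOn M t₂)
    (hB : ∀ B : Subgroup G, B ≤ M → IsElementaryAbelian q B → Nat.card B = q ^ 2 →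
      sigmaCore M ⊓ centralizer (B : Set G) = ⊥)
    {Y : Subgroup G} (hY : IsPGroup q Y) (hYM : Y ≤ M) (hAY : A ≤ normalizer (Y : Set G))
    (hne : ¬ A ≤ centralizer (Y : Set G)) :
    ⁅Y, A⁆ ≤ twistCore q M ∧ IsCyclic ↥(twistCore q M) ∧ ∃ L : Subgroup G, Nat.card L = q ∧ L ≤ ⁅Y, A⁆ ∧
      normalizer (L : Set G) = M ∧ (∀ w ∈ twistCore q M, w ^ q = 1 → w ∈ L) := by
  classical
  set D := ⁅Y, A⁆
  have hDY : D ≤ Y := Coprime.commutator_le_of_le_normalizer' hAY
  have hD1 : D ≠ ⊥ := fun e => hne (le_centralizer_iff.mp (commutator_eq_bot_iff_le_centralizer.mp e))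
  have hqd : q ∣ Nat.card D := by
    obtain ⟨j, hj⟩ := IsPGroup.iff_card.mp (hY.to_le hDY)
    rcases Nat.eq_zero_or_pos j with h | h
    · exact absurd (card_eq_one.mp (hj.trans (by rw [h, pow_zero]))) hD1
    · rw [hj]; exact dvd_pow_self q h.ne'
  have hq2 : q ≠ 2 := prime_ne_two_of_dvd hG (hqd.trans D.card_subgroup_dvd_card)
  set Cσ := centralizer (sigmaCore M : Set G)
  have hMC : M ≤ normalizer (Cσ : Set G) :=
    (OddLocal.le_normalizer_piCoreOf _ M).trans (Coprime.normalizer_le_normalizer_centralizer _)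
  have ht : ∀ {t : G}, zpowers t ≤ A → FpfOn M t → ⁅Y, zpowers t⁆ ≤ Cσ := fun {t} hle hf =>
    commutator_le_centralizer_sigmaCore hG hqp hq2 hpσ hqσ hnil (hA.2 t (hle (mem_zpowers t)))
      (hAM (hle (mem_zpowers t))) hYM hY (hAY (hle (mem_zpowers t))) hf
  have h1 : zpowers t₁ ≤ A := hgen ▸ le_sup_left
  have h2 : zpowers t₂ ≤ A := hgen ▸ le_sup_right
  have hC : D ≤ Cσ := by
    rw [commutator_le]
    intro y hy a ha
    have hn : zpowers t₁ ≤ normalizer (zpowers t₂ : Set G) :=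
      (h1.trans ((comm_le_centralizer hA.1).trans (Subgroup.centralizer_le h2))).trans (centralizer_le_normalizer _)
    obtain ⟨b, hb, c, hc, rfl⟩ := (Coprime.mem_sup_of_le_normalizer hn).mp (hgen.ge ha)
    have e : ⁅y, b * c⁆ = ⁅y, b⁆ * (b * ⁅y, c⁆ * b⁻¹) := by simp [commutatorElement_def, mul_assoc]
    rw [e]
    exact Cσ.mul_mem (ht h1 h₁ (commutator_mem_commutator hy hb))
      ((mem_normalizer_iff.mp (hMC (hAM (h1 hb))) _).mp (ht h2 h₂ (commutator_mem_commutator hy hc)))
  have hW : D ≤ twistCore q M := fun x hx =>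
    mem_twistCore hG hM (commutator_mono hYM hAM hx) (hC hx) (by
      obtain ⟨k, hk⟩ := IsPGroup.iff_orderOf.mp hY ⟨x, hDY hx⟩
      exact ⟨k, by rwa [Subgroup.orderOf_mk] at hk⟩)
  have hM1 : M ≠ ⊥ := ne_bot_of_le_ne_bot hD1 (hDY.trans hYM)
  haveI := isZGroup_of_rankLE_one (odd_card hG _) (rankLE_one_twistCore hG hM hM1 hB)
  haveI := (twistCore_isPGroup q M).isNilpotent
  have hcyc : IsCyclic ↥(twistCore q M) := inferInstance
  obtain ⟨x, hx⟩ := exists_prime_orderOf_dvd_card' (G := D) q hqd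
  have hxo : orderOf (x : G) = q := by rw [orderOf_coe, hx]
  have hxq : (x : G) ^ q = 1 := hxo ▸ pow_orderOf_eq_one _
  have hx1 : (x : G) ≠ 1 := fun e => hq.out.ne_one (by rw [← hxo, e, orderOf_one])
  have huniq : ∀ w ∈ twistCore q M, w ^ q = 1 → w ∈ zpowers (x : G) := by
    intro w hw hwq
    have h := PL.zpowers_eq_of_cyclic (H := ↥(twistCore q M)) (p := q) (S := ⊤)
      ((twistCore_isPGroup q M).to_subgroup ⊤) (v := ⟨x, hW x.2⟩) (w := ⟨w, hw⟩) (mem_top _) (mem_top _)
      (Subtype.ext hxq) (Subtype.ext hwq) (fun e => hx1 (congrArg Subtype.val e))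
    obtain ⟨i, hi⟩ := mem_zpowers_iff.mp h
    exact mem_zpowers_iff.mpr ⟨i, congrArg Subtype.val hi⟩
  refine ⟨hW, hcyc, zpowers (x : G), by rw [Nat.card_zpowers, hxo], zpowers_le.mpr x.2, ?_, huniq⟩
  refine normalizer_eq_of_normal hG hM (by rwa [Ne, zpowers_eq_bot])
    (zpowers_le.mpr (hDY.trans hYM x.2)) fun m hm => ?_
  refine Coprime.mem_normalizer_of_conj_smul_eq (eq_of_le_of_card_ge ?_ (Coprime.card_conj_smul _ _).ge)
  rw [show MulAut.conj m • zpowers (x : G) = (zpowers (x : G)).map (MulAut.conj m).toMonoidHom from rfl,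
    MonoidHom.map_zpowers, zpowers_le]
  refine huniq _ ((mem_normalizer_iff.mp (twistCore_normal q M hm) _).mp (hW x.2)) ?_
  show (m * (x : G) * m⁻¹) ^ q = 1
  rw [conj_pow, hxq]; group

/-- A cyclic Sylow subgroup for a prime outside `σ(M)` contains no normal line. -/
theorem rank_one_no_normal_line (hG : IsMinSimpleOddOrder G) (hM : IsCoatom M) [hq : Fact q.Prime]
    (hqσ : q ∉ sigma M) (hr1 : PRankLE q 1 M) {L : Subgroup G} (hL : Nat.card L = q) (hLM : L ≤ M)
    (hNL : normalizer (L : Set G) = M) : False := by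
  classical
  obtain ⟨S⟩ : Nonempty (Sylow q ↥M) := inferInstance
  set T := (S : Subgroup ↥M).map M.subtype
  have hTp : IsPGroup q T := S.2.map _
  have hLT : L ≤ T := by
    haveI : (L.subgroupOf M).Normal := (normal_subgroupOf_iff_le_normalizer hLM).mpr hNL.ge
    have hp : IsPGroup q (L.subgroupOf M) := IsPGroup.of_card (n := 1) (by rw [Coprime.card_subgroupOf hLM, hL, pow_one])
    rw [← map_subgroupOf_eq_of_le hLM]
    exact map_mono ((Hall.le_pCore hp).trans (Hall.pCore_le_sylow S))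
  haveI : IsZGroup ↥T := rank_one_zgroup hG (map_subtype_le _) fun r hr hd => isPGroup_ne_dvd hTp hr hd ▸ hr1
  obtain ⟨x, hxL, hx1⟩ := L.bot_or_exists_ne_one.resolve_left fun e => by
    rw [e, card_bot] at hL; exact hq.out.ne_one hL.symm
  have hxq : x ^ q = 1 := by
    have := pow_card_eq_one' (G := L) (x := ⟨x, hxL⟩)
    rw [hL] at this
    exact congrArg Subtype.val this
  have hLx : zpowers x = L := eq_of_le_of_card_ge (zpowers_le.mpr hxL) (by
    rw [hL, Nat.card_zpowers, orderOf_eq_prime hxq hx1])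
  refine hqσ ⟨hq.out, ?_, S, fun g hg => hNL ▸ ?_⟩
  · exact hL ▸ card_dvd_of_le hLM
  · refine Coprime.mem_normalizer_of_conj_smul_eq (eq_of_le_of_card_ge ?_ (Coprime.card_conj_smul _ _).ge)
    rw [← hLx, show MulAut.conj g • zpowers x = (zpowers x).map (MulAut.conj g).toMonoidHom from rfl,
      MonoidHom.map_zpowers, zpowers_le]
    have hgx : g * x * g⁻¹ ∈ T := (mem_normalizer_iff.mp hg x).mp (hLT hxL)
    have h := PL.zpowers_eq_of_cyclic (H := ↥T) (p := q) (S := ⊤) (hTp.to_subgroup ⊤) (v := ⟨x, hLT hxL⟩)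
      (w := ⟨g * x * g⁻¹, hgx⟩) (mem_top _) (mem_top _) (Subtype.ext hxq)
      (Subtype.ext (show (g * x * g⁻¹) ^ q = 1 by rw [conj_pow, hxq]; group))
      (fun e => hx1 (congrArg Subtype.val e))
    obtain ⟨i, hi⟩ := mem_zpowers_iff.mp h
    exact mem_zpowers_iff.mpr ⟨i, congrArg Subtype.val hi⟩

end Cfsg.Agent.Lib.Uniq
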