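import Cfsg.Agent.Lib.Uniq.KappaMain
import Cfsg.Agent.Lib.OddLocal.Decomposition
set_option autoImplicit false

/-! BG 14.12, 14.13: maximal subgroups of type P₂. -/

namespace Cfsg.Agent.Lib.Uniq

open Subgroup
open scoped Pointwise commutatorElement

universe u

variable {G : Type u} [Group G] [Finite G] {M N H K U X : Subgroup G}

/-- Elements of coprime order of `M'` commute modulo `M_β`. -/
theorem commute_mod_beta (hG : IsMinSimpleOddOrder G) (hM : IsCoatom M) {a b : G} (ha : a ∈ ⁅M, M⁆)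
    (hb : b ∈ ⁅M, M⁆) (hcop : (orderOf a).Coprime (orderOf b)) : ⁅a, b⁆ ∈ piCoreOf (beta M) M := by
  rw [← map_subtype_commutator] at ha hb
  obtain ⟨a', ha', rfl⟩ := ha
  obtain ⟨b', hb', rfl⟩ := hb
  set π := QuotientGroup.mk' (piCore (beta M) ↥M)
  haveI := derived_mod_beta_nilpotent hG hM
  have hcop' : (orderOf (π a')).Coprime (orderOf (π b')) := by
    refine Nat.Coprime.coprime_dvd_left (orderOf_map_dvd π a') (Nat.Coprime.coprime_dvd_right (orderOf_map_dvd π b') ?_)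
    rw [← Subgroup.orderOf_coe a', ← Subgroup.orderOf_coe b']
    exact hcop
  have hc : π a' * π b' = π b' * π a' := congrArg Subtype.val (Transfer.commute_of_coprime_orderOf
    (x := (⟨π a', mem_map_of_mem π ha'⟩ : (commutator ↥M).map π))
    (y := (⟨π b', mem_map_of_mem π hb'⟩ : (commutator ↥M).map π))
    (by rwa [Subgroup.orderOf_mk, Subgroup.orderOf_mk])).eq
  refine ⟨⁅a', b'⁆, (QuotientGroup.eq_one_iff _).mp (show π ⁅a', b'⁆ = 1 from ?_), map_commutatorElement M.subtype a' b'⟩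
  rw [map_commutatorElement, commutatorElement_eq_one_iff_mul_comm]
  exact hc

/-- An ideal prime is no `τ₂`-prime. -/
theorem not_tau_two_of_beta (hG : IsMinSimpleOddOrder G) (hH : IsCoatom H) {p : ℕ} (hβ : p ∈ beta M) :
    p ∉ tau2 H := fun h => by
  haveI := Fact.mk h.1
  exact h.2.2.2 (rank_one_of_ideal hG hH h.2.1 hβ.2)

/-- BG 14.2 (g): `σ(M) = β(M)` for type P₂. -/
theorem sigma_subset_beta (hG : IsMinSimpleOddOrder G) (hM : IsCoatom M) (hKU : IsSigmaDecomposition M K U)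
    (hK1 : K ≠ ⊥) (hU1 : U ≠ ⊥) : sigma M ⊆ beta M := by
  intro t ht
  by_contra hβ
  haveI := Fact.mk ht.1
  have hUH := OddLocal.Decomposition.hall_U hG hM hKU
  obtain ⟨hfix, hnil⟩ := fixed_compl_eq_bot hG hM hUH hU1
  have hUD : U ≤ ⁅M, M⁆ := (OddLocal.Decomposition.derived_eq hG hM hKU hK1).symm ▸ le_sup_left
  obtain ⟨x₀, hx₀⟩ := exists_prime_orderOf_dvd_card' t (sigma_dvd_core hG hM ht)
  set x := (x₀ : G) with hx
  have hxσ : x ∈ sigmaCore M := x₀.2
  have hxo : orderOf x = t := by rw [hx, Subgroup.orderOf_coe, hx₀]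
  haveI := hnil
  set P := (pCore t ↥(sigmaCore M)).map (sigmaCore M).subtype with hP
  have hxP : x ∈ P := by
    obtain ⟨S, hS⟩ := (IsPGroup.of_card (n := 1) (by rw [Nat.card_zpowers, hx₀, pow_one]) :
      IsPGroup t (zpowers x₀)).exists_le_sylow
    haveI : (S : Subgroup ↥(sigmaCore M)).Normal :=
      Sylow.normal_of_normalizerCondition Group.normalizerCondition_of_isNilpotent S
    exact ⟨x₀, Hall.le_pCore S.2 (hS (mem_zpowers _)), rfl⟩
  have hMP : M ≤ normalizer (P : Set G) :=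
    (OddLocal.le_normalizer_piCoreOf (sigma M) M).trans (PL.normalizer_le_normalizer_map_char _ (pCore t ↥(sigmaCore M)))
  have hxU : x ∈ centralizer (U : Set G) := mem_centralizer_iff.mpr fun u hu => by
    have h1 : ⁅u, x⁆ ∈ piCoreOf (beta M) M := by
      refine commute_mod_beta hG hM (hUD hu) (sigmaCore_le_derived hG hM hxσ) ?_
      rw [hxo]
      exact ((Nat.Prime.coprime_iff_not_dvd ht.1).mpr fun hd =>
        (hUH.2.1 t ht.1 (hd.trans (U.orderOf_dvd_natCard hu))).2.2 ht).symm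
    have h2 : ⁅u, x⁆ ∈ P := by
      rw [commutatorElement_def]
      exact P.mul_mem ((mem_normalizer_iff.mp (hMP (hUH.1 hu)) x).mp hxP) (P.inv_mem hxP)
    have h3 : ⁅u, x⁆ ∈ piCoreOf (beta M) M ⊓ P := ⟨h1, h2⟩
    rw [Coprime.inf_eq_bot_of_coprime (Nat.coprime_of_dvd fun p hp h1 h2 => hβ
      ((isPGroup_ne_dvd ((Hall.isPGroup_pCore (G := ↥(sigmaCore M)) t).map (sigmaCore M).subtype) hp h2) ▸ OddLocal.piCoreOf_isPi (beta M) M p hp h1)),
      mem_bot] at h3
    exact commutatorElement_eq_one_iff_mul_comm.mp h3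
  have h4 : x ∈ sigmaCore M ⊓ centralizer (U : Set G) := ⟨hxσ, hxU⟩
  rw [hfix, mem_bot] at h4
  exact ht.1.ne_one (by rw [← hxo, h4, orderOf_one])

/-- For type P₂, `C_G(x) ≤ M` for the nonidentity elements `x` of `M_σ`. -/
theorem core_centralizer_le (hG : IsMinSimpleOddOrder G) (hM : IsCoatom M) (hKU : IsSigmaDecomposition M K U)
    (hK1 : K ≠ ⊥) (hU1 : U ≠ ⊥) {x : G} (hx : x ∈ sigmaCore M) (hx1 : x ≠ 1) :
    centralizer ({x} : Set G) ≤ M := by
  by_contra hne
  obtain ⟨N, ⟨hN, -⟩, -, -, -, -, -, -, hp⟩ :=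
    OddLocal.Support.support_data hG (hdisj hG) (h30 hG) hM hx hx1 hne
  obtain ⟨p, hp', hd⟩ := Nat.exists_prime_and_dvd (fun e => hx1 (orderOf_eq_one_iff.mp e))
  exact not_tau_two_of_beta hG hN (sigma_subset_beta hG hM hKU hK1 hU1 (PiElem.of_sigmaCore hx p hp' hd))
    (hp p hp' hd).1

namespace IsKappaPair

variable (h : IsKappaPair M K N)
include h

/-- `C_G(k) ≤ M*` for the nonidentity elements of `K`. -/
theorem centralizer_le_N (hG : IsMinSimpleOddOrder G) {k : G} (hk : k ∈ K) (hk1 : k ≠ 1) :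
    centralizer ({k} : Set G) ≤ N :=
  star_centralizer_le hG h.coatomN h.hallN (h.symm hG).K_ne (h.fixed.ge hk) hk1

/-- A conjugate of `M*` containing a nonidentity element of `K` is `M*`. -/
theorem eq_N_of_conj (hG : IsMinSimpleOddOrder G) {k : G} (hk : k ∈ K) (hk1 : k ≠ 1) {g : G}
    (hg : H = MulAut.conj g • N) (hkH : k ∈ H) : H = N := by
  rw [hg, Coprime.conj_smul_eq_self (le_normalizer (conj_eq_of_mem hG h.coatomN (h.K_le_coreN hk)
    (h.centralizer_le_N hG hk hk1) (hg ▸ hkH)))]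

/-- The primes of `K` lie outside `σ(H)` for the other maximal subgroups over `K`. -/
theorem not_sigma_of_K (hG : IsMinSimpleOddOrder G) (hH : IsCoatom H) (hKH : K ≤ H) (hne : H ≠ N) {p : ℕ}
    (hp : p.Prime) (hd : p ∣ Nat.card K) : p ∉ sigma H := fun hσ => by
  haveI := Fact.mk hp
  obtain ⟨X, hXK, hX⟩ := exists_line (E := K) hd
  obtain ⟨k, hk, hk1⟩ := X.bot_or_exists_ne_one.resolve_left fun e => hp.ne_one (by rw [← hX, e, card_bot])
  obtain ⟨g, hg⟩ := conj_of_sigma_sigma hG h.coatomN hH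
    (OddLocal.piCoreOf_isPi (sigma N) N p hp (hd.trans (card_dvd_of_le h.K_le_coreN))) hσ
  exact hne (h.eq_N_of_conj hG (hXK hk) hk1 hg (hKH (hXK hk)))

/-- `κ(H)` is empty for the maximal subgroups over `K` in neither class. -/
theorem kappa_eq_empty (hG : IsMinSimpleOddOrder G) (hH : IsCoatom H) (hKH : K ≤ H) (hne : H ≠ N)
    (hncM : ∀ g : G, H ≠ MulAut.conj g • M) : kappa H = ∅ := by
  rw [Set.eq_empty_iff_forall_notMem]
  intro t ht
  obtain ⟨J, hJ, -⟩ := exists_hall_ge hG hH.1 (bot_le : ⊥ ≤ H) (kappa H)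
    (fun r hr hd => absurd (card_bot (G := G) ▸ hd) hr.not_dvd_one)
  have hJ1 : J ≠ ⊥ := fun e => hJ.2.2 t ht.1 ht (by rw [e, relIndex_bot_left]; exact ht.2.1)
  obtain ⟨L, hL⟩ := exists_pair hG hH hJ hJ1
  obtain ⟨g, hg | hg⟩ := h.exists_conj hG hL
  · exact hncM g hg
  · obtain ⟨k, hk, hk1⟩ := K.bot_or_exists_ne_one.resolve_left h.K_ne
    exact hne (h.eq_N_of_conj hG hk hk1 hg (hKH hk))

/-- `K` acts without fixed points on `H_σ`. -/
theorem fixed_free (hG : IsMinSimpleOddOrder G) (hH : IsCoatom H) (hKH : K ≤ H) (hne : H ≠ N)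
    (hncM : ∀ g : G, H ≠ MulAut.conj g • M) (hKp : (Nat.card K).Prime) :
    sigmaCore H ⊓ centralizer (K : Set G) = ⊥ := by
  by_contra hbot
  obtain ⟨d, hd, hd1⟩ := (bot_or_exists_ne_one _).resolve_left hbot
  obtain ⟨k, hk, hk1⟩ := K.bot_or_exists_ne_one.resolve_left h.K_ne
  haveI := Fact.mk hKp
  have hko : orderOf k = Nat.card K := ((Nat.dvd_prime hKp).mp (K.orderOf_dvd_natCard hk)).resolve_left
    fun e => hk1 (orderOf_eq_one_iff.mp e)
  have hσ := h.not_sigma_of_K hG hH hKH hne hKp dvd_rfl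
  have hkd : k * d = d * k := mem_centralizer_iff.mp hd.2 k hk
  rcases OddLocal.SigmaPrimeElem.kappa_or_tau2 hG hH hσ (hKH hk) hko hd.1 hd1 hkd with h' | h'
  · rw [h.kappa_eq_empty hG hH hKH hne hncM] at h'
    exact h'
  · obtain ⟨-, hu⟩ := tau_two_element_unique hG hH (hKH hk) hk1
      (fun r hr hrd => (Nat.prime_dvd_prime_iff_eq hr hKp).mp (hko ▸ hrd) ▸ h') ⟨hKH hk, d, hd.1, hd1, hkd⟩
    exact hne (hu N h.coatomN (h.centralizer_le_N hG hk hk1)).symm

/-- A `K`-invariant `σ(H)'`-subgroup without fixed points of `K` centralises `H_σ`. -/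
theorem free_centralizes (hG : IsMinSimpleOddOrder G) (hH : IsCoatom H) (hKH : K ≤ H) (hne : H ≠ N)
    (hncM : ∀ g : G, H ≠ MulAut.conj g • M) (hKp : (Nat.card K).Prime) (hXH : X ≤ H)
    (hXσ : ∀ t : ℕ, t.Prime → t ∣ Nat.card X → t ∉ sigma H) (hKX : K ≤ normalizer (X : Set G))
    (hfree : X ⊓ centralizer (K : Set G) = ⊥) : X ≤ centralizer (sigmaCore H : Set G) := by
  set S := sigmaCore H with hS
  have hXS : X ≤ normalizer (S : Set G) := hXH.trans (OddLocal.le_normalizer_piCoreOf (sigma H) H)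
  have hKS : K ≤ normalizer (S : Set G) := hKH.trans (OddLocal.le_normalizer_piCoreOf (sigma H) H)
  have hcop : (Nat.card X).Coprime (Nat.card S) := Nat.coprime_of_dvd fun t ht h1 h2 =>
    hXσ t ht h1 (OddLocal.piCoreOf_isPi (sigma H) H t ht h2)
  have hbot := Coprime.inf_eq_bot_of_coprime hcop
  haveI := Fact.mk hKp
  have hW : Group.IsNilpotent ↥(X ⊔ S) := by
    refine OddLocal.CyclicFix.isNilpotent_kernel (X ⊔ S) K h.K_ne (fun e he u hu => ?_) fun e he he1 u hu hc => ?_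
    · obtain ⟨x, hx, s, hs, rfl⟩ := (Coprime.mem_sup_of_le_normalizer hXS).mp hu
      rw [show e * (x * s) * e⁻¹ = e * x * e⁻¹ * (e * s * e⁻¹) by group]
      exact mul_mem (mem_sup_left ((mem_normalizer_iff.mp (hKX he) x).mp hx))
        (mem_sup_right ((mem_normalizer_iff.mp (hKS he) s).mp hs))
    · obtain ⟨x, hx, s, hs, rfl⟩ := (Coprime.mem_sup_of_le_normalizer hXS).mp hu
      have heK : zpowers e = K := eq_of_le_of_card_ge (zpowers_le.mpr he) (by
        rw [Nat.card_zpowers, ((Nat.dvd_prime hKp).mp (K.orderOf_dvd_natCard he)).resolve_left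
          fun e' => he1 (orderOf_eq_one_iff.mp e')])
      have hfix : ∀ {w : G}, e * w * e⁻¹ = w → w ∈ centralizer (K : Set G) := fun {w} hw => by
        rw [← heK, centralizer_zpowers]
        exact mem_centralizer_singleton_iff.mpr (mul_inv_eq_iff_eq_mul.mp hw).symm
      have h1 : e * x * e⁻¹ * (e * s * e⁻¹) = x * s := by
        rw [show e * x * e⁻¹ * (e * s * e⁻¹) = e * (x * s) * e⁻¹ by group, hc, mul_inv_cancel_right]
      have h2 : x⁻¹ * (e * x * e⁻¹) = 1 := by
        have h3 : x⁻¹ * (e * x * e⁻¹) ∈ X ⊓ S := ⟨X.mul_mem (X.inv_mem hx)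
          ((mem_normalizer_iff.mp (hKX he) x).mp hx), by
          rw [show x⁻¹ * (e * x * e⁻¹) = x⁻¹ * (e * x * e⁻¹ * (e * s * e⁻¹)) * (e * s * e⁻¹)⁻¹ by group, h1,
            inv_mul_cancel_left]
          exact S.mul_mem hs (S.inv_mem ((mem_normalizer_iff.mp (hKS he) s).mp hs))⟩
        rwa [hbot, mem_bot] at h3
      have hex : e * x * e⁻¹ = x := (inv_mul_eq_one.mp h2).symm
      have hx1 : x ∈ X ⊓ centralizer (K : Set G) := ⟨hx, hfix hex⟩
      rw [hfree, mem_bot] at hx1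
      subst hx1
      have hs1 : s ∈ S ⊓ centralizer (K : Set G) := ⟨hs, hfix (by simpa using h1)⟩
      rw [h.fixed_free hG hH hKH hne hncM hKp, mem_bot] at hs1
      rw [hs1, one_mul]
  intro x hx
  refine mem_centralizer_iff.mpr fun s hs => ?_
  haveI := hW
  exact congrArg Subtype.val (Transfer.commute_of_coprime_orderOf
    (x := (⟨s, mem_sup_right hs⟩ : ↥(X ⊔ S))) (y := (⟨x, mem_sup_left hx⟩ : ↥(X ⊔ S))) (by
      rw [Subgroup.orderOf_mk, Subgroup.orderOf_mk]
      exact ((Nat.Coprime.coprime_dvd_left (X.orderOf_dvd_natCard hx))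
        (Nat.Coprime.coprime_dvd_right (S.orderOf_dvd_natCard hs) hcop)).symm)).eq

/-- A `K`-invariant `σ(H)'`-subgroup without fixed points of `K` is trivial. -/
theorem free_trivial (hG : IsMinSimpleOddOrder G) (hH : IsCoatom H) (hKH : K ≤ H) (hne : H ≠ N)
    (hncM : ∀ g : G, H ≠ MulAut.conj g • M) (hKp : (Nat.card K).Prime) (hβ : sigma M ⊆ beta M) (hXH : X ≤ H)
    (hXσ : ∀ t : ℕ, t.Prime → t ∣ Nat.card X → t ∉ sigma H) (hKX : K ≤ normalizer (X : Set G))
    (hfree : X ⊓ centralizer (K : Set G) = ⊥) : X = ⊥ := by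
  classical
  by_contra hX1
  obtain ⟨s, hs, hsd⟩ := Nat.exists_prime_and_dvd (mt card_eq_one.mp hX1)
  haveI := Fact.mk hs
  haveI := Fact.mk hKp
  obtain ⟨x₀, hx₀⟩ := exists_prime_orderOf_dvd_card' s hsd
  set x := (x₀ : G) with hx
  have hxX : x ∈ X := x₀.2
  have hxo : orderOf x = s := by rw [hx, Subgroup.orderOf_coe, hx₀]
  have hx1 : x ≠ 1 := fun e => hs.ne_one (by rw [← hxo, e, orderOf_one])
  have hsσ : s ∉ sigma H := hXσ s hs hsd
  have hcent := h.free_centralizes hG hH hKH hne hncM hKp hXH hXσ hKX hfree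
  have hS1 : sigmaCore H ≠ ⊥ := sigmaCore_ne_bot hG hH fun e => h.K_ne (le_bot_iff.mp (hKH.trans e.le))
  obtain ⟨d, hd, hd1⟩ := (bot_or_exists_ne_one _).resolve_left hS1
  have hs2 : s ∈ tau2 H := (OddLocal.SigmaPrimeElem.kappa_or_tau2 hG hH hsσ (hXH hxX) hxo hd hd1
    (mem_centralizer_iff.mp (hcent hxX) d hd).symm).resolve_left
      fun h' => by rw [h.kappa_eq_empty hG hH hKH hne hncM] at h'; exact h'
  obtain ⟨F₀, hF₀⟩ := OddLocal.UPart.exists_compl hG hH
  obtain ⟨F, hF, hYF⟩ := exists_compl_ge_pi hG hH hF₀ (Y := K ⊔ X) (fun t ht hd => by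
      rcases prime_dvd_sup hKX ht hd with hd | hd
      · exact h.not_sigma_of_K hG hH hKH hne ht hd
      · exact hXσ t ht hd) (sup_le hKH hXH)
  obtain ⟨A, hAF, hA, hAc⟩ := exists_elem_compl hG hH hF hs2
  obtain ⟨⟨hFA, hlines⟩, -, -⟩ := S1418.result hG H hH F hF s hs2 A ⟨hAF, hA, hAc⟩
  have hAH : A ≤ H := hAF.trans hF.1
  have hAp : IsPGroup s A := elem_isPGroup hA
  have hAσ : ∀ t : ℕ, t.Prime → t ∣ Nat.card A → t ∉ sigma H := fun t ht hd => isPGroup_ne_dvd hAp ht hd ▸ hsσ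
  have hKA : K ≤ normalizer (A : Set G) := (le_sup_left.trans hYF).trans hFA
  have hxF : x ∈ F := hYF (mem_sup_right hxX)
  have hxA : x ∈ A := hlines (zpowers x) (zpowers_le.mpr hxF) (by rw [Nat.card_zpowers, hxo]) (mem_zpowers x)
  have hnotA : ¬ A ≤ centralizer (sigmaCore H : Set G) := fun hle => by
    obtain ⟨-, -, -, hbot, -, -⟩ := S1417.result hG H hH s hs2 A ⟨hAH, hA, hAc⟩
    exact hS1 (by rw [← hbot]; exact (inf_eq_left.mpr (le_centralizer_iff.mp hle)).symm)
  -- the line centralising `H_σ`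
  set X₀ := A ⊓ centralizer (sigmaCore H : Set G) with hX₀
  have hxX₀ : x ∈ X₀ := ⟨hxA, hcent hxX⟩
  have hX₀x : X₀ = zpowers x := by
    refine (eq_of_le_of_card_ge (zpowers_le.mpr hxX₀) ?_).symm
    rw [Nat.card_zpowers, hxo]
    obtain ⟨i, hi, hc⟩ := (Nat.dvd_prime_pow hs).mp (hAc ▸ card_dvd_of_le (inf_le_left : X₀ ≤ A))
    rw [hc]
    rcases Nat.lt_or_ge i 2 with hi2 | hi2
    · exact (Nat.pow_le_pow_right hs.pos (Nat.le_of_lt_succ hi2)).trans (pow_one s).le
    · exact absurd ((eq_of_le_of_card_ge (inf_le_left : X₀ ≤ A) (by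
        rw [hc, hAc]; exact Nat.pow_le_pow_right hs.pos hi2)).symm.le.trans inf_le_right) hnotA
  have hKX₀ : K ≤ normalizer ((zpowers x : Subgroup G) : Set G) := by
    rw [← hX₀x]
    exact (le_inf hKA ((hKH.trans (OddLocal.le_normalizer_piCoreOf (sigma H) H)).trans
      (Coprime.normalizer_le_normalizer_centralizer (sigmaCore H)))).trans inf_normalizer_le_normalizer_inf
  -- a point of `A` fixed by `K`
  have hAK : A ⊓ centralizer (K : Set G) ≠ ⊥ := fun h0 =>
    hnotA (h.free_centralizes hG hH hKH hne hncM hKp hAH hAσ hKA h0)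
  obtain ⟨y, hy, hy1⟩ := (bot_or_exists_ne_one _).resolve_left hAK
  have hyo : orderOf y = s := orderOf_eq_prime (hA.2 y hy.1) hy1
  obtain ⟨k, hk, hk1⟩ := K.bot_or_exists_ne_one.resolve_left h.K_ne
  have hky : k * y = y * k := mem_centralizer_iff.mp hy.2 k hk
  have hyN : y ∈ N := h.centralizer_le_N hG hk hk1 (mem_centralizer_singleton_iff.mpr hky.symm)
  have hxy : x * y = y * x := congrArg Subtype.val (hA.1.is_comm.comm (⟨x, hxA⟩ : A) ⟨y, hy.1⟩)
  have hk' : k ∈ sigmaCore N := h.K_le_coreN hk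
  have hcomm : ∀ (hxN : x ∈ N), ⁅x, k⁆ ∈ zpowers x ∧ ⁅x, k⁆ ∈ sigmaCore N ∧ ⁅x, k⁆ ≠ 1 := by
    intro hxN
    refine ⟨?_, ?_, fun h0 => ?_⟩
    · rw [show ⁅x, k⁆ = x * (k * x⁻¹ * k⁻¹) by group]
      exact mul_mem (mem_zpowers x) ((mem_normalizer_iff.mp (hKX₀ hk) _).mp (inv_mem (mem_zpowers x)))
    · rw [show ⁅x, k⁆ = x * k * x⁻¹ * k⁻¹ by group]
      exact mul_mem ((mem_normalizer_iff.mp (OddLocal.le_normalizer_piCoreOf (sigma N) N hxN) k).mp hk') (inv_mem hk')
    · have hkK : zpowers k = K := eq_of_le_of_card_ge (zpowers_le.mpr hk) (by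
        rw [Nat.card_zpowers, ((Nat.dvd_prime hKp).mp (K.orderOf_dvd_natCard hk)).resolve_left
          fun e => hk1 (orderOf_eq_one_iff.mp e)])
      have h1 : x ∈ X ⊓ centralizer (K : Set G) := ⟨hxX, by
        rw [← hkK, centralizer_zpowers]
        exact mem_centralizer_singleton_iff.mpr (commutatorElement_eq_one_iff_mul_comm.mp h0)⟩
      rw [hfree, mem_bot] at h1
      exact hx1 h1
  have hdvd : ∀ {z : G}, z ∈ zpowers x → z ≠ 1 → orderOf z = s := fun {z} hz hz1 =>
    ((Nat.dvd_prime hs).mp (hxo ▸ orderOf_dvd_of_mem_zpowers hz)).resolve_left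
      fun e => hz1 (orderOf_eq_one_iff.mp e)
  by_cases hsN : s ∈ sigma N
  · have hyσ : y ∈ sigmaCore N := le_sigmaCore hG h.coatomN (Y := zpowers y) (zpowers_le.mpr hyN)
      (fun t ht hd => (Nat.prime_dvd_prime_iff_eq ht hs).mp (hyo ▸ Nat.card_zpowers y ▸ hd) ▸ hsN) (mem_zpowers y)
    have hxN : x ∈ N := by
      set C := centralizer ({y} : Set G) with hC
      set Y := K ⊔ zpowers x with hY
      have hYC : Y ≤ C := sup_le (fun z hz => mem_centralizer_singleton_iff.mpr (mem_centralizer_iff.mp hy.2 z hz))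
        (zpowers_le.mpr (mem_centralizer_singleton_iff.mpr hxy))
      obtain ⟨hcop, -⟩ := OddLocal.Support.centralizer_complement hG (hdisj hG) (h30 hG) h.coatomN hyσ hy1
      set D := N ⊓ C with hD
      have hDC : D ≤ C := inf_le_right
      have hCtop : C ≠ ⊤ := fun e => by
        have h1 := h.centralizer_le_N hG hk hk1
        have h2 : y ∈ center G := mem_center_iff.mpr fun g =>
          mem_centralizer_singleton_iff.mp (e ▸ mem_top g : g ∈ C)
        rcases hG.2.1.eq_bot_or_eq_top_of_normal (center G) inferInstance with hc | hc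
        · exact hy1 (mem_bot.mp (hc ▸ h2))
        · refine h.coatomN.1 (top_le_iff.mp fun g _ => h1 (mem_centralizer_singleton_iff.mpr ?_))
          exact mem_center_iff.mp (hc ▸ mem_top k : k ∈ center G) g
      haveI := solvable_of_ne_top hG hCtop
      obtain ⟨g, hg⟩ := Hall.exists_le_conj (H := D.subgroupOf C) (by
          rw [Coprime.card_subgroupOf hDC]; exact hcop) (K := Y.subgroupOf C) (by
          rw [Coprime.card_subgroupOf hYC]
          refine Nat.coprime_of_dvd fun t ht h1 h2 => ?_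
          have hdiv : t ∣ Nat.card D := by
            rcases prime_dvd_sup hKX₀ ht h1 with h' | h'
            · exact h'.trans (card_dvd_of_le (le_inf (h.memberN hG |>.le |> le_sup_left.trans) (le_sup_left.trans hYC)))
            · rw [Nat.card_zpowers, hxo] at h'
              obtain rfl := (Nat.prime_dvd_prime_iff_eq ht hs).mp h'
              exact hyo ▸ D.orderOf_dvd_natCard ⟨hyN, mem_centralizer_singleton_iff.mpr rfl⟩
          exact ht.ne_one (Nat.eq_one_of_dvd_coprimes hcop hdiv h2))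
      have hmem : ∀ z, (hz : z ∈ Y) → z ∈ MulAut.conj (g : G) • N := fun z hz => by
        obtain ⟨w, hw, hwz⟩ := hg (show (⟨z, hYC hz⟩ : C) ∈ Y.subgroupOf C from hz)
        have hwz' : (g : G) * (w : G) * (g : G)⁻¹ = z := congrArg Subtype.val hwz
        rw [Coprime.mem_conj_smul, ← hwz', show (g : G)⁻¹ * ((g : G) * w * (g : G)⁻¹) * g = w by group]
        exact hw.1
      have hgN := conj_eq_of_mem hG h.coatomN hk' (h.centralizer_le_N hG hk hk1) (hmem k (mem_sup_left hk))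
      have h2 := hmem x (mem_sup_right (mem_zpowers x))
      rwa [Coprime.conj_smul_eq_self (le_normalizer hgN)] at h2
    obtain ⟨hz, hzσ, hz1⟩ := hcomm hxN
    have hxσN : x ∈ sigmaCore N := le_sigmaCore hG h.coatomN (Y := zpowers x) (zpowers_le.mpr hxN)
      (fun t ht hd => (Nat.prime_dvd_prime_iff_eq ht hs).mp (hxo ▸ Nat.card_zpowers x ▸ hd) ▸ hsN) (mem_zpowers x)
    have hsk : (orderOf x).Coprime (orderOf k) := by
      rw [hxo]
      refine (Nat.Prime.coprime_iff_not_dvd hs).mpr fun hd => hz1 ?_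
      have hsK : Nat.card K = s := ((Nat.prime_dvd_prime_iff_eq hs hKp).mp (hd.trans (K.orderOf_dvd_natCard hk))).symm
      have hj : IsPGroup s ↥(zpowers x ⊔ K) :=
        (IsPGroup.of_card (n := 1) (by rw [Nat.card_zpowers, hxo, pow_one])).to_sup_of_normal_left'
          (IsPGroup.of_card (n := 1) (by rw [hsK, pow_one])) hKX₀
      exact commutatorElement_eq_one_iff_mul_comm.mpr (pgroup_comm_of_not_sigma hG hH hsσ hj
        (sup_le (zpowers_le.mpr (hXH hxX)) hKH) x (mem_sup_left (mem_zpowers x)) k (mem_sup_right hk))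
    have hzβ := commute_mod_beta hG h.coatomN (sigmaCore_le_derived hG h.coatomN hxσN)
      (sigmaCore_le_derived hG h.coatomN hk') hsk
    have hsβ : s ∈ beta N := OddLocal.piCoreOf_isPi (beta N) N s hs
      (hdvd hz hz1 ▸ Subgroup.orderOf_dvd_natCard _ hzβ)
    exact not_tau_two_of_beta hG hH hsβ hs2
  · rcases OddLocal.SigmaPrimeElem.kappa_or_tau2 hG h.coatomN hsN hyN hyo hk' hk1 hky.symm with hκ | h2
    · refine not_tau_two_of_beta hG hH (hβ ?_) hs2
      have h1 := relIndex_mul_relIndex ⊥ _ N bot_le h.hallN.1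
      rw [relIndex_bot_left, relIndex_bot_left] at h1
      have hsS := (hs.dvd_mul.mp (h1 ▸ hκ.2.1)).resolve_right (h.hallN.2.2 s hs hκ)
      exact OddLocal.piCoreOf_isPi (sigma M) M s hs (hsS.trans (card_dvd_of_le inf_le_left))
    · obtain ⟨hCy, -⟩ := tau_two_element_unique hG h.coatomN hyN hy1
        (fun t ht hd => (Nat.prime_dvd_prime_iff_eq ht hs).mp (hyo ▸ hd) ▸ h2) ⟨hyN, k, hk', hk1, hky.symm⟩
      obtain ⟨hz, hzσ, hz1⟩ := hcomm (hCy (mem_centralizer_singleton_iff.mpr hxy))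
      exact hsN (PiElem.of_sigmaCore hzσ s hs (hdvd hz hz1).symm.dvd)

end IsKappaPair

end Cfsg.Agent.Lib.Uniq
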