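import Cfsg.Agent.Lib.Uniq.Local
set_option autoImplicit false

/-! The uniqueness criterion (BG 9.1) and the transfer of uniqueness along centralisers (9.2, 9.3). -/

namespace Cfsg.Agent.Lib.Uniq

open Subgroup
open scoped Pointwise commutatorElement
open Cfsg.Agent.Lib.OddLocal

variable {G : Type*} [Group G] [Finite G] {p : ℕ} [hp : Fact p.Prime]

/-- Either the Sylow subgroup has an `SCN₃` or all its overgroups have `p`-length one. -/
def GoodSylow (P : Sylow p G) : Prop :=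
  (∃ A : Subgroup G, IsSCN (P : Subgroup G) A ∧ ¬ PRankLE p 2 A) ∨
    ∀ Y : Subgroup G, Y ≠ ⊤ → (P : Subgroup G) ≤ Y → PLengthLE p 1 Y

lemma sylow_eq_of_le {R : Subgroup G} (P : Sylow p G) (h : (P : Subgroup G) ≤ R) (hR : IsPGroup p R) :
    R = P := P.3 hR h

/-- BG 9.1 in general form. -/
theorem unique_of_invariant_le (hG : IsMinSimpleOddOrder G) {M B : Subgroup G} (hM : IsCoatom M)
    (hBp : IsPGroup p B) (hB1 : B ≠ ⊥) (hBM : B ≤ M)
    (h : ∀ Y : Subgroup G, (Nat.card Y).Coprime p → B ≤ normalizer (Y : Set G) → Y ≤ M)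
    (hgood : ∀ P : Sylow p G, GoodSylow P) : InUniqueMaximal B := by
  refine ⟨M, ⟨hM, hBM⟩, fun X hX => ?_⟩
  by_contra hne
  have hp2 := ne_two_of_pgroup hG hBp hB1
  have hMt := hM.1
  obtain ⟨R, hBR, hmax⟩ := Finite.exists_le_maximal
    (p := fun R : Subgroup G => IsPGroup p R ∧ B ≤ R ∧ R ≤ M ∧
      ∃ X : Subgroup G, IsCoatom X ∧ X ≠ M ∧ R ≤ X)
    (a := B) ⟨hBp, le_rfl, hBM, X, hX.1, hne, hX.2⟩
  obtain ⟨hR, -, hRM, X, hXc, hXM, hRX⟩ := hmax.prop
  have hR1 : R ≠ ⊥ := fun e => hB1 (le_bot_iff.mp (e ▸ hBR))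
  have big : ∀ R1 : Subgroup G, IsPGroup p R1 → R < R1 → R1 ≤ M → ∀ Y, IsCoatom Y → R1 ≤ Y → Y = M :=
    fun R1 h1 hlt h1M Y hY h1Y => by
      by_contra hYM
      exact hlt.not_ge (hmax.le_of_ge ⟨h1, hBR.trans hlt.le, h1M, Y, hY, hYM, h1Y⟩ hlt.le)
  have hopc : ∀ Y : Subgroup G, B ≤ Y → opc p Y ≤ M := fun Y hY =>
    h _ (coprime_opc p Y) (hY.trans (le_normalizer_piCoreOf _ Y))
  have hZ1 := puigZ_ne_bot hR hR1
  have hNR : normalizer (R : Set G) ≠ ⊤ :=
    minSimple_normalizer_ne_top hG hR1 (pgroup_ne_top hG hR)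
  have hNZ : normalizer (puigZ R : Set G) ≠ ⊤ :=
    minSimple_normalizer_ne_top hG hZ1 (pgroup_ne_top hG (hR.to_le (puigZ_le R)))
  -- conclusion once `R` is Sylow in a second maximal subgroup and `N(Z(L(R))) ≤ M`
  have fin : normalizer (puigZ R : Set G) ≤ M → SylIn p R X → False := fun hZM hS =>
    hXM ((hXc.le_iff.mp ((le_opc_sup_puigZ hG hp2 hXc.1 hS).trans
      (sup_le (hopc X (hBR.trans hRX)) (inf_le_right.trans hZM)))).resolve_left hMt).symm
  by_cases hRmax : SylIn p R M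
  swap
  · obtain ⟨R', hR', hRR', hR'M, hne'⟩ : ∃ R' : Subgroup G, IsPGroup p R' ∧ R ≤ R' ∧ R' ≤ M ∧ R' ≠ R := by
      simpa [SylIn, hR, hRM] using hRmax
    have hlt := lt_of_le_of_ne hRR' (Ne.symm hne')
    have hlt1 := exists_normalizer_gt hR' hlt
    set R1 := R' ⊓ normalizer (R : Set G)
    have hsub : ∀ N : Subgroup G, N ≠ ⊤ → normalizer (R : Set G) ≤ N → N ≤ M := by
      intro N hN hle
      obtain ⟨Y, hY, hNY⟩ := exists_coatom_ge hN
      exact big R1 (hR'.to_le inf_le_left) hlt1 (inf_le_left.trans hR'M) Y hY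
        ((inf_le_right.trans hle).trans hNY) ▸ hNY
    have hNM := hsub _ hNR le_rfl
    refine fin (hsub _ hNZ (normalizer_le_normalizer_puigZ R)) ⟨hR, hRX, fun S hS hRS hSX => ?_⟩
    by_contra hS'
    have hlt2 := exists_normalizer_gt hS (lt_of_le_of_ne hRS (Ne.symm hS'))
    exact hXM (big _ (hS.to_le inf_le_left) hlt2 (inf_le_right.trans hNM) X hXc
      (inf_le_left.trans hSX))
  -- `R` is a Sylow subgroup of `M`
  set K := opc p M with hK
  have hKle : ∀ Y : Subgroup G, (Nat.card Y).Coprime p → R ≤ normalizer (Y : Set G) → Y ≤ K :=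
    fun Y hY hRY => pPrime_le_opc hG hMt hRmax (h Y hY (hBR.trans hRY)) hY hRY
  have hKn : ∀ g : G, ∀ D : Subgroup G, g ∈ normalizer (D : Set G) →
      (∀ Y : Subgroup G, (Nat.card Y).Coprime p → D ≤ normalizer (Y : Set G) → Y ≤ K) →
      D ≤ M → g ∈ normalizer (K : Set G) := by
    intro g D hg hD hDM
    refine Coprime.mem_normalizer_of_conj_smul_eq (eq_of_le_of_card_ge ?_ ?_)
    · refine hD _ (by rw [Coprime.card_conj_smul]; exact coprime_opc p M) ?_
      calc D = MulAut.conj g • D := (Coprime.conj_smul_eq_self hg).symm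
        _ ≤ MulAut.conj g • normalizer (K : Set G) :=
            pointwise_smul_le_pointwise_smul_iff.mpr (hDM.trans (le_normalizer_piCoreOf _ M))
        _ ≤ _ := le_normalizer_map _
    · rw [Coprime.card_conj_smul]
  have hKM : M ≤ normalizer (K : Set G) := le_normalizer_piCoreOf _ M
  -- the normaliser of `K` or of `Z(L(R))` is `M`
  have hNK : K ≠ ⊥ → normalizer (K : Set G) = M := fun hK1 =>
    normalizer_max hG hM hK1 (opc_le p M) hKM
  have hK0 : K = ⊥ → normalizer (puigZ R : Set G) = M := fun hK1 => by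
    refine normalizer_max hG hM hZ1 ((puigZ_le R).trans hRM) ?_
    have := le_opc_sup_puigZ hG hp2 hMt hRmax
    rw [← hK, hK1, bot_sup_eq] at this
    exact this.trans inf_le_right
  have hNRM : normalizer (R : Set G) ≤ M := by
    by_cases hK1 : K = ⊥
    · exact (normalizer_le_normalizer_puigZ R).trans (hK0 hK1).le
    · exact fun g hg => (hNK hK1).le (hKn g R hg hKle hRM)
  obtain ⟨P, hP⟩ := hR.exists_le_sylow
  have hPR : (P : Subgroup G) = R := by
    by_contra hne'
    have hlt := exists_normalizer_gt P.2 (lt_of_le_of_ne hP (Ne.symm hne'))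
    exact hlt.ne (hRmax.2.2 _ (P.2.to_le inf_le_left) hlt.le (inf_le_right.trans hNRM)).symm
  have hSX : SylIn p R X := ⟨hR, hRX, fun S hS hRS _ => by
    rw [← hPR] at hRS ⊢; exact P.3 hS hRS⟩
  refine fin ?_ hSX
  by_cases hK1 : K = ⊥
  · exact (hK0 hK1).le
  obtain ⟨Y, hY, hNY⟩ := exists_coatom_ge hNZ
  refine hNY.trans ?_
  have hRY : R ≤ Y := (le_normalizer.trans (normalizer_le_normalizer_puigZ R)).trans hNY
  have hSY : SylIn p R Y := ⟨hR, hRY, fun S hS hRS _ => by
    rw [← hPR] at hRS ⊢; exact P.3 hS hRS⟩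
  rcases hgood P with ⟨A, hA, hr⟩ | hlen
  · rw [hPR] at hA
    obtain ⟨hAR, hAn, hAC⟩ := hA
    have hAc : IsMulCommutative A :=
      le_centralizer_iff_isMulCommutative.mp (hAC.ge.trans inf_le_right)
    obtain ⟨R₀, hAR₀, hR₀R, -, hfac⟩ := exists_stable_factor hG hp2 hY.1 hSY hAR hAc hAn
    have htrans : TransitivityHypothesis A := transHyp_scn hG P (by rw [hPR]; exact ⟨hAR, hAn, hAC⟩)
      fun h1 => hr fun E hE hEp => (h1 E hE hEp).trans (Nat.pow_le_pow_right hp.out.pos (by norm_num))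
    refine hfac.trans (sup_le (hopc Y (hBR.trans hRY)) fun g hg => (hNK hK1).le (hKn g R₀ hg.2 ?_
      (hR₀R.trans hRM)))
    exact fun T hT hRT => invariant_le_of_rank_three hG htrans (hR.to_le hAR) hAc hr hR hAR hAn
      hKle hT (hAR₀.trans hRT)
  · exact (le_opc_sup_normalizer hG hSY (hlen Y hY.1 (hPR.le.trans hRY))).trans
      (sup_le (hopc Y (hBR.trans hRY)) (inf_le_right.trans hNRM))

/-- BG 9.1, case (1) implies case (2). -/
theorem invariant_le_of_centralizer_le {M B : Subgroup G} (hB : IsElementaryAbelian p B)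
    (hnc : p ^ 2 ≤ Nat.card B) (h : ∀ b ∈ B, b ≠ 1 → centralizer ({b} : Set G) ≤ M)
    {Y : Subgroup G} (hY : (Nat.card Y).Coprime p) (hBY : B ≤ normalizer (Y : Set G)) : Y ≤ M := by
  obtain ⟨U, hU⟩ := Sylow.exists_subgroup_card_pow_prime_of_le_card hp.out (elem_isPGroup hB) hnc
  have hUB : U.map B.subtype ≤ B := map_subtype_le U
  have hUc : Nat.card (U.map B.subtype) = p ^ 2 := by rw [card_map_of_injective B.subtype_injective, hU]
  rw [← Coprime.fixGen_eq_of_elementary hp.out (fun x hx y hy => elem_comm hB (hUB hx) (hUB hy))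
    (fun x hx => hB.2 x (hUB hx)) hUc (hUB.trans hBY) (by rw [hUc]; exact hY.symm.pow_left 2)]
  exact iSup₂_le fun b hb => inf_le_right.trans (h b (hUB hb.1) hb.2)

omit [Finite G] in
lemma sq_le_card_of_not_isCyclic {B : Subgroup G} (hB : IsElementaryAbelian p B) (hnc : ¬ IsCyclic B)
    [Finite G] : p ^ 2 ≤ Nat.card B := by
  obtain ⟨k, hk⟩ := IsPGroup.iff_card.mp (elem_isPGroup hB)
  rw [hk]
  refine Nat.pow_le_pow_right hp.out.pos ?_
  by_contra hlt
  push Not at hlt
  interval_cases k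
  · exact hnc (haveI : Subsingleton B := (Nat.card_eq_one_iff_unique.mp (by simpa using hk)).1; inferInstance)
  · exact hnc (isCyclic_of_prime_card (by simpa using hk))

omit [Finite G] in
lemma not_isCyclic_of_sq_le {B : Subgroup G} [Finite G] (hB : IsElementaryAbelian p B)
    (h : p ^ 2 ≤ Nat.card B) : ¬ IsCyclic B := Components.Sig.not_cyclic hB h

theorem unique_of_centralizer_le (hG : IsMinSimpleOddOrder G) {M B : Subgroup G} (hM : IsCoatom M)
    (hB : IsElementaryAbelian p B) (hnc : p ^ 2 ≤ Nat.card B) (hBM : B ≤ M)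
    (h : ∀ b ∈ B, b ≠ 1 → centralizer ({b} : Set G) ≤ M) (hgood : ∀ P : Sylow p G, GoodSylow P) :
    InUniqueMaximal B := by
  refine unique_of_invariant_le hG hM (elem_isPGroup hB) (fun e => ?_) hBM
    (fun Y hY hBY => invariant_le_of_centralizer_le hB hnc h hY hBY) hgood
  rw [e, card_bot] at hnc
  have := Nat.one_lt_pow two_ne_zero hp.out.one_lt
  omega

/-- BG 9.2. -/
theorem unique_of_centralizes (hG : IsMinSimpleOddOrder G) {L K : Subgroup G} (hL : InUniqueMaximal L)
    (hK : K ≤ centralizer (L : Set G)) (hKr : ¬ PRankLE p 1 K) (hgood : ∀ P : Sylow p G, GoodSylow P) :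
    InUniqueMaximal K := by
  obtain ⟨E, hEK, hE, hEc⟩ := elem_of_not_pRankLE hKr
  obtain ⟨M, ⟨hM, hLM⟩, -⟩ := id hL
  have hCM := centralizer_unique_le hG hL hM hLM
  refine unique_mono (unique_of_centralizer_le hG hM hE hEc.ge ((hEK.trans hK).trans hCM)
    (fun b hb hb1 => centralizer_elem_le hG hL hM hLM hb1 fun l hl => ?_) hgood) hEK
    (ne_top_of_le hM (hK.trans hCM))
  exact mem_centralizer_singleton_iff.mpr (mem_centralizer_iff.mp (hK (hEK hb)) l hl)

lemma not_pRankLE_one {E K : Subgroup G} (hEK : E ≤ K) (hE : IsElementaryAbelian p E)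
    (h : p ^ 2 ≤ Nat.card E) : ¬ PRankLE p 1 K :=
  not_pRankLE_of_elem hEK hE (lt_of_lt_of_le (Nat.pow_lt_pow_right hp.out.one_lt one_lt_two) h)

/-- In an elementary abelian group of order at least `p^3`, any centralizer of index at most `p` still
has order at least `p^2`. -/
lemma sq_le_card_inf {E C : Subgroup G} (h3 : p ^ 3 ≤ Nat.card E) (h : C.relIndex E ≤ p) :
    p ^ 2 ≤ Nat.card (E ⊓ C : Subgroup G) := by
  have e := Components.Sig.card_mul_relIndex (H := E ⊓ C) (K := E) inf_le_left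
  rw [inf_relIndex_left] at e
  have : p ^ 2 * p ≤ Nat.card (E ⊓ C : Subgroup G) * p :=
    calc p ^ 2 * p = p ^ 3 := by ring
      _ ≤ Nat.card E := h3
      _ = Nat.card (E ⊓ C : Subgroup G) * C.relIndex E := e.symm
      _ ≤ _ := Nat.mul_le_mul_left _ h
  exact Nat.le_of_mul_le_mul_right this hp.out.pos

omit hp in
lemma relIndex_le_of_le {C E P : Subgroup G} (hEP : E ≤ P) : C.relIndex E ≤ C.relIndex P :=
  relIndex_le_of_le_right hEP index_ne_zero_of_finite

omit [Finite G] hp in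
lemma elem_map {G' : Type*} [Group G'] (f : G →* G') {E : Subgroup G} (hE : IsElementaryAbelian p E) :
    IsElementaryAbelian p (E.map f) := by
  haveI := hE.1
  refine ⟨map_isMulCommutative E f, ?_⟩
  rintro _ ⟨a, ha, rfl⟩
  rw [← map_pow, hE.2 a ha, map_one]

omit [Finite G] hp in
lemma coatom_conj {M : Subgroup G} (hM : IsCoatom M) (g : G) :
    IsCoatom (M.map (MulAut.conj g).toMonoidHom) :=
  ((MulAut.conj g).mapSubgroup.isCoatom_iff M).mpr hM

omit hp in
lemma unique_conj {X : Subgroup G} (hX : InUniqueMaximal X) (g : G) :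
    InUniqueMaximal (X.map (MulAut.conj g).toMonoidHom) := by
  obtain ⟨M, ⟨hM, hXM⟩, -⟩ := id hX
  refine ⟨_, ⟨coatom_conj hM g, map_mono hXM⟩, fun N hN => ?_⟩
  have hN' := coatom_conj hN.1 g⁻¹
  have hle : X ≤ N.map (MulAut.conj g⁻¹).toMonoidHom := fun x hx =>
    ⟨g * x * g⁻¹, hN.2 ⟨x, hx, rfl⟩, by simp [mul_assoc]⟩
  rw [← max_eq hX hN' hM hle hXM, map_map]
  convert (map_id N).symm using 2
  ext y
  simp [mul_assoc]

lemma inUnique_of_le_centralizer_elem (hG : IsMinSimpleOddOrder G) {L E : Subgroup G}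
    (hL : InUniqueMaximal L) (hEL : E ≤ centralizer (L : Set G)) (hE : IsElementaryAbelian p E)
    (h : p ^ 2 ≤ Nat.card E) (hgood : ∀ P : Sylow p G, GoodSylow P) : InUniqueMaximal E :=
  unique_of_centralizes hG hL hEL (not_pRankLE_one le_rfl hE h) hgood

/-- BG 9.3. -/
theorem unique_of_rank_three (hG : IsMinSimpleOddOrder G) {A B : Subgroup G} (hAp : IsPGroup p A)
    (hAc : IsMulCommutative A) (hA3 : ¬ PRankLE p 2 A) (hAU : InUniqueMaximal A)
    (hB2 : ¬ PRankLE p 1 B) (hB3 : ¬ PRankLE p 2 ↥(centralizer (B : Set G)))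
    (hgood : ∀ P : Sylow p G, GoodSylow P) : InUniqueMaximal B := by
  obtain ⟨P, hAP⟩ := hAp.exists_le_sylow
  obtain ⟨E₃, hE₃A, hE₃, hE₃c⟩ := elem_of_not_pRankLE hA3
  obtain ⟨F₃, hF₃B, hF₃, hF₃c⟩ := elem_of_not_pRankLE hB3
  have hA1 : A ≠ ⊥ := unique_ne_bot hG hAU
  have hp2 := ne_two_of_pgroup hG hAp hA1
  have hPnc : ¬ IsCyclic (P : Subgroup G) := fun hc => by
    refine not_isCyclic_of_sq_le hE₃ (hE₃c ▸ Nat.pow_le_pow_right hp.out.pos (by norm_num)) ?_
    haveI := hc
    exact isCyclic_of_injective (inclusion (hE₃A.trans hAP)) (inclusion_injective _)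
  obtain ⟨U, hUP, -, hU, hUc, -, hUi⟩ := exists_normal_pair hp2 P.2 hPnc
  have hD : InUniqueMaximal (E₃ ⊓ centralizer (U : Set G)) :=
    inUnique_of_le_centralizer_elem hG hAU
      ((inf_le_left.trans hE₃A).trans (comm_le_centralizer hAc)) (elem_mono hE₃ inf_le_left)
      (sq_le_card_inf hE₃c.ge ((relIndex_le_of_le (hE₃A.trans hAP)).trans hUi)) hgood
  have hUU : InUniqueMaximal U := inUnique_of_le_centralizer_elem hG hD
    (le_centralizer_iff.mp inf_le_right) hU hUc.ge hgood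
  obtain ⟨Q, hFQ⟩ := (elem_isPGroup hF₃).exists_le_sylow
  obtain ⟨g, hg⟩ := MulAction.exists_smul_eq G P Q
  set f := (MulAut.conj g).toMonoidHom
  have hQf : (Q : Subgroup G) = (P : Subgroup G).map f := by rw [← hg]; rfl
  set C' := centralizer ((U.map f : Subgroup G) : Set G)
  have hi : C'.relIndex F₃ ≤ p := by
    refine (relIndex_le_of_le hFQ).trans ?_
    rw [hQf]
    refine le_trans ?_ hUi
    rw [← relIndex_map_map_of_injective (f := f) (centralizer (U : Set G)) (P : Subgroup G)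
      (MulAut.conj g).injective]
    exact relIndex_le_of_le_left (by
      show _ ≤ centralizer ((U.map f : Subgroup G) : Set G)
      rw [coe_map]; exact map_centralizer_le_centralizer_image _ _) index_ne_zero_of_finite
  have hD' : InUniqueMaximal (F₃ ⊓ C') := inUnique_of_le_centralizer_elem hG (unique_conj hUU g)
    inf_le_right (elem_mono hF₃ inf_le_left) (sq_le_card_inf hF₃c.ge hi) hgood
  refine unique_of_centralizes hG (unique_mono hD' inf_le_left ?_) (le_centralizer_iff.mp hF₃B) hB2 hgood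
  exact pgroup_ne_top hG (elem_isPGroup hF₃)

end Cfsg.Agent.Lib.Uniq
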